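import Mathlib

/-!
Aschbacher library, part 55: a double coset construction of overgroups of Frobenius groups.
-/

set_option autoImplicit false
set_option linter.unusedSectionVars false

namespace H97.AschPaley

variable {G : Type*} [Group G] {B : Subgroup G} {s t z : G} {p a : ℕ}

/-- powers of `t` act on powers of `s` -/
lemma conj_pow (hts : t * s * t⁻¹ = s ^ a) (m : ℕ) (k : ℤ) : t ^ m * s ^ k * (t ^ m)⁻¹ = s ^ ((a : ℤ) ^ m * k) := by
  induction m generalizing k with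
  | zero => simp
  | succ m ih =>
    have h1 : t * s ^ k * t⁻¹ = s ^ ((a : ℤ) * k) := by
      rw [← conj_zpow, hts, zpow_mul, zpow_natCast]
    rw [pow_succ, mul_inv_rev]
    have h2 : t ^ m * t * s ^ k * (t⁻¹ * (t ^ m)⁻¹) = t ^ m * (t * s ^ k * t⁻¹) * (t ^ m)⁻¹ := by group
    rw [h2, h1, ih]
    congr 1
    ring

/-- conjugation of powers of `t` by `z` -/
lemma z_pow (hz : z * z = 1) (hzt : z * t * z = t⁻¹) (m : ℕ) : z * t ^ m * z = (t ^ m)⁻¹ := by
  have hz' : z⁻¹ = z := inv_eq_of_mul_eq_one_right hz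
  induction m with
  | zero => simp [hz]
  | succ m ih =>
    rw [pow_succ, mul_inv_rev, ← hzt, ← ih]
    calc z * (t ^ m * t) * z = z * t ^ m * (z * z) * t * z := by rw [hz]; group
      _ = z * t ^ m * z * (z * t * z) := by group
      _ = z * t * z * (z * t ^ m * z) := by
        rw [ih, hzt]
        rw [← mul_inv_rev, ← mul_inv_rev, ← pow_succ, ← pow_succ']

/-- the double coset construction -/
theorem exists_overgroup (hs : s ^ p = 1) (hz : z * z = 1) (hts : t * s * t⁻¹ = s ^ a) (hzt : z * t * z = t⁻¹)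
    (hzs : z * s * z = s⁻¹ * z * s⁻¹) (hsB : s ∈ B) (htB : t ∈ B) (hB : ∀ b ∈ B, ∃ i j : ℕ, b = s ^ i * t ^ j)
    (hcov : ∀ i : ℕ, p ∣ i ∨ ∃ m : ℕ, i ≡ a ^ m [MOD p] ∨ i + a ^ m ≡ 0 [MOD p]) :
    ∃ M : Subgroup G, B ≤ M ∧ z ∈ M ∧ ∀ x ∈ M, x ∈ B ∨ ∃ b ∈ B, ∃ c ∈ B, x = b * z * c := by
  have hz' : z⁻¹ = z := inv_eq_of_mul_eq_one_right hz
  have hspow : ∀ i j : ℕ, i ≡ j [MOD p] → s ^ i = s ^ j := by
    intro i j h
    rw [pow_eq_pow_iff_modEq]
    exact h.of_dvd (orderOf_dvd_of_pow_eq_one hs)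
  -- the basic relation for all powers
  have hrel : ∀ i : ℕ, z * s ^ i * z ∈ B ∨ ∃ b ∈ B, ∃ c ∈ B, z * s ^ i * z = b * z * c := by
    intro i
    have key : ∀ m : ℕ, z * s ^ (a ^ m) * z = ((t ^ m)⁻¹ * s⁻¹) * z * (s⁻¹ * t ^ m) := by
      intro m
      have h1 := conj_pow hts m 1
      rw [zpow_one, mul_one, ← Nat.cast_pow, zpow_natCast] at h1
      have h2 := z_pow hz hzt m
      have h3 : z * t ^ m = (t ^ m)⁻¹ * z := by
        rw [← h2, mul_assoc, hz, mul_one]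
      have h4 : (t ^ m)⁻¹ * z = z * t ^ m := h3.symm
      calc z * s ^ (a ^ m) * z = z * (t ^ m * s * (t ^ m)⁻¹) * z := by rw [h1]
        _ = (z * t ^ m) * s * ((t ^ m)⁻¹ * z) := by group
        _ = ((t ^ m)⁻¹ * z) * s * (z * t ^ m) := by rw [h3, h4]
        _ = (t ^ m)⁻¹ * (z * s * z) * t ^ m := by group
        _ = _ := by rw [hzs]; group
    have hb : ∀ m : ℕ, (t ^ m)⁻¹ * s⁻¹ ∈ B := fun m => B.mul_mem (B.inv_mem (B.pow_mem htB m)) (B.inv_mem hsB)
    have hc : ∀ m : ℕ, s⁻¹ * t ^ m ∈ B := fun m => B.mul_mem (B.inv_mem hsB) (B.pow_mem htB m)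
    rcases hcov i with h | ⟨m, h | h⟩
    · left
      obtain ⟨k, rfl⟩ := h
      rw [pow_mul, hs, one_pow, mul_one, hz]
      exact B.one_mem
    · right
      rw [hspow _ _ h]
      exact ⟨_, hb m, _, hc m, key m⟩
    · right
      have h1 : s ^ i = (s ^ (a ^ m))⁻¹ := by
        apply eq_inv_of_mul_eq_one_left
        rw [← pow_add, hspow _ _ h, pow_zero]
      refine ⟨_, B.inv_mem (hc m), _, B.inv_mem (hb m), ?_⟩
      have h2 := congrArg (fun x => x⁻¹) (key m)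
      simp only [mul_inv_rev, inv_inv, hz'] at h2
      rw [h1]
      simp only [mul_inv_rev, inv_inv]
      rw [mul_assoc, h2]
      simp only [mul_assoc]
  have hall : ∀ b ∈ B, z * b * z ∈ B ∨ ∃ b' ∈ B, ∃ c' ∈ B, z * b * z = b' * z * c' := by
    intro b hb
    obtain ⟨i, j, rfl⟩ := hB b hb
    have h1 : z * (s ^ i * t ^ j) * z = (z * s ^ i * z) * (t ^ j)⁻¹ := by
      rw [← z_pow hz hzt j]
      calc z * (s ^ i * t ^ j) * z = z * s ^ i * 1 * t ^ j * z := by group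
        _ = z * s ^ i * (z * z) * t ^ j * z := by rw [hz]
        _ = _ := by group
    have htj : (t ^ j)⁻¹ ∈ B := B.inv_mem (B.pow_mem htB j)
    rcases hrel i with h | ⟨b', hb', c', hc', h⟩
    · left
      rw [h1]; exact B.mul_mem h htj
    · right
      refine ⟨b', hb', c' * (t ^ j)⁻¹, B.mul_mem hc' htj, ?_⟩
      rw [h1, h, mul_assoc]
  refine ⟨{ carrier := {x | x ∈ B ∨ ∃ b ∈ B, ∃ c ∈ B, x = b * z * c}
            one_mem' := Or.inl B.one_mem
            mul_mem' := ?_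
            inv_mem' := ?_ }, fun x hx => Or.inl hx, Or.inr ⟨1, B.one_mem, 1, B.one_mem, by group⟩, fun x hx => hx⟩
  · rintro x y (hx | ⟨b, hb, c, hc, rfl⟩) (hy | ⟨b', hb', c', hc', rfl⟩)
    · exact Or.inl (B.mul_mem hx hy)
    · exact Or.inr ⟨x * b', B.mul_mem hx hb', c', hc', by group⟩
    · exact Or.inr ⟨b, hb, c * y, B.mul_mem hc hy, by group⟩
    · have h1 : b * z * c * (b' * z * c') = b * (z * (c * b') * z) * c' := by group
      rcases hall (c * b') (B.mul_mem hc hb') with h | ⟨b'', hb'', c'', hc'', h⟩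
      · left
        change _ ∈ B
        rw [h1]
        exact B.mul_mem (B.mul_mem hb h) hc'
      · right
        refine ⟨b * b'', B.mul_mem hb hb'', c'' * c', B.mul_mem hc'' hc', ?_⟩
        rw [h1, h]; group
  · rintro x (hx | ⟨b, hb, c, hc, rfl⟩)
    · exact Or.inl (B.inv_mem hx)
    · refine Or.inr ⟨c⁻¹, B.inv_mem hc, b⁻¹, B.inv_mem hb, ?_⟩
      rw [mul_inv_rev, mul_inv_rev, hz', mul_assoc]

theorem card_le {M B : Subgroup G} [Finite B] (h : ∀ x ∈ M, x ∈ B ∨ ∃ b ∈ B, ∃ c ∈ B, x = b * z * c) :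
    Nat.card M ≤ Nat.card B + Nat.card B * Nat.card B := by
  classical
  let φ : B ⊕ (B × B) → G := fun y => match y with
    | Sum.inl b => b
    | Sum.inr (b, c) => b * z * c
  have hsub : (M : Set G) ⊆ Set.range φ := by
    intro x hx
    rcases h x hx with h | ⟨b, hb, c, hc, rfl⟩
    · exact ⟨Sum.inl ⟨x, h⟩, rfl⟩
    · exact ⟨Sum.inr (⟨b, hb⟩, ⟨c, hc⟩), rfl⟩
  have h1 : Nat.card M ≤ (Set.range φ).ncard := by
    rw [← SetLike.coe_sort_coe, Nat.card_coe_set_eq]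
    exact Set.ncard_le_ncard hsub (Set.finite_range φ)
  have h2 : (Set.range φ).ncard ≤ Nat.card (B ⊕ (B × B)) := by
    rw [← Nat.card_coe_set_eq]
    exact Finite.card_range_le φ
  rw [Nat.card_sum, Nat.card_prod] at h2
  exact h1.trans h2

/-- the extra element does not lie in the subgroup -/
theorem not_mem [Fact p.Prime] (h2 : p ≠ 2) (h3 : p ≠ 3) (hs : s ^ p = 1) (hs1 : s ≠ 1) (hz : z * z = 1)
    (hts : t * s * t⁻¹ = s ^ a)
    (hzs : z * s * z = s⁻¹ * z * s⁻¹) (hB : ∀ b ∈ B, ∃ i j : ℕ, b = s ^ i * t ^ j) : z ∉ B := by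
  intro hzB
  have hz' : z⁻¹ = z := inv_eq_of_mul_eq_one_right hz
  have hord : orderOf s = p := orderOf_eq_prime hs hs1
  obtain ⟨i, j, hij⟩ := hB z hzB
  have h4 : z * s * z⁻¹ = s ^ (a ^ j) := by
    have h5 := conj_pow hts j 1
    rw [zpow_one, mul_one, ← Nat.cast_pow, zpow_natCast] at h5
    rw [hij, mul_inv_rev]
    calc s ^ i * t ^ j * s * ((t ^ j)⁻¹ * (s ^ i)⁻¹) = s ^ i * (t ^ j * s * (t ^ j)⁻¹) * (s ^ i)⁻¹ := by group
      _ = s ^ i * s ^ (a ^ j) * (s ^ i)⁻¹ := by rw [h5]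
      _ = _ := by rw [← pow_add, add_comm, pow_add, mul_inv_cancel_right]
  rw [hz', hzs] at h4
  have h5 : z = s ^ (a ^ j + 2) := by
    have : z = s * (s⁻¹ * z * s⁻¹) * s := by group
    rw [this, h4, ← pow_succ', ← pow_succ]
  have h6 : p ∣ (a ^ j + 2) * 2 := by
    rw [← hord]
    apply orderOf_dvd_of_pow_eq_one
    rw [pow_mul, ← h5, pow_two, hz]
  have h7 : p ∣ a ^ j + 2 := by
    rcases (Fact.out : p.Prime).dvd_mul.mp h6 with h | h
    · exact h
    · exact absurd ((Nat.prime_dvd_prime_iff_eq Fact.out Nat.prime_two).mp h) h2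
  have h8 : z = 1 := by
    rw [h5]
    obtain ⟨k, hk⟩ := h7
    rw [hk, pow_mul, hs, one_pow]
  rw [h8] at hzs
  have h9 : s ^ 3 = 1 := by
    have : s ^ 3 = s * (1 * s * 1) * s := by rw [one_mul, mul_one, pow_succ, pow_two]
    rw [this, hzs]; group
  have h10 : p ∣ 3 := by rw [← hord]; exact orderOf_dvd_of_pow_eq_one h9
  exact h3 ((Nat.prime_dvd_prime_iff_eq Fact.out Nat.prime_three).mp h10)

end H97.AschPaley
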