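import Mathlib
import Cfsg.Agent.Lib.H94.Transv
import Cfsg.Agent.Lib.H97.AschLinear

/-!
Aschbacher library, part 18: the special linear group is contained in no member of the geometric classes (n ≥ 3).
-/

set_option autoImplicit false
set_option linter.unusedSectionVars false

namespace H97.AschSL

open Cfsg Cfsg.Geo Matrix H97.AschRad H97.AschUnits H97.AschSkolem H97.AschCS H97.AschTensor H97.AschEnv
open H97.AschGrp H97.AschNonab H97.AschForm H97.AschReal H97.AschTwo H97.AschSubfield H97.AschDecomp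
open H97.AschWreath H97.AschWreathNorm H97.AschLinear
open scoped Kronecker commutatorElement

variable {ι : Type} [Fintype ι] [DecidableEq ι] {F : Type*} [Field F]

/-- transvections are in the special linear group -/
lemma exists_trans {v φ : ι → F} (h : φ ⬝ᵥ v = 0) :
    ∃ g ∈ specialLinear ι F, ∀ x, (g : Matrix ι ι F) *ᵥ x = x + (φ ⬝ᵥ x) • v :=
  ⟨H94.Transv.tGL v φ h, H94.Transv.tGL_mem_specialLinear v φ h, fun x => by
    rw [H94.Transv.tGL_val, H94.Transv.tm_mulVec]⟩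

/-- one transvection moves `a` to `b` fixing `W` pointwise if `a ∉ W + ⟨b - a⟩`. -/
lemma step {W : Submodule F (ι → F)} {a b : ι → F} (h : a ∉ W ⊔ Submodule.span F {b - a}) :
    ∃ g ∈ specialLinear ι F, (∀ w ∈ W, (g : Matrix ι ι F) *ᵥ w = w) ∧ (g : Matrix ι ι F) *ᵥ a = b := by
  obtain ⟨φ, h1, h2⟩ := H94.Transv.exists_functional_submodule h
  obtain ⟨g, hg, hgx⟩ := exists_trans (v := b - a) (φ := φ)
    (h1 _ (Submodule.mem_sup_right (Submodule.mem_span_singleton_self _)))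
  refine ⟨g, hg, fun w hw => ?_, ?_⟩
  · rw [hgx, h1 w (Submodule.mem_sup_left hw), zero_smul, add_zero]
  · rw [hgx, h2, one_smul, add_sub_cancel]

lemma exists_not_mem_of_finrank_lt {W : Submodule F (ι → F)} (h : Module.finrank F W < Fintype.card ι) :
    ∃ c, c ∉ W := by
  by_contra hcon
  push Not at hcon
  have h1 : W = ⊤ := by
    rw [eq_top_iff]; intro x _; exact hcon x
  rw [h1, finrank_top, Module.finrank_fintype_fun_eq_card] at h
  exact lt_irrefl _ h

lemma fr1 (a : ι → F) : Module.finrank F (Submodule.span F {a}) ≤ 1 := by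
  have := finrank_span_le_card (R := F) ({a} : Set (ι → F))
  simpa using this

/-- general two-step move -/
lemma move {W : Submodule F (ι → F)} (hW : Module.finrank F W + 1 < Fintype.card ι) {a b : ι → F}
    (ha : a ∉ W) (hb : b ∉ W) :
    ∃ g ∈ specialLinear ι F, (∀ w ∈ W, (g : Matrix ι ι F) *ᵥ w = w) ∧ (g : Matrix ι ι F) *ᵥ a = b := by
  by_cases h : a ∈ W ⊔ Submodule.span F {b - a}
  swap
  · exact step h
  obtain ⟨w, hw, x, hx, hwx⟩ := Submodule.mem_sup.mp h
  obtain ⟨β, rfl⟩ := Submodule.mem_span_singleton.mp hx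
  have hβ : β ≠ 0 := by
    rintro rfl
    rw [zero_smul, add_zero] at hwx
    exact ha (hwx ▸ hw)
  -- b ∈ W + ⟨a⟩
  let U : Submodule F (ι → F) := W ⊔ Submodule.span F {a}
  have haU : a ∈ U := Submodule.mem_sup_right (Submodule.mem_span_singleton_self a)
  have hWU : W ≤ U := le_sup_left
  have hbU : b ∈ U := by
    have h1 : b = a + β⁻¹ • (a - w) := by
      rw [← hwx]
      rw [add_sub_cancel_left, smul_smul, inv_mul_cancel₀ hβ, one_smul, hwx]
      abel
    rw [h1]
    exact U.add_mem haU (U.smul_mem _ (U.sub_mem haU (hWU hw)))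
  have hU : Module.finrank F U < Fintype.card ι := by
    have h1 := Submodule.finrank_add_le_finrank_add_finrank W (Submodule.span F {a})
    have h2 : Module.finrank F (Submodule.span F {a}) ≤ 1 := fr1 a
    change Module.finrank F (W ⊔ Submodule.span F {a} : Submodule F (ι → F)) < _
    omega
  obtain ⟨c, hc⟩ := exists_not_mem_of_finrank_lt hU
  have h1 : a ∉ W ⊔ Submodule.span F {c - a} := by
    intro h2
    obtain ⟨w', hw', x', hx', hwx'⟩ := Submodule.mem_sup.mp h2
    obtain ⟨γ, rfl⟩ := Submodule.mem_span_singleton.mp hx'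
    by_cases hγ : γ = 0
    · rw [hγ, zero_smul, add_zero] at hwx'
      exact ha (hwx' ▸ hw')
    · apply hc
      have h3 : c = a + γ⁻¹ • (a - w') := by
        nth_rewrite 2 [← hwx']
        rw [add_sub_cancel_left, smul_smul, inv_mul_cancel₀ hγ, one_smul]
        abel
      rw [h3]
      exact U.add_mem haU (U.smul_mem _ (U.sub_mem haU (hWU hw')))
  have h2 : c ∉ W ⊔ Submodule.span F {b - c} := by
    intro h2
    obtain ⟨w', hw', x', hx', hwx'⟩ := Submodule.mem_sup.mp h2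
    obtain ⟨γ, rfl⟩ := Submodule.mem_span_singleton.mp hx'
    by_cases hγ : 1 + γ = 0
    · apply hb
      have h3 : γ = -1 := by linear_combination hγ
      rw [h3, neg_one_smul, neg_sub] at hwx'
      have h4 : b = w' := by
        have : w' + (c - b) - c = 0 := by rw [hwx', sub_self]
        have h5 : w' - b = 0 := by rw [← this]; abel
        exact (sub_eq_zero.mp h5).symm
      rw [h4]; exact hw'
    · apply hc
      have h3 : c = (1 + γ)⁻¹ • (w' + γ • b) := by
        have h4 : (1 + γ) • c = w' + γ • b := by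
          rw [add_smul, one_smul]
          nth_rewrite 1 [← hwx']
          rw [smul_sub]; abel
        rw [← h4, smul_smul, inv_mul_cancel₀ hγ, one_smul]
      rw [h3]
      exact U.smul_mem _ (U.add_mem (hWU hw') (U.smul_mem _ hbU))
  obtain ⟨g, hg, hgW, hga⟩ := step h1
  obtain ⟨g', hg', hgW', hga'⟩ := step h2
  refine ⟨g' * g, Subgroup.mul_mem _ hg' hg, fun w hw => ?_, ?_⟩
  · rw [Units.val_mul, ← Matrix.mulVec_mulVec, hgW w hw, hgW' w hw]
  · rw [Units.val_mul, ← Matrix.mulVec_mulVec, hga, hga']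

theorem move_one (hn : 2 ≤ Fintype.card ι) {v w : ι → F} (hv : v ≠ 0) (hw : w ≠ 0) :
    ∃ g ∈ specialLinear ι F, (g : Matrix ι ι F) *ᵥ v = w := by
  obtain ⟨g, hg, -, h⟩ := move (W := (⊥ : Submodule F (ι → F))) (a := v) (b := w) (by rw [finrank_bot]; omega)
    (by rwa [Submodule.mem_bot]) (by rwa [Submodule.mem_bot])
  exact ⟨g, hg, h⟩

theorem move_two (hn : 3 ≤ Fintype.card ι) {v a b : ι → F} (ha : a ∉ Submodule.span F {v})
    (hb : b ∉ Submodule.span F {v}) :
    ∃ g ∈ specialLinear ι F, (g : Matrix ι ι F) *ᵥ v = v ∧ (g : Matrix ι ι F) *ᵥ a = b := by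
  obtain ⟨g, hg, h1, h⟩ := move (W := Submodule.span F {v}) (a := a) (b := b)
    (by have := fr1 (F := F) v; omega) ha hb
  exact ⟨g, hg, h1 v (Submodule.mem_span_singleton_self v), h⟩

/-! ### the classes -/

theorem not_le_subspace (hn : 2 ≤ Fintype.card ι) {W : Submodule F (ι → F)} (h0 : W ≠ ⊥) (h1 : W ≠ ⊤) :
    ¬ specialLinear ι F ≤ subspaceStabilizer W := by
  intro h
  obtain ⟨w, hw, hw0⟩ := Submodule.exists_mem_ne_zero_of_ne_bot h0
  apply h1
  rw [eq_top_iff]
  intro v _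
  by_cases hv : v = 0
  · rw [hv]; exact W.zero_mem
  · obtain ⟨g, hg, hgw⟩ := move_one hn hw0 hv
    have h2 := (h hg w).mp hw
    change (g : Matrix ι ι F) *ᵥ w ∈ W at h2
    rwa [hgw] at h2

theorem not_le_decomposition (hn : 2 ≤ Fintype.card ι) {t m : ℕ} {D : Fin t → Submodule F (ι → F)}
    (hD : IsMDecomposition m D) : ¬ specialLinear ι F ≤ decompositionStabilizer D := by
  intro h
  have ht := hD.two_le
  let i0 : Fin t := ⟨0, by omega⟩
  let i1 : Fin t := ⟨1, by omega⟩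
  have h01 : i0 ≠ i1 := by
    intro h; have := congrArg Fin.val h; simp [i0, i1] at this
  have hne : ∀ i, D i ≠ ⊥ := by
    intro i hi
    have h1 := hD.finrank_eq i
    rw [hi, finrank_bot] at h1
    have := hD.pos
    omega
  obtain ⟨v0, hv0, hv00⟩ := Submodule.exists_mem_ne_zero_of_ne_bot (hne i0)
  obtain ⟨v1, hv1, hv10⟩ := Submodule.exists_mem_ne_zero_of_ne_bot (hne i1)
  have hdis : ∀ i j, i ≠ j → ∀ x ∈ D i, x ∈ D j → x = 0 := by
    intro i j hij x hx hx'
    have h1 := hD.indep.pairwiseDisjoint hij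
    exact Submodule.disjoint_def.mp h1 x hx hx'
  have hsum : v0 + v1 ≠ 0 := by
    intro h0
    apply hv00
    apply hdis i0 i1 h01 v0 hv0
    have : v0 = -v1 := eq_neg_of_add_eq_zero_left h0
    rw [this]; exact (D i1).neg_mem hv1
  obtain ⟨g, hg, hgv⟩ := move_one hn hv00 hsum
  obtain ⟨σ, hσ⟩ := h hg
  have h2 : v0 + v1 ∈ D (σ i0) := by
    rw [← hσ i0]
    refine ⟨v0, hv0, ?_⟩
    rw [Matrix.toLin'_apply, hgv]
  by_cases hj0 : σ i0 = i0
  · rw [hj0] at h2
    have h3 : v1 ∈ D i0 := by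
      have := (D i0).sub_mem h2 hv0
      rwa [add_sub_cancel_left] at this
    exact hv10 (hdis i1 i0 h01.symm v1 hv1 h3)
  · by_cases hj1 : σ i0 = i1
    · rw [hj1] at h2
      have h3 : v0 ∈ D i1 := by
        have := (D i1).sub_mem h2 hv1
        rwa [add_sub_cancel_right] at this
      exact hv00 (hdis i0 i1 h01 v0 hv0 h3)
    · apply hsum
      have h3 := hD.indep (σ i0)
      apply Submodule.disjoint_def.mp h3 _ h2
      apply Submodule.add_mem
      · exact Submodule.mem_iSup_of_mem i0 (Submodule.mem_iSup_of_mem (fun h => hj0 h.symm) hv0)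
      · exact Submodule.mem_iSup_of_mem i1 (Submodule.mem_iSup_of_mem (fun h => hj1 h.symm) hv1)

/-- a three-dimensional family meets a subspace of codimension two -/
lemma exists_common_zero {m : ℕ} (hm : 3 ≤ m) (φ ψ : (Fin m → F) →ₗ[F] F) : ∃ w ≠ 0, φ w = 0 ∧ ψ w = 0 := by
  have h1 : LinearMap.ker (φ.prod ψ) ≠ ⊥ := by
    apply LinearMap.ker_ne_bot_of_finrank_lt
    rw [Module.finrank_prod, Module.finrank_self, Module.finrank_fintype_fun_eq_card, Fintype.card_fin]
    omega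
  obtain ⟨w, hw, hw0⟩ := Submodule.exists_mem_ne_zero_of_ne_bot h1
  rw [LinearMap.mem_ker] at hw
  exact ⟨w, hw0, congrArg Prod.fst hw, congrArg Prod.snd hw⟩

/-- conjugating by a transvection changes a matrix only by rank two -/
lemma exists_agree {v φ : ι → F} (h : φ ⬝ᵥ v = 0) (x : Matrix ι ι F) {m : ℕ} (hm : 3 ≤ m)
    (L : (Fin m → F) →ₗ[F] (ι → F)) :
    ∃ w : Fin m → F, w ≠ 0 ∧ (((H94.Transv.tGL v φ h : GL ι F) : Matrix ι ι F) * x *
      (((H94.Transv.tGL v φ h)⁻¹ : GL ι F) : Matrix ι ι F)) *ᵥ (L w) = x *ᵥ (L w) := by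
  let Φ : (ι → F) →ₗ[F] F :=
    { toFun := fun w => φ ⬝ᵥ w
      map_add' := fun a b => dotProduct_add _ _ _
      map_smul' := fun c a => dotProduct_smul _ _ _ }
  obtain ⟨w, hw0, h1, h2⟩ := exists_common_zero hm (Φ.comp L) (Φ.comp ((Matrix.toLin' x).comp L))
  refine ⟨w, hw0, ?_⟩
  have h1' : φ ⬝ᵥ (L w) = 0 := h1
  have h2' : φ ⬝ᵥ (x *ᵥ (L w)) = 0 := by
    have : φ ⬝ᵥ (Matrix.toLin' x (L w)) = 0 := h2
    rwa [Matrix.toLin'_apply] at this
  rw [H94.Transv.tGL_inv_val, ← Matrix.mulVec_mulVec, ← Matrix.mulVec_mulVec, H94.Transv.tm_mulVec]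
  rw [H94.Transv.tGL_val]
  simp only [h1', neg_dotProduct, neg_zero, zero_smul, add_zero]
  rw [H94.Transv.tm_mulVec, h2', zero_smul, add_zero]

/-- matrices commuting with all transvections are scalar -/
lemma scalar_of_commute_trans (x : Matrix ι ι F)
    (hx : ∀ (v φ : ι → F) (h : φ ⬝ᵥ v = 0), ((H94.Transv.tGL v φ h : GL ι F) : Matrix ι ι F) * x *
      (((H94.Transv.tGL v φ h)⁻¹ : GL ι F) : Matrix ι ι F) = x) : ∃ c : F, x = algebraMap F _ c := by
  have h1 : x ∈ Set.range (Matrix.scalar ι) := by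
    apply Matrix.mem_range_scalar_of_commute_transvectionStruct
    rintro ⟨i, j, hij, c⟩
    have h0 : (Pi.single j (1 : F) : ι → F) ⬝ᵥ (Pi.single i c : ι → F) = 0 := by
      rw [single_dotProduct, Pi.single_eq_of_ne hij.symm, mul_zero]
    have h2 := hx (Pi.single i c) (Pi.single j 1) h0
    have h3 : (TransvectionStruct.mk i j hij c).toMatrix =
        ((H94.Transv.tGL (Pi.single i c) (Pi.single j 1) h0 : GL ι F) : Matrix ι ι F) := by
      rw [H94.Transv.tGL_val, ← H94.Transv.transvection_eq_tm]; rfl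
    change _ * _ = _ * _
    rw [h3]
    conv_rhs => rw [← h2]
    rw [mul_assoc _ _ ((H94.Transv.tGL (Pi.single i c) (Pi.single j 1) h0 : GL ι F) : Matrix ι ι F),
      ← Units.val_mul, inv_mul_cancel, Units.val_one, mul_one]
  obtain ⟨c, hc⟩ := h1
  exact ⟨c, by rw [← hc]; rfl⟩

theorem not_le_field (hn : 3 ≤ Fintype.card ι) {r : ℕ} (hr : r ≠ 1) {K : Subalgebra F (Matrix ι ι F)}
    (hK : IsFieldSubalgebra r K) : ¬ specialLinear ι F ≤ subalgebraNormalizer K := by
  intro h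
  have key : ∀ x ∈ K, ∃ c : F, x = algebraMap F _ c := by
    intro x hx
    apply scalar_of_commute_trans
    intro v φ hφ
    have h1 := (h (H94.Transv.tGL_mem_specialLinear v φ hφ) x).mp hx
    let e : Fin (Fintype.card ι) ≃ ι := (Fintype.equivFin ι).symm
    let L : (Fin (Fintype.card ι) → F) ≃ₗ[F] (ι → F) := LinearEquiv.funCongrLeft F F e.symm
    obtain ⟨w, hw, hagree⟩ := exists_agree hφ x hn (L : (Fin (Fintype.card ι) → F) →ₗ[F] (ι → F))
    by_contra hne
    have h2 : ((H94.Transv.tGL v φ hφ : GL ι F) : Matrix ι ι F) * x *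
      (((H94.Transv.tGL v φ hφ)⁻¹ : GL ι F) : Matrix ι ι F) - x ∈ K := K.sub_mem h1 hx
    obtain ⟨z, hz, hz1⟩ := hK.inv _ h2 (sub_ne_zero.mpr hne)
    rw [hK.comm _ h2 _ hz] at hz1
    have h3 : (L w) = z *ᵥ (((((H94.Transv.tGL v φ hφ : GL ι F) : Matrix ι ι F) * x *
      (((H94.Transv.tGL v φ hφ)⁻¹ : GL ι F) : Matrix ι ι F) - x) *ᵥ (L w))) := by
      rw [Matrix.mulVec_mulVec, hz1, Matrix.one_mulVec]
    have h4 : (((H94.Transv.tGL v φ hφ : GL ι F) : Matrix ι ι F) * x *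
      (((H94.Transv.tGL v φ hφ)⁻¹ : GL ι F) : Matrix ι ι F) - x) *ᵥ (L w) = 0 := by
      rw [Matrix.sub_mulVec]
      exact sub_eq_zero.mpr hagree
    rw [h4, Matrix.mulVec_zero] at h3
    exact hw (L.injective (by rw [h3, map_zero]))
  apply hr
  rw [← hK.finrank_eq]
  have : Nonempty ι := Fintype.card_pos_iff.mp (by omega)
  rw [Subalgebra.finrank_eq_one_iff]
  rw [eq_bot_iff]
  intro x hx
  obtain ⟨c, hc⟩ := key x hx
  rw [Algebra.mem_bot]
  exact ⟨c, hc.symm⟩

lemma cr_mulVec {κ : Type} [Fintype κ] [DecidableEq κ] (e : ι ≃ κ) (P : GL ι F) (X : Matrix κ κ F) (u : κ → F) :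
    (cr e P X) *ᵥ ((P : Matrix ι ι F) *ᵥ (u ∘ e)) = (P : Matrix ι ι F) *ᵥ ((X *ᵥ u) ∘ e) := by
  rw [cr_apply, Matrix.mulVec_mulVec, mul_assoc, ← Units.val_mul, inv_mul_cancel, Units.val_one, mul_one,
    ← Matrix.mulVec_mulVec]
  congr 1
  ext i
  simp only [Function.comp, mulVec, dotProduct, Matrix.submatrix_apply]
  exact Fintype.sum_equiv e _ _ (fun x => rfl)

lemma P_injective {κ : Type} [Fintype κ] [DecidableEq κ] (e : ι ≃ κ) (P : GL ι F) {u v : κ → F}
    (h : (P : Matrix ι ι F) *ᵥ (u ∘ e) = (P : Matrix ι ι F) *ᵥ (v ∘ e)) : u = v := by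
  have h2 := congrArg (fun w => ((P⁻¹ : GL ι F) : Matrix ι ι F) *ᵥ w) h
  simp only [Matrix.mulVec_mulVec, ← Units.val_mul, inv_mul_cancel, Units.val_one, Matrix.one_mulVec] at h2
  ext i
  have := congrFun h2 (e.symm i)
  simpa using this

/-- the linear map into the coordinates -/
noncomputable def Lmap {κ : Type} [Fintype κ] [DecidableEq κ] (e : ι ≃ κ) (P : GL ι F) : (κ → F) →ₗ[F] (ι → F) where
  toFun u := (P : Matrix ι ι F) *ᵥ (u ∘ e)
  map_add' u v := by
    rw [← Matrix.mulVec_add]; rfl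
  map_smul' c u := by
    rw [RingHom.id_apply, ← Matrix.mulVec_smul]; rfl

theorem not_le_tensor {n₁ n₂ : ℕ} (e : ι ≃ Fin n₁ × Fin n₂) (P : GL ι F) (h1 : 2 ≤ n₁) (h2 : 3 ≤ n₂) :
    ¬ specialLinear ι F ≤ tensorProductSubgroup n₁ n₂ e P := by
  intro h
  have key : ∀ X : Matrix (Fin n₁) (Fin n₁) F, ∃ c : F,
      cr e P (X ⊗ₖ (1 : Matrix (Fin n₂) (Fin n₂) F)) = algebraMap F _ c := by
    intro X
    apply scalar_of_commute_trans
    intro v φ hφ
    have hmem := h (H94.Transv.tGL_mem_specialLinear v φ hφ)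
    obtain ⟨s, ⟨a, b, hs⟩, hg⟩ := (mem_transport _ e P _).mp hmem
    -- conjugation in coordinates
    have hconj : ((H94.Transv.tGL v φ hφ : GL ι F) : Matrix ι ι F) * cr e P (X ⊗ₖ (1 : Matrix (Fin n₂) (Fin n₂) F)) *
        (((H94.Transv.tGL v φ hφ)⁻¹ : GL ι F) : Matrix ι ι F) =
        cr e P (((a : Matrix _ _ F) * X * ((a⁻¹ : GL (Fin n₁) F) : Matrix (Fin n₁) (Fin n₁) F)) ⊗ₖ (1 : Matrix (Fin n₂) (Fin n₂) F)) := by
      have h3 : ((H94.Transv.tGL v φ hφ : GL ι F) : Matrix ι ι F) = cr e P (s : Matrix _ _ F) := by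
        rw [hg]; rfl
      have h4 : (((H94.Transv.tGL v φ hφ)⁻¹ : GL ι F) : Matrix ι ι F) = cr e P ((s⁻¹ : GL _ F) : Matrix _ _ F) := by
        rw [hg]
        have : (P * glReindex e.symm s * P⁻¹)⁻¹ = P * glReindex e.symm s⁻¹ * P⁻¹ := by
          rw [map_inv]; group
        rw [this]; rfl
      have h5 : ((s⁻¹ : GL _ F) : Matrix _ _ F) = ((a⁻¹ : GL (Fin n₁) F) : Matrix (Fin n₁) (Fin n₁) F) ⊗ₖ ((b⁻¹ : GL (Fin n₂) F) : Matrix (Fin n₂) (Fin n₂) F) := by
        have h6 : (s : Matrix _ _ F) * (((a⁻¹ : GL (Fin n₁) F) : Matrix (Fin n₁) (Fin n₁) F) ⊗ₖ ((b⁻¹ : GL (Fin n₂) F) : Matrix (Fin n₂) (Fin n₂) F)) = 1 := by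
          rw [hs, ← Matrix.mul_kronecker_mul, ← Units.val_mul, ← Units.val_mul, mul_inv_cancel, mul_inv_cancel,
            Units.val_one, Units.val_one, Matrix.one_kronecker_one]
        calc ((s⁻¹ : GL _ F) : Matrix _ _ F) = ((s⁻¹ : GL _ F) : Matrix _ _ F) * ((s : Matrix _ _ F) *
              (((a⁻¹ : GL (Fin n₁) F) : Matrix (Fin n₁) (Fin n₁) F) ⊗ₖ ((b⁻¹ : GL (Fin n₂) F) : Matrix (Fin n₂) (Fin n₂) F))) := by rw [h6, mul_one]
          _ = _ := by rw [← mul_assoc, ← Units.val_mul, inv_mul_cancel, Units.val_one, one_mul]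
      rw [h3, h4, ← map_mul, ← map_mul, h5, hs, ← Matrix.mul_kronecker_mul, ← Matrix.mul_kronecker_mul, mul_one,
        ← Units.val_mul b, mul_inv_cancel, Units.val_one]
    rw [hconj]
    congr 2
    set Y := (a : Matrix _ _ F) * X * ((a⁻¹ : GL (Fin n₁) F) : Matrix (Fin n₁) (Fin n₁) F) with hY
    ext i j
    -- the embedding of the second factor
    let E : (Fin n₂ → F) →ₗ[F] (Fin n₁ × Fin n₂ → F) :=
      { toFun := fun w p => if p.1 = j then w p.2 else 0
        map_add' := by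
          intro w w'; ext p
          by_cases hp : p.1 = j <;> simp [hp]
        map_smul' := by
          intro c w; ext p
          by_cases hp : p.1 = j <;> simp [hp] }
    have hE : ∀ (Z : Matrix (Fin n₁) (Fin n₁) F) (w : Fin n₂ → F) (p : Fin n₁ × Fin n₂),
        ((Z ⊗ₖ (1 : Matrix (Fin n₂) (Fin n₂) F)) *ᵥ (E w)) p = Z p.1 j * w p.2 := by
      intro Z w p
      change ∑ q, (Z ⊗ₖ (1 : Matrix (Fin n₂) (Fin n₂) F)) p q * (if q.1 = j then w q.2 else 0) = _
      rw [Fintype.sum_prod_type, Finset.sum_eq_single j]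
      · rw [Finset.sum_eq_single p.2]
        · simp [Matrix.kroneckerMap_apply]
        · intro b _ hb
          simp [Matrix.kroneckerMap_apply, Matrix.one_apply_ne hb.symm]
        · intro hh; exact absurd (Finset.mem_univ _) hh
      · intro b _ hb
        apply Finset.sum_eq_zero
        intro c _
        simp [hb]
      · intro hh; exact absurd (Finset.mem_univ _) hh
    obtain ⟨w, hw, hagree⟩ := exists_agree hφ (cr e P (X ⊗ₖ (1 : Matrix (Fin n₂) (Fin n₂) F))) h2 ((Lmap e P).comp E)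
    rw [hconj] at hagree
    have h7 : (Lmap e P).comp E w = (P : Matrix ι ι F) *ᵥ ((E w) ∘ e) := rfl
    rw [h7, cr_mulVec, cr_mulVec] at hagree
    have h8 := P_injective e P hagree
    obtain ⟨k, hk⟩ := Function.ne_iff.mp hw
    have h9 := congrFun h8 (i, k)
    rw [hE, hE] at h9
    exact mul_right_cancel₀ hk h9
  let i0 : Fin n₁ := ⟨0, by omega⟩
  let i1 : Fin n₁ := ⟨1, by omega⟩
  have h01 : i0 ≠ i1 := by
    intro h; have := congrArg Fin.val h; simp [i0, i1] at this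
  let k0 : Fin n₂ := ⟨0, by omega⟩
  obtain ⟨c, hc⟩ := key (Matrix.single i0 i0 1)
  have h3 : cr e P ((Matrix.single i0 i0 (1 : F)) ⊗ₖ (1 : Matrix (Fin n₂) (Fin n₂) F)) = cr e P (algebraMap F _ c) := by
    rw [hc]; exact ((cr e P).commutes c).symm
  have h4 := (cr e P).injective h3
  have h5 := congrFun (congrFun h4 (i0, k0)) (i0, k0)
  have h6 := congrFun (congrFun h4 (i1, k0)) (i1, k0)
  simp [Matrix.kroneckerMap_apply, Matrix.algebraMap_matrix_apply] at h5
  simp [Matrix.kroneckerMap_apply, Matrix.algebraMap_matrix_apply, h01] at h6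
  rw [← h6] at h5
  exact one_ne_zero h5

end H97.AschSL
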