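import Mathlib
import Cfsg.Agent.Lib.H97.AschSL

/-!
Aschbacher library, part 19: the special linear group is contained in no member of the geometric classes, continued.
-/

set_option autoImplicit false
set_option linter.unusedSectionVars false

namespace H97.AschSL2

open Cfsg Cfsg.Geo Matrix H97.AschRad H97.AschUnits H97.AschSkolem H97.AschCS H97.AschTensor H97.AschEnv
open H97.AschGrp H97.AschNonab H97.AschForm H97.AschReal H97.AschTwo H97.AschSubfield H97.AschDecomp
open H97.AschWreath H97.AschWreathNorm H97.AschLinear H97.AschSL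
open scoped Kronecker commutatorElement

variable {ι : Type} [Fintype ι] [DecidableEq ι] {F : Type*} [Field F]

/-- action of a matrix in one tensor factor -/
lemma factor_mulVec {t m : ℕ} (i : Fin t) (X : Matrix (Fin m) (Fin m) F) (f : (Fin t → Fin m) → F) (a : Fin t → Fin m) :
    (pureT t m F (Function.update (fun _ => 1) i X) *ᵥ f) a = ∑ c, X (a i) c * f (Function.update a i c) := by
  rw [mulVec, dotProduct]
  have h1 : ∀ b : Fin t → Fin m, pureT t m F (Function.update (fun _ => 1) i X) a b =
      if b = Function.update a i (b i) then X (a i) (b i) else 0 := by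
    intro b
    rw [pureT_apply]
    by_cases hb : b = Function.update a i (b i)
    · rw [if_pos hb, Finset.prod_eq_single i]
      · rw [Function.update_self]
      · intro j _ hj
        rw [Function.update_of_ne hj]
        have : b j = a j := by rw [hb, Function.update_of_ne hj]
        rw [this, Matrix.one_apply_eq]
      · intro h; exact absurd (Finset.mem_univ _) h
    · rw [if_neg hb]
      have : ∃ j, j ≠ i ∧ b j ≠ a j := by
        by_contra hcon
        push Not at hcon
        apply hb
        funext j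
        by_cases hj : j = i
        · subst hj; rw [Function.update_self]
        · rw [Function.update_of_ne hj, hcon j hj]
      obtain ⟨j, hj, hbj⟩ := this
      apply Finset.prod_eq_zero (Finset.mem_univ j)
      rw [Function.update_of_ne hj, Matrix.one_apply_ne (Ne.symm hbj)]
  simp only [h1]
  symm
  apply Finset.sum_of_injOn (fun c => Function.update a i c)
  · intro c _ c' _ h
    have := congrFun h i
    simpa using this
  · intro c _; exact Finset.mem_coe.mpr (Finset.mem_univ _)
  · intro b _ hb
    rw [if_neg, zero_mul]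
    intro h
    apply hb
    exact ⟨b i, Finset.mem_coe.mpr (Finset.mem_univ _), h.symm⟩
  · intro c _
    simp

/-- one tensor factor -/
noncomputable def B (t m : ℕ) (F : Type*) [Field F] (i : Fin t) (X : Matrix (Fin m) (Fin m) F) :
    Matrix (Fin t → Fin m) (Fin t → Fin m) F := pureT t m F (Function.update (fun _ => 1) i X)

/-- the subgroup permuting the factor algebras -/
def facSub (t m : ℕ) (F : Type*) [Field F] : Subgroup (GL (Fin t → Fin m) F) where
  carrier := {s | ∃ σ : Equiv.Perm (Fin t),
    (∀ i X, ∃ Y, (s : Matrix (Fin t → Fin m) (Fin t → Fin m) F) * B t m F i X = B t m F (σ i) Y * s) ∧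
    (∀ i X, ∃ Y, B t m F (σ i) X * (s : Matrix (Fin t → Fin m) (Fin t → Fin m) F) = s * B t m F i Y)}
  one_mem' := ⟨1, fun i X => ⟨X, by rw [Units.val_one, one_mul, mul_one]; rfl⟩,
    fun i X => ⟨X, by rw [Units.val_one, one_mul, mul_one]; rfl⟩⟩
  mul_mem' := by
    rintro a b ⟨σ, h1, h2⟩ ⟨τ, h3, h4⟩
    refine ⟨σ * τ, fun i X => ?_, fun i X => ?_⟩
    · obtain ⟨Y, hY⟩ := h3 i X
      obtain ⟨Z, hZ⟩ := h1 (τ i) Y
      exact ⟨Z, by rw [Units.val_mul, mul_assoc, hY, ← mul_assoc, hZ, mul_assoc]; rfl⟩
    · obtain ⟨Y, hY⟩ := h2 (τ i) X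
      obtain ⟨Z, hZ⟩ := h4 i Y
      exact ⟨Z, by
        change B t m F (σ (τ i)) X * _ = _
        rw [Units.val_mul, ← mul_assoc, hY, mul_assoc, hZ, mul_assoc]⟩
  inv_mem' := by
    rintro a ⟨σ, h1, h2⟩
    have hinv : ∀ (U V : Matrix (Fin t → Fin m) (Fin t → Fin m) F),
        (a : Matrix (Fin t → Fin m) (Fin t → Fin m) F) * U = V * a →
        ((a⁻¹ : GL (Fin t → Fin m) F) : Matrix (Fin t → Fin m) (Fin t → Fin m) F) * V =
          U * ((a⁻¹ : GL (Fin t → Fin m) F) : Matrix (Fin t → Fin m) (Fin t → Fin m) F) := by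
      intro U V h
      calc ((a⁻¹ : GL (Fin t → Fin m) F) : Matrix (Fin t → Fin m) (Fin t → Fin m) F) * V
          = ((a⁻¹ : GL (Fin t → Fin m) F) : Matrix (Fin t → Fin m) (Fin t → Fin m) F) * (V * a) *
            ((a⁻¹ : GL (Fin t → Fin m) F) : Matrix (Fin t → Fin m) (Fin t → Fin m) F) := by
              rw [mul_assoc, mul_assoc, ← Units.val_mul, mul_inv_cancel, Units.val_one, mul_one]
        _ = U * ((a⁻¹ : GL (Fin t → Fin m) F) : Matrix (Fin t → Fin m) (Fin t → Fin m) F) := by
              rw [← h, ← mul_assoc, ← Units.val_mul, inv_mul_cancel, Units.val_one, one_mul]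
    refine ⟨σ⁻¹, fun i X => ?_, fun i X => ?_⟩
    · obtain ⟨Y, hY⟩ := h2 (σ⁻¹ i) X
      rw [show σ (σ⁻¹ i) = i from Equiv.apply_symm_apply σ i] at hY
      exact ⟨Y, hinv _ _ hY.symm⟩
    · obtain ⟨Y, hY⟩ := h1 (σ⁻¹ i) X
      rw [show σ (σ⁻¹ i) = i from Equiv.apply_symm_apply σ i] at hY
      exact ⟨Y, (hinv _ _ hY).symm⟩

/-- the wreath group permutes the factor algebras -/
lemma wreath_le_facSub (t m : ℕ) : tensorWreathStandard m t F ≤ facSub t m F := by
  rw [tensorWreathStandard, Subgroup.closure_le]
  rintro g (⟨gs, hg⟩ | ⟨σ, hg⟩)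
  · have h1 : (g : Matrix (Fin t → Fin m) (Fin t → Fin m) F) = pureT t m F (fun i => (gs i : Matrix (Fin m) (Fin m) F)) := by
      ext x y; rw [hg, pureT_apply]
    refine ⟨1, fun i X => ⟨(gs i : Matrix (Fin m) (Fin m) F) * X *
      (((gs i)⁻¹ : GL (Fin m) F) : Matrix (Fin m) (Fin m) F), ?_⟩,
      fun i X => ⟨(((gs i)⁻¹ : GL (Fin m) F) : Matrix (Fin m) (Fin m) F) * X * (gs i : Matrix (Fin m) (Fin m) F), ?_⟩⟩
    · rw [h1, B, B, pureT_mul, pureT_mul]
      congr 1
      funext k
      by_cases hk : k = i
      · subst hk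
        simp only [Function.update_self, Equiv.Perm.one_apply]
        rw [mul_assoc _ _ (gs k : Matrix (Fin m) (Fin m) F), ← Units.val_mul, inv_mul_cancel, Units.val_one, mul_one]
      · simp only [Equiv.Perm.one_apply, Function.update_of_ne hk, mul_one, one_mul]
    · rw [h1, B, B, pureT_mul, pureT_mul]
      congr 1
      funext k
      by_cases hk : k = i
      · subst hk
        simp only [Function.update_self, Equiv.Perm.one_apply]
        rw [← mul_assoc, ← mul_assoc, ← Units.val_mul, mul_inv_cancel, Units.val_one, one_mul]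
      · simp only [Equiv.Perm.one_apply, Function.update_of_ne hk, mul_one, one_mul]
  · have h1 : (g : Matrix (Fin t → Fin m) (Fin t → Fin m) F) = (factorPerm m t F σ : Matrix (Fin t → Fin m) (Fin t → Fin m) F) := by
      ext x y; rw [hg, factorPerm_apply]
    have h2 : ∀ i X, (factorPerm m t F σ : Matrix (Fin t → Fin m) (Fin t → Fin m) F) * B t m F i X =
        B t m F (σ i) X * (factorPerm m t F σ : Matrix (Fin t → Fin m) (Fin t → Fin m) F) := by
      intro i X
      rw [B, B, factorPerm_conj]
      congr 2
      funext k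
      by_cases hk : k = σ i
      · subst hk
        simp
      · rw [Function.update_of_ne hk, Function.update_of_ne]
        intro h; apply hk; rw [← h]; simp
    refine ⟨σ, fun i X => ⟨X, ?_⟩, fun i X => ⟨X, ?_⟩⟩
    · rw [h1, h2]
    · rw [h1, h2]

lemma B_mulVec {t m : ℕ} (i : Fin t) (X : Matrix (Fin m) (Fin m) F) (f : (Fin t → Fin m) → F) (a : Fin t → Fin m) :
    (B t m F i X *ᵥ f) a = ∑ c, X (a i) c * f (Function.update a i c) := factor_mulVec i X f a

theorem not_le_wreath {m t : ℕ} (e : ι ≃ (Fin t → Fin m)) (P : GL ι F) (hm : 3 ≤ m) (ht : 2 ≤ t) :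
    ¬ specialLinear ι F ≤ tensorWreathSubgroup m t e P := by
  intro h
  let i0 : Fin t := ⟨0, by omega⟩
  let m0 : Fin m := ⟨0, by omega⟩
  let m1 : Fin m := ⟨1, by omega⟩
  have hm01 : m0 ≠ m1 := by
    intro h; have := congrArg Fin.val h; simp [m0, m1] at this
  have key : ∀ X : Matrix (Fin m) (Fin m) F, ∃ c : F, cr e P (B t m F i0 X) = algebraMap F _ c := by
    intro X
    apply scalar_of_commute_trans
    intro v φ hφ
    have hmem := h (H94.Transv.tGL_mem_specialLinear v φ hφ)
    obtain ⟨s, hs, hg⟩ := (mem_transport _ e P _).mp hmem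
    have hgs : ((H94.Transv.tGL v φ hφ : GL ι F) : Matrix ι ι F) = cr e P (s : Matrix (Fin t → Fin m) (Fin t → Fin m) F) := by
      rw [hg]; rfl
    obtain ⟨σ, hσ, -⟩ := wreath_le_facSub t m hs
    have hconj : ∀ X Y, (s : Matrix (Fin t → Fin m) (Fin t → Fin m) F) * B t m F i0 X = B t m F (σ i0) Y * s →
        ((H94.Transv.tGL v φ hφ : GL ι F) : Matrix ι ι F) * cr e P (B t m F i0 X) *
        (((H94.Transv.tGL v φ hφ)⁻¹ : GL ι F) : Matrix ι ι F) = cr e P (B t m F (σ i0) Y) := by
      intro X Y hXY
      have h1 : ((H94.Transv.tGL v φ hφ : GL ι F) : Matrix ι ι F) * cr e P (B t m F i0 X) =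
          cr e P (B t m F (σ i0) Y) * ((H94.Transv.tGL v φ hφ : GL ι F) : Matrix ι ι F) := by
        rw [hgs, ← map_mul, ← map_mul, hXY]
      rw [h1, mul_assoc, ← Units.val_mul, mul_inv_cancel, Units.val_one, mul_one]
    by_cases hj : σ i0 = i0
    · obtain ⟨Y, hY⟩ := hσ i0 X
      have h1 := hconj X Y hY
      rw [h1, hj]
      congr 2
      let i1 : Fin t := ⟨1, by omega⟩
      have h01 : i0 ≠ i1 := by
        intro h; have := congrArg Fin.val h; simp [i0, i1] at this
      ext p q
      let E : (Fin m → F) →ₗ[F] ((Fin t → Fin m) → F) :=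
        { toFun := fun w a => if a i0 = q then w (a i1) else 0
          map_add' := by
            intro w w'; ext a
            by_cases ha : a i0 = q <;> simp [ha]
          map_smul' := by
            intro c w; ext a
            by_cases ha : a i0 = q <;> simp [ha] }
      have hE : ∀ (Z : Matrix (Fin m) (Fin m) F) (w : Fin m → F) (a : Fin t → Fin m),
          (B t m F i0 Z *ᵥ (E w)) a = Z (a i0) q * w (a i1) := by
        intro Z w a
        rw [B_mulVec, Finset.sum_eq_single q]
        · change Z (a i0) q * (if Function.update a i0 q i0 = q then w (Function.update a i0 q i1) else 0) = _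
          rw [Function.update_self, if_pos rfl, Function.update_of_ne h01.symm]
        · intro c _ hc
          change Z (a i0) c * (if Function.update a i0 c i0 = q then w (Function.update a i0 c i1) else 0) = _
          rw [Function.update_self, if_neg hc, mul_zero]
        · intro hh; exact absurd (Finset.mem_univ _) hh
      obtain ⟨w, hw, hagree⟩ := exists_agree hφ (cr e P (B t m F i0 X)) hm ((Lmap e P).comp E)
      rw [h1] at hagree
      have h7 : (Lmap e P).comp E w = (P : Matrix ι ι F) *ᵥ ((E w) ∘ e) := rfl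
      rw [h7, cr_mulVec, cr_mulVec] at hagree
      have h8 := P_injective e P hagree
      obtain ⟨k, hk⟩ := Function.ne_iff.mp hw
      have h9 := congrFun h8 (Function.update (fun _ => k) i0 p)
      rw [hj, hE, hE, Function.update_self, Function.update_of_ne h01.symm] at h9
      exact mul_right_cancel₀ hk h9
    · exfalso
      obtain ⟨Y, hY⟩ := hσ i0 (Matrix.single m0 m0 1)
      have h1 := hconj _ Y hY
      let E : (Fin m → F) →ₗ[F] ((Fin t → Fin m) → F) :=
        { toFun := fun w a => w (a (σ i0))
          map_add' := by intro w w'; ext a; rfl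
          map_smul' := by intro c w; ext a; rfl }
      obtain ⟨w, hw, hagree⟩ := exists_agree hφ (cr e P (B t m F i0 (Matrix.single m0 m0 1))) hm ((Lmap e P).comp E)
      rw [h1] at hagree
      have h7 : (Lmap e P).comp E w = (P : Matrix ι ι F) *ᵥ ((E w) ∘ e) := rfl
      rw [h7, cr_mulVec, cr_mulVec] at hagree
      have h8 := P_injective e P hagree
      obtain ⟨k, hk⟩ := Function.ne_iff.mp hw
      have hL : ∀ a : Fin t → Fin m, (B t m F (σ i0) Y *ᵥ (E w)) a = (Y *ᵥ w) (a (σ i0)) := by
        intro a
        rw [B_mulVec]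
        apply Finset.sum_congr rfl
        intro c _
        change _ * w (Function.update a (σ i0) c (σ i0)) = _
        rw [Function.update_self]
      have hR : ∀ a : Fin t → Fin m, (B t m F i0 (Matrix.single m0 m0 1) *ᵥ (E w)) a =
          (if a i0 = m0 then 1 else 0) * w (a (σ i0)) := by
        intro a
        rw [B_mulVec, Finset.sum_eq_single m0]
        · change Matrix.single m0 m0 1 (a i0) m0 * w (Function.update a i0 m0 (σ i0)) = _
          rw [Function.update_of_ne hj, Matrix.single_apply]
          simp [eq_comm]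
        · intro c _ hc
          rw [Matrix.single_apply, if_neg (fun h => hc h.2.symm), zero_mul]
        · intro hh; exact absurd (Finset.mem_univ _) hh
      have h9 := congrFun h8 (Function.update (fun _ => k) i0 m0)
      have h10 := congrFun h8 (Function.update (fun _ => k) i0 m1)
      rw [hL, hR, Function.update_self, Function.update_of_ne hj, if_pos rfl, one_mul] at h9
      rw [hL, hR, Function.update_self, Function.update_of_ne hj, if_neg hm01.symm, zero_mul] at h10
      rw [h9] at h10
      exact hk h10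
  obtain ⟨c, hc⟩ := key (Matrix.single m0 m0 1)
  have h3 : cr e P (B t m F i0 (Matrix.single m0 m0 1)) = cr e P (algebraMap F _ c) := by
    rw [hc]; exact ((cr e P).commutes c).symm
  have h4 := (cr e P).injective h3
  have hval : ∀ a : Fin t → Fin m, (B t m F i0 (Matrix.single m0 m0 1) *ᵥ (fun _ => (1 : F))) a =
      (if a i0 = m0 then 1 else 0) := by
    intro a
    rw [B_mulVec, Finset.sum_eq_single m0]
    · rw [Matrix.single_apply]; simp [eq_comm]
    · intro c _ hc
      rw [Matrix.single_apply, if_neg (fun h => hc h.2.symm), zero_mul]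
    · intro hh; exact absurd (Finset.mem_univ _) hh
  have hval2 : ∀ a : Fin t → Fin m, ((algebraMap F (Matrix (Fin t → Fin m) (Fin t → Fin m) F) c) *ᵥ (fun _ => (1 : F))) a = c := by
    intro a
    rw [Algebra.algebraMap_eq_smul_one, Matrix.smul_mulVec, Matrix.one_mulVec]
    simp
  have h5 := hval (fun _ => m0)
  have h6 := hval (fun _ => m1)
  rw [h4, hval2, if_pos rfl] at h5
  rw [h4, hval2, if_neg hm01.symm] at h6
  rw [h5] at h6
  exact one_ne_zero h6

end H97.AschSL2
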