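import Mathlib
import Cfsg.Agent.Lib.H97.AschLinear

/-!
Aschbacher library, part 25: forms and tensor decompositions.
-/

set_option autoImplicit false
set_option linter.unusedSectionVars false

namespace H97.AschTF

open Cfsg Cfsg.Geo Matrix H97.AschRad H97.AschUnits H97.AschSkolem H97.AschCS H97.AschTensor H97.AschEnv
open H97.AschGrp H97.AschNonab H97.AschForm H97.AschTwo
open H97.AschWreath H97.AschWreathNorm H97.AschLinear
open scoped Kronecker

variable {ι : Type} [Fintype ι] [DecidableEq ι] {F : Type*} [Field F]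

/-! ### forms with a given Gram matrix -/

lemma fog_sesq {κ : Type} [Fintype κ] (σ : F ≃+* F) (G : Matrix κ κ F) : IsSesq (ι := κ) σ (formOfGram σ G) where
  add_left x y v := by
    simp only [formOfGram, Pi.add_apply, add_mul, Finset.sum_add_distrib]
  smul_left c x v := by
    simp only [formOfGram, Pi.smul_apply, smul_eq_mul, Finset.mul_sum, mul_assoc]
  add_right v x y := by
    simp only [formOfGram, Pi.add_apply, map_add, mul_add, Finset.sum_add_distrib]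
  smul_right c v x := by
    simp only [formOfGram, Pi.smul_apply, smul_eq_mul, map_mul, Finset.mul_sum]
    exact Finset.sum_congr rfl (fun a _ => Finset.sum_congr rfl (fun b _ => by ring))

lemma fog_single {κ : Type} [Fintype κ] [DecidableEq κ] (σ : F ≃+* F) (G : Matrix κ κ F) (a b : κ) :
    formOfGram σ G (Pi.single a 1) (Pi.single b 1) = G a b := by
  rw [formOfGram, Finset.sum_eq_single a]
  · rw [Finset.sum_eq_single b]
    · simp
    · intro c _ hc
      rw [Pi.single_eq_of_ne hc, map_zero, mul_zero]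
    · intro h; exact absurd (Finset.mem_univ _) h
  · intro c _ hc
    rw [Pi.single_eq_of_ne hc]
    simp
  · intro h; exact absurd (Finset.mem_univ _) h

lemma gram_fog {κ : Type} [Fintype κ] [DecidableEq κ] (σ : F ≃+* F) (G : Matrix κ κ F) :
    gramMatrix (formOfGram σ G) = G := by
  ext a b
  exact fog_single σ G a b

lemma fog_gram {κ : Type} [Fintype κ] [DecidableEq κ] {σ : F ≃+* F} {f : (κ → F) → (κ → F) → F} (h : IsSesq σ f) :
    formOfGram σ (gramMatrix f) = f := by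
  funext x y
  rw [h.eq_sum x y]
  rfl

/-- a form fixed by a full group is zero or nondegenerate -/
theorem nondeg_of_full {κ : Type} [Fintype κ] [DecidableEq κ] {N : Subgroup (GL κ F)} (hfull : Full N) {σ : F ≃+* F}
    {f : (κ → F) → (κ → F) → F} (h : IsSesq σ f) (hN : FixesForm (matrixSet N) f) {u v : κ → F} (huv : f u v ≠ 0) :
    IsNondegenerateForm f := by
  let R1 : Submodule F (κ → F) :=
    { carrier := {v | ∀ x, f v x = 0}
      add_mem' := fun {a b} ha hb x => by rw [h.add_left, ha, hb, add_zero]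
      zero_mem' := fun x => h.zero_left x
      smul_mem' := fun c a ha x => by rw [h.smul_left, ha, mul_zero] }
  let R2 : Submodule F (κ → F) :=
    { carrier := {v | ∀ x, f x v = 0}
      add_mem' := fun {a b} ha hb x => by rw [h.add_right, ha, hb, add_zero]
      zero_mem' := fun x => h.zero_right x
      smul_mem' := fun c a ha x => by rw [h.smul_right, ha, mul_zero] }
  have hback : ∀ x : GL κ F, ∀ w : κ → F, w = (x : Matrix κ κ F) *ᵥ (((x⁻¹ : GL κ F) : Matrix κ κ F) *ᵥ w) := by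
    intro x w
    rw [Matrix.mulVec_mulVec, ← Units.val_mul, mul_inv_cancel, Units.val_one, Matrix.one_mulVec]
  have h1 : R1 = ⊥ := by
    rcases hfull.irr R1 (by
      rintro _ ⟨x, hx, rfl⟩ _ ⟨w, hw, rfl⟩ z
      rw [Matrix.toLin'_apply, hback x z]
      change f ((x : Matrix κ κ F) *ᵥ w) _ = 0
      rw [hN _ ⟨x, hx, rfl⟩]
      exact hw _) with h | h
    · exact h
    · exfalso
      have : u ∈ R1 := by rw [h]; trivial
      exact huv (this v)
  have h2 : R2 = ⊥ := by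
    rcases hfull.irr R2 (by
      rintro _ ⟨x, hx, rfl⟩ _ ⟨w, hw, rfl⟩ z
      rw [Matrix.toLin'_apply, hback x z]
      change f _ ((x : Matrix κ κ F) *ᵥ w) = 0
      rw [hN _ ⟨x, hx, rfl⟩]
      exact hw _) with h | h
    · exact h
    · exfalso
      have : v ∈ R2 := by rw [h]; trivial
      exact huv (this u)
  intro w hw
  constructor
  · by_contra hcon
    push Not at hcon
    have : w ∈ R2 := hcon
    rw [h2, Submodule.mem_bot] at this
    exact hw this
  · by_contra hcon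
    push Not at hcon
    have : w ∈ R1 := hcon
    rw [h1, Submodule.mem_bot] at this
    exact hw this

/-! ### projection of a group in tensor position to the first factor -/

section proj

variable {κ₁ κ₂ : Type} [Fintype κ₁] [DecidableEq κ₁] [Fintype κ₂] [DecidableEq κ₂]

lemma kron_inv (a : GL κ₁ F) (b : GL κ₂ F) :
    ((a : Matrix κ₁ κ₁ F) ⊗ₖ (b : Matrix κ₂ κ₂ F)) *
      (((a⁻¹ : GL κ₁ F) : Matrix κ₁ κ₁ F) ⊗ₖ ((b⁻¹ : GL κ₂ F) : Matrix κ₂ κ₂ F)) = 1 := by
  rw [← Matrix.mul_kronecker_mul, ← Units.val_mul, ← Units.val_mul, mul_inv_cancel, mul_inv_cancel,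
    Units.val_one, Units.val_one, Matrix.one_kronecker_one]

lemma inv_of_kron {e : ι ≃ κ₁ × κ₂} {P g : GL ι F} {a : GL κ₁ F} {b : GL κ₂ F}
    (h : (g : Matrix ι ι F) = cr e P ((a : Matrix κ₁ κ₁ F) ⊗ₖ (b : Matrix κ₂ κ₂ F))) :
    ((g⁻¹ : GL ι F) : Matrix ι ι F) =
      cr e P (((a⁻¹ : GL κ₁ F) : Matrix κ₁ κ₁ F) ⊗ₖ ((b⁻¹ : GL κ₂ F) : Matrix κ₂ κ₂ F)) := by
  have h1 : (g : Matrix ι ι F) * cr e P (((a⁻¹ : GL κ₁ F) : Matrix κ₁ κ₁ F) ⊗ₖ
      ((b⁻¹ : GL κ₂ F) : Matrix κ₂ κ₂ F)) = 1 := by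
    rw [h, ← map_mul, kron_inv, map_one]
  calc ((g⁻¹ : GL ι F) : Matrix ι ι F) = ((g⁻¹ : GL ι F) : Matrix ι ι F) * ((g : Matrix ι ι F) *
        cr e P (((a⁻¹ : GL κ₁ F) : Matrix κ₁ κ₁ F) ⊗ₖ ((b⁻¹ : GL κ₂ F) : Matrix κ₂ κ₂ F))) := by rw [h1, mul_one]
    _ = _ := by rw [← mul_assoc, ← Units.val_mul, inv_mul_cancel, Units.val_one, one_mul]

/-- the projection to the first factor of the part of `N` acting only there -/
def projSub (e : ι ≃ κ₁ × κ₂) (P : GL ι F) (N : Subgroup (GL ι F)) : Subgroup (GL κ₁ F) where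
  carrier := {a | ∃ n ∈ N, (n : Matrix ι ι F) = cr e P ((a : Matrix κ₁ κ₁ F) ⊗ₖ (1 : Matrix κ₂ κ₂ F))}
  one_mem' := ⟨1, N.one_mem, by rw [Units.val_one, Units.val_one, Matrix.one_kronecker_one, map_one]⟩
  mul_mem' := by
    rintro a b ⟨n, hn, h1⟩ ⟨m, hm, h2⟩
    exact ⟨n * m, N.mul_mem hn hm, by
      rw [Units.val_mul, Units.val_mul, h1, h2, ← map_mul, ← Matrix.mul_kronecker_mul, mul_one]⟩
  inv_mem' := by
    rintro a ⟨n, hn, h1⟩
    refine ⟨n⁻¹, N.inv_mem hn, ?_⟩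
    have := inv_of_kron (b := (1 : GL κ₂ F)) h1
    rw [inv_one, Units.val_one] at this
    exact this

lemma kron_one_injective [Nonempty κ₂] {X Y : Matrix κ₁ κ₁ F} {e : ι ≃ κ₁ × κ₂} {P : GL ι F}
    (h : cr e P (X ⊗ₖ (1 : Matrix κ₂ κ₂ F)) = cr e P (Y ⊗ₖ (1 : Matrix κ₂ κ₂ F))) : X = Y := by
  have h1 := (cr e P).injective h
  obtain ⟨k⟩ := ‹Nonempty κ₂›
  ext i j
  have h2 := congrFun (congrFun h1 (i, k)) (j, k)
  simpa [Matrix.kroneckerMap_apply] using h2

theorem full_projSub [Nonempty κ₂] (e : ι ≃ κ₁ × κ₂) (P : GL ι F) (N : Subgroup (GL ι F))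
    (hN : ∀ X, X ∈ env N ↔ ∃ Y : Matrix κ₁ κ₁ F, X = cr e P (Y ⊗ₖ (1 : Matrix κ₂ κ₂ F))) : Full (projSub e P N) := by
  have hunit : ∀ n ∈ N, ∃ a ∈ projSub e P N,
      (n : Matrix ι ι F) = cr e P ((a : Matrix κ₁ κ₁ F) ⊗ₖ (1 : Matrix κ₂ κ₂ F)) := by
    intro n hn
    obtain ⟨Y, hY⟩ := (hN n).mp (mem_env hn)
    obtain ⟨Y', hY'⟩ := (hN _).mp (mem_env (N.inv_mem hn))
    have h1 : cr e P ((Y * Y') ⊗ₖ (1 : Matrix κ₂ κ₂ F)) = cr e P ((1 : Matrix κ₁ κ₁ F) ⊗ₖ (1 : Matrix κ₂ κ₂ F)) := by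
      rw [Matrix.one_kronecker_one, map_one]
      have : (Y * Y') ⊗ₖ (1 : Matrix κ₂ κ₂ F) = (Y ⊗ₖ (1 : Matrix κ₂ κ₂ F)) * (Y' ⊗ₖ (1 : Matrix κ₂ κ₂ F)) := by
        rw [← Matrix.mul_kronecker_mul, mul_one]
      rw [this, map_mul, ← hY, ← hY', ← Units.val_mul, mul_inv_cancel, Units.val_one]
    have h2 : cr e P ((Y' * Y) ⊗ₖ (1 : Matrix κ₂ κ₂ F)) = cr e P ((1 : Matrix κ₁ κ₁ F) ⊗ₖ (1 : Matrix κ₂ κ₂ F)) := by
      rw [Matrix.one_kronecker_one, map_one]
      have : (Y' * Y) ⊗ₖ (1 : Matrix κ₂ κ₂ F) = (Y' ⊗ₖ (1 : Matrix κ₂ κ₂ F)) * (Y ⊗ₖ (1 : Matrix κ₂ κ₂ F)) := by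
        rw [← Matrix.mul_kronecker_mul, mul_one]
      rw [this, map_mul, ← hY, ← hY', ← Units.val_mul, inv_mul_cancel, Units.val_one]
    exact ⟨⟨Y, Y', kron_one_injective h1, kron_one_injective h2⟩, ⟨n, hn, hY⟩, hY⟩
  rw [Full, eq_top_iff]
  intro X _
  have hX : cr e P (X ⊗ₖ (1 : Matrix κ₂ κ₂ F)) ∈ env N := (hN _).mpr ⟨X, rfl⟩
  obtain ⟨Y, hY, hYX⟩ := env_induction (p := fun x => ∃ Y ∈ env (projSub e P N), x = cr e P (Y ⊗ₖ (1 : Matrix κ₂ κ₂ F)))
    (fun n hn => by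
      obtain ⟨a, ha, h⟩ := hunit n hn
      exact ⟨a, mem_env ha, h⟩)
    (by
      rintro x y ⟨Y, hY, rfl⟩ ⟨Z, hZ, rfl⟩
      exact ⟨Y + Z, (env _).add_mem hY hZ, by rw [Matrix.add_kronecker, map_add]⟩)
    (by
      rintro c x ⟨Y, hY, rfl⟩
      exact ⟨c • Y, (env _).smul_mem hY c, by rw [Matrix.smul_kronecker, map_smul]⟩)
    ⟨0, (env _).zero_mem, by rw [Matrix.zero_kronecker, map_zero]⟩ hX
  rw [kron_one_injective hYX]
  exact hY

end proj

lemma cr_mulVec' {κ : Type} [Fintype κ] [DecidableEq κ] (e : ι ≃ κ) (P : GL ι F) (X : Matrix κ κ F) (u : κ → F) :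
    (cr e P X) *ᵥ ((P : Matrix ι ι F) *ᵥ (u ∘ e)) = (P : Matrix ι ι F) *ᵥ ((X *ᵥ u) ∘ e) := by
  rw [cr_apply, Matrix.mulVec_mulVec, mul_assoc, ← Units.val_mul, inv_mul_cancel, Units.val_one, mul_one,
    ← Matrix.mulVec_mulVec]
  congr 1
  ext i
  simp only [Function.comp, mulVec, dotProduct, Matrix.submatrix_apply]
  exact Fintype.sum_equiv e _ _ (fun x => rfl)

/-- the form in coordinates -/
def coF {κ : Type} (e : ι ≃ κ) (P : GL ι F) (f : (ι → F) → (ι → F) → F) : (κ → F) → (κ → F) → F :=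
  fun x y => f ((P : Matrix ι ι F) *ᵥ (x ∘ e)) ((P : Matrix ι ι F) *ᵥ (y ∘ e))

lemma coF_sesq {κ : Type} [Fintype κ] [DecidableEq κ] (e : ι ≃ κ) (P : GL ι F) {σ : F ≃+* F}
    {f : (ι → F) → (ι → F) → F} (h : IsSesq σ f) : IsSesq σ (coF e P f) where
  add_left x y v := by
    have : (x + y) ∘ e = x ∘ e + y ∘ e := rfl
    rw [coF, this, Matrix.mulVec_add, h.add_left]; rfl
  smul_left c x v := by
    have : (c • x) ∘ e = c • (x ∘ e) := rfl
    rw [coF, this, Matrix.mulVec_smul, h.smul_left]; rfl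
  add_right v x y := by
    have : (x + y) ∘ e = x ∘ e + y ∘ e := rfl
    rw [coF, this, Matrix.mulVec_add, h.add_right]; rfl
  smul_right c v x := by
    have : (c • x) ∘ e = c • (x ∘ e) := rfl
    rw [coF, this, Matrix.mulVec_smul, h.smul_right]; rfl

lemma coF_fix {κ : Type} [Fintype κ] [DecidableEq κ] (e : ι ≃ κ) (P : GL ι F) {f : (ι → F) → (ι → F) → F}
    {g : Matrix ι ι F} {X : Matrix κ κ F} (hgX : g = cr e P X) (hg : ∀ u v, f (g *ᵥ u) (g *ᵥ v) = f u v) (x y : κ → F) :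
    coF e P f (X *ᵥ x) (X *ᵥ y) = coF e P f x y := by
  rw [coF, coF, ← cr_mulVec', ← cr_mulVec', ← hgX, hg]

/-- the vectors `x ⊗ e_k` -/
def tl {κ₁ κ₂ : Type} [DecidableEq κ₂] (k : κ₂) (x : κ₁ → F) : κ₁ × κ₂ → F := fun p => if p.2 = k then x p.1 else 0

lemma kron_tl {κ₁ κ₂ : Type} [Fintype κ₁] [DecidableEq κ₁] [Fintype κ₂] [DecidableEq κ₂] (Y : Matrix κ₁ κ₁ F)
    (k : κ₂) (x : κ₁ → F) : (Y ⊗ₖ (1 : Matrix κ₂ κ₂ F)) *ᵥ (tl k x) = tl k (Y *ᵥ x) := by
  ext ⟨i, l⟩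
  rw [mulVec, dotProduct, Fintype.sum_prod_type]
  simp only [tl, Matrix.kroneckerMap_apply]
  by_cases hl : l = k
  · subst hl
    rw [if_pos rfl, mulVec, dotProduct]
    refine Finset.sum_congr rfl (fun j _ => ?_)
    rw [Finset.sum_eq_single l]
    · rw [if_pos rfl, Matrix.one_apply_eq, mul_one]
    · intro b _ hb
      rw [if_neg hb, mul_zero]
    · intro h; exact absurd (Finset.mem_univ _) h
  · rw [if_neg hl]
    apply Finset.sum_eq_zero
    intro j _
    apply Finset.sum_eq_zero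
    intro b _
    by_cases hb : b = k
    · rw [Matrix.one_apply_ne (by rw [hb]; exact hl), mul_zero, zero_mul]
    · rw [if_neg hb, mul_zero]

/-- **Tensor factorisation of the form**, two factors. -/
theorem tensor_form {d m : ℕ} (hd : 0 < d) (hm : 0 < m) (e : ι ≃ Fin d × Fin m) (P : GL ι F) {N : Subgroup (GL ι F)}
    (hN : ∀ X, X ∈ env N ↔ ∃ Y : Matrix (Fin d) (Fin d) F, X = cr e P (Y ⊗ₖ (1 : Matrix (Fin m) (Fin m) F)))
    {σ : F ≃+* F} {f : (ι → F) → (ι → F) → F} (h : IsSesq σ f) (hfix : FixesForm (matrixSet N) f)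
    {u v : ι → F} (huv : f u v ≠ 0) :
    ∃ (G₁ : Matrix (Fin d) (Fin d) F) (G₂ : Matrix (Fin m) (Fin m) F),
      FixesForm (matrixSet (projSub e P N)) (formOfGram σ G₁) ∧ IsNondegenerateForm (formOfGram σ G₁) ∧
      ∀ x y, coF e P f x y = formOfGram σ (G₁ ⊗ₖ G₂) x y := by
  classical
  have hne1 : Nonempty (Fin d) := ⟨⟨0, hd⟩⟩
  have hne2 : Nonempty (Fin m) := ⟨⟨0, hm⟩⟩
  have hfull : Full (projSub e P N) := full_projSub e P N hN
  have hco := coF_sesq e P h
  let fb : Fin m → Fin m → (Fin d → F) → (Fin d → F) → F := fun k l x y => coF e P f (tl k x) (tl l y)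
  have hfb : ∀ k l, IsSesq σ (fb k l) := by
    intro k l
    have hadd : ∀ (k : Fin m) (x y : Fin d → F), tl k (x + y) = tl k x + tl k y := by
      intro k x y; ext p
      by_cases hp : p.2 = k <;> simp [tl, hp]
    have hsmul : ∀ (k : Fin m) (c : F) (x : Fin d → F), tl k (c • x) = c • tl k x := by
      intro k c x; ext p
      by_cases hp : p.2 = k <;> simp [tl, hp]
    exact ⟨fun x y v => by simp only [fb]; rw [hadd, hco.add_left], fun c x v => by simp only [fb]; rw [hsmul, hco.smul_left],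
      fun v x y => by simp only [fb]; rw [hadd, hco.add_right], fun c v x => by simp only [fb]; rw [hsmul, hco.smul_right]⟩
  have hfbfix : ∀ k l, FixesForm (matrixSet (projSub e P N)) (fb k l) := by
    rintro k l _ ⟨a, ⟨n, hn, hna⟩, rfl⟩ x y
    simp only [fb]
    rw [← kron_tl, ← kron_tl]
    exact coF_fix e P hna (fun u v => hfix _ ⟨n, hn, rfl⟩ u v) _ _
  -- some block is nonzero
  have hsingle : ∀ (a : Fin d) (k : Fin m), (Pi.single (a, k) (1 : F) : Fin d × Fin m → F) = tl k (Pi.single a 1) := by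
    intro a k
    ext ⟨b, l⟩
    simp only [tl, Pi.single_apply, Prod.mk.injEq]
    by_cases hl : l = k <;> simp [hl]
  have hex : ∃ k l a b, fb k l (Pi.single a 1) (Pi.single b 1) ≠ 0 := by
    by_contra hcon
    push Not at hcon
    apply huv
    have hPinv : ∀ w : ι → F, ∃ x : Fin d × Fin m → F, w = (P : Matrix ι ι F) *ᵥ (x ∘ e) := by
      intro w
      refine ⟨(((P⁻¹ : GL ι F) : Matrix ι ι F) *ᵥ w) ∘ e.symm, ?_⟩
      have : ((((P⁻¹ : GL ι F) : Matrix ι ι F) *ᵥ w) ∘ e.symm) ∘ e = ((P⁻¹ : GL ι F) : Matrix ι ι F) *ᵥ w := by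
        ext i; simp
      rw [this, Matrix.mulVec_mulVec, ← Units.val_mul, mul_inv_cancel, Units.val_one, Matrix.one_mulVec]
    obtain ⟨x, rfl⟩ := hPinv u
    obtain ⟨y, rfl⟩ := hPinv v
    change coF e P f x y = 0
    rw [hco.eq_sum]
    apply Finset.sum_eq_zero
    rintro ⟨a, k⟩ _
    apply Finset.sum_eq_zero
    rintro ⟨b, l⟩ _
    rw [hsingle, hsingle]
    have := hcon k l a b
    simp only [fb] at this
    rw [this, mul_zero, zero_mul]
  obtain ⟨k0, l0, a0, b0, h0⟩ := hex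
  have hnd := nondeg_of_full hfull (hfb k0 l0) (hfbfix k0 l0) h0
  have hprop : ∀ k l, ∃ c : F, ∀ x y, fb k l x y = c * fb k0 l0 x y := fun k l =>
    proportional hfull (hfb k0 l0) (hfb k l) (fun v hv => (hnd v hv).2) (hfbfix k0 l0) (hfbfix k l)
  choose c hc using hprop
  refine ⟨gramMatrix (fb k0 l0), fun k l => c k l, ?_, ?_, ?_⟩
  · rw [fog_gram (hfb k0 l0)]; exact hfbfix k0 l0
  · rw [fog_gram (hfb k0 l0)]; exact hnd
  · intro x y
    rw [hco.eq_sum x y, formOfGram]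
    refine Finset.sum_congr rfl ?_
    rintro ⟨a, k⟩ _
    refine Finset.sum_congr rfl ?_
    rintro ⟨b, l⟩ _
    congr 2
    rw [hsingle, hsingle]
    have := hc k l (Pi.single a 1) (Pi.single b 1)
    simp only [fb] at this
    rw [this, mul_comm]
    rfl

/-! ### nondegeneracy and units -/

lemma fog_eq_bf {κ : Type} [Fintype κ] (σ : F ≃+* F) (G : Matrix κ κ F) (x y : κ → F) :
    formOfGram σ G x y = x ⬝ᵥ (G *ᵥ (fun i => σ (y i))) := by
  simp only [formOfGram, dotProduct, mulVec, Finset.mul_sum, mul_assoc]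

lemma fog_nondeg {κ : Type} [Fintype κ] [DecidableEq κ] (σ : F ≃+* F) {G : Matrix κ κ F} (hG : IsUnit G) :
    IsNondegenerateForm (formOfGram σ G) := by
  obtain ⟨U, rfl⟩ := hG
  intro v hv
  constructor
  · have h1 : ((U : Matrix κ κ F) *ᵥ (fun i => σ (v i))) ≠ 0 := by
      intro h0
      apply hv
      have h2 : (fun i => σ (v i)) = 0 := by
        have := congrArg (fun w => ((U⁻¹ : (Matrix κ κ F)ˣ) : Matrix κ κ F) *ᵥ w) h0
        simpa [Matrix.mulVec_mulVec, ← Units.val_mul] using this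
      ext i
      have h3 : σ (v i) = 0 := congrFun h2 i
      exact σ.injective (by rw [h3, Pi.zero_apply, map_zero])
    obtain ⟨x, hx⟩ := exists_dot_ne h1
    exact ⟨x, by rw [fog_eq_bf]; exact hx⟩
  · have h1 : v ᵥ* (U : Matrix κ κ F) ≠ 0 := by
      intro h0
      apply hv
      have := congrArg (fun w => w ᵥ* ((U⁻¹ : (Matrix κ κ F)ˣ) : Matrix κ κ F)) h0
      simpa [Matrix.vecMul_vecMul, ← Units.val_mul] using this
    obtain ⟨x, hx⟩ := exists_dot_ne h1
    refine ⟨fun i => σ.symm (x i), ?_⟩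
    rw [fog_eq_bf]
    have h2 : (fun i => σ (σ.symm (x i))) = x := by ext i; simp
    rw [h2, Matrix.dotProduct_mulVec, dotProduct_comm]
    exact hx

lemma unit_of_nondeg {κ : Type} [Fintype κ] [DecidableEq κ] (σ : F ≃+* F) {G : Matrix κ κ F}
    (h : IsNondegenerateForm (formOfGram σ G)) : IsUnit G := by
  have h1 := (fog_sesq σ G).isUnit_gram (fun v hv => (h v hv).2)
  have h2 : gram (formOfGram σ G) = G := gram_fog σ G
  rw [h2] at h1
  exact (Matrix.isUnit_transpose G).mp h1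

lemma unit_kron {d m : ℕ} (hd : 0 < d) (hm : 0 < m) {G₁ : Matrix (Fin d) (Fin d) F} {G₂ : Matrix (Fin m) (Fin m) F}
    (h : IsUnit (G₁ ⊗ₖ G₂)) : IsUnit G₁ ∧ IsUnit G₂ := by
  rw [Matrix.isUnit_iff_isUnit_det, Matrix.det_kronecker, Fintype.card_fin, Fintype.card_fin] at h
  rw [Matrix.isUnit_iff_isUnit_det, Matrix.isUnit_iff_isUnit_det]
  have h1 := h.ne_zero
  constructor
  · apply IsUnit.mk0
    intro h0
    rw [h0, zero_pow hm.ne', zero_mul] at h1
    exact h1 rfl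
  · apply IsUnit.mk0
    intro h0
    rw [h0, zero_pow hd.ne', mul_zero] at h1
    exact h1 rfl

lemma coF_nondeg {κ : Type} [Fintype κ] [DecidableEq κ] (e : ι ≃ κ) (P : GL ι F)
    {f : (ι → F) → (ι → F) → F} (h : IsNondegenerateForm f) : IsNondegenerateForm (coF e P f) := by
  have hPinv : ∀ w : ι → F, ∃ x : κ → F, w = (P : Matrix ι ι F) *ᵥ (x ∘ e) := by
    intro w
    refine ⟨(((P⁻¹ : GL ι F) : Matrix ι ι F) *ᵥ w) ∘ e.symm, ?_⟩
    have : ((((P⁻¹ : GL ι F) : Matrix ι ι F) *ᵥ w) ∘ e.symm) ∘ e = ((P⁻¹ : GL ι F) : Matrix ι ι F) *ᵥ w := by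
      ext i; simp
    rw [this, Matrix.mulVec_mulVec, ← Units.val_mul, mul_inv_cancel, Units.val_one, Matrix.one_mulVec]
  intro v hv
  have hv' : (P : Matrix ι ι F) *ᵥ (v ∘ e) ≠ 0 := by
    intro h0
    apply hv
    have h1 := congrArg (fun w => ((P⁻¹ : GL ι F) : Matrix ι ι F) *ᵥ w) h0
    simp only [Matrix.mulVec_mulVec, ← Units.val_mul, inv_mul_cancel, Units.val_one, Matrix.one_mulVec,
      Matrix.mulVec_zero] at h1
    ext i
    have := congrFun h1 (e.symm i)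
    simpa using this
  obtain ⟨⟨x, hx⟩, ⟨y, hy⟩⟩ := h _ hv'
  obtain ⟨x', rfl⟩ := hPinv x
  obtain ⟨y', rfl⟩ := hPinv y
  exact ⟨⟨x', hx⟩, ⟨y', hy⟩⟩

/-! ### symmetry types of the factors -/

/-- Hilbert 90 for an involution -/
lemma hilbert90 {σ : F ≃+* F} (h2 : ∀ a, σ (σ a) = a) (h1 : σ ≠ RingEquiv.refl F) {c : F} (hc : c * σ c = 1) :
    ∃ l : F, l ≠ 0 ∧ σ l * c = l := by
  by_contra hcon
  push Not at hcon
  have key : ∀ z : F, z + c * σ z = 0 := by
    intro z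
    by_contra hz
    apply hcon _ hz
    rw [map_add, map_mul, h2]
    linear_combination z * hc
  have h3 := key 1
  rw [map_one, mul_one] at h3
  apply h1
  ext z
  have h4 := key z
  rw [RingEquiv.refl_apply]
  have h5 : c = -1 := by linear_combination h3
  rw [h5] at h4
  linear_combination -h4

/-- the conjugate transpose of a form fixed by a full group -/
lemma flip_prop {κ : Type} [Fintype κ] [DecidableEq κ] [Nonempty κ] {N : Subgroup (GL κ F)} (hfull : Full N) {σ : F ≃+* F}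
    (hσ : ∀ a, σ (σ a) = a)
    {f : (κ → F) → (κ → F) → F} (h : IsSesq σ f) (hN : FixesForm (matrixSet N) f) (hnd : IsNondegenerateForm f) :
    ∃ c : F, c * σ c = 1 ∧ ∀ x y, σ (f y x) = c * f x y := by
  have hs : IsSesq σ (fun x y => σ (f y x)) :=
    ⟨fun x y v => by rw [h.add_right, map_add], fun c x v => by rw [h.smul_right, map_mul, hσ],
      fun v x y => by rw [h.add_left, map_add], fun c v x => by rw [h.smul_left, map_mul]⟩
  obtain ⟨c, hc⟩ := proportional hfull h hs (fun v hv => (hnd v hv).2) hN (by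
    intro s hs u v
    simp only []
    rw [hN s hs])
  refine ⟨c, ?_, hc⟩
  obtain ⟨i⟩ := ‹Nonempty κ›
  obtain ⟨x, hx⟩ := (hnd (Pi.single i 1) (by
    intro h0
    have := congrFun h0 i
    simp at this)).2
  have h1 : σ (f x (Pi.single i 1)) = c * f (Pi.single i 1) x := hc (Pi.single i 1) x
  have h2 : σ (f (Pi.single i 1) x) = c * f x (Pi.single i 1) := hc x (Pi.single i 1)
  have h3 := congrArg σ h1
  rw [hσ, map_mul, h2] at h3
  have h4 : f x (Pi.single i 1) ≠ 0 := by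
    intro h0
    rw [h0, mul_zero] at h2
    exact hx (σ.injective (by rw [h2, map_zero]))
  have h5 : (c * σ c) * f x (Pi.single i 1) = 1 * f x (Pi.single i 1) := by
    rw [one_mul]
    linear_combination -h3
  exact mul_right_cancel₀ h4 h5

/-- **Tensor factorisation for reflexive forms**: bilinear case. -/
theorem tensor_bilinear {d m : ℕ} (hd : 0 < d) (hm : 0 < m) (e : ι ≃ Fin d × Fin m) (P : GL ι F) {N : Subgroup (GL ι F)}
    (hN : ∀ X, X ∈ env N ↔ ∃ Y : Matrix (Fin d) (Fin d) F, X = cr e P (Y ⊗ₖ (1 : Matrix (Fin m) (Fin m) F)))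
    {f : (ι → F) → (ι → F) → F} (h : IsBilinearForm f) (hnd : IsNondegenerateForm f) (hfix : FixesForm (matrixSet N) f)
    {ε : F} (hε : ∀ v w, f v w = ε * f w v) :
    ∃ (G₁ : Matrix (Fin d) (Fin d) F) (G₂ : Matrix (Fin m) (Fin m) F) (c : F), IsUnit G₁ ∧ IsUnit G₂ ∧
      (c = 1 ∨ c = -1) ∧ G₁ᵀ = c • G₁ ∧ G₂ᵀ = (ε * c) • G₂ ∧
      FixesForm (matrixSet (projSub e P N)) (formOfGram id G₁) ∧
      ∀ x y, coF e P f x y = formOfGram id (G₁ ⊗ₖ G₂) x y := by
  classical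
  have hne1 : Nonempty (Fin d) := ⟨⟨0, hd⟩⟩
  have hne2 : Nonempty (Fin m) := ⟨⟨0, hm⟩⟩
  have hne : Nonempty ι := ⟨e.symm (⟨0, hd⟩, ⟨0, hm⟩)⟩
  obtain ⟨i⟩ := hne
  have hi : (Pi.single i (1 : F) : ι → F) ≠ 0 := by
    intro h0
    have := congrFun h0 i
    simp at this
  obtain ⟨v0, hv0⟩ := (hnd _ hi).2
  have hs : IsSesq (RingEquiv.refl F) f := IsSesq.of_bilinear h
  obtain ⟨G₁, G₂, hfix1, hnd1, hf⟩ := tensor_form hd hm e P hN hs hfix hv0
  have hfull : Full (projSub e P N) := full_projSub e P N hN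
  obtain ⟨c, hc1, hc⟩ := flip_prop hfull (fun a => rfl) (fog_sesq (RingEquiv.refl F) G₁) hfix1 hnd1
  have hcc : c = 1 ∨ c = -1 := by
    have : c * c = 1 := hc1
    exact mul_self_eq_one_iff.mp this
  have hu1 : IsUnit G₁ := unit_of_nondeg (RingEquiv.refl F) hnd1
  have hcoF : coF e P f = formOfGram (RingEquiv.refl F) (G₁ ⊗ₖ G₂) := by
    funext x y; exact hf x y
  have hu : IsUnit (G₁ ⊗ₖ G₂) := unit_of_nondeg (RingEquiv.refl F) (by rw [← hcoF]; exact coF_nondeg e P hnd)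
  have hG1 : G₁ᵀ = c • G₁ := by
    ext a b
    have h1 := hc (Pi.single a 1) (Pi.single b 1)
    rw [fog_single, fog_single] at h1
    exact h1
  have hc0 : c ≠ 0 := by
    rintro rfl
    rw [zero_mul] at hc1
    exact zero_ne_one hc1
  refine ⟨G₁, G₂, c, hu1, (unit_kron hd hm hu).2, hcc, hG1, ?_, hfix1, hf⟩
  -- symmetry of the second factor
  have hex : ∃ a b, G₁ a b ≠ 0 := by
    by_contra hcon
    push Not at hcon
    have h0 : G₁ = 0 := by ext a b; exact hcon a b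
    rw [h0] at hu1
    exact not_isUnit_zero hu1
  obtain ⟨a, b, hab⟩ := hex
  have hba : G₁ b a = c * G₁ a b := congrFun (congrFun hG1 a) b
  ext k l
  have h1 : coF e P f (Pi.single (a, l) 1) (Pi.single (b, k) 1) = ε * coF e P f (Pi.single (b, k) 1) (Pi.single (a, l) 1) :=
    hε _ _
  rw [hcoF, fog_single, fog_single, Matrix.kroneckerMap_apply, Matrix.kroneckerMap_apply, hba] at h1
  rw [Matrix.transpose_apply, Matrix.smul_apply, smul_eq_mul]
  apply mul_left_cancel₀ hab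
  linear_combination h1

/-- **Tensor factorisation for hermitian forms.** -/
theorem tensor_hermitian {d m : ℕ} (hd : 0 < d) (hm : 0 < m) (e : ι ≃ Fin d × Fin m) (P : GL ι F) {N : Subgroup (GL ι F)}
    (hN : ∀ X, X ∈ env N ↔ ∃ Y : Matrix (Fin d) (Fin d) F, X = cr e P (Y ⊗ₖ (1 : Matrix (Fin m) (Fin m) F)))
    {σ : F ≃+* F} {f : (ι → F) → (ι → F) → F} (h : IsUnitaryForm σ f) (hfix : FixesForm (matrixSet N) f) :
    ∃ (G₁ : Matrix (Fin d) (Fin d) F) (G₂ : Matrix (Fin m) (Fin m) F),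
      IsUnitaryForm σ (formOfGram σ G₁) ∧ IsUnitaryForm σ (formOfGram σ G₂) ∧
      FixesForm (matrixSet (projSub e P N)) (formOfGram σ G₁) ∧
      ∀ x y, coF e P f x y = formOfGram σ (G₁ ⊗ₖ G₂) x y := by
  classical
  have hne1 : Nonempty (Fin d) := ⟨⟨0, hd⟩⟩
  have hne2 : Nonempty (Fin m) := ⟨⟨0, hm⟩⟩
  have hne : Nonempty ι := ⟨e.symm (⟨0, hd⟩, ⟨0, hm⟩)⟩
  obtain ⟨i⟩ := hne
  have hi : (Pi.single i (1 : F) : ι → F) ≠ 0 := by
    intro h0
    have := congrFun h0 i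
    simp at this
  obtain ⟨v0, hv0⟩ := (h.nondegenerate _ hi).2
  have hs : IsSesq σ f := IsSesq.of_unitary h
  obtain ⟨G₁, G₂, hfix1, hnd1, hf⟩ := tensor_form hd hm e P hN hs hfix hv0
  have hfull : Full (projSub e P N) := full_projSub e P N hN
  obtain ⟨c, hc1, hc⟩ := flip_prop hfull h.involutive (fog_sesq σ G₁) hfix1 hnd1
  obtain ⟨l, hl0, hl⟩ := hilbert90 h.involutive h.ne_refl hc1
  have hscale : ∀ {κ : Type} [Fintype κ] (a : F) (G : Matrix κ κ F) (x y : κ → F),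
      formOfGram σ (a • G) x y = a * formOfGram σ G x y := by
    intro κ _ a G x y
    simp only [formOfGram, Matrix.smul_apply, smul_eq_mul, Finset.mul_sum]
    exact Finset.sum_congr rfl (fun _ _ => Finset.sum_congr rfl (fun _ _ => by ring))
  have hcoF : coF e P f = formOfGram σ (G₁ ⊗ₖ G₂) := by
    funext x y; exact hf x y
  have hu1 : IsUnit G₁ := unit_of_nondeg σ hnd1
  have hu : IsUnit (G₁ ⊗ₖ G₂) := unit_of_nondeg σ (by rw [← hcoF]; exact coF_nondeg e P h.nondegenerate)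
  have hu2 := (unit_kron hd hm hu).2
  have hunits : ∀ {κ : Type} [Fintype κ] [DecidableEq κ] (a : F) (G : Matrix κ κ F), a ≠ 0 → IsUnit G → IsUnit (a • G) := by
    intro κ _ _ a G ha hG
    have : a • G = (algebraMap F (Matrix κ κ F) a) * G := by
      rw [Algebra.algebraMap_eq_smul_one, Matrix.smul_mul, one_mul]
    rw [this]
    exact ((IsUnit.mk0 a ha).map _).mul hG
  have herm1 : ∀ x y, formOfGram σ (l • G₁) x y = σ (formOfGram σ (l • G₁) y x) := by
    intro x y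
    rw [hscale, hscale, map_mul, hc]
    linear_combination (-(formOfGram σ G₁ x y)) * hl
  have hkr : (l • G₁) ⊗ₖ (l⁻¹ • G₂) = G₁ ⊗ₖ G₂ := by
    rw [Matrix.smul_kronecker, Matrix.kronecker_smul, smul_smul, mul_inv_cancel₀ hl0, one_smul]
  have hfog : ∀ {κ : Type} [Fintype κ] [DecidableEq κ] (G : Matrix κ κ F), IsUnit G →
      (∀ a b, G a b = σ (G b a)) → IsUnitaryForm σ (formOfGram σ G) := by
    intro κ _ _ G hG hsym
    refine ⟨h.ne_refl, h.involutive, (fog_sesq σ G).add_left, (fog_sesq σ G).smul_left, ?_, fog_nondeg σ hG⟩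
    intro v w
    simp only [formOfGram, map_sum, map_mul, h.involutive]
    rw [Finset.sum_comm]
    refine Finset.sum_congr rfl (fun b _ => Finset.sum_congr rfl (fun a _ => ?_))
    rw [hsym a b]
    ring
  have hG1 : ∀ a b, (l • G₁) a b = σ ((l • G₁) b a) := by
    intro a b
    have h1 := herm1 (Pi.single a 1) (Pi.single b 1)
    rwa [fog_single, fog_single] at h1
  have hex : ∃ a b, (l • G₁) a b ≠ 0 := by
    by_contra hcon
    push Not at hcon
    have h0 : l • G₁ = 0 := by ext a b; exact hcon a b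
    have := hunits l G₁ hl0 hu1
    rw [h0] at this
    exact not_isUnit_zero this
  obtain ⟨a, b, hab⟩ := hex
  refine ⟨l • G₁, l⁻¹ • G₂, hfog _ (hunits l G₁ hl0 hu1) hG1, hfog _ (hunits _ G₂ (inv_ne_zero hl0) hu2) ?_, ?_, ?_⟩
  · intro k m'
    have h1 : coF e P f (Pi.single (a, k) 1) (Pi.single (b, m') 1) =
        σ (coF e P f (Pi.single (b, m') 1) (Pi.single (a, k) 1)) := h.herm _ _
    rw [hcoF, fog_single, fog_single, ← hkr, Matrix.kroneckerMap_apply, Matrix.kroneckerMap_apply, map_mul,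
      ← hG1 a b] at h1
    exact mul_left_cancel₀ hab h1
  · intro s hs u v
    rw [hscale, hscale, hfix1 s hs]
  · intro x y
    rw [hf, hkr]

end H97.AschTF
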