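import Mathlib
import Cfsg.Agent.Lib.H97.AschTF
import Cfsg.Agent.Lib.H97.AschSL2

/-!
Aschbacher library, part 26: forms on tensor powers.
-/

set_option autoImplicit false
set_option linter.unusedSectionVars false

namespace H97.AschTP

open Cfsg Cfsg.Geo Matrix H97.AschRad H97.AschUnits H97.AschSkolem H97.AschCS H97.AschTensor H97.AschEnv
open H97.AschGrp H97.AschNonab H97.AschForm H97.AschTwo
open H97.AschWreath H97.AschWreathNorm H97.AschLinear H97.AschTF H97.AschSL2
open scoped Kronecker

variable {ι : Type} [Fintype ι] [DecidableEq ι] {F : Type*} [Field F]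

/-- the vectors with all coordinates but the i-th fixed to `a` -/
def tli {t d : ℕ} (i : Fin t) (a : Fin t → Fin d) (x : Fin d → F) : (Fin t → Fin d) → F :=
  fun b => if (∀ j, j ≠ i → b j = a j) then x (b i) else 0

lemma B_tli {t d : ℕ} (i : Fin t) (a : Fin t → Fin d) (Y : Matrix (Fin d) (Fin d) F) (x : Fin d → F) :
    B t d F i Y *ᵥ (tli i a x) = tli i a (Y *ᵥ x) := by
  ext b
  rw [B_mulVec]
  by_cases hb : ∀ j, j ≠ i → b j = a j
  · have h1 : tli i a (Y *ᵥ x) b = (Y *ᵥ x) (b i) := by rw [tli, if_pos hb]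
    rw [h1, mulVec, dotProduct]
    refine Finset.sum_congr rfl (fun c _ => ?_)
    have h2 : ∀ j, j ≠ i → (Function.update b i c) j = a j := by
      intro j hj
      rw [Function.update_of_ne hj]; exact hb j hj
    rw [tli, if_pos h2, Function.update_self]
  · have h1 : tli i a (Y *ᵥ x) b = 0 := by rw [tli, if_neg hb]
    rw [h1]
    apply Finset.sum_eq_zero
    intro c _
    have h2 : ¬ ∀ j, j ≠ i → (Function.update b i c) j = a j := by
      intro h; apply hb
      intro j hj
      have := h j hj
      rwa [Function.update_of_ne hj] at this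
    rw [tli, if_neg h2, mul_zero]

lemma tli_single {t d : ℕ} (i : Fin t) (a : Fin t → Fin d) (u : Fin d) :
    tli i a (Pi.single u (1 : F)) = Pi.single (Function.update a i u) 1 := by
  ext b
  by_cases hb : ∀ j, j ≠ i → b j = a j
  · rw [tli, if_pos hb]
    by_cases hu : b i = u
    · have h1 : b = Function.update a i u := by
        funext j
        by_cases hj : j = i
        · subst hj; rw [Function.update_self, hu]
        · rw [Function.update_of_ne hj, hb j hj]
      rw [← h1, Pi.single_eq_same, hu, Pi.single_eq_same]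
    · rw [Pi.single_eq_of_ne hu, Pi.single_eq_of_ne]
      intro h; apply hu
      rw [h, Function.update_self]
  · rw [tli, if_neg hb, Pi.single_eq_of_ne]
    intro h; apply hb
    intro j hj
    rw [h, Function.update_of_ne hj]

lemma tli_update {t d : ℕ} (i : Fin t) (a : Fin t → Fin d) (u : Fin d) (x : Fin d → F) :
    tli i (Function.update a i u) x = tli i a x := by
  ext b
  rw [tli, tli]
  have : (∀ j, j ≠ i → b j = Function.update a i u j) ↔ (∀ j, j ≠ i → b j = a j) := by
    constructor
    · intro h j hj; rw [h j hj, Function.update_of_ne hj]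
    · intro h j hj; rw [h j hj, Function.update_of_ne hj]
  by_cases h : ∀ j, j ≠ i → b j = a j
  · rw [if_pos (this.mpr h), if_pos h]
  · rw [if_neg (fun h' => h (this.mp h')), if_neg h]

/-- the form with Gram matrix a tensor power -/
def powForm {t d : ℕ} (σ : F → F) (G : Matrix (Fin d) (Fin d) F) (x y : (Fin t → Fin d) → F) : F :=
  ∑ a, ∑ b, x a * (∏ i, G (a i) (b i)) * σ (y b)

/-- **Tensor power factorisation of a form.** -/
theorem power_form {t d : ℕ} (ht : 0 < t) (hd : 0 < d) (e : ι ≃ (Fin t → Fin d)) (P : GL ι F)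
    {N₀ : Subgroup (GL (Fin d) F)} (hfull : Full N₀) {σ : F ≃+* F} {f : (ι → F) → (ι → F) → F} (h : IsSesq σ f)
    (hinv : ∀ i, ∀ a ∈ N₀, ∀ u v, f ((cr e P (B t d F i (a : Matrix (Fin d) (Fin d) F))) *ᵥ u)
      ((cr e P (B t d F i (a : Matrix (Fin d) (Fin d) F))) *ᵥ v) = f u v)
    {u v : ι → F} (huv : f u v ≠ 0) :
    ∃ (G : Matrix (Fin d) (Fin d) F) (C : F), C ≠ 0 ∧ FixesForm (matrixSet N₀) (formOfGram σ G) ∧
      IsNondegenerateForm (formOfGram σ G) ∧ ∀ x y, coF e P f x y = C * powForm σ G x y := by
  classical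
  have hne1 : Nonempty (Fin d) := ⟨⟨0, hd⟩⟩
  have hco := coF_sesq e P h
  let i0 : Fin t := ⟨0, ht⟩
  let fb : Fin t → (Fin t → Fin d) → (Fin t → Fin d) → (Fin d → F) → (Fin d → F) → F :=
    fun i a b x y => coF e P f (tli i a x) (tli i b y)
  have hfb : ∀ i a b, IsSesq σ (fb i a b) := by
    intro i a b
    have hadd : ∀ (i : Fin t) (a : Fin t → Fin d) (x y : Fin d → F), tli i a (x + y) = tli i a x + tli i a y := by
      intro i a x y; ext p
      by_cases hp : ∀ j, j ≠ i → p j = a j
      · rw [Pi.add_apply, tli, tli, tli, if_pos hp, if_pos hp, if_pos hp]; rfl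
      · rw [Pi.add_apply, tli, tli, tli, if_neg hp, if_neg hp, if_neg hp, add_zero]
    have hsmul : ∀ (i : Fin t) (a : Fin t → Fin d) (c : F) (x : Fin d → F), tli i a (c • x) = c • tli i a x := by
      intro i a c x; ext p
      by_cases hp : ∀ j, j ≠ i → p j = a j
      · rw [Pi.smul_apply, tli, tli, if_pos hp, if_pos hp]; rfl
      · rw [Pi.smul_apply, tli, tli, if_neg hp, if_neg hp, smul_zero]
    exact ⟨fun x y v => by simp only [fb]; rw [hadd, hco.add_left], fun c x v => by simp only [fb]; rw [hsmul, hco.smul_left],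
      fun v x y => by simp only [fb]; rw [hadd, hco.add_right], fun c v x => by simp only [fb]; rw [hsmul, hco.smul_right]⟩
  have hfbfix : ∀ i a b, FixesForm (matrixSet N₀) (fb i a b) := by
    rintro i a b _ ⟨n, hn, rfl⟩ x y
    change coF e P f (tli i a ((n : Matrix (Fin d) (Fin d) F) *ᵥ x)) (tli i b ((n : Matrix (Fin d) (Fin d) F) *ᵥ y)) =
      coF e P f (tli i a x) (tli i b y)
    rw [← B_tli, ← B_tli]
    exact coF_fix e P rfl (fun u v => hinv i n hn u v) _ _
  -- a nonzero entry
  have hex : ∃ a b, coF e P f (Pi.single a 1) (Pi.single b 1) ≠ 0 := by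
    by_contra hcon
    push Not at hcon
    apply huv
    have hPinv : ∀ w : ι → F, ∃ x : (Fin t → Fin d) → F, w = (P : Matrix ι ι F) *ᵥ (x ∘ e) := by
      intro w
      refine ⟨(((P⁻¹ : GL ι F) : Matrix ι ι F) *ᵥ w) ∘ e.symm, ?_⟩
      have : ((((P⁻¹ : GL ι F) : Matrix ι ι F) *ᵥ w) ∘ e.symm) ∘ e = ((P⁻¹ : GL ι F) : Matrix ι ι F) *ᵥ w := by
        ext i; simp
      rw [this, Matrix.mulVec_mulVec, ← Units.val_mul, mul_inv_cancel, Units.val_one, Matrix.one_mulVec]
    obtain ⟨x, rfl⟩ := hPinv u
    obtain ⟨y, rfl⟩ := hPinv v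
    change coF e P f x y = 0
    rw [hco.eq_sum]
    apply Finset.sum_eq_zero
    intro a _
    apply Finset.sum_eq_zero
    intro b _
    rw [hcon a b, mul_zero, zero_mul]
  obtain ⟨a0, b0, h0⟩ := hex
  let f0 := fb i0 a0 b0
  have h0' : f0 (Pi.single (a0 i0) 1) (Pi.single (b0 i0) 1) ≠ 0 := by
    change coF e P f (tli i0 a0 _) (tli i0 b0 _) ≠ 0
    rw [tli_single, tli_single, Function.update_eq_self, Function.update_eq_self]
    exact h0
  have hnd : IsNondegenerateForm f0 := nondeg_of_full hfull (hfb _ _ _) (hfbfix _ _ _) h0'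
  have hprop : ∀ i a b, ∃ c : F, ∀ x y, fb i a b x y = c * f0 x y := fun i a b =>
    proportional hfull (hfb i0 a0 b0) (hfb i a b) (fun v hv => (hnd v hv).2) (hfbfix _ _ _) (hfbfix i a b)
  choose c hc using hprop
  let G : Matrix (Fin d) (Fin d) F := gramMatrix f0
  let g : (Fin t → Fin d) → (Fin t → Fin d) → F := fun a b => coF e P f (Pi.single a 1) (Pi.single b 1)
  have hg : ∀ i a b u v, g (Function.update a i u) (Function.update b i v) = c i a b * G u v := by
    intro i a b u v
    have h1 := hc i a b (Pi.single u 1) (Pi.single v 1)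
    change coF e P f (tli i a _) (tli i b _) = _ at h1
    rw [tli_single, tli_single] at h1
    exact h1
  let u0 := a0 i0
  let v0 := b0 i0
  have hγ : G u0 v0 ≠ 0 := h0'
  -- replace coordinates one at a time
  have hrep : ∀ (s : Finset (Fin t)) (a b : Fin t → Fin d),
      g a b * (G u0 v0) ^ s.card = g (fun i => if i ∈ s then u0 else a i) (fun i => if i ∈ s then v0 else b i) *
        ∏ i ∈ s, G (a i) (b i) := by
    intro s
    induction s using Finset.induction_on with
    | empty =>
      intro a b
      simp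
    | insert j s hj ih =>
      intro a b
      have h1 : g a b = c j a b * G (a j) (b j) := by
        have := hg j a b (a j) (b j)
        rwa [Function.update_eq_self, Function.update_eq_self] at this
      have h2 := hg j a b u0 v0
      have h3 := ih (Function.update a j u0) (Function.update b j v0)
      have h4 : ∏ i ∈ s, G (Function.update a j u0 i) (Function.update b j v0 i) = ∏ i ∈ s, G (a i) (b i) := by
        apply Finset.prod_congr rfl
        intro i hi
        have hij : i ≠ j := fun h => hj (h ▸ hi)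
        rw [Function.update_of_ne hij, Function.update_of_ne hij]
      have h5 : ∀ (a : Fin t → Fin d) (w : Fin d), (fun i => if i ∈ s then w else Function.update a j w i) =
          fun i => if i ∈ insert j s then w else a i := by
        intro a w
        funext i
        by_cases hi : i ∈ s
        · rw [if_pos hi, if_pos (Finset.mem_insert_of_mem hi)]
        · by_cases hij : i = j
          · rw [if_neg hi, if_pos (by rw [hij]; exact Finset.mem_insert_self _ _), hij, Function.update_self]
          · rw [if_neg hi, if_neg (by rw [Finset.mem_insert]; tauto), Function.update_of_ne hij]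
      rw [h4, h5, h5] at h3
      rw [Finset.card_insert_of_notMem hj, Finset.prod_insert hj, h1, pow_succ]
      rw [h2] at h3
      linear_combination (G (a j) (b j)) * h3
  have hfin : ∀ a b, g a b = (g (fun _ => u0) (fun _ => v0) * ((G u0 v0) ^ t)⁻¹) * ∏ i, G (a i) (b i) := by
    intro a b
    have h1 := hrep Finset.univ a b
    simp only [Finset.mem_univ, if_true, Finset.card_univ, Fintype.card_fin] at h1
    have h2 : (G u0 v0) ^ t ≠ 0 := pow_ne_zero _ hγ
    rw [mul_assoc, mul_comm ((G u0 v0 ^ t)⁻¹), ← mul_assoc, ← h1, mul_assoc, mul_inv_cancel₀ h2, mul_one]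
  refine ⟨G, g (fun _ => u0) (fun _ => v0) * ((G u0 v0) ^ t)⁻¹, ?_, ?_, ?_, ?_⟩
  · intro hz
    apply h0
    have := hfin a0 b0
    rw [hz, zero_mul] at this
    exact this
  · rw [fog_gram (hfb i0 a0 b0)]; exact hfbfix _ _ _
  · rw [fog_gram (hfb i0 a0 b0)]; exact hnd
  · intro x y
    rw [hco.eq_sum x y, powForm, Finset.mul_sum]
    refine Finset.sum_congr rfl (fun a _ => ?_)
    rw [Finset.mul_sum]
    refine Finset.sum_congr rfl (fun b _ => ?_)
    have h1 := hfin a b
    change coF e P f (Pi.single a 1) (Pi.single b 1) = _ at h1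
    rw [h1]
    ring

end H97.AschTP
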