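import Mathlib
import Cfsg.Agent.Lib.H97.AschTP

/-!
Aschbacher library, part 27: groups in tensor position preserving a tensor product form.
-/

set_option autoImplicit false
set_option linter.unusedSectionVars false

namespace H97.AschPos

open Cfsg Cfsg.Geo Matrix H97.AschRad H97.AschUnits H97.AschSkolem H97.AschCS H97.AschTensor H97.AschEnv
open H97.AschGrp H97.AschNonab H97.AschForm H97.AschTwo
open H97.AschWreath H97.AschWreathNorm H97.AschLinear H97.AschTF H97.AschSL2 H97.AschTP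
open scoped Kronecker

variable {ι : Type} [Fintype ι] [DecidableEq ι] {F : Type*} [Field F]

/-- `H` is in tensor position and `f` is the tensor product of the forms with Gram matrices `G₁`, `G₂`. -/
structure TPos (σ : F ≃+* F) (f : (ι → F) → (ι → F) → F) (H : Subgroup (GL ι F)) {d m : ℕ}
    (e : ι ≃ Fin d × Fin m) (P : GL ι F) (G₁ : Matrix (Fin d) (Fin d) F) (G₂ : Matrix (Fin m) (Fin m) F) : Prop where
  le : H ≤ tensorProductSubgroup d m e P
  u1 : IsUnit G₁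
  u2 : IsUnit G₂
  form : ∀ x y, coF e P f x y = formOfGram σ (G₁ ⊗ₖ G₂) x y

theorem TPos.swap {σ : F ≃+* F} {f : (ι → F) → (ι → F) → F} {H : Subgroup (GL ι F)} {d m : ℕ}
    {e : ι ≃ Fin d × Fin m} {P : GL ι F} {G₁ : Matrix (Fin d) (Fin d) F} {G₂ : Matrix (Fin m) (Fin m) F}
    (h : TPos σ f H e P G₁ G₂) : TPos σ f H (e.trans (Equiv.prodComm _ _)) P G₂ G₁ := by
  refine ⟨h.le.trans (tensorProduct_swap d m e P), h.u2, h.u1, fun x y => ?_⟩
  have h1 : coF (e.trans (Equiv.prodComm _ _)) P f x y = coF e P f (x ∘ Prod.swap) (y ∘ Prod.swap) := rfl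
  rw [h1, h.form, formOfGram, formOfGram]
  refine Fintype.sum_equiv (Equiv.prodComm _ _) _ _ ?_
  rintro ⟨a, k⟩
  refine Fintype.sum_equiv (Equiv.prodComm _ _) _ _ ?_
  rintro ⟨b, l⟩
  simp only [Function.comp, Prod.swap_prod_mk, Equiv.prodComm_apply, Matrix.kroneckerMap_apply]
  ring

theorem TPos.struct {σ : F ≃+* F} {f : (ι → F) → (ι → F) → F} {H : Subgroup (GL ι F)} {d m : ℕ}
    {e : ι ≃ Fin d × Fin m} {P : GL ι F} {G₁ : Matrix (Fin d) (Fin d) F} {G₂ : Matrix (Fin m) (Fin m) F}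
    (h : TPos σ f H e P G₁ G₂) : IsTensorFormStructure σ f (formOfGram σ G₁) (formOfGram σ G₂) e P := by
  refine ⟨1, one_ne_zero, fun x y => ?_⟩
  rw [gram_fog, gram_fog, one_mul]
  exact h.form x y

lemma kron_eq {κ₁ κ₂ : Type} {A C : Matrix κ₁ κ₁ F} {B D : Matrix κ₂ κ₂ F} (h : A ⊗ₖ B = C ⊗ₖ D) (hC : C ≠ 0)
    (hD : D ≠ 0) : ∃ c : F, c ≠ 0 ∧ A = c • C ∧ B = c⁻¹ • D := by
  have hent : ∀ a b k l, A a b * B k l = C a b * D k l := by
    intro a b k l
    have := congrFun (congrFun h (a, k)) (b, l)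
    simpa [Matrix.kroneckerMap_apply] using this
  obtain ⟨a, b, hab⟩ : ∃ a b, C a b ≠ 0 := by
    by_contra hcon; push Not at hcon
    exact hC (by ext a b; exact hcon a b)
  obtain ⟨k, l, hkl⟩ : ∃ k l, D k l ≠ 0 := by
    by_contra hcon; push Not at hcon
    exact hD (by ext a b; exact hcon a b)
  have h1 := hent a b k l
  have hne : A a b * B k l ≠ 0 := by rw [h1]; exact mul_ne_zero hab hkl
  have hA : A a b ≠ 0 := left_ne_zero_of_mul hne
  have hB : B k l ≠ 0 := right_ne_zero_of_mul hne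
  refine ⟨A a b * (C a b)⁻¹, mul_ne_zero hA (inv_ne_zero hab), ?_, ?_⟩
  · ext a' b'
    rw [Matrix.smul_apply, smul_eq_mul]
    have h2 := hent a' b' k l
    apply mul_right_cancel₀ hB
    rw [h2]
    field_simp
    linear_combination (-(C a' b')) * h1
  · ext k' l'
    rw [Matrix.smul_apply, smul_eq_mul]
    have h2 := hent a b k' l'
    apply mul_left_cancel₀ hA
    rw [h2]
    field_simp

lemma fog_mul {κ : Type} [Fintype κ] (σ : F ≃+* F) (G X : Matrix κ κ F) (x y : κ → F) :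
    formOfGram σ G (X *ᵥ x) (X *ᵥ y) = formOfGram σ (Xᵀ * G * X.map σ) x y := by
  rw [fog_eq_bf, fog_eq_bf]
  have h1 : (fun i => σ ((X *ᵥ y) i)) = X.map σ *ᵥ (fun i => σ (y i)) := by
    ext i
    simp [mulVec, dotProduct, map_sum]
  rw [h1, ← Matrix.mulVec_mulVec, ← Matrix.mulVec_mulVec, Matrix.dotProduct_mulVec x Xᵀ, Matrix.vecMul_transpose]

lemma fog_injective {κ : Type} [Fintype κ] [DecidableEq κ] {σ : F ≃+* F} {G G' : Matrix κ κ F}
    (h : ∀ x y, formOfGram σ G x y = formOfGram σ G' x y) : G = G' := by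
  ext a b
  rw [← fog_single σ G a b, ← fog_single σ G' a b, h]

/-- multipliers of the factors of an isometry -/
theorem TPos.mult {σ : F ≃+* F} {f : (ι → F) → (ι → F) → F} {H : Subgroup (GL ι F)} {d m : ℕ} (hd : 0 < d) (hm : 0 < m)
    {e : ι ≃ Fin d × Fin m} {P : GL ι F} {G₁ : Matrix (Fin d) (Fin d) F} {G₂ : Matrix (Fin m) (Fin m) F}
    (h : TPos σ f H e P G₁ G₂) {g : GL ι F} (hg : g ∈ H)
    (hiso : ∀ u v, f ((g : Matrix ι ι F) *ᵥ u) ((g : Matrix ι ι F) *ᵥ v) = f u v) :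
    ∃ (a : GL (Fin d) F) (b : GL (Fin m) F) (c : F), c ≠ 0 ∧
      (g : Matrix ι ι F) = cr e P ((a : Matrix (Fin d) (Fin d) F) ⊗ₖ (b : Matrix (Fin m) (Fin m) F)) ∧
      (a : Matrix (Fin d) (Fin d) F)ᵀ * G₁ * (a : Matrix (Fin d) (Fin d) F).map σ = c • G₁ ∧
      (b : Matrix (Fin m) (Fin m) F)ᵀ * G₂ * (b : Matrix (Fin m) (Fin m) F).map σ = c⁻¹ • G₂ := by
  have hne1 : Nonempty (Fin d) := ⟨⟨0, hd⟩⟩
  have hne2 : Nonempty (Fin m) := ⟨⟨0, hm⟩⟩
  obtain ⟨a, b, hab⟩ := (mem_tensorProductSubgroup_iff e P g).mp (h.le hg)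
  have h1 : ∀ x y, formOfGram σ ((((a : Matrix (Fin d) (Fin d) F) ⊗ₖ (b : Matrix (Fin m) (Fin m) F)))ᵀ * (G₁ ⊗ₖ G₂) *
      ((((a : Matrix (Fin d) (Fin d) F) ⊗ₖ (b : Matrix (Fin m) (Fin m) F)))).map σ) x y =
      formOfGram σ (G₁ ⊗ₖ G₂) x y := by
    intro x y
    rw [← fog_mul, ← h.form, ← h.form]
    exact coF_fix e P hab hiso x y
  have h2 := fog_injective h1
  have h3 : (((a : Matrix (Fin d) (Fin d) F) ⊗ₖ (b : Matrix (Fin m) (Fin m) F))).map σ =
      (a : Matrix (Fin d) (Fin d) F).map σ ⊗ₖ (b : Matrix (Fin m) (Fin m) F).map σ := by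
    ext ⟨i, k⟩ ⟨j, l⟩
    simp [Matrix.kroneckerMap_apply]
  have h4 : (((a : Matrix (Fin d) (Fin d) F) ⊗ₖ (b : Matrix (Fin m) (Fin m) F)))ᵀ =
      (a : Matrix (Fin d) (Fin d) F)ᵀ ⊗ₖ (b : Matrix (Fin m) (Fin m) F)ᵀ := rfl
  rw [h3, h4, ← Matrix.mul_kronecker_mul, ← Matrix.mul_kronecker_mul] at h2
  obtain ⟨c, hc, hc1, hc2⟩ := kron_eq h2 h.u1.ne_zero h.u2.ne_zero
  exact ⟨a, b, c, hc, hab, hc1, hc2⟩

/-! ### a two-dimensional symmetric factor -/

lemma J2_conj' (a : Matrix (Fin 2) (Fin 2) F) : a * J2 F * aᵀ = a.det • J2 F := by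
  have := J2_conj aᵀ
  rwa [Matrix.transpose_transpose, Matrix.det_transpose] at this

/-- a two-dimensional symmetric tensor factor gives an invariant commutative adjoint-closed algebra -/
theorem TPos.algebra_of_symm {f : (ι → F) → (ι → F) → F} {H : Subgroup (GL ι F)} {m : ℕ} (hm : 0 < m)
    {e : ι ≃ Fin 2 × Fin m} {P : GL ι F} {G₁ : Matrix (Fin 2) (Fin 2) F} {G₂ : Matrix (Fin m) (Fin m) F}
    (h : TPos (RingEquiv.refl F) f H e P G₁ G₂) (hs : IsSesq (RingEquiv.refl F) f) (h2 : (2 : F) ≠ 0) (hsym : G₁ᵀ = G₁)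
    (hiso : ∀ g ∈ H, ∀ u v, f ((g : Matrix ι ι F) *ᵥ u) ((g : Matrix ι ι F) *ᵥ v) = f u v) :
    ∃ A : Subalgebra F (Matrix ι ι F), (∀ x ∈ A, ∀ y ∈ A, x * y = y * x) ∧ NormSet H A ∧ IsAdjointClosedFor f A ∧
      ∃ x ∈ A, ∀ c : F, x ≠ algebraMap F _ c := by
  classical
  have hne2 : Nonempty (Fin m) := ⟨⟨0, hm⟩⟩
  let T : Matrix (Fin 2) (Fin 2) F := J2 F * G₁
  let X : Matrix ι ι F := cr e P (T ⊗ₖ (1 : Matrix (Fin m) (Fin m) F))
  let A := Algebra.adjoin F {X}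
  have hXA : X ∈ A := Algebra.subset_adjoin (Set.mem_singleton X)
  have hadj : ∀ u v, f (X *ᵥ u) v = f u ((-X) *ᵥ v) := by
    have hPinv : ∀ w : ι → F, ∃ x : Fin 2 × Fin m → F, w = (P : Matrix ι ι F) *ᵥ (x ∘ e) := by
      intro w
      refine ⟨(((P⁻¹ : GL ι F) : Matrix ι ι F) *ᵥ w) ∘ e.symm, ?_⟩
      have : ((((P⁻¹ : GL ι F) : Matrix ι ι F) *ᵥ w) ∘ e.symm) ∘ e = ((P⁻¹ : GL ι F) : Matrix ι ι F) *ᵥ w := by
        ext i; simp
      rw [this, Matrix.mulVec_mulVec, ← Units.val_mul, mul_inv_cancel, Units.val_one, Matrix.one_mulVec]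
    intro u v
    obtain ⟨x, rfl⟩ := hPinv u
    obtain ⟨y, rfl⟩ := hPinv v
    have hX' : (-X) = cr e P (-(T ⊗ₖ (1 : Matrix (Fin m) (Fin m) F))) := by rw [map_neg]
    rw [hX', cr_mulVec', cr_mulVec']
    change coF e P f _ _ = coF e P f _ _
    rw [h.form, h.form, fog_eq_bf, fog_eq_bf]
    change ((T ⊗ₖ (1 : Matrix (Fin m) (Fin m) F)) *ᵥ x) ⬝ᵥ ((G₁ ⊗ₖ G₂) *ᵥ y) =
      x ⬝ᵥ ((G₁ ⊗ₖ G₂) *ᵥ ((-(T ⊗ₖ (1 : Matrix (Fin m) (Fin m) F))) *ᵥ y))
    have h3 : (T ⊗ₖ (1 : Matrix (Fin m) (Fin m) F))ᵀ * (G₁ ⊗ₖ G₂) = (G₁ ⊗ₖ G₂) * (-(T ⊗ₖ (1 : Matrix (Fin m) (Fin m) F))) := by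
      have h4 : (T ⊗ₖ (1 : Matrix (Fin m) (Fin m) F))ᵀ = Tᵀ ⊗ₖ (1 : Matrix (Fin m) (Fin m) F) := by
        have : (T ⊗ₖ (1 : Matrix (Fin m) (Fin m) F))ᵀ = Tᵀ ⊗ₖ (1 : Matrix (Fin m) (Fin m) F)ᵀ := rfl
        rw [this, Matrix.transpose_one]
      rw [h4, mul_neg, ← Matrix.mul_kronecker_mul, ← Matrix.mul_kronecker_mul, one_mul, mul_one]
      have h5 : Tᵀ * G₁ = -(G₁ * T) := by
        change (J2 F * G₁)ᵀ * G₁ = -(G₁ * (J2 F * G₁))
        rw [Matrix.transpose_mul, hsym, J2_transpose, Matrix.mul_smul, Matrix.smul_mul, neg_one_smul, mul_assoc]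
      rw [h5]
      ext i j
      simp [Matrix.kroneckerMap_apply]
    rw [Matrix.mulVec_mulVec, ← h3, ← Matrix.mulVec_mulVec, Matrix.dotProduct_mulVec x _ᵀ, Matrix.vecMul_transpose]
  refine ⟨A, ?_, ?_, ?_, X, hXA, ?_⟩
  · intro x hx y hy
    refine Algebra.adjoin_induction₂ (p := fun x y _ _ => x * y = y * x) ?_ ?_ ?_ ?_ ?_ ?_ ?_ ?_ hx hy
    · rintro a b ha hb
      rw [Set.mem_singleton_iff] at ha hb
      rw [ha, hb]
    · intro r r'
      exact Algebra.commutes _ _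
    · intro r a _
      exact Algebra.commutes _ _
    · intro a r _
      exact (Algebra.commutes _ _).symm
    · intro a b c _ _ _ h1 h3
      rw [add_mul, mul_add, h1, h3]
    · intro a b c _ _ _ h1 h3
      rw [add_mul, mul_add, h1, h3]
    · intro a b c _ _ _ h1 h3
      rw [mul_assoc, h3, ← mul_assoc, h1, mul_assoc]
    · intro a b c _ _ _ h1 h3
      rw [← mul_assoc, h1, mul_assoc, h3, mul_assoc]
  · intro g hg x hx
    obtain ⟨a, b, c, hc, hab, ha, hb⟩ := h.mult (by norm_num) hm hg (hiso g hg)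
    have hgi := inv_of_kron hab
    have hconj : ∃ μ : F, (g : Matrix ι ι F) * X * ((g⁻¹ : GL ι F) : Matrix ι ι F) = μ • X := by
      refine ⟨c⁻¹ * (a : Matrix (Fin 2) (Fin 2) F).det, ?_⟩
      have ha' : (a : Matrix (Fin 2) (Fin 2) F)ᵀ * G₁ * (a : Matrix (Fin 2) (Fin 2) F) = c • G₁ := ha
      have h5 : G₁ * ((a⁻¹ : GL (Fin 2) F) : Matrix (Fin 2) (Fin 2) F) = c⁻¹ • ((a : Matrix (Fin 2) (Fin 2) F)ᵀ * G₁) := by
        have h6 : (a : Matrix (Fin 2) (Fin 2) F)ᵀ * G₁ = c • (G₁ * ((a⁻¹ : GL (Fin 2) F) : Matrix (Fin 2) (Fin 2) F)) := by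
          calc (a : Matrix (Fin 2) (Fin 2) F)ᵀ * G₁ = (a : Matrix (Fin 2) (Fin 2) F)ᵀ * G₁ *
                ((a : Matrix (Fin 2) (Fin 2) F) * ((a⁻¹ : GL (Fin 2) F) : Matrix (Fin 2) (Fin 2) F)) := by
                rw [← Units.val_mul, mul_inv_cancel, Units.val_one, mul_one]
            _ = _ := by rw [← mul_assoc, ha', Matrix.smul_mul]
        rw [h6, smul_smul, inv_mul_cancel₀ hc, one_smul]
      have h7 : (a : Matrix (Fin 2) (Fin 2) F) * T * ((a⁻¹ : GL (Fin 2) F) : Matrix (Fin 2) (Fin 2) F) =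
          (c⁻¹ * (a : Matrix (Fin 2) (Fin 2) F).det) • T := by
        change (a : Matrix (Fin 2) (Fin 2) F) * (J2 F * G₁) * ((a⁻¹ : GL (Fin 2) F) : Matrix (Fin 2) (Fin 2) F) = _
        rw [mul_assoc, mul_assoc (J2 F), h5, Matrix.mul_smul, Matrix.mul_smul, ← mul_assoc, ← mul_assoc, J2_conj',
          Matrix.smul_mul, smul_smul]
      change (g : Matrix ι ι F) * cr e P (T ⊗ₖ (1 : Matrix (Fin m) (Fin m) F)) * ((g⁻¹ : GL ι F) : Matrix ι ι F) = _
      rw [hab, hgi, ← map_mul, ← map_mul, ← Matrix.mul_kronecker_mul, ← Matrix.mul_kronecker_mul, mul_one,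
        ← Units.val_mul b, mul_inv_cancel, Units.val_one, h7, Matrix.smul_kronecker, map_smul]
    obtain ⟨μ, hμ⟩ := hconj
    change conjAlg F g x ∈ A
    have hx' : x ∈ Algebra.adjoin F {X} := hx
    induction hx' using Algebra.adjoin_induction with
    | mem y hy =>
      rw [Set.mem_singleton_iff] at hy
      rw [hy]
      change (g : Matrix ι ι F) * X * ((g⁻¹ : GL ι F) : Matrix ι ι F) ∈ A
      rw [hμ]
      exact A.smul_mem hXA μ
    | algebraMap r =>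
      rw [AlgEquiv.commutes]
      exact A.algebraMap_mem r
    | add y z hy hz ihy ihz =>
      rw [map_add]
      exact A.add_mem (ihy hy) (ihz hz)
    | mul y z hy hz ihy ihz =>
      rw [map_mul]
      exact A.mul_mem (ihy hy) (ihz hz)
  · intro k hk
    induction hk using Algebra.adjoin_induction with
    | mem y hy =>
      rw [Set.mem_singleton_iff] at hy
      rw [hy]
      exact ⟨-X, A.neg_mem hXA, hadj⟩
    | algebraMap r =>
      refine ⟨algebraMap F _ r, A.algebraMap_mem r, fun u v => ?_⟩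
      rw [Algebra.algebraMap_eq_smul_one, Matrix.smul_mulVec, Matrix.one_mulVec, Matrix.smul_mulVec, Matrix.one_mulVec,
        hs.smul_left, hs.smul_right]
      rfl
    | add y z hy hz ihy ihz =>
      obtain ⟨y', hy', h1⟩ := ihy
      obtain ⟨z', hz', h3⟩ := ihz
      refine ⟨y' + z', A.add_mem hy' hz', fun u v => ?_⟩
      rw [Matrix.add_mulVec, Matrix.add_mulVec, hs.add_left, hs.add_right, h1, h3]
    | mul y z hy hz ihy ihz =>
      obtain ⟨y', hy', h1⟩ := ihy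
      obtain ⟨z', hz', h3⟩ := ihz
      refine ⟨z' * y', A.mul_mem hz' hy', fun u v => ?_⟩
      rw [← Matrix.mulVec_mulVec, ← Matrix.mulVec_mulVec, h1, h3]
  · intro c hc
    have h3 : cr e P (T ⊗ₖ (1 : Matrix (Fin m) (Fin m) F)) = cr e P ((algebraMap F (Matrix (Fin 2) (Fin 2) F) c) ⊗ₖ
        (1 : Matrix (Fin m) (Fin m) F)) := by
      change X = _
      rw [hc, Algebra.algebraMap_eq_smul_one, Algebra.algebraMap_eq_smul_one, Matrix.smul_kronecker,
        Matrix.one_kronecker_one, map_smul, map_one]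
    have h4 := kron_one_injective h3
    -- trace of T is zero
    have htr : T.trace = 0 := by
      have h5 : G₁ 0 1 = G₁ 1 0 := congrFun (congrFun hsym 1) 0
      rw [Matrix.trace_fin_two]
      change (J2 F * G₁) 0 0 + (J2 F * G₁) 1 1 = 0
      rw [Matrix.mul_apply, Matrix.mul_apply, Fin.sum_univ_two, Fin.sum_univ_two, h5]
      simp only [J2, Matrix.of_apply, Matrix.cons_val', Matrix.cons_val_zero, Matrix.cons_val_one, Matrix.cons_val_fin_one]
      ring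
    rw [h4, Matrix.trace_fin_two, Matrix.algebraMap_matrix_apply, Matrix.algebraMap_matrix_apply, if_pos rfl,
      if_pos rfl] at htr
    have hc0 : c = 0 := by
      have h6 : (2 : F) * c = 0 := by
        have : c + c = 0 := htr
        linear_combination this
      exact (mul_eq_zero.mp h6).resolve_left h2
    rw [hc0, map_zero] at h4
    have h7 : G₁ = 0 := by
      have h8 : (J2 F)ᵀ * (J2 F * G₁) = G₁ := by
        rw [← mul_assoc]
        have : (J2 F)ᵀ * J2 F = 1 := by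
          ext i j
          fin_cases i <;> fin_cases j <;> simp [J2, Matrix.mul_apply, Fin.sum_univ_two]
        rw [this, one_mul]
      rw [← h8]
      change (J2 F)ᵀ * T = 0
      rw [h4, mul_zero]
    exact h.u1.ne_zero h7

end H97.AschPos
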