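import Mathlib
import Cfsg.Agent.Lib.H97.AschPos
import Cfsg.Agent.Lib.H96.AschSp

/-!
Aschbacher library, part 28: tensor products of alternating forms in characteristic two.
-/

set_option autoImplicit false
set_option linter.unusedSectionVars false

namespace H97.AschPosE

open Cfsg Cfsg.Geo Matrix H97.AschRad H97.AschUnits H97.AschSkolem H97.AschCS H97.AschTensor H97.AschEnv
open H97.AschGrp H97.AschNonab H97.AschForm H97.AschTwo
open H97.AschWreath H97.AschWreathNorm H97.AschLinear H97.AschTF H97.AschSL2 H97.AschTP H97.AschPos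
open scoped Kronecker

variable {ι : Type} [Fintype ι] [DecidableEq ι] {F : Type*} [Field F]
variable {κ : Type} [Fintype κ] [DecidableEq κ]

lemma semi_zero {q : (κ → F) → F} (hadd : ∀ u v, q (u + v) = q u + q v) (hsm : ∀ (c : F) v, q (c • v) = c ^ 2 * q v)
    (h0 : ∀ i, q (Pi.single i 1) = 0) : ∀ v, q v = 0 := by
  have hz : q 0 = 0 := by
    have := hsm 0 0
    rwa [zero_smul, zero_pow (by norm_num), zero_mul] at this
  have hsum : ∀ (s : Finset κ) (v : κ → F), q (∑ i ∈ s, v i • (Pi.single i (1 : F) : κ → F)) = 0 := by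
    intro s v
    induction s using Finset.induction_on with
    | empty => rw [Finset.sum_empty, hz]
    | insert a s ha ih => rw [Finset.sum_insert ha, hadd, hsm, h0, mul_zero, zero_add, ih]
  intro v
  have := hsum Finset.univ v
  rwa [← vec_eq_sum] at this

/-- In characteristic two an alternating form is the polar form of a quadratic form vanishing on the basis. -/
theorem exists_quad (h2 : (2 : F) = 0) {f : (κ → F) → (κ → F) → F} (hf : IsSesq (RingEquiv.refl F) f)
    (halt : ∀ i, f (Pi.single i 1) (Pi.single i 1) = 0)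
    (hsymm : ∀ i j, f (Pi.single i 1) (Pi.single j 1) = f (Pi.single j 1) (Pi.single i 1)) :
    ∃ Q : (κ → F) → F, (∀ u v, Q (u + v) = Q u + Q v + f u v) ∧ (∀ (c : F) v, Q (c • v) = c ^ 2 * Q v) ∧
      ∀ i, Q (Pi.single i 1) = 0 := by
  classical
  let o : κ ≃ Fin (Fintype.card κ) := Fintype.equivFin κ
  let g : κ → κ → F := fun i j => f (Pi.single i 1) (Pi.single j 1)
  let Q : (κ → F) → F := fun x => ∑ i, ∑ j, if o i < o j then x i * x j * g i j else 0
  refine ⟨Q, ?_, ?_, ?_⟩
  · intro u v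
    rw [hf.eq_sum u v]
    have h1 : ∑ i, ∑ j, (if o i < o j then (u i * v j + v i * u j) * g i j else 0) =
        ∑ i, ∑ j, u i * g i j * v j := by
      have hA : ∑ i, ∑ j, (if o i < o j then (v i * u j) * g i j else 0) =
          ∑ i, ∑ j, (if o j < o i then (u i * v j) * g i j else 0) := by
        rw [Finset.sum_comm]
        refine Finset.sum_congr rfl (fun i _ => Finset.sum_congr rfl (fun j _ => ?_))
        by_cases hij : o j < o i
        · rw [if_pos hij, if_pos hij]
          change v j * u i * g j i = u i * v j * g i j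
          have : g j i = g i j := hsymm j i
          rw [this]; ring
        · rw [if_neg hij, if_neg hij]
      have hB : ∑ i, ∑ j, (if o i < o j then (u i * v j + v i * u j) * g i j else 0) =
          ∑ i, ∑ j, (if o i < o j then (u i * v j) * g i j else 0) +
          ∑ i, ∑ j, (if o i < o j then (v i * u j) * g i j else 0) := by
        rw [← Finset.sum_add_distrib]
        refine Finset.sum_congr rfl (fun i _ => ?_)
        rw [← Finset.sum_add_distrib]
        refine Finset.sum_congr rfl (fun j _ => ?_)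
        split_ifs
        · ring
        · ring
      rw [hB, hA, ← Finset.sum_add_distrib]
      refine Finset.sum_congr rfl (fun i _ => ?_)
      rw [← Finset.sum_add_distrib]
      refine Finset.sum_congr rfl (fun j _ => ?_)
      rcases lt_trichotomy (o i) (o j) with h | h | h
      · rw [if_pos h, if_neg (not_lt.mpr h.le)]; ring
      · have hij : i = j := o.injective h
        subst hij
        rw [if_neg (lt_irrefl _)]
        have : g i i = 0 := halt i
        rw [this]; ring
      · rw [if_neg (not_lt.mpr h.le), if_pos h]; ring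
    have h3 : ∑ a, ∑ b, u a * f (Pi.single a 1) (Pi.single b 1) * (RingEquiv.refl F) (v b) =
        ∑ i, ∑ j, u i * g i j * v j := rfl
    rw [h3, ← h1]
    change (∑ i, ∑ j, if o i < o j then (u + v) i * (u + v) j * g i j else 0) =
      (∑ i, ∑ j, if o i < o j then u i * u j * g i j else 0) + (∑ i, ∑ j, if o i < o j then v i * v j * g i j else 0) + _
    rw [← Finset.sum_add_distrib, ← Finset.sum_add_distrib]
    refine Finset.sum_congr rfl (fun i _ => ?_)
    rw [← Finset.sum_add_distrib, ← Finset.sum_add_distrib]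
    refine Finset.sum_congr rfl (fun j _ => ?_)
    split_ifs
    · rw [Pi.add_apply, Pi.add_apply]; ring
    · ring
  · intro c v
    change (∑ i, ∑ j, if o i < o j then (c • v) i * (c • v) j * g i j else 0) =
      c ^ 2 * (∑ i, ∑ j, if o i < o j then v i * v j * g i j else 0)
    rw [Finset.mul_sum]
    refine Finset.sum_congr rfl (fun i _ => ?_)
    rw [Finset.mul_sum]
    refine Finset.sum_congr rfl (fun j _ => ?_)
    rw [mul_ite, mul_zero]
    split_ifs
    · rw [Pi.smul_apply, Pi.smul_apply, smul_eq_mul, smul_eq_mul]; ring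
    · rfl
  · intro k
    change (∑ i, ∑ j, if o i < o j then (Pi.single k (1 : F) : κ → F) i * (Pi.single k (1 : F) : κ → F) j * g i j else 0) = 0
    apply Finset.sum_eq_zero
    intro i _
    apply Finset.sum_eq_zero
    intro j _
    split_ifs with h
    · by_cases hi : i = k
      · by_cases hj : j = k
        · subst hi; subst hj; exact absurd h (lt_irrefl _)
        · rw [Pi.single_eq_of_ne hj]; ring
      · rw [Pi.single_eq_of_ne hi]; ring
    · rfl

/-- a quadratic form as above, whose values at the images of the basis vectors under an isometry vanish, is invariant -/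
theorem quad_invariant {f : (κ → F) → (κ → F) → F} {Q : (κ → F) → F}
    (hQ : ∀ u v, Q (u + v) = Q u + Q v + f u v) (hQs : ∀ (c : F) v, Q (c • v) = c ^ 2 * Q v)
    (hQ0 : ∀ i, Q (Pi.single i 1) = 0) {X : Matrix κ κ F} (hX : ∀ u v, f (X *ᵥ u) (X *ᵥ v) = f u v)
    (hX0 : ∀ i, Q (X *ᵥ Pi.single i 1) = 0) (v : κ → F) : Q (X *ᵥ v) = Q v := by
  have h := semi_zero (q := fun v => Q (X *ᵥ v) - Q v) (by
    intro u v
    change Q (X *ᵥ (u + v)) - Q (u + v) = _
    rw [Matrix.mulVec_add, hQ, hQ, hX]; ring) (by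
    intro c v
    change Q (X *ᵥ (c • v)) - Q (c • v) = _
    rw [Matrix.mulVec_smul, hQs, hQs]; ring) (by
    intro i
    change Q (X *ᵥ Pi.single i 1) - Q (Pi.single i 1) = 0
    rw [hX0, hQ0, sub_zero]) v
  exact sub_eq_zero.mp h

/-- the class 8 conclusion -/
theorem class8 [Fintype F] {m : ℕ} (h2 : (2 : F) = 0) {H : Subgroup (GL (Fin m ⊕ Fin m) F)} (hH : H ≤ spGL m F)
    (e : (Fin m ⊕ Fin m) ≃ κ) (P : GL (Fin m ⊕ Fin m) F) {Q : (κ → F) → F}
    (hQ : ∀ u v, Q (u + v) = Q u + Q v + coF e P (sympForm m F) u v) (hQs : ∀ (c : F) v, Q (c • v) = c ^ 2 * Q v)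
    (hH2 : ∀ g ∈ H, ∃ X : Matrix κ κ F, (g : Matrix (Fin m ⊕ Fin m) (Fin m ⊕ Fin m) F) = cr e P X ∧ ∀ v, Q (X *ᵥ v) = Q v) :
    ∃ M, InSymplecticClass m F M ∧ H ≤ M := by
  have hPe : ∀ u, (P : Matrix (Fin m ⊕ Fin m) (Fin m ⊕ Fin m) F) *ᵥ ((coo e P u) ∘ e) = u := by
    intro u
    have : (coo e P u) ∘ e = ((P⁻¹ : GL (Fin m ⊕ Fin m) F) : Matrix (Fin m ⊕ Fin m) (Fin m ⊕ Fin m) F) *ᵥ u := by
      ext i
      change ((((P⁻¹ : GL (Fin m ⊕ Fin m) F) : Matrix (Fin m ⊕ Fin m) (Fin m ⊕ Fin m) F) *ᵥ u) ∘ e.symm) (e i) = _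
      simp
    rw [this, Matrix.mulVec_mulVec, ← Units.val_mul, mul_inv_cancel, Units.val_one, Matrix.one_mulVec]
  have hpol : ∀ u v, QuadraticMap.polar (pullQ e P Q) u v = sympForm m F u v := by
    intro u v
    change Q (coo e P (u + v)) - Q (coo e P u) - Q (coo e P v) = _
    rw [map_add, hQ]
    change Q (coo e P u) + Q (coo e P v) + sympForm m F (_ *ᵥ ((coo e P u) ∘ e)) (_ *ᵥ ((coo e P v) ∘ e)) - _ - _ = _
    rw [hPe, hPe]; ring
  have hpol' : QuadraticMap.polar (pullQ e P Q) = sympForm m F := by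
    funext u v; exact hpol u v
  refine ⟨quadSimilarityGroup (pullQ e P Q) ⊓ spGL m F, ?_, ?_⟩
  · left
    iterate 6 right
    refine ⟨pullQ e P Q, ?_, ⟨?_, ?_, ?_⟩, hpol, rfl⟩
    · intro hodd
      exact H96.AschSp.two_ne_zero_of_odd hodd h2
    · intro c v
      change Q (coo e P (c • v)) = _
      rw [map_smul, hQs]; rfl
    · rw [hpol']; exact (H96.AschSp.sympForm_symplectic m F).bilinear
    · rw [hpol']; exact (H96.AschSp.sympForm_symplectic m F).nondegenerate
  · refine le_inf ?_ hH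
    intro g hg
    obtain ⟨X, hX, hX2⟩ := hH2 g hg
    refine ⟨1, fun v => ?_⟩
    rw [Units.val_one, one_mul]
    change Q (coo e P _) = Q (coo e P v)
    have : coo e P ((g : Matrix (Fin m ⊕ Fin m) (Fin m ⊕ Fin m) F) *ᵥ v) = X *ᵥ (coo e P v) := by
      have h3 := cr_mulVec' e P X (coo e P v)
      rw [hPe, ← hX] at h3
      rw [h3]
      have h4 : ∀ w : κ → F, coo e P ((P : Matrix (Fin m ⊕ Fin m) (Fin m ⊕ Fin m) F) *ᵥ (w ∘ e)) = w := by
        intro w
        ext i
        change ((((P⁻¹ : GL (Fin m ⊕ Fin m) F) : Matrix (Fin m ⊕ Fin m) (Fin m ⊕ Fin m) F) *ᵥ ((P : Matrix (Fin m ⊕ Fin m) (Fin m ⊕ Fin m) F) *ᵥ (w ∘ e))) ∘ e.symm) i = w i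
        rw [Matrix.mulVec_mulVec, ← Units.val_mul, inv_mul_cancel, Units.val_one, Matrix.one_mulVec]
        simp
      exact h4 _
    rw [this, hX2]

/-! ### pure tensors in a product of two factors -/

def pv {d m : ℕ} (x : Fin d → F) (y : Fin m → F) : Fin d × Fin m → F := fun p => x p.1 * y p.2

lemma pv_single {d m : ℕ} (i : Fin d) (k : Fin m) : pv (Pi.single i (1 : F)) (Pi.single k 1) = Pi.single (i, k) 1 := by
  ext ⟨a, b⟩
  rw [pv]
  by_cases ha : a = i
  · by_cases hb : b = k
    · rw [ha, hb, Pi.single_eq_same, Pi.single_eq_same, Pi.single_eq_same, mul_one]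
    · rw [Pi.single_eq_of_ne hb, mul_zero, Pi.single_eq_of_ne]
      intro h; exact hb (Prod.ext_iff.mp h).2
  · rw [Pi.single_eq_of_ne ha, zero_mul, Pi.single_eq_of_ne]
    intro h; exact ha (Prod.ext_iff.mp h).1

lemma kron_pv {d m : ℕ} (A : Matrix (Fin d) (Fin d) F) (B : Matrix (Fin m) (Fin m) F) (x : Fin d → F) (y : Fin m → F) :
    (A ⊗ₖ B) *ᵥ (pv x y) = pv (A *ᵥ x) (B *ᵥ y) := by
  ext ⟨a, b⟩
  simp only [mulVec, dotProduct, pv, Matrix.kroneckerMap_apply]
  rw [Fintype.sum_prod_type, Finset.sum_mul_sum]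
  refine Finset.sum_congr rfl (fun i _ => Finset.sum_congr rfl (fun k _ => ?_))
  ring

lemma fog_pv {d m : ℕ} (σ : F ≃+* F) (G₁ : Matrix (Fin d) (Fin d) F) (G₂ : Matrix (Fin m) (Fin m) F)
    (x x' : Fin d → F) (y y' : Fin m → F) :
    formOfGram σ (G₁ ⊗ₖ G₂) (pv x y) (pv x' y') = formOfGram σ G₁ x x' * formOfGram σ G₂ y y' := by
  rw [fog_eq_bf, fog_eq_bf, fog_eq_bf]
  have h1 : (fun i => σ (pv x' y' i)) = pv (fun i => σ (x' i)) (fun i => σ (y' i)) := by
    ext ⟨a, b⟩; simp [pv]
  rw [h1, kron_pv]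
  simp only [dotProduct, pv]
  rw [Fintype.sum_prod_type, Finset.sum_mul_sum]
  refine Finset.sum_congr rfl (fun i _ => Finset.sum_congr rfl (fun k _ => ?_))
  ring

lemma pv_add_left {d m : ℕ} (x x' : Fin d → F) (y : Fin m → F) : pv (x + x') y = pv x y + pv x' y := by
  ext p; simp only [pv, Pi.add_apply]; ring
lemma pv_add_right {d m : ℕ} (x : Fin d → F) (y y' : Fin m → F) : pv x (y + y') = pv x y + pv x y' := by
  ext p; simp only [pv, Pi.add_apply]; ring
lemma pv_smul_left {d m : ℕ} (c : F) (x : Fin d → F) (y : Fin m → F) : pv (c • x) y = c • pv x y := by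
  ext p; simp only [pv, Pi.smul_apply, smul_eq_mul]; ring
lemma pv_smul_right {d m : ℕ} (c : F) (x : Fin d → F) (y : Fin m → F) : pv x (c • y) = c • pv x y := by
  ext p; simp only [pv, Pi.smul_apply, smul_eq_mul]; ring

/-- the symplectic case in characteristic two, two factors -/
theorem sp_even_pair [Fintype F] {m : ℕ} (h2 : (2 : F) = 0) {H : Subgroup (GL (Fin m ⊕ Fin m) F)} (hH : H ≤ spGL m F)
    {d k : ℕ} (hd : 0 < d) (hk : 0 < k) {e : (Fin m ⊕ Fin m) ≃ Fin d × Fin k} {P : GL (Fin m ⊕ Fin m) F}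
    {G₁ : Matrix (Fin d) (Fin d) F} {G₂ : Matrix (Fin k) (Fin k) F}
    (h : TPos (RingEquiv.refl F) (sympForm m F) H e P G₁ G₂)
    (h1 : ∀ x, formOfGram (RingEquiv.refl F) G₁ x x = 0) (h3 : ∀ x, formOfGram (RingEquiv.refl F) G₂ x x = 0) :
    ∃ M, InSymplecticClass m F M ∧ H ≤ M := by
  have hsp := H96.AschSp.sympForm_symplectic m F
  have hses : IsSesq (RingEquiv.refl F) (coF e P (sympForm m F)) := coF_sesq e P (IsSesq.of_bilinear hsp.bilinear)
  obtain ⟨Q, hQ, hQs, hQ0⟩ := exists_quad h2 hses (fun i => hsp.alternating _) (fun i j => by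
    change sympForm m F _ _ = sympForm m F _ _
    rw [hsp.skew]
    have : ∀ a : F, -a = a := fun a => by linear_combination (-a) * h2
    rw [this])
  have hcoF : ∀ x x' : Fin d → F, ∀ y y' : Fin k → F, coF e P (sympForm m F) (pv x y) (pv x' y') =
      formOfGram (RingEquiv.refl F) G₁ x x' * formOfGram (RingEquiv.refl F) G₂ y y' := by
    intro x x' y y'
    rw [h.form, fog_pv]
  -- Q vanishes on pure tensors
  have hp1 : ∀ (i : Fin d) (y : Fin k → F), Q (pv (Pi.single i 1) y) = 0 := by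
    intro i
    apply semi_zero
    · intro u v
      rw [pv_add_right, hQ, hcoF, h1, zero_mul, add_zero]
    · intro c v
      rw [pv_smul_right, hQs]
    · intro j
      rw [pv_single, hQ0]
  have hp2 : ∀ (x : Fin d → F) (y : Fin k → F), Q (pv x y) = 0 := by
    intro x y
    revert x
    apply semi_zero
    · intro u v
      rw [pv_add_left, hQ, hcoF, h3, mul_zero, add_zero]
    · intro c v
      rw [pv_smul_left, hQs]
    · intro i
      exact hp1 i y
  refine class8 h2 hH e P hQ hQs ?_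
  intro g hg
  obtain ⟨a, b, c, hc, hab, ha, hb⟩ := h.mult hd hk hg (fun u v => (hH hg) u v)
  refine ⟨_, hab, quad_invariant hQ hQs hQ0 ?_ ?_⟩
  · intro u v
    exact coF_fix e P hab (fun u v => (hH hg) u v) u v
  · rintro ⟨i, j⟩
    rw [← pv_single, kron_pv, hp2]

end H97.AschPosE
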