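import Mathlib
import Cfsg.Agent.Lib.H97.AschPosE

/-!
Aschbacher library, part 29: tensor position in the symplectic groups.
-/

set_option autoImplicit false
set_option linter.unusedSectionVars false

namespace H97.AschPosI

open Cfsg Cfsg.Geo Matrix H97.AschRad H97.AschUnits H97.AschSkolem H97.AschCS H97.AschTensor H97.AschEnv
open H97.AschGrp H97.AschNonab H97.AschForm H97.AschTwo
open H97.AschWreath H97.AschWreathNorm H97.AschLinear H97.AschTF H97.AschSL2 H97.AschTP H97.AschPos H97.AschPosE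
open scoped Kronecker

variable {ι : Type} [Fintype ι] [DecidableEq ι] {F : Type*} [Field F]

lemma coo_cr {κ : Type} [Fintype κ] [DecidableEq κ] (e : ι ≃ κ) (P : GL ι F) (X : Matrix κ κ F) (u : ι → F) :
    coo e P ((cr e P X) *ᵥ u) = X *ᵥ (coo e P u) := by
  obtain ⟨w, hw⟩ : ∃ w : κ → F, u = (P : Matrix ι ι F) *ᵥ (w ∘ e) := by
    refine ⟨coo e P u, ?_⟩
    have : (coo e P u) ∘ e = ((P⁻¹ : GL ι F) : Matrix ι ι F) *ᵥ u := by
      ext i
      change ((((P⁻¹ : GL ι F) : Matrix ι ι F) *ᵥ u) ∘ e.symm) (e i) = _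
      simp
    rw [this, Matrix.mulVec_mulVec, ← Units.val_mul, mul_inv_cancel, Units.val_one, Matrix.one_mulVec]
  have h4 : ∀ w : κ → F, coo e P ((P : Matrix ι ι F) *ᵥ (w ∘ e)) = w := by
    intro w
    ext i
    change ((((P⁻¹ : GL ι F) : Matrix ι ι F) *ᵥ ((P : Matrix ι ι F) *ᵥ (w ∘ e))) ∘ e.symm) i = w i
    rw [Matrix.mulVec_mulVec, ← Units.val_mul, inv_mul_cancel, Units.val_one, Matrix.one_mulVec]
    simp
  rw [hw, cr_mulVec', h4, h4]

/-- irreducibility forces alternating factors in characteristic two -/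
theorem alt_of_irr [Fintype F] (h2 : (2 : F) = 0) {f : (ι → F) → (ι → F) → F} {H : Subgroup (GL ι F)} {d m : ℕ}
    (hd : 0 < d) (hm : 2 ≤ m) {e : ι ≃ Fin d × Fin m} {P : GL ι F} {G₁ : Matrix (Fin d) (Fin d) F}
    {G₂ : Matrix (Fin m) (Fin m) F} (h : TPos (RingEquiv.refl F) f H e P G₁ G₂)
    (hsym : G₂ᵀ = G₂) (hirr : ActsIrreducibly (matrixSet H))
    (hiso : ∀ g ∈ H, ∀ u v, f ((g : Matrix ι ι F) *ᵥ u) ((g : Matrix ι ι F) *ᵥ v) = f u v) (y : Fin m → F) :
    formOfGram (RingEquiv.refl F) G₂ y y = 0 := by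
  set g₂ := formOfGram (RingEquiv.refl F) G₂ with hg₂
  have hses : IsSesq (RingEquiv.refl F) g₂ := fog_sesq _ _
  have hsymm : ∀ x y, g₂ x y = g₂ y x := by
    intro x y
    rw [hg₂]
    change ∑ a, ∑ b, x a * G₂ a b * y b = ∑ a, ∑ b, y a * G₂ a b * x b
    rw [Finset.sum_comm]
    refine Finset.sum_congr rfl (fun a _ => Finset.sum_congr rfl (fun b _ => ?_))
    have : G₂ b a = G₂ a b := congrFun (congrFun hsym a) b
    rw [this]; ring
  have hadd : ∀ x y, g₂ (x + y) (x + y) = g₂ x x + g₂ y y := by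
    intro x y
    rw [hses.add_left, hses.add_right, hses.add_right, hsymm y x]
    linear_combination (g₂ x y) * h2
  have hsm : ∀ (c : F) x, g₂ (c • x) (c • x) = c ^ 2 * g₂ x x := by
    intro c x
    rw [hses.smul_left, hses.smul_right]
    change c * (c * g₂ x x) = _
    ring
  let U : Submodule F (Fin d × Fin m → F) :=
    { carrier := {v | ∀ i, g₂ (fun k => v (i, k)) (fun k => v (i, k)) = 0}
      add_mem' := by
        intro a b ha hb i
        have : (fun k => (a + b) (i, k)) = (fun k => a (i, k)) + (fun k => b (i, k)) := rfl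
        rw [this, hadd, ha i, hb i, add_zero]
      zero_mem' := by
        intro i
        have : (fun k => (0 : Fin d × Fin m → F) (i, k)) = 0 := rfl
        rw [this, hses.zero_left]
      smul_mem' := by
        intro c a ha i
        have : (fun k => (c • a) (i, k)) = c • (fun k => a (i, k)) := rfl
        rw [this, hsm, ha i, mul_zero] }
  have hinv : ∀ s ∈ matrixSet H, (U.comap (coo e P)).map (Matrix.toLin' s) ≤ U.comap (coo e P) := by
    rintro _ ⟨g, hg, rfl⟩
    rw [Submodule.map_le_iff_le_comap]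
    intro v hv
    obtain ⟨a, b, c, hc, hab, ha, hb⟩ := h.mult hd (by omega) hg (hiso g hg)
    rw [Submodule.mem_comap, Submodule.mem_comap, Matrix.toLin'_apply]
    change coo e P ((g : Matrix ι ι F) *ᵥ v) ∈ U
    rw [hab, coo_cr]
    intro i
    have hv' : ∀ i, g₂ (fun k => (coo e P v) (i, k)) (fun k => (coo e P v) (i, k)) = 0 := hv
    set w := coo e P v
    have hrow : (fun k => (((a : Matrix (Fin d) (Fin d) F) ⊗ₖ (b : Matrix (Fin m) (Fin m) F)) *ᵥ w) (i, k)) =
        ∑ i', (a : Matrix (Fin d) (Fin d) F) i i' • ((b : Matrix (Fin m) (Fin m) F) *ᵥ (fun k => w (i', k))) := by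
      ext k
      simp only [mulVec, dotProduct, Matrix.kroneckerMap_apply, Finset.sum_apply, Pi.smul_apply, smul_eq_mul]
      rw [Fintype.sum_prod_type]
      refine Finset.sum_congr rfl (fun i' _ => ?_)
      rw [Finset.mul_sum]
      refine Finset.sum_congr rfl (fun k' _ => ?_)
      ring
    rw [hrow]
    have hb' : ∀ y, g₂ ((b : Matrix (Fin m) (Fin m) F) *ᵥ y) ((b : Matrix (Fin m) (Fin m) F) *ᵥ y) = c⁻¹ * g₂ y y := by
      intro y
      rw [hg₂, fog_mul, hb]
      change ∑ i, ∑ j, y i * (c⁻¹ • G₂) i j * y j = c⁻¹ * ∑ i, ∑ j, y i * G₂ i j * y j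
      rw [Finset.mul_sum]
      refine Finset.sum_congr rfl (fun i _ => ?_)
      rw [Finset.mul_sum]
      refine Finset.sum_congr rfl (fun j _ => ?_)
      rw [Matrix.smul_apply, smul_eq_mul]; ring
    have hgen : ∀ (s : Finset (Fin d)), g₂ (∑ i' ∈ s, (a : Matrix (Fin d) (Fin d) F) i i' • ((b : Matrix (Fin m) (Fin m) F) *ᵥ (fun k => w (i', k))))
        (∑ i' ∈ s, (a : Matrix (Fin d) (Fin d) F) i i' • ((b : Matrix (Fin m) (Fin m) F) *ᵥ (fun k => w (i', k)))) = 0 := by
      intro s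
      induction s using Finset.induction_on with
      | empty => rw [Finset.sum_empty, hses.zero_left]
      | insert j s hj ih => rw [Finset.sum_insert hj, hadd, hsm, hb', hv' j, ih]; ring
    exact hgen _
  have hsingle : ∀ y : Fin m → F, g₂ y y = 0 → ∃ v ∈ U, ∀ k, v (⟨0, hd⟩, k) = y k := by
    intro y hy
    refine ⟨fun p => if p.1 = ⟨0, hd⟩ then y p.2 else 0, ?_, ?_⟩
    · intro i
      by_cases hi : i = ⟨0, hd⟩
      · have : (fun k => (fun p : Fin d × Fin m => if p.1 = ⟨0, hd⟩ then y p.2 else 0) (i, k)) = y := by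
          funext k; simp [hi]
        rw [this, hy]
      · have : (fun k => (fun p : Fin d × Fin m => if p.1 = ⟨0, hd⟩ then y p.2 else 0) (i, k)) = 0 := by
          funext k; simp [hi]
        rw [this, hses.zero_left]
    · intro k; simp
  rcases hirr _ hinv with hbot | htop
  · exfalso
    -- a nonzero y with g₂ y y = 0
    obtain ⟨y, hy0, hy⟩ : ∃ y : Fin m → F, y ≠ 0 ∧ g₂ y y = 0 := by
      let k0 : Fin m := ⟨0, by omega⟩
      let k1 : Fin m := ⟨1, by omega⟩
      have h01 : k0 ≠ k1 := by intro h; simp [k0, k1] at h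
      by_cases h0 : g₂ (Pi.single k0 1) (Pi.single k0 1) = 0
      · refine ⟨Pi.single k0 1, ?_, h0⟩
        intro h
        have := congrFun h k0
        simp at this
      · obtain ⟨t, ht⟩ := H96.AschSp.sqrt_of_char_two h2 (g₂ (Pi.single k1 1) (Pi.single k1 1) * (g₂ (Pi.single k0 1) (Pi.single k0 1))⁻¹)
        refine ⟨Pi.single k1 1 + t • Pi.single k0 1, ?_, ?_⟩
        · intro h
          have := congrFun h k1
          rw [Pi.add_apply, Pi.smul_apply, Pi.single_eq_same, Pi.single_eq_of_ne h01.symm, smul_zero, add_zero] at this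
          exact one_ne_zero this
        · rw [hadd, hsm, ht]
          field_simp
          linear_combination (g₂ (Pi.single k1 1) (Pi.single k1 1)) * h2
    obtain ⟨v, hv, hv2⟩ := hsingle y hy
    obtain ⟨u, hu⟩ := coo_surjective e P v
    have hu2 : u ∈ U.comap (coo e P) := by rw [Submodule.mem_comap, hu]; exact hv
    rw [hbot, Submodule.mem_bot] at hu2
    apply hy0
    funext k
    rw [← hv2 k, ← hu, hu2, map_zero]; rfl
  · obtain ⟨u, hu⟩ := coo_surjective e P (fun p : Fin d × Fin m => if p.1 = ⟨0, hd⟩ then y p.2 else 0)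
    have hu2 : u ∈ U.comap (coo e P) := by rw [htop]; exact Submodule.mem_top
    rw [Submodule.mem_comap, hu] at hu2
    have h3 := hu2 ⟨0, hd⟩
    simpa using h3

/-- conclusion of class 4 for the symplectic groups, or an invariant commutative algebra -/
theorem sp_odd_pair [Fintype F] {m : ℕ} (hodd : Odd (Fintype.card F)) {H : Subgroup (GL (Fin m ⊕ Fin m) F)}
    (hH : H ≤ spGL m F) {d k : ℕ} (hd : 0 < d) (hk : 2 ≤ k) {e : (Fin m ⊕ Fin m) ≃ Fin d × Fin k}
    {P : GL (Fin m ⊕ Fin m) F} {G₁ : Matrix (Fin d) (Fin d) F} {G₂ : Matrix (Fin k) (Fin k) F}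
    (h : TPos (RingEquiv.refl F) (sympForm m F) H e P G₁ G₂) (h1 : G₁ᵀ = -G₁) (hs2 : G₂ᵀ = G₂) :
    (∃ M, InSymplecticClass m F M ∧ H ≤ M) ∨
    (∃ A : Subalgebra F (Matrix (Fin m ⊕ Fin m) (Fin m ⊕ Fin m) F), (∀ x ∈ A, ∀ y ∈ A, x * y = y * x) ∧ NormSet H A ∧
      IsAdjointClosedFor (sympForm m F) A ∧ ∃ x ∈ A, ∀ c : F, x ≠ algebraMap F _ c) := by
  have h2 : (2 : F) ≠ 0 := H96.AschSp.two_ne_zero_of_odd hodd
  have hsp := H96.AschSp.sympForm_symplectic m F
  by_cases hk3 : 3 ≤ k
  · left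
    refine ⟨tensorProductSubgroup d k e P ⊓ spGL m F, ?_, le_inf h.le hH⟩
    have hid : (id : F → F) = (RingEquiv.refl F : F → F) := rfl
    right; right; right; left
    refine ⟨d, k, e, P, formOfGram (RingEquiv.refl F) G₁, formOfGram (RingEquiv.refl F) G₂, hodd, hk3, ?_, ?_, ?_, rfl⟩
    · have hskew : ∀ v w, formOfGram (RingEquiv.refl F) G₁ v w = - formOfGram (RingEquiv.refl F) G₁ w v := by
        intro v w
        change ∑ a, ∑ b, v a * G₁ a b * w b = - ∑ a, ∑ b, w a * G₁ a b * v b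
        rw [Finset.sum_comm, ← Finset.sum_neg_distrib]
        refine Finset.sum_congr rfl (fun a _ => ?_)
        rw [← Finset.sum_neg_distrib]
        refine Finset.sum_congr rfl (fun b _ => ?_)
        have : G₁ b a = - G₁ a b := congrFun (congrFun h1 a) b
        rw [this]; ring
      refine ⟨(fog_sesq _ _).to_bilinear, hskew, ?_, fog_nondeg _ h.u1⟩
      intro v
      have h3 := hskew v v
      have : (2 : F) * formOfGram (RingEquiv.refl F) G₁ v v = 0 := by linear_combination h3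
      exact (mul_eq_zero.mp this).resolve_left h2
    · refine ⟨(fog_sesq _ _).to_bilinear, ?_, fog_nondeg _ h.u2⟩
      intro v w
      change ∑ a, ∑ b, v a * G₂ a b * w b = ∑ a, ∑ b, w a * G₂ a b * v b
      rw [Finset.sum_comm]
      refine Finset.sum_congr rfl (fun a _ => Finset.sum_congr rfl (fun b _ => ?_))
      have : G₂ b a = G₂ a b := congrFun (congrFun hs2 a) b
      rw [this]; ring
    · exact h.struct
  · right
    have hk2 : k = 2 := by omega
    subst hk2
    exact h.swap.algebra_of_symm hd (IsSesq.of_bilinear hsp.bilinear) h2 hs2 (fun g hg u v => (hH hg) u v)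

/-- **Tensor position in the symplectic groups.** -/
theorem sp_tensor [Fintype F] {m : ℕ} {H N : Subgroup (GL (Fin m ⊕ Fin m) F)} (hirr : ActsIrreducibly (matrixSet H))
    (hH : H ≤ spGL m F) (hNH : N ≤ H) {d k : ℕ} (hd : 2 ≤ d) (hk : 2 ≤ k) (e : (Fin m ⊕ Fin m) ≃ Fin d × Fin k)
    (P : GL (Fin m ⊕ Fin m) F) (hle : H ≤ tensorProductSubgroup d k e P)
    (hN : ∀ X, X ∈ env N ↔ ∃ Y : Matrix (Fin d) (Fin d) F, X = cr e P (Y ⊗ₖ (1 : Matrix (Fin k) (Fin k) F))) :
    (∃ M, InSymplecticClass m F M ∧ H ≤ M) ∨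
    (∃ A : Subalgebra F (Matrix (Fin m ⊕ Fin m) (Fin m ⊕ Fin m) F), (∀ x ∈ A, ∀ y ∈ A, x * y = y * x) ∧ NormSet H A ∧
      IsAdjointClosedFor (sympForm m F) A ∧ ∃ x ∈ A, ∀ c : F, x ≠ algebraMap F _ c) := by
  have hsp := H96.AschSp.sympForm_symplectic m F
  obtain ⟨G₁, G₂, c, hu1, hu2, hc, hs1, hs2, hfix, hform⟩ := tensor_bilinear (by omega : 0 < d) (by omega : 0 < k) e P hN
    hsp.bilinear hsp.nondegenerate (ε := -1) (by
      rintro _ ⟨g, hg, rfl⟩ u v
      exact (hH (hNH hg)) u v) (fun v w => by rw [hsp.skew v w, neg_one_mul])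
  have hpos : TPos (RingEquiv.refl F) (sympForm m F) H e P G₁ G₂ := ⟨hle, hu1, hu2, hform⟩
  by_cases hodd : Odd (Fintype.card F)
  · rcases hc with rfl | rfl
    · rw [one_smul] at hs1
      rw [mul_one, neg_one_smul] at hs2
      exact sp_odd_pair hodd hH (by omega) hd hpos.swap hs2 hs1
    · rw [neg_one_smul] at hs1
      rw [neg_one_mul, neg_neg, one_smul] at hs2
      exact sp_odd_pair hodd hH (by omega) hk hpos hs1 hs2
  · left
    have h2 : (2 : F) = 0 := H96.AschSp.two_eq_zero_of_even hodd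
    have hneg : (-1 : F) = 1 := by linear_combination (-1) * h2
    have hc1 : c = 1 := by
      rcases hc with h | h
      · exact h
      · rw [h, hneg]
    rw [hc1, one_smul] at hs1
    rw [hc1, mul_one, hneg, one_smul] at hs2
    have hiso : ∀ g ∈ H, ∀ u v, sympForm m F ((g : Matrix _ _ F) *ᵥ u) ((g : Matrix _ _ F) *ᵥ v) = sympForm m F u v :=
      fun g hg u v => (hH hg) u v
    exact sp_even_pair h2 hH (by omega) (by omega) hpos
      (alt_of_irr h2 (by omega) hd hpos.swap hs1 hirr hiso) (alt_of_irr h2 (by omega) hk hpos hs2 hirr hiso)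

end H97.AschPosI
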