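import Mathlib
import Cfsg.Agent.Lib.H97.AschPosI
import Cfsg.Agent.Lib.H96.AschSU
import Cfsg.Agent.Lib.H49.Unitary
import Cfsg.Agent.Lib.H18.TensorForm

/-!
Aschbacher library, part 30: tensor position with equivalent forms.
-/

set_option autoImplicit false
set_option linter.unusedSectionVars false

namespace H97.AschPosH

open Cfsg Cfsg.Geo Matrix H97.AschRad H97.AschUnits H97.AschSkolem H97.AschCS H97.AschTensor H97.AschEnv
open H97.AschGrp H97.AschNonab H97.AschForm H97.AschTwo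
open H97.AschWreath H97.AschWreathNorm H97.AschLinear H97.AschTF H97.AschSL2 H97.AschTP H97.AschPos H97.AschPosE
open scoped Kronecker

variable {ι : Type} [Fintype ι] [DecidableEq ι] {F : Type*} [Field F]

/-- Kronecker product of invertible matrices -/
def kGL {d m : ℕ} (A : GL (Fin d) F) (B : GL (Fin m) F) : GL (Fin d × Fin m) F where
  val := (A : Matrix (Fin d) (Fin d) F) ⊗ₖ (B : Matrix (Fin m) (Fin m) F)
  inv := ((A⁻¹ : GL (Fin d) F) : Matrix (Fin d) (Fin d) F) ⊗ₖ ((B⁻¹ : GL (Fin m) F) : Matrix (Fin m) (Fin m) F)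
  val_inv := kron_inv A B
  inv_val := by
    have := kron_inv A⁻¹ B⁻¹
    rwa [inv_inv, inv_inv] at this

lemma cr_change {κ : Type} [Fintype κ] [DecidableEq κ] (e : ι ≃ κ) (P : GL ι F) (K : GL κ F) (X : Matrix κ κ F) :
    cr e (P * glReindex e.symm K) X = cr e P ((K : Matrix κ κ F) * X * ((K⁻¹ : GL κ F) : Matrix κ κ F)) := by
  rw [cr_apply, cr_apply, _root_.mul_inv_rev, Units.val_mul, Units.val_mul]
  have h1 : ((glReindex e.symm K : GL ι F) : Matrix ι ι F) = (K : Matrix κ κ F).submatrix e e := rfl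
  have h2 : (((glReindex e.symm K)⁻¹ : GL ι F) : Matrix ι ι F) = ((K⁻¹ : GL κ F) : Matrix κ κ F).submatrix e e := by
    rw [← map_inv]; rfl
  rw [h1, h2]
  have h3 : ((K : Matrix κ κ F) * X * ((K⁻¹ : GL κ F) : Matrix κ κ F)).submatrix e e =
      (K : Matrix κ κ F).submatrix e e * X.submatrix e e * ((K⁻¹ : GL κ F) : Matrix κ κ F).submatrix e e := by
    rw [Matrix.submatrix_mul_equiv, Matrix.submatrix_mul_equiv]
  rw [h3]
  simp only [mul_assoc]

lemma coF_change {κ : Type} [Fintype κ] [DecidableEq κ] (e : ι ≃ κ) (P : GL ι F) (K : GL κ F)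
    (f : (ι → F) → (ι → F) → F) (x y : κ → F) :
    coF e (P * glReindex e.symm K) f x y = coF e P f ((K : Matrix κ κ F) *ᵥ x) ((K : Matrix κ κ F) *ᵥ y) := by
  have h1 : ∀ x : κ → F, ((P * glReindex e.symm K : GL ι F) : Matrix ι ι F) *ᵥ (x ∘ e) =
      (P : Matrix ι ι F) *ᵥ (((K : Matrix κ κ F) *ᵥ x) ∘ e) := by
    intro x
    rw [Units.val_mul, ← Matrix.mulVec_mulVec]
    congr 1
    change ((K : Matrix κ κ F).submatrix e e) *ᵥ (x ∘ e) = _
    ext i
    simp only [Function.comp, mulVec, dotProduct, Matrix.submatrix_apply]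
    exact Fintype.sum_equiv e _ _ (fun x => by simp)
  change f (_ *ᵥ _) (_ *ᵥ _) = f _ _
  rw [h1, h1]

theorem TPos.change {σ : F ≃+* F} {f : (ι → F) → (ι → F) → F} {H : Subgroup (GL ι F)} {d m : ℕ}
    {e : ι ≃ Fin d × Fin m} {P : GL ι F} {G₁ : Matrix (Fin d) (Fin d) F} {G₂ : Matrix (Fin m) (Fin m) F}
    (h : TPos σ f H e P G₁ G₂) (A : GL (Fin d) F) (B : GL (Fin m) F) :
    TPos σ f H e (P * glReindex e.symm (kGL A B))
      ((A : Matrix (Fin d) (Fin d) F)ᵀ * G₁ * (A : Matrix (Fin d) (Fin d) F).map σ)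
      ((B : Matrix (Fin m) (Fin m) F)ᵀ * G₂ * (B : Matrix (Fin m) (Fin m) F).map σ) := by
  have hmapu : ∀ {n : ℕ} (X : GL (Fin n) F), IsUnit ((X : Matrix (Fin n) (Fin n) F).map σ) := by
    intro n X
    exact X.isUnit.map (σ : F →+* F).mapMatrix
  refine ⟨?_, ?_, ?_, ?_⟩
  · intro g hg
    obtain ⟨a, b, hab⟩ := (mem_tensorProductSubgroup_iff e P g).mp (h.le hg)
    refine (mem_tensorProductSubgroup_iff e _ g).mpr ⟨A⁻¹ * a * A, B⁻¹ * b * B, ?_⟩
    rw [cr_change, hab]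
    congr 1
    change _ = ((A : Matrix (Fin d) (Fin d) F) ⊗ₖ (B : Matrix (Fin m) (Fin m) F)) * _ *
      (((A⁻¹ : GL (Fin d) F) : Matrix (Fin d) (Fin d) F) ⊗ₖ ((B⁻¹ : GL (Fin m) F) : Matrix (Fin m) (Fin m) F))
    rw [← Matrix.mul_kronecker_mul, ← Matrix.mul_kronecker_mul, ← Units.val_mul, ← Units.val_mul, ← Units.val_mul,
      ← Units.val_mul]
    congr 2
    · group
    · group
  · exact ((((Matrix.isUnit_transpose (A := (A : Matrix (Fin d) (Fin d) F))).mpr A.isUnit).mul h.u1).mul (hmapu A))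
  · exact ((((Matrix.isUnit_transpose (A := (B : Matrix (Fin m) (Fin m) F))).mpr B.isUnit).mul h.u2).mul (hmapu B))
  · intro x y
    rw [coF_change, h.form, fog_mul]
    congr 1
    change (((A : Matrix (Fin d) (Fin d) F) ⊗ₖ (B : Matrix (Fin m) (Fin m) F)))ᵀ * (G₁ ⊗ₖ G₂) *
      (((A : Matrix (Fin d) (Fin d) F) ⊗ₖ (B : Matrix (Fin m) (Fin m) F))).map σ = _
    have h3 : (((A : Matrix (Fin d) (Fin d) F) ⊗ₖ (B : Matrix (Fin m) (Fin m) F))).map σ =
        (A : Matrix (Fin d) (Fin d) F).map σ ⊗ₖ (B : Matrix (Fin m) (Fin m) F).map σ := by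
      ext ⟨i, k⟩ ⟨j, l⟩
      simp [Matrix.kroneckerMap_apply]
    have h4 : (((A : Matrix (Fin d) (Fin d) F) ⊗ₖ (B : Matrix (Fin m) (Fin m) F)))ᵀ =
        (A : Matrix (Fin d) (Fin d) F)ᵀ ⊗ₖ (B : Matrix (Fin m) (Fin m) F)ᵀ := rfl
    rw [h3, h4, ← Matrix.mul_kronecker_mul, ← Matrix.mul_kronecker_mul]

/-- hermitian matrices are congruent -/
theorem herm_congr' [Fintype F] {q : ℕ} (hF : Fintype.card F = q ^ 2) {σ : F ≃+* F} (hσ : ∀ x, σ x = x ^ q) {n : ℕ}
    (G G' : Matrix (Fin n) (Fin n) F) (hG : IsUnit G) (hG' : IsUnit G') (hh : Gᵀ = G.map σ) (hh' : G'ᵀ = G'.map σ) :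
    ∃ A : GL (Fin n) F, (A : Matrix (Fin n) (Fin n) F)ᵀ * G * (A : Matrix (Fin n) (Fin n) F).map σ = G' := by
  have hK : Nat.card F = q ^ 2 := by rw [Nat.card_eq_fintype_card, hF]
  have hct : ∀ X : Matrix (Fin n) (Fin n) F, H49.Unitary.ct hK X = (X.map σ)ᵀ := by
    intro X; ext i j
    rw [H49.Unitary.ct_apply]
    change _ = σ (X j i)
    rw [hσ]
  have hself : ∀ X : Matrix (Fin n) (Fin n) F, Xᵀ = X.map σ → H49.Unitary.ct hK Xᵀ = Xᵀ := by
    intro X hX
    rw [hct]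
    have : (Xᵀ.map σ)ᵀ = X.map σ := rfl
    rw [this, hX]
  obtain ⟨y, hy, hyG⟩ := H49.Unitary.herm_congr hK Gᵀ G'ᵀ ((Matrix.isUnit_transpose (A := G)).mpr hG)
    ((Matrix.isUnit_transpose (A := G')).mpr hG') (hself G hh) (hself G' hh')
  obtain ⟨A, rfl⟩ := hy
  refine ⟨A, ?_⟩
  rw [hct] at hyG
  have h1 := congrArg Matrix.transpose hyG
  rw [Matrix.transpose_transpose, Matrix.transpose_mul, Matrix.transpose_mul, Matrix.transpose_transpose,
    Matrix.transpose_transpose, ← mul_assoc] at h1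
  exact h1.symm

lemma herm_matrix {σ : F ≃+* F} {n : ℕ} {G : Matrix (Fin n) (Fin n) F} (h : IsUnitaryForm σ (formOfGram σ G)) :
    Gᵀ = G.map σ := by
  ext i j
  have := h.herm (Pi.single j 1) (Pi.single i 1)
  rw [fog_single, fog_single] at this
  exact this

/-- symmetric matrices over a finite field of odd order -/
theorem symm_congr [Finite F] (h2 : (2 : F) ≠ 0) {n : ℕ} (G G' : Matrix (Fin n) (Fin n) F) (hG : IsUnit G)
    (hG' : IsUnit G') (hs : Gᵀ = G) (hs' : G'ᵀ = G') (hsq : IsSquare (G.det * G'.det)) :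
    ∃ A : GL (Fin n) F, (A : Matrix (Fin n) (Fin n) F)ᵀ * G * (A : Matrix (Fin n) (Fin n) F) = G' := by
  classical
  let B : LinearMap.BilinForm F (Fin n → F) := Matrix.toBilin' G
  let B' : LinearMap.BilinForm F (Fin n → F) := Matrix.toBilin' G'
  have hsymm : ∀ (G : Matrix (Fin n) (Fin n) F), Gᵀ = G → (Matrix.toBilin' G).IsSymm := by
    intro G hs
    refine ⟨fun x y => ?_⟩
    rw [Matrix.toBilin'_apply', Matrix.toBilin'_apply', Matrix.dotProduct_mulVec, ← Matrix.mulVec_transpose, hs,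
      dotProduct_comm]
  have hnd : ∀ (G : Matrix (Fin n) (Fin n) F), IsUnit G → (Matrix.toBilin' G).Nondegenerate := by
    intro G hG
    rw [LinearMap.BilinForm.nondegenerate_toBilin'_iff_det_ne_zero]
    exact ((Matrix.isUnit_iff_isUnit_det G).mp hG).ne_zero
  have hb : (LinearMap.BilinMap.toQuadraticMap B).Equivalent (LinearMap.BilinMap.toQuadraticMap B') := by
    rw [H48.QuadSim.equivalent_iff_gdet h2 (H18.TensorForm.nd_toQuad h2 (hsymm G hs) (hnd G hG))
      (H18.TensorForm.nd_toQuad h2 (hsymm G' hs') (hnd G' hG')) rfl (Pi.basisFun F (Fin n)) (Pi.basisFun F (Fin n)),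
      H18.TensorForm.gdet_toQuad (hsymm G hs), H18.TensorForm.gdet_toQuad (hsymm G' hs')]
    have h1 : ∀ G : Matrix (Fin n) (Fin n) F, LinearMap.BilinForm.toMatrix (Pi.basisFun F (Fin n)) (Matrix.toBilin' G) = G := by
      intro G
      rw [LinearMap.BilinForm.toMatrix_basisFun, LinearMap.BilinForm.toMatrix'_toBilin']
    change IsSquare (2 ^ Fintype.card (Fin n) * (LinearMap.BilinForm.toMatrix (Pi.basisFun F (Fin n)) (Matrix.toBilin' G)).det *
      (2 ^ Fintype.card (Fin n) * (LinearMap.BilinForm.toMatrix (Pi.basisFun F (Fin n)) (Matrix.toBilin' G')).det))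
    rw [h1, h1]
    obtain ⟨s, hs⟩ := hsq
    exact ⟨2 ^ Fintype.card (Fin n) * s, by linear_combination (2 ^ Fintype.card (Fin n)) ^ 2 * hs⟩
  obtain ⟨φ⟩ := hb
  let ψ := φ.toLinearEquiv.symm
  let M : Matrix (Fin n) (Fin n) F := LinearMap.toMatrix' (ψ : (Fin n → F) →ₗ[F] (Fin n → F))
  let M' : Matrix (Fin n) (Fin n) F := LinearMap.toMatrix' (ψ.symm : (Fin n → F) →ₗ[F] (Fin n → F))
  have hMM' : M * M' = 1 := by
    rw [← LinearMap.toMatrix'_comp]
    have : (ψ : (Fin n → F) →ₗ[F] (Fin n → F)) ∘ₗ (ψ.symm : (Fin n → F) →ₗ[F] (Fin n → F)) = LinearMap.id := by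
      ext; simp
    rw [this, LinearMap.toMatrix'_id]
  have hM'M : M' * M = 1 := by
    rw [← LinearMap.toMatrix'_comp]
    have : (ψ.symm : (Fin n → F) →ₗ[F] (Fin n → F)) ∘ₗ (ψ : (Fin n → F) →ₗ[F] (Fin n → F)) = LinearMap.id := by
      ext; simp
    rw [this, LinearMap.toMatrix'_id]
  have hMv : ∀ x, M *ᵥ x = ψ x := fun x => by
    change (LinearMap.toMatrix' (ψ : (Fin n → F) →ₗ[F] (Fin n → F))) *ᵥ x = _
    rw [← Matrix.toLin'_apply, Matrix.toLin'_toMatrix']; rfl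
  refine ⟨⟨M, M', hMM', hM'M⟩, ?_⟩
  change Mᵀ * G * M = G'
  have hQ : ∀ x, B (ψ x) (ψ x) = B' x x := by
    intro x
    have h3 := φ.map_app (ψ x)
    have h4 : φ (ψ x) = x := φ.toLinearEquiv.apply_symm_apply x
    rw [h4, LinearMap.BilinMap.toQuadraticMap_apply, LinearMap.BilinMap.toQuadraticMap_apply] at h3
    exact h3.symm
  have hB : ∀ x y, B (ψ x) (ψ y) = B' x y := by
    intro x y
    have h3 := hQ (x + y)
    rw [map_add, map_add, map_add, LinearMap.add_apply, LinearMap.add_apply, map_add, map_add, LinearMap.add_apply,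
      LinearMap.add_apply, hQ, hQ] at h3
    have h4 : B (ψ y) (ψ x) = B (ψ x) (ψ y) := (hsymm G hs).eq (ψ y) (ψ x)
    have h5 : B' y x = B' x y := (hsymm G' hs').eq y x
    rw [h4, h5] at h3
    have h6 : (2 : F) * (B (ψ x) (ψ y) - B' x y) = 0 := by linear_combination h3
    exact sub_eq_zero.mp ((mul_eq_zero.mp h6).resolve_left h2)
  ext i j
  have h3 := hB (Pi.single i 1) (Pi.single j 1)
  rw [← hMv, ← hMv] at h3
  change Matrix.toBilin' G (M *ᵥ Pi.single i 1) (M *ᵥ Pi.single j 1) = Matrix.toBilin' G' _ _ at h3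
  rw [Matrix.toBilin'_apply', Matrix.toBilin'_single] at h3
  rw [← h3, mul_assoc, Matrix.mul_apply]
  simp only [dotProduct, Matrix.mulVec_single_one, Matrix.transpose_apply]
  refine Finset.sum_congr rfl (fun k _ => ?_)
  rw [Matrix.mul_apply]
  rfl

end H97.AschPosH
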