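import Mathlib
import Cfsg.Agent.Lib.H97.AschPosH
import Cfsg.Agent.Lib.H96.AschOdd

/-!
Aschbacher library, part 31: tensor position in the unitary and odd-dimensional orthogonal groups.
-/

set_option autoImplicit false
set_option linter.unusedSectionVars false

namespace H97.AschPosJ

open Cfsg Cfsg.Geo Matrix H97.AschRad H97.AschUnits H97.AschSkolem H97.AschCS H97.AschTensor H97.AschEnv
open H97.AschGrp H97.AschNonab H97.AschForm H97.AschTwo
open H97.AschWreath H97.AschWreathNorm H97.AschLinear H97.AschTF H97.AschSL2 H97.AschTP H97.AschPos H97.AschPosE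
open H97.AschPosH
open scoped Kronecker

variable {ι : Type} [Fintype ι] [DecidableEq ι] {F : Type*} [Field F]

/-- two equal factors give a tensor square -/
theorem TPos.square {σ : F ≃+* F} {f : (ι → F) → (ι → F) → F} {H : Subgroup (GL ι F)} {d : ℕ}
    {e : ι ≃ Fin d × Fin d} {P : GL ι F} {G₁ : Matrix (Fin d) (Fin d) F} {l : F} (hl : l ≠ 0)
    (h : TPos σ f H e P G₁ (l • G₁)) :
    IsTensorPowerFormStructure σ f (formOfGram σ G₁) (e.trans (pairEquiv d)) P ∧
      H ≤ tensorWreathSubgroup d 2 (e.trans (pairEquiv d)) P := by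
  refine ⟨⟨l, hl, fun x y => ?_⟩, h.le.trans (tensorProduct_le_wreath d e P)⟩
  have h1 := h.form (x ∘ pairEquiv d) (y ∘ pairEquiv d)
  change coF e P f (x ∘ pairEquiv d) (y ∘ pairEquiv d) = _
  rw [h1, gram_fog, formOfGram, Finset.mul_sum]
  refine Fintype.sum_equiv (pairEquiv d) _ _ (fun p => ?_)
  rw [Finset.mul_sum]
  refine Fintype.sum_equiv (pairEquiv d) _ _ (fun p' => ?_)
  rw [Fin.prod_univ_two, Matrix.kroneckerMap_apply, Matrix.smul_apply, smul_eq_mul]
  change x (pairEquiv d p) * (G₁ p.1 p'.1 * (l * G₁ p.2 p'.2)) * σ (y (pairEquiv d p')) =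
    l * (x (pairEquiv d p) * (G₁ p.1 p'.1 * G₁ p.2 p'.2) * σ (y (pairEquiv d p')))
  ring

/-! ### unitary groups -/

/-- **Tensor position in the unitary groups.** -/
theorem gu_tensor [Fintype F] {n q : ℕ} (hF : Fintype.card F = q ^ 2) {H N : Subgroup (GL (Fin n) F)}
    (hH : H ≤ GU n F q) (hNH : N ≤ H) {d k : ℕ} (hd : 2 ≤ d) (hk : 2 ≤ k) (e : Fin n ≃ Fin d × Fin k)
    (P : GL (Fin n) F) (hle : H ≤ tensorProductSubgroup d k e P)
    (hN : ∀ X, X ∈ env N ↔ ∃ Y : Matrix (Fin d) (Fin d) F, X = cr e P (Y ⊗ₖ (1 : Matrix (Fin k) (Fin k) F))) :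
    (∃ M, InUnitaryClass n F q M ∧ H ≤ M) ∨
    (q = 2 ∧ ∃ (e : Fin n ≃ Fin 3 × Fin 3) (P : GL (Fin n) F) (σ : F ≃+* F), (∀ x, σ x = x ^ q) ∧
      TPos σ (hermForm n F q) H e P (1 : Matrix (Fin 3) (Fin 3) F) (1 : Matrix (Fin 3) (Fin 3) F)) ∨
    (n = 4 ∧ ∃ b : (Fin n → F) → (Fin n → F) → F, IsBilinearForm b ∧ IsNondegenerateForm b ∧
      (∀ u v, b u v = b v u) ∧ H ≤ similarityGroup b) := by
  classical
  obtain ⟨p, dd, σ, hp, hchar, hdd, hqp, hcard, hσ, hσ2, hσ1⟩ := H96.AschSU.exists_sigma hF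
  have hu := H96.AschSU.hermForm_unitary hσ hσ2 hσ1 n
  have hfix : FixesForm (matrixSet N) (hermForm n F q) := by
    rintro _ ⟨g, hg, rfl⟩ u v
    exact (hH (hNH hg)) u v
  obtain ⟨G₁, G₂, h1, h2, hfix1, hform⟩ := tensor_hermitian (by omega : 0 < d) (by omega : 0 < k) e P hN hu hfix
  have hpos : TPos σ (hermForm n F q) H e P G₁ G₂ :=
    ⟨hle, unit_of_nondeg σ h1.nondegenerate, unit_of_nondeg σ h2.nondegenerate, hform⟩
  have hσfun : (fun x : F => x ^ q) = (σ : F → F) := by funext x; rw [hσ]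
  have hpow : ∀ {k : ℕ} {G : Matrix (Fin k) (Fin k) F}, IsUnitaryForm σ (formOfGram σ G) →
      IsUnitaryFormPow q (formOfGram σ G) := by
    intro k G h
    exact ⟨h.add_left, h.smul_left, fun v w => by rw [← hσ]; exact h.herm v w, h.nondegenerate⟩
  rcases lt_trichotomy d k with hlt | heq | hgt
  · left
    refine ⟨tensorProductSubgroup d k e P ⊓ GU n F q, ?_, le_inf hle hH⟩
    right; right; left
    refine ⟨d, k, e, P, formOfGram σ G₁, formOfGram σ G₂, hd, hlt, hpow h1, hpow h2, ?_, rfl⟩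
    rw [hσfun]; exact hpos.struct
  · subst heq
    have hGh1 := herm_matrix h1
    have hGh2 := herm_matrix h2
    by_cases h23 : q = 2 ∧ d = 3
    · obtain ⟨rfl, rfl⟩ := h23
      right; left
      have h11 : (1 : Matrix (Fin 3) (Fin 3) F)ᵀ = (1 : Matrix (Fin 3) (Fin 3) F).map σ := by
        rw [Matrix.transpose_one, Matrix.map_one _ (map_zero σ) (map_one σ)]
      obtain ⟨A, hA⟩ := herm_congr' hF hσ G₁ 1 hpos.u1 isUnit_one hGh1 h11
      obtain ⟨B, hB⟩ := herm_congr' hF hσ G₂ 1 hpos.u2 isUnit_one hGh2 h11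
      have := TPos.change hpos A B
      rw [hA, hB] at this
      exact ⟨rfl, e, _, σ, hσ, this⟩
    · by_cases hd2 : d = 2
      · subst hd2
        right; right
        have hn4 : n = 4 := by
          have := Fintype.card_congr e
          simpa using this
        refine ⟨hn4, pull e P (bf (J2 F ⊗ₖ J2 F)), ?_, ?_, ?_, ?_⟩
        · exact pull_bilinear e P (bf_bilinear _)
        · apply pull_nondeg
          apply bf_nondeg
          have hJ : J2 F * (J2 F)ᵀ = 1 := J2_mul
          refine ⟨⟨J2 F ⊗ₖ J2 F, (J2 F)ᵀ ⊗ₖ (J2 F)ᵀ, ?_, ?_⟩, rfl⟩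
          · rw [← Matrix.mul_kronecker_mul, hJ, Matrix.one_kronecker_one]
          · rw [← Matrix.mul_kronecker_mul, mul_eq_one_comm.mp hJ, Matrix.one_kronecker_one]
        · intro u v
          change bf (J2 F ⊗ₖ J2 F) _ _ = bf (J2 F ⊗ₖ J2 F) _ _
          rw [← bf_transpose]
          have h5 : (J2 F ⊗ₖ J2 F)ᵀ = J2 F ⊗ₖ J2 F := by
            have h6 : (J2 F ⊗ₖ J2 F)ᵀ = (J2 F)ᵀ ⊗ₖ (J2 F)ᵀ := rfl
            rw [h6, J2_transpose, Matrix.smul_kronecker, Matrix.kronecker_smul, smul_smul]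
            norm_num
          rw [h5]
        · refine hle.trans (pull_sim e P _ _ ?_)
          rintro g ⟨a, b, hab⟩
          have hdet : IsUnit ((a : Matrix (Fin 2) (Fin 2) F).det * (b : Matrix (Fin 2) (Fin 2) F).det) := by
            refine IsUnit.mul ?_ ?_
            · exact (Matrix.isUnit_iff_isUnit_det _).mp a.isUnit
            · exact (Matrix.isUnit_iff_isUnit_det _).mp b.isUnit
          obtain ⟨c, hc⟩ := hdet
          refine ⟨c, fun u v => ?_⟩
          rw [bf_mul, hc, ← bf_smul]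
          congr 1
          rw [hab]
          have h4 : (((a : Matrix (Fin 2) (Fin 2) F) ⊗ₖ (b : Matrix (Fin 2) (Fin 2) F)))ᵀ =
              (a : Matrix (Fin 2) (Fin 2) F)ᵀ ⊗ₖ (b : Matrix (Fin 2) (Fin 2) F)ᵀ := rfl
          rw [h4, ← Matrix.mul_kronecker_mul, ← Matrix.mul_kronecker_mul, J2_conj, J2_conj, Matrix.smul_kronecker,
            Matrix.kronecker_smul, smul_smul]
      · left
        obtain ⟨B, hB⟩ := herm_congr' hF hσ G₂ G₁ hpos.u2 hpos.u1 hGh2 hGh1
        have h3 := TPos.change hpos 1 B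
        rw [hB, Units.val_one, Matrix.transpose_one, one_mul, Matrix.map_one _ (map_zero σ) (map_one σ), mul_one] at h3
        have h4 : TPos σ (hermForm n F q) H e (P * glReindex e.symm (kGL 1 B)) G₁ ((1 : F) • G₁) := by
          rw [one_smul]; exact h3
        obtain ⟨h5, h6⟩ := TPos.square one_ne_zero h4
        refine ⟨tensorWreathSubgroup d 2 (e.trans (pairEquiv d)) (P * glReindex e.symm (kGL 1 B)) ⊓ GU n F q, ?_,
          le_inf h6 hH⟩
        right; right; right
        refine ⟨d, 2, e.trans (pairEquiv d), _, formOfGram σ G₁, by omega, le_refl 2, h23, hpow h1, ?_, rfl⟩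
        rw [hσfun]; exact h5
  · left
    have hsw := hpos.swap
    refine ⟨tensorProductSubgroup k d (e.trans (Equiv.prodComm _ _)) P ⊓ GU n F q, ?_, le_inf hsw.le hH⟩
    right; right; left
    refine ⟨k, d, _, P, formOfGram σ G₂, formOfGram σ G₁, hk, hgt, hpow h2, hpow h1, ?_, rfl⟩
    rw [hσfun]; exact hsw.struct

/-! ### odd-dimensional orthogonal groups -/

/-- an orthogonal basis of vectors of the same norm gives an orthogonal decomposition into lines -/
theorem lines_decomp {Q : (ι → F) → F} (hQs : ∀ (c : F) v, Q (c • v) = c ^ 2 * Q v)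
    (hB : IsBilinearForm (QuadraticMap.polar Q)) (h2 : (2 : F) ≠ 0) (hc : 2 ≤ Fintype.card ι) (P : GL ι F) {l : F}
    (hl : l ≠ 0) (horth : ∀ i j, QuadraticMap.polar Q ((P : Matrix ι ι F) *ᵥ Pi.single i 1)
      ((P : Matrix ι ι F) *ᵥ Pi.single j 1) = if i = j then l else 0) :
    ∃ D : Fin (Fintype.card ι) → Submodule F (ι → F), IsOrthogonalMDecomposition Q 1 D ∧
      ∀ g : GL ι F, (∃ π : Equiv.Perm ι, ∀ i, ∃ c : F, c ≠ 0 ∧ (g : Matrix ι ι F) *ᵥ ((P : Matrix ι ι F) *ᵥ Pi.single i 1) =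
        c • ((P : Matrix ι ι F) *ᵥ Pi.single (π i) 1)) → g ∈ decompositionStabilizer D := by
  classical
  let o : ι ≃ Fin (Fintype.card ι) := Fintype.equivFin ι
  let E : (ι → F) ≃ₗ[F] (ι → F) := Matrix.toLin'OfInv (M := ((P⁻¹ : GL ι F) : Matrix ι ι F)) (M' := (P : Matrix ι ι F))
    (by rw [← Units.val_mul, inv_mul_cancel]; rfl) (by rw [← Units.val_mul, mul_inv_cancel]; rfl)
  have hE : ∀ v, E v = (P : Matrix ι ι F) *ᵥ v := fun v => Matrix.toLin'_apply _ _
  let b : Module.Basis ι F (ι → F) := (Pi.basisFun F ι).map E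
  have hb : ∀ i, b i = (P : Matrix ι ι F) *ᵥ Pi.single i 1 := by
    intro i
    rw [Module.Basis.map_apply, Pi.basisFun_apply, hE]
  let D : Fin (Fintype.card ι) → Submodule F (ι → F) := fun i => Submodule.span F {b (o.symm i)}
  have hQb : ∀ i, Q (b i) = l / 2 := by
    intro i
    have h3 := horth i i
    rw [if_pos rfl, ← hb] at h3
    have h4 : Q (b i + b i) = 4 * Q (b i) := by
      have : b i + b i = (2 : F) • b i := by rw [two_smul]
      rw [this, hQs]; ring
    rw [QuadraticMap.polar, h4] at h3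
    field_simp
    linear_combination h3
  refine ⟨D, ⟨⟨⟨hc, one_pos, ?_, ?_, ?_⟩, ?_, ?_⟩, ?_⟩, ?_⟩
  · intro i
    exact finrank_span_singleton (b.ne_zero _)
  · have := (b.linearIndependent.comp o.symm o.symm.injective).iSupIndep_span_singleton
    exact this
  · rw [← Submodule.span_range_eq_iSup]
    have : Set.range (fun i => b (o.symm i)) = Set.range b := by
      rw [← o.symm.surjective.range_comp b]; rfl
    rw [this, b.span_eq]
  · intro i w hw hw0
    obtain ⟨c, rfl⟩ := Submodule.mem_span_singleton.mp hw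
    have hc0 : c ≠ 0 := by rintro rfl; exact hw0 (zero_smul _ _)
    have h3 := horth (o.symm i) (o.symm i)
    rw [if_pos rfl, ← hb] at h3
    refine ⟨⟨b (o.symm i), Submodule.mem_span_singleton_self _, ?_⟩, ⟨b (o.symm i), Submodule.mem_span_singleton_self _, ?_⟩⟩
    · rw [hB.smul_right, h3]; exact mul_ne_zero hc0 hl
    · rw [hB.smul_left, h3]; exact mul_ne_zero hc0 hl
  · intro i j hij u hu v hv
    obtain ⟨c, rfl⟩ := Submodule.mem_span_singleton.mp hu
    obtain ⟨c', rfl⟩ := Submodule.mem_span_singleton.mp hv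
    have h3 := horth (o.symm i) (o.symm j)
    rw [if_neg (fun h => hij (o.symm.injective h)), ← hb, ← hb] at h3
    rw [hB.smul_left, hB.smul_right, h3, mul_zero, mul_zero]
  · intro i j
    refine ⟨(LinearEquiv.toSpanNonzeroSingleton F (ι → F) (b (o.symm i)) (b.ne_zero _)).symm.trans
      (LinearEquiv.toSpanNonzeroSingleton F (ι → F) (b (o.symm j)) (b.ne_zero _)), fun w => ?_⟩
    obtain ⟨c, hc⟩ : ∃ c : F, w = LinearEquiv.toSpanNonzeroSingleton F (ι → F) (b (o.symm i)) (b.ne_zero _) c :=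
      ⟨_, (LinearEquiv.apply_symm_apply _ w).symm⟩
    rw [hc, LinearEquiv.trans_apply, LinearEquiv.symm_apply_apply]
    change Q (c • b (o.symm j)) = Q (c • b (o.symm i))
    rw [hQs, hQs, hQb, hQb]
  · rintro g ⟨π, hπ⟩
    refine ⟨(o.symm.trans π).trans o, fun i => ?_⟩
    obtain ⟨c, hc0, hc⟩ := hπ (o.symm i)
    change (Submodule.span F {b (o.symm i)}).map _ = Submodule.span F {b (o.symm (o (π (o.symm i))))}
    rw [Equiv.symm_apply_apply, Submodule.map_span, Set.image_singleton, Matrix.toLin'_apply, hb, hb, hc]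
    exact Submodule.span_singleton_smul_eq (IsUnit.mk0 c hc0) _

/-- an orthogonal 3 × 3 matrix over the field with three elements is monomial -/
lemma monomial_three [Fintype F] (h3 : Fintype.card F = 3) (a : GL (Fin 3) F)
    (ha : (a : Matrix (Fin 3) (Fin 3) F)ᵀ * (a : Matrix (Fin 3) (Fin 3) F) = 1) :
    ∃ π : Equiv.Perm (Fin 3), ∀ j, ∃ c : F, c ≠ 0 ∧ (a : Matrix (Fin 3) (Fin 3) F) *ᵥ Pi.single j 1 =
      c • (Pi.single (π j) 1 : Fin 3 → F) := by
  classical
  have hthree : (3 : F) = 0 := by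
    have := FiniteField.cast_card_eq_zero F
    rw [h3] at this; exact_mod_cast this
  have hsq : ∀ x : F, x ≠ 0 → x * x = 1 := by
    intro x hx
    have := FiniteField.pow_card_sub_one_eq_one x hx
    rw [h3] at this
    rw [← this]; ring
  have hcol : ∀ j, ∃ i, (a : Matrix (Fin 3) (Fin 3) F) i j ≠ 0 ∧ ∀ i', i' ≠ i → (a : Matrix (Fin 3) (Fin 3) F) i' j = 0 := by
    intro j
    have h1 := congrFun (congrFun ha j) j
    rw [Matrix.mul_apply, Matrix.one_apply_eq, Fin.sum_univ_three] at h1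
    simp only [Matrix.transpose_apply] at h1
    by_cases h0 : (a : Matrix (Fin 3) (Fin 3) F) 0 j = 0
    · by_cases h1' : (a : Matrix (Fin 3) (Fin 3) F) 1 j = 0
      · refine ⟨2, ?_, ?_⟩
        · intro h2; rw [h0, h1', h2] at h1; norm_num at h1
        · intro i' hi'; fin_cases i'
          · exact h0
          · exact h1'
          · exact absurd rfl hi'
      · by_cases h2 : (a : Matrix (Fin 3) (Fin 3) F) 2 j = 0
        · refine ⟨1, h1', ?_⟩
          intro i' hi'; fin_cases i'
          · exact h0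
          · exact absurd rfl hi'
          · exact h2
        · exfalso
          rw [h0, hsq _ h1', hsq _ h2] at h1
          exact one_ne_zero (α := F) (by linear_combination h1)
    · by_cases h1' : (a : Matrix (Fin 3) (Fin 3) F) 1 j = 0
      · by_cases h2 : (a : Matrix (Fin 3) (Fin 3) F) 2 j = 0
        · refine ⟨0, h0, ?_⟩
          intro i' hi'; fin_cases i'
          · exact absurd rfl hi'
          · exact h1'
          · exact h2
        · exfalso
          rw [h1', hsq _ h0, hsq _ h2] at h1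
          exact one_ne_zero (α := F) (by linear_combination h1)
      · by_cases h2 : (a : Matrix (Fin 3) (Fin 3) F) 2 j = 0
        · exfalso
          rw [h2, hsq _ h0, hsq _ h1'] at h1
          exact one_ne_zero (α := F) (by linear_combination h1)
        · exfalso
          rw [hsq _ h0, hsq _ h1', hsq _ h2] at h1
          exact one_ne_zero (α := F) (by linear_combination hthree - h1)
  choose π hπ1 hπ2 using hcol
  have hv : ∀ j, (a : Matrix (Fin 3) (Fin 3) F) *ᵥ Pi.single j 1 =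
      (a : Matrix (Fin 3) (Fin 3) F) (π j) j • (Pi.single (π j) 1 : Fin 3 → F) := by
    intro j
    ext i
    rw [Matrix.mulVec_single_one, Pi.smul_apply, smul_eq_mul]
    change (a : Matrix (Fin 3) (Fin 3) F) i j = _
    by_cases hi : i = π j
    · rw [hi, Pi.single_eq_same, mul_one]
    · rw [Pi.single_eq_of_ne hi, mul_zero, hπ2 j i hi]
  have hinj : Function.Injective π := by
    intro j j' hjj
    have h4 : (a : Matrix (Fin 3) (Fin 3) F) *ᵥ ((a : Matrix (Fin 3) (Fin 3) F) (π j') j' • Pi.single j (1 : F)) =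
        (a : Matrix (Fin 3) (Fin 3) F) *ᵥ ((a : Matrix (Fin 3) (Fin 3) F) (π j) j • Pi.single j' (1 : F)) := by
      rw [Matrix.mulVec_smul, Matrix.mulVec_smul, hv j, hv j', hjj, smul_smul, smul_smul, mul_comm]
    have h5 := congrArg (fun w => ((a⁻¹ : GL (Fin 3) F) : Matrix (Fin 3) (Fin 3) F) *ᵥ w) h4
    simp only [Matrix.mulVec_mulVec, ← Units.val_mul, inv_mul_cancel, Units.val_one, Matrix.one_mulVec] at h5
    by_contra hne
    have h6 := congrFun h5 j
    rw [Pi.smul_apply, Pi.smul_apply, Pi.single_eq_same, Pi.single_eq_of_ne hne, smul_eq_mul, smul_zero, mul_one] at h6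
    exact hπ1 j' h6
  exact ⟨Equiv.ofBijective π (Finite.injective_iff_bijective.mp hinj), fun j => ⟨_, hπ1 j, hv j⟩⟩

/-- **Tensor position in the odd-dimensional orthogonal groups.** -/
theorem om_tensor [Fintype F] {m : ℕ} (hodd : Odd (Fintype.card F)) {H N : Subgroup (GL (Unit ⊕ (Fin m ⊕ Fin m)) F)}
    (hH : H ≤ isometryGroup F (quadFormOdd m F)) (hNH : N ≤ H) {d k : ℕ} (hd : 2 ≤ d) (hk : 2 ≤ k)
    (e : (Unit ⊕ (Fin m ⊕ Fin m)) ≃ Fin d × Fin k) (P : GL (Unit ⊕ (Fin m ⊕ Fin m)) F)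
    (hle : H ≤ tensorProductSubgroup d k e P)
    (hN : ∀ X, X ∈ env N ↔ ∃ Y : Matrix (Fin d) (Fin d) F, X = cr e P (Y ⊗ₖ (1 : Matrix (Fin k) (Fin k) F))) :
    ∃ M, InOrthogonalOddClass m F M ∧ H ≤ M := by
  classical
  have h2 : (2 : F) ≠ 0 := H96.AschSp.two_ne_zero_of_odd hodd
  have hbil := H96.AschOdd.polar_bilin m F
  have hsymm : ∀ v w, QuadraticMap.polar (quadFormOdd m F) v w = QuadraticMap.polar (quadFormOdd m F) w v := fun v w =>
    QuadraticMap.polar_comm _ _ _
  have hnd : IsNondegenerateForm (QuadraticMap.polar (quadFormOdd m F)) := by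
    intro v hv
    obtain ⟨x, hx⟩ := H96.AschOdd.polar_nondeg h2 v hv
    exact ⟨⟨x, by rwa [hsymm] at hx⟩, ⟨x, hx⟩⟩
  have hiso : ∀ g ∈ H, ∀ u v, QuadraticMap.polar (quadFormOdd m F) ((g : Matrix _ _ F) *ᵥ u) ((g : Matrix _ _ F) *ᵥ v) =
      QuadraticMap.polar (quadFormOdd m F) u v := fun g hg u v => (H96.AschOdd.isometry_le _ (hH hg)) u v
  obtain ⟨G₁, G₂, c, hu1, hu2, hc, hs1, hs2, hfix, hform⟩ := tensor_bilinear (by omega : 0 < d) (by omega : 0 < k) e P hN
    hbil hnd (ε := 1) (by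
      rintro _ ⟨g, hg, rfl⟩ u v
      exact hiso g (hNH hg) u v) (fun v w => by rw [hsymm v w, one_mul])
  have hpos : TPos (RingEquiv.refl F) (QuadraticMap.polar (quadFormOdd m F)) H e P G₁ G₂ := ⟨hle, hu1, hu2, hform⟩
  have hdk : d * k = 2 * m + 1 := by
    have := Fintype.card_congr e
    rw [Fintype.card_prod, Fintype.card_fin, Fintype.card_fin, H96.AschOdd.card_Ix] at this
    exact this.symm
  have hdodd : Odd d := by
    rcases Nat.even_or_odd d with h | h
    · exfalso
      obtain ⟨r, hr⟩ := h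
      have : d * k = 2 * (r * k) := by rw [hr]; ring
      omega
    · exact h
  have hkodd : Odd k := by
    rcases Nat.even_or_odd k with h | h
    · exfalso
      obtain ⟨r, hr⟩ := h
      have : d * k = 2 * (d * r) := by rw [hr]; ring
      omega
    · exact h
  have hc1 : c = 1 := by
    rcases hc with h | h
    · exact h
    · exfalso
      rw [h, neg_one_smul] at hs1
      have h5 := congrArg Matrix.det hs1
      rw [Matrix.det_transpose, Matrix.det_neg, Fintype.card_fin, hdodd.neg_one_pow] at h5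
      have h6 : (2 : F) * G₁.det = 0 := by linear_combination h5
      exact ((Matrix.isUnit_iff_isUnit_det _).mp hu1).ne_zero ((mul_eq_zero.mp h6).resolve_left h2)
  rw [hc1, one_smul] at hs1
  rw [hc1, mul_one, one_smul] at hs2
  have hsymform : ∀ {k : ℕ} {G : Matrix (Fin k) (Fin k) F}, IsUnit G → Gᵀ = G →
      IsSymmetricForm (formOfGram (RingEquiv.refl F) G) := by
    intro k G hu hs
    refine ⟨(fog_sesq _ _).to_bilinear, ?_, fog_nondeg _ hu⟩
    intro v w
    change ∑ a, ∑ b, v a * G a b * w b = ∑ a, ∑ b, w a * G a b * v b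
    rw [Finset.sum_comm]
    refine Finset.sum_congr rfl (fun a _ => Finset.sum_congr rfl (fun b _ => ?_))
    have : G b a = G a b := congrFun (congrFun hs a) b
    rw [this]; ring
  have hd3 : 3 ≤ d := by obtain ⟨r, hr⟩ := hdodd; omega
  have hk3 : 3 ≤ k := by obtain ⟨r, hr⟩ := hkodd; omega
  have hid : (id : F → F) = (RingEquiv.refl F : F → F) := rfl
  rcases lt_trichotomy d k with hlt | heq | hgt
  · refine ⟨tensorProductSubgroup d k e P ⊓ isometryGroup F (quadFormOdd m F), ?_, le_inf hle hH⟩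
    iterate 5 right
    left
    refine ⟨d, k, e, P, formOfGram (RingEquiv.refl F) G₁, formOfGram (RingEquiv.refl F) G₂, hd3, hlt,
      hsymform hu1 hs1, hsymform hu2 hs2, ?_, rfl⟩
    exact hpos.struct
  · subst heq
    -- make the forms standard
    have hdiag : ∀ G : Matrix (Fin d) (Fin d) F, IsUnit G → Gᵀ = G → ∃ (A : GL (Fin d) F) (l : F), l ≠ 0 ∧
        (A : Matrix (Fin d) (Fin d) F)ᵀ * G * (A : Matrix (Fin d) (Fin d) F) = l • (1 : Matrix (Fin d) (Fin d) F) := by
      intro G hu hs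
      have hdet : G.det ≠ 0 := ((Matrix.isUnit_iff_isUnit_det _).mp hu).ne_zero
      have hdet1 : (G.det • (1 : Matrix (Fin d) (Fin d) F)).det = G.det ^ d := by
        rw [Matrix.det_smul, Matrix.det_one, mul_one, Fintype.card_fin]
      obtain ⟨A, hA⟩ := symm_congr h2 G (G.det • 1) hu
        ((Matrix.isUnit_iff_isUnit_det _).mpr (by rw [hdet1]; exact (IsUnit.mk0 _ hdet).pow _)) hs
        (by rw [Matrix.transpose_smul, Matrix.transpose_one]) (by
          rw [hdet1]
          obtain ⟨r, hr⟩ := hdodd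
          have hpw : ∀ x : F, x * x ^ d = x ^ (r + 1) * x ^ (r + 1) := by
            intro x; rw [hr]; ring
          exact ⟨G.det ^ (r + 1), hpw _⟩)
      exact ⟨A, G.det, hdet, hA⟩
    obtain ⟨A, l₁, hl₁, hA⟩ := hdiag G₁ hu1 hs1
    obtain ⟨B, l₂, hl₂, hB⟩ := hdiag G₂ hu2 hs2
    have h3 := TPos.change hpos A B
    have hA' : (A : Matrix (Fin d) (Fin d) F)ᵀ * G₁ * (A : Matrix (Fin d) (Fin d) F).map (RingEquiv.refl F) =
        l₁ • (1 : Matrix (Fin d) (Fin d) F) := hA
    have hB' : (B : Matrix (Fin d) (Fin d) F)ᵀ * G₂ * (B : Matrix (Fin d) (Fin d) F).map (RingEquiv.refl F) =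
        l₂ • (1 : Matrix (Fin d) (Fin d) F) := hB
    rw [hA', hB'] at h3
    set P' := P * glReindex e.symm (kGL A B)
    by_cases h33 : Fintype.card F = 3 ∧ d = 3
    · obtain ⟨hF3, rfl⟩ := h33
      -- monomial
      have hmono : ∀ (a : GL (Fin 3) F) (c l : F), l ≠ 0 → c ≠ 0 →
          (a : Matrix (Fin 3) (Fin 3) F)ᵀ * (l • (1 : Matrix (Fin 3) (Fin 3) F)) * (a : Matrix (Fin 3) (Fin 3) F) =
            c • (l • (1 : Matrix (Fin 3) (Fin 3) F)) →
          (a : Matrix (Fin 3) (Fin 3) F)ᵀ * (a : Matrix (Fin 3) (Fin 3) F) = 1 := by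
        intro a c l hl hc h
        have hsq : ∀ x : F, x ≠ 0 → x * x = 1 := by
          intro x hx
          have := FiniteField.pow_card_sub_one_eq_one x hx
          rw [hF3] at this
          rw [← this]; ring
        have h4 : (a : Matrix (Fin 3) (Fin 3) F)ᵀ * (a : Matrix (Fin 3) (Fin 3) F) = c • (1 : Matrix (Fin 3) (Fin 3) F) := by
          rw [Matrix.mul_smul, Matrix.smul_mul, mul_one, smul_comm c l] at h
          have h5 := congrArg (fun X => l⁻¹ • X) h
          simp only [smul_smul] at h5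
          rwa [inv_mul_cancel₀ hl, one_smul, ← mul_assoc, inv_mul_cancel₀ hl, one_mul] at h5
        have h5 := congrArg Matrix.det h4
        have hdet : (a : Matrix (Fin 3) (Fin 3) F).det ≠ 0 := ((Matrix.isUnit_iff_isUnit_det _).mp a.isUnit).ne_zero
        rw [Matrix.det_mul, Matrix.det_transpose, Matrix.det_smul, Matrix.det_one, mul_one, Fintype.card_fin, hsq _ hdet] at h5
        have h6 : c = 1 := by
          have h7 := hsq c hc
          linear_combination (-c) * h7 - h5
        rw [h4, h6, one_smul]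
      have horth : ∀ i j, QuadraticMap.polar (quadFormOdd m F)
          ((P' : Matrix (Unit ⊕ (Fin m ⊕ Fin m)) (Unit ⊕ (Fin m ⊕ Fin m)) F) *ᵥ Pi.single i 1)
          ((P' : Matrix (Unit ⊕ (Fin m ⊕ Fin m)) (Unit ⊕ (Fin m ⊕ Fin m)) F) *ᵥ Pi.single j 1) =
            if i = j then l₁ * l₂ else 0 := by
        intro i j
        have hsing : ∀ i, (Pi.single i (1 : F) : (Unit ⊕ (Fin m ⊕ Fin m)) → F) = (Pi.single (e i) (1 : F)) ∘ e := by
          intro i
          ext x
          rw [Function.comp]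
          by_cases hx : x = i
          · rw [hx, Pi.single_eq_same, Pi.single_eq_same]
          · rw [Pi.single_eq_of_ne hx, Pi.single_eq_of_ne (fun h => hx (e.injective h))]
        rw [hsing i, hsing j]
        change coF e P' (QuadraticMap.polar (quadFormOdd m F)) _ _ = _
        rw [h3.form, fog_single]
        by_cases hij : i = j
        · rw [hij, if_pos rfl, Matrix.kroneckerMap_apply, Matrix.smul_apply, Matrix.smul_apply, Matrix.one_apply_eq,
            Matrix.one_apply_eq, smul_eq_mul, smul_eq_mul, mul_one, mul_one]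
        · rw [if_neg hij, Matrix.kroneckerMap_apply, Matrix.smul_apply, Matrix.smul_apply, smul_eq_mul, smul_eq_mul]
          have hne : e i ≠ e j := fun h => hij (e.injective h)
          by_cases h11 : (e i).1 = (e j).1
          · have h22 : (e i).2 ≠ (e j).2 := fun h => hne (Prod.ext h11 h)
            rw [Matrix.one_apply_ne h22]; ring
          · rw [Matrix.one_apply_ne h11]; ring
      obtain ⟨D, hD, hD2⟩ := lines_decomp (Q := quadFormOdd m F) H96.AschOdd.Q_smul hbil h2
        (by rw [H96.AschOdd.card_Ix]; omega) P' (mul_ne_zero hl₁ hl₂) horth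
      refine ⟨decompositionStabilizer D ⊓ isometryGroup F (quadFormOdd m F), ?_, le_inf ?_ hH⟩
      · right; right; right; left
        exact ⟨_, D, by rw [hF3]; norm_num, hD, rfl⟩
      · intro g hg
        apply hD2
        obtain ⟨a, b, c, hc0, hab, ha, hb⟩ := h3.mult (by norm_num) (by norm_num) hg (hiso g hg)
        obtain ⟨π, hπ⟩ := monomial_three hF3 a (hmono a c l₁ hl₁ hc0 ha)
        obtain ⟨ρ, hρ⟩ := monomial_three hF3 b (hmono b c⁻¹ l₂ hl₂ (inv_ne_zero hc0) hb)
        refine ⟨(e.trans (Equiv.prodCongr π ρ)).trans e.symm, fun i => ?_⟩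
        obtain ⟨c₁, hc₁, h11⟩ := hπ (e i).1
        obtain ⟨c₂, hc₂, h22⟩ := hρ (e i).2
        refine ⟨c₁ * c₂, mul_ne_zero hc₁ hc₂, ?_⟩
        have hsing : ∀ p : Fin 3 × Fin 3, (Pi.single (e.symm p) (1 : F) : (Unit ⊕ (Fin m ⊕ Fin m)) → F) = (Pi.single p (1 : F)) ∘ e := by
          intro p
          ext x
          rw [Function.comp]
          by_cases hx : e x = p
          · rw [hx, ← hx, Equiv.symm_apply_apply, Pi.single_eq_same, Pi.single_eq_same]
          · rw [Pi.single_eq_of_ne hx, Pi.single_eq_of_ne]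
            intro h; apply hx; rw [h, Equiv.apply_symm_apply]
        have h7 : (Pi.single i (1 : F) : (Unit ⊕ (Fin m ⊕ Fin m)) → F) = (Pi.single (e i) (1 : F)) ∘ e := by
          have := hsing (e i)
          rwa [Equiv.symm_apply_apply] at this
        rw [h7, hab, cr_mulVec', ← pv_single (e i).1 (e i).2, kron_pv, h11, h22, pv_smul_left, pv_smul_right, pv_single,
          smul_smul]
        have h8 : (Pi.single (((e.trans (Equiv.prodCongr π ρ)).trans e.symm) i) (1 : F) :
            (Unit ⊕ (Fin m ⊕ Fin m)) → F) = (Pi.single (π (e i).1, ρ (e i).2) (1 : F)) ∘ e := hsing _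
        rw [h8, ← Matrix.mulVec_smul]
        rfl
    · have h4 : TPos (RingEquiv.refl F) (QuadraticMap.polar (quadFormOdd m F)) H e P' (l₁ • (1 : Matrix (Fin d) (Fin d) F))
          ((l₂ * l₁⁻¹) • (l₁ • (1 : Matrix (Fin d) (Fin d) F))) := by
        rw [smul_smul, mul_assoc, inv_mul_cancel₀ hl₁, mul_one]
        exact h3
      obtain ⟨h5, h6⟩ := TPos.square (mul_ne_zero hl₂ (inv_ne_zero hl₁)) h4
      refine ⟨tensorWreathSubgroup d 2 (e.trans (pairEquiv d)) P' ⊓ isometryGroup F (quadFormOdd m F), ?_, le_inf h6 hH⟩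
      iterate 7 right
      exact ⟨d, 2, e.trans (pairEquiv d), P', _, hd3, le_refl 2, h33, hsymform h4.u1 (by
        rw [Matrix.transpose_smul, Matrix.transpose_one]), h5, rfl⟩
  · have hsw := hpos.swap
    refine ⟨tensorProductSubgroup k d (e.trans (Equiv.prodComm _ _)) P ⊓ isometryGroup F (quadFormOdd m F), ?_, le_inf hsw.le hH⟩
    iterate 5 right
    left
    refine ⟨k, d, _, P, formOfGram (RingEquiv.refl F) G₂, formOfGram (RingEquiv.refl F) G₁, hk3, hgt,
      hsymform hu2 hs2, hsymform hu1 hs1, ?_, rfl⟩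
    exact hsw.struct

end H97.AschPosJ
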