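import Mathlib
import Cfsg.Agent.Lib.H97.AschPosE

/-!
Aschbacher library, part 32: tensor powers and forms.
-/

set_option autoImplicit false
set_option linter.unusedSectionVars false

namespace H97.AschPow

open Cfsg Cfsg.Geo Matrix H97.AschRad H97.AschUnits H97.AschSkolem H97.AschCS H97.AschTensor H97.AschEnv
open H97.AschGrp H97.AschNonab H97.AschForm H97.AschTwo
open H97.AschWreath H97.AschWreathNorm H97.AschLinear H97.AschTF H97.AschSL2 H97.AschTP H97.AschPos H97.AschPosE
open scoped Kronecker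

variable {ι : Type} [Fintype ι] [DecidableEq ι] {F : Type*} [Field F]

/-- pull-back of a subgroup along an algebra homomorphism -/
def homSub {κ : Type} [Fintype κ] [DecidableEq κ] (φ : Matrix κ κ F →ₐ[F] Matrix ι ι F) (Q : Subgroup (GL ι F)) :
    Subgroup (GL κ F) := Q.comap (Units.map (φ : Matrix κ κ F →* Matrix ι ι F))

lemma mem_homSub {κ : Type} [Fintype κ] [DecidableEq κ] {φ : Matrix κ κ F →ₐ[F] Matrix ι ι F} {Q : Subgroup (GL ι F)}
    {a : GL κ F} : a ∈ homSub φ Q ↔ ∃ n ∈ Q, (n : Matrix ι ι F) = φ (a : Matrix κ κ F) := by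
  constructor
  · intro h
    exact ⟨_, h, rfl⟩
  · rintro ⟨n, hn, h⟩
    have : Units.map (φ : Matrix κ κ F →* Matrix ι ι F) a = n := by
      ext1; exact h.symm
    change Units.map (φ : Matrix κ κ F →* Matrix ι ι F) a ∈ Q
    rw [this]; exact hn

lemma homSub_lift {κ : Type} [Fintype κ] [DecidableEq κ] {φ : Matrix κ κ F →ₐ[F] Matrix ι ι F}
    (hinj : Function.Injective φ) {Q : Subgroup (GL ι F)} (hQ : ∀ x, x ∈ env Q ↔ ∃ X, φ X = x) {n : GL ι F} (hn : n ∈ Q) :
    ∃ a ∈ homSub φ Q, (n : Matrix ι ι F) = φ (a : Matrix κ κ F) := by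
  obtain ⟨Y, hY⟩ := (hQ n).mp (mem_env hn)
  obtain ⟨Y', hY'⟩ := (hQ _).mp (mem_env (Q.inv_mem hn))
  have h1 : Y * Y' = 1 := hinj (by rw [map_mul, hY, hY', ← Units.val_mul, mul_inv_cancel, Units.val_one, map_one])
  have h2 : Y' * Y = 1 := hinj (by rw [map_mul, hY, hY', ← Units.val_mul, inv_mul_cancel, Units.val_one, map_one])
  exact ⟨⟨Y, Y', h1, h2⟩, mem_homSub.mpr ⟨n, hn, hY.symm⟩, hY.symm⟩

theorem full_homSub {κ : Type} [Fintype κ] [DecidableEq κ] {φ : Matrix κ κ F →ₐ[F] Matrix ι ι F}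
    (hinj : Function.Injective φ) {Q : Subgroup (GL ι F)} (hQ : ∀ x, x ∈ env Q ↔ ∃ X, φ X = x) : Full (homSub φ Q) := by
  rw [Full, eq_top_iff]
  intro X _
  have hX : φ X ∈ env Q := (hQ _).mpr ⟨X, rfl⟩
  obtain ⟨Y, hY, hYX⟩ := env_induction (p := fun x => ∃ Y ∈ env (homSub φ Q), x = φ Y)
    (fun n hn => by
      obtain ⟨a, ha, h⟩ := homSub_lift hinj hQ hn
      exact ⟨a, mem_env ha, h⟩)
    (by
      rintro x y ⟨Y, hY, rfl⟩ ⟨Z, hZ, rfl⟩
      exact ⟨Y + Z, (env _).add_mem hY hZ, by rw [map_add]⟩)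
    (by
      rintro c x ⟨Y, hY, rfl⟩
      exact ⟨c • Y, (env _).smul_mem hY c, by rw [map_smul]⟩)
    ⟨0, (env _).zero_mem, by rw [map_zero]⟩ hX
  rw [hinj hYX]
  exact hY

theorem perfect_homSub {κ : Type} [Fintype κ] [DecidableEq κ] {φ : Matrix κ κ F →ₐ[F] Matrix ι ι F}
    (hinj : Function.Injective φ) {Q : Subgroup (GL ι F)} (hQ : ∀ x, x ∈ env Q ↔ ∃ X, φ X = x) (hp : ⁅Q, Q⁆ = Q) :
    ⁅homSub φ Q, homSub φ Q⁆ = homSub φ Q := by
  let ψ : GL κ F →* GL ι F := Units.map (φ : Matrix κ κ F →* Matrix ι ι F)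
  have hψ : Function.Injective ψ := by
    intro a b hab
    ext1
    apply hinj
    exact congrArg Units.val hab
  have hmap : (homSub φ Q).map ψ = Q := by
    apply le_antisymm
    · rw [Subgroup.map_le_iff_le_comap]; exact le_refl _
    · intro n hn
      obtain ⟨a, ha, h⟩ := homSub_lift hinj hQ hn
      exact ⟨a, ha, by ext1; exact h.symm⟩
  apply Subgroup.map_injective hψ
  rw [Subgroup.map_commutator, hmap, hp]

/-- `H` preserves a tensor power decomposition for which `f` is a tensor power of the form with Gram matrix `G`. -/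
structure PowPos (σ : F ≃+* F) (f : (ι → F) → (ι → F) → F) (H : Subgroup (GL ι F)) {t d : ℕ}
    (e : ι ≃ (Fin t → Fin d)) (P : GL ι F) (N₀ : Subgroup (GL (Fin d) F)) (G : Matrix (Fin d) (Fin d) F) (C : F) :
    Prop where
  elts : ∀ h ∈ H, ∃ (π : Equiv.Perm (Fin t)) (a : Fin t → GL (Fin d) F), h = crGL e P (factorPerm d t F π * pureGL a)
  full : Full N₀
  perf : ⁅N₀, N₀⁆ = N₀
  fix : FixesForm (matrixSet N₀) (formOfGram σ G)
  nd : IsNondegenerateForm (formOfGram σ G)
  ne : C ≠ 0
  form : ∀ x y, coF e P f x y = C * powForm σ G x y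

theorem PowPos.le {σ : F ≃+* F} {f : (ι → F) → (ι → F) → F} {H : Subgroup (GL ι F)} {t d : ℕ}
    {e : ι ≃ (Fin t → Fin d)} {P : GL ι F} {N₀ : Subgroup (GL (Fin d) F)} {G : Matrix (Fin d) (Fin d) F} {C : F}
    (h : PowPos σ f H e P N₀ G C) : H ≤ tensorWreathSubgroup d t e P := by
  intro g hg
  obtain ⟨π, a, rfl⟩ := h.elts g hg
  exact crGL_mem_wreath e P π a

theorem PowPos.struct {σ : F ≃+* F} {f : (ι → F) → (ι → F) → F} {H : Subgroup (GL ι F)} {t d : ℕ}
    {e : ι ≃ (Fin t → Fin d)} {P : GL ι F} {N₀ : Subgroup (GL (Fin d) F)} {G : Matrix (Fin d) (Fin d) F} {C : F}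
    (h : PowPos σ f H e P N₀ G C) : IsTensorPowerFormStructure σ f (formOfGram σ G) e P := by
  refine ⟨C, h.ne, fun x y => ?_⟩
  have h1 := h.form x y
  rw [gram_fog]
  exact h1

/-- The perfect case: one factor, or a tensor power. -/
theorem pow_of_perfect [Finite F] [Nonempty ι] {σ : F ≃+* F} {f : (ι → F) → (ι → F) → F} (hs : IsSesq σ f)
    (hne : ∃ u v, f u v ≠ 0) {H N : Subgroup (GL ι F)}
    (hH : ∀ g ∈ H, ∀ u v, f ((g : Matrix ι ι F) *ᵥ u) ((g : Matrix ι ι F) *ᵥ v) = f u v)
    (hN : MinNS (scalars ι F) H N) (hperf : ⁅N, N⁆ = N) (hfull : Full N) :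
    (∀ K, K ≤ N → NB N K → K ≤ scalars ι F ∨ K = N) ∨
    ∃ (t d : ℕ) (e : ι ≃ (Fin t → Fin d)) (P : GL ι F) (N₀ : Subgroup (GL (Fin d) F)) (G : Matrix (Fin d) (Fin d) F)
      (C : F), 2 ≤ t ∧ 2 ≤ d ∧ PowPos σ f H e P N₀ G C := by
  obtain ⟨t, Q, ht, hinj, hQN, hsup, hQperf, hQns, hQnb, hcomm, hperm, htrans, hQmin⟩ :=
    perfect_structure scalars_central hN hperf
  by_cases ht1 : t = 1
  · left
    subst ht1
    have hQ0 : Q 0 = N := by
      rw [← hsup]
      apply le_antisymm (le_iSup Q 0)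
      apply iSup_le
      intro i
      rw [Subsingleton.elim i 0]
    intro K hK hKN
    rw [← hQ0] at hK hKN ⊢
    exact hQmin 0 K hK hKN
  · right
    obtain ⟨d, e, P, φ, hd, hφ, -, henv, hconj, hnorm⟩ :=
      wreath_case (H := H) hfull ht Q hsup hQns hQnb hcomm hperm htrans
    obtain ⟨u, v, huv⟩ := hne
    have hne1 : Nonempty (Fin d) := ⟨⟨0, by omega⟩⟩
    have hφinj : Function.Injective (φ ⟨0, ht⟩) := by
      have : Nontrivial (Matrix ι ι F) := inferInstance
      exact (φ ⟨0, ht⟩).toRingHom.injective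
    have hfull0 := full_homSub hφinj (henv ⟨0, ht⟩)
    have hperf0 := perfect_homSub hφinj (henv ⟨0, ht⟩) (hQperf ⟨0, ht⟩)
    obtain ⟨G, C, hC, hfix, hnd, hform⟩ := power_form ht (by omega : 0 < d) e P hfull0 hs (by
      intro i a ha u v
      obtain ⟨n, hn, hna⟩ := mem_homSub.mp ha
      obtain ⟨h, hh, hcj, hh2⟩ := hconj i
      have h1 : cr e P (B t d F i (a : Matrix (Fin d) (Fin d) F)) = ((h * n * h⁻¹ : GL ι F) : Matrix ι ι F) := by
        have h2 : cr e P (B t d F i (a : Matrix (Fin d) (Fin d) F)) = φ i (a : Matrix (Fin d) (Fin d) F) := (hφ i _).symm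
        rw [h2, hh2, ← hna, Units.val_mul, Units.val_mul]
      rw [h1]
      exact hH _ (H.mul_mem (H.mul_mem hh (hN.le (hQN _ hn))) (H.inv_mem hh)) u v) huv
    refine ⟨t, d, e, P, _, G, C, by omega, hd, ⟨?_, hfull0, hperf0, hfix, hnd, hC, hform⟩⟩
    intro h hh
    obtain ⟨π, a, -, h2⟩ := hnorm h hh
    exact ⟨π, a, h2⟩

/-! ### pure vectors in a tensor power -/

def pureV {t d : ℕ} (x : Fin t → Fin d → F) : (Fin t → Fin d) → F := fun a => ∏ i, x i (a i)

lemma pureV_single {t d : ℕ} (a : Fin t → Fin d) : pureV (fun i => (Pi.single (a i) (1 : F) : Fin d → F)) = Pi.single a 1 := by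
  ext b
  rw [pureV]
  by_cases hb : b = a
  · subst hb
    rw [Pi.single_eq_same]
    exact Finset.prod_eq_one (fun i _ => Pi.single_eq_same _ _)
  · rw [Pi.single_eq_of_ne hb]
    obtain ⟨i, hi⟩ := Function.ne_iff.mp hb
    exact Finset.prod_eq_zero (Finset.mem_univ i) (Pi.single_eq_of_ne hi _)

lemma pureV_update_add {t d : ℕ} (x : Fin t → Fin d → F) (j : Fin t) (y y' : Fin d → F) :
    pureV (Function.update x j (y + y')) = pureV (Function.update x j y) + pureV (Function.update x j y') := by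
  ext a
  rw [Pi.add_apply, pureV, pureV, pureV]
  rw [← Finset.mul_prod_erase _ _ (Finset.mem_univ j), ← Finset.mul_prod_erase _ _ (Finset.mem_univ j),
    ← Finset.mul_prod_erase _ _ (Finset.mem_univ j)]
  have h1 : ∀ z : Fin d → F, ∏ i ∈ Finset.univ.erase j, Function.update x j z i (a i) = ∏ i ∈ Finset.univ.erase j, x i (a i) := by
    intro z
    apply Finset.prod_congr rfl
    intro i hi
    rw [Function.update_of_ne (Finset.ne_of_mem_erase hi)]
  rw [h1, h1, h1, Function.update_self, Function.update_self, Function.update_self, Pi.add_apply, add_mul]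

lemma pureV_update_smul {t d : ℕ} (x : Fin t → Fin d → F) (j : Fin t) (c : F) (y : Fin d → F) :
    pureV (Function.update x j (c • y)) = c • pureV (Function.update x j y) := by
  ext a
  rw [Pi.smul_apply, pureV, pureV]
  rw [← Finset.mul_prod_erase _ _ (Finset.mem_univ j), ← Finset.mul_prod_erase _ _ (Finset.mem_univ j)]
  have h1 : ∀ z : Fin d → F, ∏ i ∈ Finset.univ.erase j, Function.update x j z i (a i) = ∏ i ∈ Finset.univ.erase j, x i (a i) := by
    intro z
    apply Finset.prod_congr rfl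
    intro i hi
    rw [Function.update_of_ne (Finset.ne_of_mem_erase hi)]
  rw [h1, h1, Function.update_self, Function.update_self, Pi.smul_apply, smul_eq_mul, smul_eq_mul, mul_assoc]

lemma pureT_pureV {t d : ℕ} (X : Fin t → Matrix (Fin d) (Fin d) F) (x : Fin t → Fin d → F) :
    pureT t d F X *ᵥ pureV x = pureV (fun i => X i *ᵥ x i) := by
  ext a
  simp only [mulVec, dotProduct, pureV, pureT_apply]
  rw [Finset.prod_univ_sum]
  rw [Fintype.piFinset_univ]
  exact Finset.sum_congr rfl (fun b _ => by rw [← Finset.prod_mul_distrib])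

lemma factorPerm_pureV {t d : ℕ} (π : Equiv.Perm (Fin t)) (x : Fin t → Fin d → F) :
    (factorPerm d t F π : Matrix _ _ F) *ᵥ pureV x = pureV (fun i => x (π.symm i)) := by
  ext a
  simp only [mulVec, dotProduct]
  rw [Finset.sum_eq_single (a ∘ π)]
  · rw [factorPerm_apply, if_pos rfl, one_mul, pureV, pureV]
    refine Fintype.prod_equiv π _ _ (fun i => ?_)
    simp
  · intro b _ hb
    rw [factorPerm_apply, if_neg hb, zero_mul]
  · intro h; exact absurd (Finset.mem_univ _) h

lemma powForm_pureV {t d : ℕ} (σ : F ≃+* F) (G : Matrix (Fin d) (Fin d) F) (x y : Fin t → Fin d → F) :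
    powForm σ G (pureV x) (pureV y) = ∏ i, formOfGram σ G (x i) (y i) := by
  simp only [powForm, formOfGram, pureV, map_prod]
  rw [Finset.prod_univ_sum, Fintype.piFinset_univ]
  refine Finset.sum_congr rfl (fun a _ => ?_)
  rw [Finset.prod_univ_sum, Fintype.piFinset_univ]
  refine Finset.sum_congr rfl (fun b _ => ?_)
  rw [← Finset.prod_mul_distrib, ← Finset.prod_mul_distrib]

lemma powForm_smul {t d : ℕ} (σ : F ≃+* F) (l : F) (G : Matrix (Fin d) (Fin d) F) (x y : (Fin t → Fin d) → F) :
    powForm σ (l • G) x y = l ^ t * powForm σ G x y := by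
  simp only [powForm]
  rw [Finset.mul_sum]
  refine Finset.sum_congr rfl (fun a _ => ?_)
  rw [Finset.mul_sum]
  refine Finset.sum_congr rfl (fun b _ => ?_)
  simp only [Matrix.smul_apply, smul_eq_mul]
  rw [Finset.prod_mul_distrib, Finset.prod_const, Finset.card_univ, Fintype.card_fin]
  ring

/-- the symplectic case in characteristic two, tensor powers -/
theorem sp_even_pow [Fintype F] {m : ℕ} (h2 : (2 : F) = 0) {H : Subgroup (GL (Fin m ⊕ Fin m) F)} (hH : H ≤ spGL m F)
    {t d : ℕ} (ht : 2 ≤ t) {e : (Fin m ⊕ Fin m) ≃ (Fin t → Fin d)} {P : GL (Fin m ⊕ Fin m) F}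
    {N₀ : Subgroup (GL (Fin d) F)} {G : Matrix (Fin d) (Fin d) F} {C : F}
    (h : PowPos (RingEquiv.refl F) (sympForm m F) H e P N₀ G C)
    (h1 : ∀ x, formOfGram (RingEquiv.refl F) G x x = 0) :
    ∃ M, InSymplecticClass m F M ∧ H ≤ M := by
  have hsp := H96.AschSp.sympForm_symplectic m F
  have hses : IsSesq (RingEquiv.refl F) (coF e P (sympForm m F)) := coF_sesq e P (IsSesq.of_bilinear hsp.bilinear)
  obtain ⟨Q, hQ, hQs, hQ0⟩ := exists_quad h2 hses (fun i => hsp.alternating _) (fun i j => by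
    change sympForm m F _ _ = sympForm m F _ _
    rw [hsp.skew]
    have : ∀ a : F, -a = a := fun a => by linear_combination (-a) * h2
    rw [this])
  -- Q vanishes on pure tensors
  have hpure : ∀ (s : Finset (Fin t)) (x : Fin t → Fin d → F), (∀ i, i ∉ s → ∃ k, x i = Pi.single k 1) →
      Q (pureV x) = 0 := by
    intro s
    induction s using Finset.induction_on with
    | empty =>
      intro x hx
      choose k hk using fun i => hx i (Finset.notMem_empty i)
      have : x = fun i => (Pi.single (k i) (1 : F) : Fin d → F) := funext hk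
      rw [this, pureV_single, hQ0]
    | insert j s hj ih =>
      intro x hx
      have key : ∀ y : Fin d → F, Q (pureV (Function.update x j y)) = 0 := by
        apply semi_zero
        · intro u v
          rw [pureV_update_add, hQ, h.form, powForm_pureV]
          have : ∏ i, formOfGram (RingEquiv.refl F) G (Function.update x j u i) (Function.update x j v i) = 0 := by
            have hex : ∃ i : Fin t, i ≠ j := by
              have : Nontrivial (Fin t) := Fin.nontrivial_iff_two_le.mpr ht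
              exact exists_ne j
            obtain ⟨i, hi⟩ := hex
            refine Finset.prod_eq_zero (Finset.mem_univ i) ?_
            rw [Function.update_of_ne hi, Function.update_of_ne hi, h1]
          rw [this, mul_zero, add_zero]
        · intro c v
          rw [pureV_update_smul, hQs]
        · intro k
          apply ih
          intro i hi
          by_cases hij : i = j
          · subst hij
            exact ⟨k, Function.update_self _ _ _⟩
          · rw [Function.update_of_ne hij]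
            apply hx
            rw [Finset.mem_insert]
            rintro (h | h)
            · exact hij h
            · exact hi h
      have h3 := key (x j)
      rwa [Function.update_eq_self] at h3
  refine class8 h2 hH e P hQ hQs ?_
  intro g hg
  obtain ⟨π, a, hga⟩ := h.elts g hg
  have hg2 : (g : Matrix (Fin m ⊕ Fin m) (Fin m ⊕ Fin m) F) = cr e P ((factorPerm d t F π * pureGL a : GL (Fin t → Fin d) F) : Matrix _ _ F) := by
    rw [hga]; rfl
  refine ⟨_, hg2, quad_invariant hQ hQs hQ0 ?_ ?_⟩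
  · intro u v
    exact coF_fix e P hg2 (fun u v => (hH hg) u v) u v
  · intro b
    rw [Units.val_mul, ← Matrix.mulVec_mulVec, pureGL_val, ← pureV_single, pureT_pureV, factorPerm_pureV]
    exact hpure Finset.univ _ (fun i hi => absurd (Finset.mem_univ i) hi)

end H97.AschPow
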