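import Mathlib
import Cfsg.Agent.Lib.H97.AschPow
import Cfsg.Agent.Lib.H97.AschPosJ
import Cfsg.Agent.Lib.H96.AschSU3

/-!
Aschbacher library, part 33: class 7 with forms.
-/

set_option autoImplicit false
set_option linter.unusedSectionVars false

namespace H97.AschPow2

open Cfsg Cfsg.Geo Matrix H97.AschRad H97.AschUnits H97.AschSkolem H97.AschCS H97.AschTensor H97.AschEnv
open H97.AschGrp H97.AschNonab H97.AschForm H97.AschTwo
open H97.AschWreath H97.AschWreathNorm H97.AschLinear H97.AschTF H97.AschSL2 H97.AschTP H97.AschPos H97.AschPosE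
open H97.AschPow
open scoped Kronecker

variable {ι : Type} [Fintype ι] [DecidableEq ι] {F : Type*} [Field F]

lemma powForm_flip {t d : ℕ} {c : F} {G : Matrix (Fin d) (Fin d) F} (hc : ∀ a b, G b a = c * G a b)
    (x y : (Fin t → Fin d) → F) : powForm (RingEquiv.refl F) G y x = c ^ t * powForm (RingEquiv.refl F) G x y := by
  change ∑ a, ∑ b, y a * (∏ i, G (a i) (b i)) * x b = c ^ t * ∑ a, ∑ b, x a * (∏ i, G (a i) (b i)) * y b
  rw [Finset.sum_comm, Finset.mul_sum]
  refine Finset.sum_congr rfl (fun a _ => ?_)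
  rw [Finset.mul_sum]
  refine Finset.sum_congr rfl (fun b _ => ?_)
  have : ∏ i, G (b i) (a i) = c ^ t * ∏ i, G (a i) (b i) := by
    rw [Finset.prod_congr rfl (fun i _ => hc (a i) (b i)), Finset.prod_mul_distrib, Finset.prod_const, Finset.card_univ,
      Fintype.card_fin]
  rw [this]; ring

/-- symmetry type of a bilinear tensor power -/
theorem PowPos.flip {f : (ι → F) → (ι → F) → F} {H : Subgroup (GL ι F)} {t d : ℕ} (hd : 0 < d)
    {e : ι ≃ (Fin t → Fin d)} {P : GL ι F} {N₀ : Subgroup (GL (Fin d) F)} {G : Matrix (Fin d) (Fin d) F} {C : F}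
    (h : PowPos (RingEquiv.refl F) f H e P N₀ G C) {ε : F} (hε : ∀ u v, f u v = ε * f v u)
    (hne : ∃ u v, f u v ≠ 0) : ∃ c : F, (c = 1 ∨ c = -1) ∧ c ^ t = ε ∧ (∀ a b, G b a = c * G a b) := by
  have hne1 : Nonempty (Fin d) := ⟨⟨0, hd⟩⟩
  obtain ⟨c, hc1, hc2⟩ := flip_prop h.full (σ := RingEquiv.refl F) (fun _ => rfl) (fog_sesq _ G) h.fix h.nd
  have hc : c = 1 ∨ c = -1 := by
    have : c * c = 1 := hc1
    have h2 : (c - 1) * (c + 1) = 0 := by linear_combination this
    rcases mul_eq_zero.mp h2 with h3 | h3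
    · left; linear_combination h3
    · right; linear_combination h3
  have hG : ∀ a b, G b a = c * G a b := by
    intro a b
    have h3 := hc2 (Pi.single a 1) (Pi.single b 1)
    rw [fog_single, fog_single] at h3
    exact h3
  refine ⟨c, hc, ?_, hG⟩
  obtain ⟨u, v, huv⟩ := hne
  have hcoo : ∀ w : ι → F, ∃ x : (Fin t → Fin d) → F, w = (P : Matrix ι ι F) *ᵥ (x ∘ e) := by
    intro w
    refine ⟨(((P⁻¹ : GL ι F) : Matrix ι ι F) *ᵥ w) ∘ e.symm, ?_⟩
    have : ((((P⁻¹ : GL ι F) : Matrix ι ι F) *ᵥ w) ∘ e.symm) ∘ e = ((P⁻¹ : GL ι F) : Matrix ι ι F) *ᵥ w := by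
      ext i; simp
    rw [this, Matrix.mulVec_mulVec, ← Units.val_mul, mul_inv_cancel, Units.val_one, Matrix.one_mulVec]
  obtain ⟨x, rfl⟩ := hcoo u
  obtain ⟨y, rfl⟩ := hcoo v
  have h4 : coF e P f x y = ε * coF e P f y x := hε _ _
  rw [h.form, h.form, powForm_flip hG x y] at h4
  have h5 : C * powForm (RingEquiv.refl F) G x y ≠ 0 := by rw [← h.form]; exact huv
  have h6 : ε * c ^ t = 1 := by
    have : (ε * c ^ t - 1) * (C * powForm (RingEquiv.refl F) G x y) = 0 := by linear_combination -h4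
    have h7 := (mul_eq_zero.mp this).resolve_right h5
    linear_combination h7
  have hct : c ^ t * c ^ t = 1 := by
    rw [← mul_pow]
    have : c * c = 1 := hc1
    rw [this, one_pow]
  linear_combination (-(c ^ t)) * h6 + ε * hct

/-- **Class 7, symplectic groups.** -/
theorem sp_pow [Fintype F] {m : ℕ} {H : Subgroup (GL (Fin m ⊕ Fin m) F)} (hH : H ≤ spGL m F)
    {t d : ℕ} (ht : 2 ≤ t) (hd : 2 ≤ d) {e : (Fin m ⊕ Fin m) ≃ (Fin t → Fin d)} {P : GL (Fin m ⊕ Fin m) F}
    {N₀ : Subgroup (GL (Fin d) F)} {G : Matrix (Fin d) (Fin d) F} {C : F}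
    (h : PowPos (RingEquiv.refl F) (sympForm m F) H e P N₀ G C) (h32 : ¬ (Fintype.card F = 3 ∧ d = 2)) :
    ∃ M, InSymplecticClass m F M ∧ H ≤ M := by
  have hsp := H96.AschSp.sympForm_symplectic m F
  have hfog : formOfGram id G = formOfGram (RingEquiv.refl F) G := rfl
  have hm : 1 ≤ m := by
    have h1 := Fintype.card_congr e
    rw [Fintype.card_fun, Fintype.card_fin, Fintype.card_fin, H96.AschSp.card_index] at h1
    have h2 : 0 < d ^ t := Nat.pow_pos (by omega)
    omega
  have hne : Nonempty (Fin m ⊕ Fin m) := H96.AschSp.nonempty_index hm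
  have hne2 : ∃ u v, sympForm m F u v ≠ 0 := by
    obtain ⟨i⟩ := hne
    obtain ⟨x, hx⟩ := H96.AschSp.sympForm_nd (F := F) (Pi.single i 1) (by
      intro h0
      have := congrFun h0 i
      simp at this)
    exact ⟨_, x, hx⟩
  obtain ⟨c, hc, hct, hG⟩ := PowPos.flip (by omega) h (ε := -1) (fun u v => by rw [hsp.skew u v, neg_one_mul]) hne2
  have hsw : ∀ v w, formOfGram (RingEquiv.refl F) G v w = c * formOfGram (RingEquiv.refl F) G w v := by
    intro v w
    change ∑ a, ∑ b, v a * G a b * w b = c * ∑ a, ∑ b, w a * G a b * v b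
    rw [Finset.sum_comm, Finset.mul_sum]
    refine Finset.sum_congr rfl (fun a _ => ?_)
    rw [Finset.mul_sum]
    refine Finset.sum_congr rfl (fun b _ => ?_)
    rw [hG a b]; ring
  by_cases hodd : Odd (Fintype.card F)
  · have h2 : (2 : F) ≠ 0 := H96.AschSp.two_ne_zero_of_odd hodd
    have hc1 : c = -1 := by
      rcases hc with h1 | h1
      · exfalso
        rw [h1, one_pow] at hct
        exact h2 (by linear_combination hct)
      · exact h1
    have htodd : Odd t := by
      rcases Nat.even_or_odd t with h3 | h3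
      · exfalso
        rw [hc1, h3.neg_one_pow] at hct
        exact h2 (by linear_combination hct)
      · exact h3
    refine ⟨tensorWreathSubgroup d t e P ⊓ spGL m F, ?_, le_inf h.le hH⟩
    right; right; right; right
    refine ⟨d, t, e, P, formOfGram (RingEquiv.refl F) G, hodd, htodd, ?_, h32, ⟨(fog_sesq _ _).to_bilinear, ?_, ?_, h.nd⟩,
      h.struct, rfl⟩
    · obtain ⟨r, hr⟩ := htodd; omega
    · intro v w; rw [hsw v w, hc1]; ring
    · intro v
      have h3 := hsw v v
      rw [hc1] at h3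
      have : (2 : F) * formOfGram (RingEquiv.refl F) G v v = 0 := by linear_combination h3
      exact (mul_eq_zero.mp this).resolve_left h2
  · have h2 : (2 : F) = 0 := H96.AschSp.two_eq_zero_of_even hodd
    have hc1 : c = 1 := by
      rcases hc with h1 | h1
      · exact h1
      · rw [h1]; linear_combination (-1) * h2
    apply sp_even_pow h2 hH ht h
    have hses := fog_sesq (RingEquiv.refl F) G
    apply H96.AschSp.functional_zero (by rw [Fintype.card_fin]; exact hd) h.full
      (fun x => formOfGram (RingEquiv.refl F) G x x)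
    · intro u v
      change formOfGram _ _ (u + v) (u + v) = _
      rw [hses.add_left, hses.add_right, hses.add_right, hsw v u, hc1]
      linear_combination (formOfGram (RingEquiv.refl F) G u v) * h2
    · intro c v
      change formOfGram _ _ (c • v) (c • v) = _
      rw [hses.smul_left, hses.smul_right]
      change c * (c * _) = _
      ring
    · intro x hx v
      exact h.fix _ ⟨x, hx, rfl⟩ v v
    · exact H96.AschSp.sqrt_of_char_two h2

/-- **Class 7, unitary groups.** -/
theorem gu_pow [Fintype F] {n q : ℕ} (hF : Fintype.card F = q ^ 2) {H : Subgroup (GL (Fin n) F)}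
    (hH : H ≤ GU n F q) (hirr : ActsIrreducibly (matrixSet H)) {σ : F ≃+* F} (hσ : ∀ x, σ x = x ^ q)
    (hσ2 : ∀ x, σ (σ x) = x) (hσ1 : σ ≠ RingEquiv.refl F)
    {t d : ℕ} (ht : 2 ≤ t) (hd : 2 ≤ d) {e : Fin n ≃ (Fin t → Fin d)} {P : GL (Fin n) F}
    {N₀ : Subgroup (GL (Fin d) F)} {G : Matrix (Fin d) (Fin d) F} {C : F}
    (h : PowPos σ (hermForm n F q) H e P N₀ G C) (h23 : ¬ (q = 2 ∧ d = 3)) :
    ∃ M, InUnitaryClass n F q M ∧ H ≤ M := by
  have hne1 : Nonempty (Fin d) := ⟨⟨0, by omega⟩⟩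
  have hn : 2 ≤ n := by
    have h1 := Fintype.card_congr e
    rw [Fintype.card_fun, Fintype.card_fin, Fintype.card_fin, Fintype.card_fin] at h1
    rw [h1]
    calc 2 ≤ d := hd
      _ = d ^ 1 := (pow_one d).symm
      _ ≤ d ^ t := Nat.pow_le_pow_right (by omega) (by omega)
  by_cases hd2 : d = 2
  · subst hd2
    have hle : H ≤ similarityGroup (pull e P (bf (JT t F))) := h.le.trans (pull_sim e P _ _ (wreath2_le_similarity t))
    have hB : H96.AschAdj.HForm (RingEquiv.refl F) ((-1) ^ t) (pull e P (bf (JT t F))) := by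
      refine ⟨IsSesq.of_bilinear (pull_bilinear e P (bf_bilinear _)), fun _ => rfl, neg_one_pow_eq_or F t, ?_,
        fun v hv => ((pull_nondeg e P (bf_nondeg _ (JT_isUnit t))) v hv).2⟩
      intro v w
      change bf (JT t F) _ _ = (-1) ^ t * bf (JT t F) _ _
      rw [← bf_transpose, JT_transpose, bf_smul]
    exact H96.AschSU3.bilinear_sim_case hF hn hH hirr hB hle
  · obtain ⟨c, hc1, hc2⟩ := flip_prop h.full hσ2 (fog_sesq σ G) h.fix h.nd
    obtain ⟨l, hl0, hl⟩ := hilbert90 hσ2 hσ1 hc1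
    have hscale : ∀ (x y : Fin d → F), formOfGram σ (l • G) x y = l * formOfGram σ G x y := by
      intro x y
      simp only [formOfGram, Matrix.smul_apply, smul_eq_mul, Finset.mul_sum]
      exact Finset.sum_congr rfl (fun _ _ => Finset.sum_congr rfl (fun _ _ => by ring))
    have herm1 : ∀ x y, formOfGram σ (l • G) x y = σ (formOfGram σ (l • G) y x) := by
      intro x y
      rw [hscale, hscale, map_mul, hc2]
      linear_combination (-(formOfGram σ G x y)) * hl
    have hnd : IsNondegenerateForm (formOfGram σ (l • G)) := by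
      intro v hv
      obtain ⟨⟨x, hx⟩, ⟨y, hy⟩⟩ := h.nd v hv
      exact ⟨⟨x, by rw [hscale]; exact mul_ne_zero hl0 hx⟩, ⟨y, by rw [hscale]; exact mul_ne_zero hl0 hy⟩⟩
    have hσfun : (fun x : F => x ^ q) = (σ : F → F) := by funext x; rw [hσ]
    refine ⟨tensorWreathSubgroup d t e P ⊓ GU n F q, ?_, le_inf h.le hH⟩
    right; right; right
    refine ⟨d, t, e, P, formOfGram σ (l • G), by omega, ht, h23,
      ⟨(fog_sesq _ _).add_left, (fog_sesq _ _).smul_left, fun v w => by rw [← hσ]; exact herm1 v w, hnd⟩, ?_, rfl⟩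
    rw [hσfun]
    refine ⟨C * (l ^ t)⁻¹, mul_ne_zero h.ne (inv_ne_zero (pow_ne_zero t hl0)), fun x y => ?_⟩
    rw [gram_fog]
    have h3 := h.form x y
    have h4 := powForm_smul σ l G x y
    change coF e P (hermForm n F q) x y = C * (l ^ t)⁻¹ * powForm σ (l • G) x y
    rw [h3, h4]
    have : l ^ t ≠ 0 := pow_ne_zero t hl0
    field_simp

/-- **Class 7, odd-dimensional orthogonal groups.** -/
theorem om_pow [Fintype F] {m : ℕ} (hodd : Odd (Fintype.card F)) {H : Subgroup (GL (Unit ⊕ (Fin m ⊕ Fin m)) F)}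
    (hH : H ≤ isometryGroup F (quadFormOdd m F)) {t d : ℕ} (ht : 2 ≤ t) (hd : 2 ≤ d)
    {e : (Unit ⊕ (Fin m ⊕ Fin m)) ≃ (Fin t → Fin d)} {P : GL (Unit ⊕ (Fin m ⊕ Fin m)) F}
    {N₀ : Subgroup (GL (Fin d) F)} {G : Matrix (Fin d) (Fin d) F} {C : F}
    (h : PowPos (RingEquiv.refl F) (QuadraticMap.polar (quadFormOdd m F)) H e P N₀ G C)
    (h33 : ¬ (Fintype.card F = 3 ∧ d = 3)) :
    ∃ M, InOrthogonalOddClass m F M ∧ H ≤ M := by
  have h2 : (2 : F) ≠ 0 := H96.AschSp.two_ne_zero_of_odd hodd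
  have hsymm : ∀ v w, QuadraticMap.polar (quadFormOdd m F) v w = QuadraticMap.polar (quadFormOdd m F) w v := fun v w =>
    QuadraticMap.polar_comm _ _ _
  have hne : ∃ u v, QuadraticMap.polar (quadFormOdd m F) u v ≠ 0 := by
    obtain ⟨x, hx⟩ := H96.AschOdd.polar_nondeg (m := m) h2 (Pi.single (Sum.inl ()) 1) (by
      intro h0
      have := congrFun h0 (Sum.inl ())
      simp at this)
    exact ⟨_, x, hx⟩
  obtain ⟨c, hc, hct, hG⟩ := PowPos.flip (by omega) h (ε := 1) (fun u v => by rw [hsymm u v, one_mul]) hne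
  have hcard : d ^ t = 2 * m + 1 := by
    have := Fintype.card_congr e
    rw [Fintype.card_fun, Fintype.card_fin, Fintype.card_fin, H96.AschOdd.card_Ix] at this
    exact this.symm
  have hdodd : Odd d := by
    rcases Nat.even_or_odd d with h3 | h3
    · exfalso
      have h4 : Even (d ^ t) := h3.pow_of_ne_zero (by omega)
      rw [hcard] at h4
      rcases h4 with ⟨r, hr⟩
      omega
    · exact h3
  have hu : IsUnit G := unit_of_nondeg _ h.nd
  have hc1 : c = 1 := by
    rcases hc with h3 | h3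
    · exact h3
    · exfalso
      have h4 : Gᵀ = -G := by
        ext a b
        rw [Matrix.transpose_apply, hG a b, h3, Matrix.neg_apply]; ring
      have h5 := congrArg Matrix.det h4
      rw [Matrix.det_transpose, Matrix.det_neg, Fintype.card_fin, hdodd.neg_one_pow] at h5
      have h6 : (2 : F) * G.det = 0 := by linear_combination h5
      exact ((Matrix.isUnit_iff_isUnit_det _).mp hu).ne_zero ((mul_eq_zero.mp h6).resolve_left h2)
  refine ⟨tensorWreathSubgroup d t e P ⊓ isometryGroup F (quadFormOdd m F), ?_, le_inf h.le hH⟩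
  iterate 7 right
  refine ⟨d, t, e, P, formOfGram (RingEquiv.refl F) G, ?_, ht, h33, ⟨(fog_sesq _ _).to_bilinear, ?_, h.nd⟩, h.struct, rfl⟩
  · obtain ⟨r, hr⟩ := hdodd; omega
  · intro v w
    change ∑ a, ∑ b, v a * G a b * w b = ∑ a, ∑ b, w a * G a b * v b
    rw [Finset.sum_comm]
    refine Finset.sum_congr rfl (fun a _ => Finset.sum_congr rfl (fun b _ => ?_))
    rw [hG a b, hc1]; ring

end H97.AschPow2
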