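import Mathlib
import Cfsg.Agent.Lib.H97.AschPow2
import Cfsg.Agent.Lib.H96.AschSp2
import Cfsg.Agent.Lib.H96.AschSU2
import Cfsg.Agent.Lib.H96.AschOdd2

/-!
Aschbacher library, part 34: assembly for the symplectic, unitary and odd-dimensional orthogonal groups.
-/

set_option autoImplicit false
set_option linter.unusedSectionVars false

namespace H97.AschAsm

open Cfsg Cfsg.Geo Matrix H97.AschRad H97.AschUnits H97.AschSkolem H97.AschCS H97.AschTensor H97.AschEnv
open H97.AschGrp H97.AschNonab H97.AschForm H97.AschTwo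
open H97.AschWreath H97.AschWreathNorm H97.AschLinear H97.AschTF H97.AschSL2 H97.AschTP H97.AschPos H97.AschPosE
open H97.AschPow H97.AschPow2 H97.AschPosI H97.AschPosJ
open scoped Kronecker

variable {ι : Type} [Fintype ι] [DecidableEq ι] {F : Type*} [Field F]

/-- generic choice of the minimal normal subgroup -/
theorem exists_min_of_irr [Finite F] [Nonempty ι] (hc : 2 ≤ Fintype.card ι) {H : Subgroup (GL ι F)}
    (hirr : ActsIrreducibly (matrixSet H)) :
    ∃ N, N ≤ H ∧ MinNS (scalars ι F) H N ∧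
      ((∀ x ∈ N, ∀ y ∈ N, x * y * x⁻¹ * y⁻¹ ∈ scalars ι F) ∨ ⁅N, N⁆ = N) := by
  classical
  obtain ⟨i⟩ := ‹Nonempty ι›
  have hfinM : Finite (GL ι F) := inferInstance
  have hHH : NB H H := fun h hh x hx => H.mul_mem (H.mul_mem hh hx) (H.inv_mem hh)
  have hHns : ¬ H ≤ scalars ι F := by
    intro hH
    let v : ι → F := Pi.single i 1
    have hv : v ≠ 0 := by
      intro h0
      have := congrFun h0 i
      simp [v] at this
    have : Nonempty ι := ⟨i⟩
    rcases hirr (Submodule.span F {v}) (by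
      rintro _ ⟨x, hx, rfl⟩
      obtain ⟨c, hc⟩ := (mem_scalars_iff x).mp (hH hx)
      rintro _ ⟨w, hw, rfl⟩
      rw [Matrix.toLin'_apply]
      change (x : Matrix ι ι F) *ᵥ w ∈ _
      rw [hc, Matrix.smul_mulVec, Matrix.one_mulVec]
      exact Submodule.smul_mem _ _ hw) with h | h
    · have h1 := Submodule.mem_span_singleton_self (R := F) v
      rw [h, Submodule.mem_bot] at h1
      exact hv h1
    · have h1 := finrank_span_le_card (R := F) ({v} : Set (ι → F))
      rw [h, finrank_top, Module.finrank_fintype_fun_eq_card] at h1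
      simp at h1
      omega
  obtain ⟨N, hNH, hN⟩ := exists_minNS (scalars ι F) H H (le_refl H) hHH hHns
  refine ⟨N, hNH, hN, ?_⟩
  rcases hN.min ⁅N, N⁆ (by
    rw [Subgroup.commutator_le]
    intro a ha b hb
    rw [commutatorElement_def]
    exact N.mul_mem (N.mul_mem (N.mul_mem ha hb) (N.inv_mem ha)) (N.inv_mem hb)) (NB_commutator hN.nb hN.nb)
    with hcomm | hperf
  · exact Or.inl (fun x hx y hy => hcomm (Subgroup.commutator_mem_commutator hx hy))
  · exact Or.inr hperf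

/-- the reduction for the symplectic groups -/
theorem sp_reduction [Fintype F] {m : ℕ} (hm : 1 ≤ m) {H : Subgroup (GL (Fin m ⊕ Fin m) F)} (hH : H ≤ spGL m F) :
    (∃ M, InSymplecticClass m F M ∧ H ≤ M) ∨
    (ActsIrreducibly (matrixSet H) ∧ ∀ N ≤ H, NB H N → N ≤ scalars (Fin m ⊕ Fin m) F ∨ Full N) := by
  by_cases hcl : ∃ M, InSymplecticClass m F M ∧ H ≤ M
  · exact Or.inl hcl
  right
  have hne : Nonempty (Fin m ⊕ Fin m) := H96.AschSp.nonempty_index hm
  have hirr : ActsIrreducibly (matrixSet H) := by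
    by_contra hred
    obtain ⟨M, hM, hle⟩ := H96.AschSp2.reducible_sp hH hred
    exact hcl ⟨M, Or.inl hM, hle⟩
  refine ⟨hirr, fun N hNH hNB => ?_⟩
  rcases H96.AschSp2.center_case_sp hm hH hirr (hNH.trans hH) hNB with h | hZ
  · exact absurd h hcl
  rcases tensor_position hirr hNB hZ with h | h | ⟨d, k, e, P, hd, hk, hle, hN⟩
  · exact Or.inl h
  · exact Or.inr h
  · exfalso
    rcases sp_tensor hirr hH hNH hd hk e P hle hN with h | ⟨A, hcomm, hA, hadj, x, hx, hne⟩
    · exact hcl h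
    · exact hcl (H96.AschSp2.comm_case_sp hm hH hirr A hcomm hA hadj ⟨x, hx, hne⟩)

/-- **Main theorem for the symplectic groups.** -/
theorem sp_main [Fintype F] {m : ℕ} (hm : 1 ≤ m)
    (hexc : Fintype.card F = 3 → ∀ N₀ : Subgroup (GL (Fin 2) F), ⁅N₀, N₀⁆ = N₀ → Full N₀ → False)
    {H : Subgroup (GL (Fin m ⊕ Fin m) F)} (hH : H ≤ spGL m F) :
    (∃ M, InSymplecticClass m F M ∧ H ≤ M) ∨ InSymplecticResidualClass H := by
  by_cases hcl : ∃ M, InSymplecticClass m F M ∧ H ≤ M
  · exact Or.inl hcl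
  right
  have hne : Nonempty (Fin m ⊕ Fin m) := H96.AschSp.nonempty_index hm
  have hpart : ¬ ∃ M, InSymplecticPartialClass m F M ∧ H ≤ M := fun ⟨M, hM, hle⟩ => hcl ⟨M, Or.inl hM, hle⟩
  rcases sp_reduction hm hH with h | ⟨hirr, hall⟩
  · exact absurd h hcl
  obtain ⟨N, hNH, hN, hdich⟩ := exists_min_of_irr (by rw [H96.AschSp.card_index]; omega) hirr
  have hfull : Full N := by
    rcases hall N hNH hN.nb with h | h
    · exact absurd h hN.ns
    · exact h
  rcases hdich with hnil | hperf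
  · exact absurd (H96.AschSp.sympType_case hm hH hNH hN.nb hfull hnil (fun M hM hMB => hall M hM hMB)) hpart
  · have hsp := H96.AschSp.sympForm_symplectic m F
    have hne2 : ∃ u v, sympForm m F u v ≠ 0 := by
      obtain ⟨i⟩ := hne
      obtain ⟨x, hx⟩ := H96.AschSp.sympForm_nd (F := F) (Pi.single i 1) (by
        intro h0
        have := congrFun h0 i
        simp at this)
      exact ⟨_, x, hx⟩
    rcases pow_of_perfect (IsSesq.of_bilinear hsp.bilinear) hne2 (fun g hg u v => (hH hg) u v) hN hperf hfull with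
      hsimple | ⟨t, d, e, P, N₀, G, C, ht, hd, hpow⟩
    · refine ⟨N, ?_, ?_, ?_⟩
      · apply core_of_simple hNH hN.nb hN.ns hperf hfull hsimple
        intro F₀ h0 hreal
        exact hpart (H96.AschSp.subfield_case hm hH (hNH.trans hH) hN.nb hfull F₀ h0 hreal)
      · rintro ⟨Q, hQ, hfix⟩
        exact hpart (H96.AschSp.quad_case hm hH (hNH.trans hH) hN.nb hfull ⟨Q, hQ, hfix⟩)
      · rintro ⟨σ, f, hf, hfix⟩
        exact hpart (H96.AschSp.unitary_case hm hH (hNH.trans hH) hN.nb hfull ⟨σ, f, hf, hfix⟩)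
    · exfalso
      apply hcl
      refine sp_pow hH ht hd hpow ?_
      rintro ⟨h3, rfl⟩
      exact hexc h3 N₀ hpow.perf hpow.full

/-- the reduction for the unitary groups -/
theorem gu_reduction [Fintype F] {n q : ℕ} (hF : Fintype.card F = q ^ 2) (hn : 1 ≤ n)
    (h23 : q = 2 → ∀ (e : Fin n ≃ Fin 3 × Fin 3) (P : GL (Fin n) F) (σ : F ≃+* F), (∀ x, σ x = x ^ q) →
      ∀ H : Subgroup (GL (Fin n) F), H ≤ GU n F q →
      TPos σ (hermForm n F q) H e P (1 : Matrix (Fin 3) (Fin 3) F) (1 : Matrix (Fin 3) (Fin 3) F) →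
      ∃ M, InUnitaryClass n F q M ∧ H ≤ M)
    {H : Subgroup (GL (Fin n) F)} (hH : H ≤ GU n F q) :
    (∃ M, InUnitaryClass n F q M ∧ H ≤ M) ∨
    (ActsIrreducibly (matrixSet H) ∧ ∀ N ≤ H, NB H N → N ≤ scalars (Fin n) F ∨ Full N) := by
  by_cases hcl : ∃ M, InUnitaryClass n F q M ∧ H ≤ M
  · exact Or.inl hcl
  right
  have hne : Nonempty (Fin n) := ⟨⟨0, by omega⟩⟩
  have hirr : ActsIrreducibly (matrixSet H) := by
    by_contra hred
    obtain ⟨M, hM, hle⟩ := H96.AschSU2.reducible_gu hF hH hred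
    exact hcl ⟨M, Or.inl hM, hle⟩
  refine ⟨hirr, fun N hNH hNB => ?_⟩
  rcases H96.AschSU2.center_case_gu hF hn hH hirr (hNH.trans hH) hNB with h | hZ
  · exact absurd h hcl
  rcases tensor_position hirr hNB hZ with h | h | ⟨d, k, e, P, hd, hk, hle, hN⟩
  · exact Or.inl h
  · exact Or.inr h
  · exfalso
    rcases gu_tensor hF hH hNH hd hk e P hle hN with h | ⟨hq, e', P', σ, hσ, hpos⟩ | ⟨hn4, b, hb, hbn, hbs, hHb⟩
    · exact hcl h
    · exact hcl (h23 hq e' P' σ hσ H hH hpos)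
    · refine hcl (H96.AschSU3.bilinear_sim_case hF (by omega) hH hirr (ε := 1)
        ⟨IsSesq.of_bilinear hb, fun _ => rfl, Or.inl rfl, fun v w => ?_, fun v hv => (hbn v hv).2⟩ hHb)
      rw [one_mul]; exact hbs v w

/-- **Main theorem for the unitary groups.** -/
theorem gu_main [Fintype F] {n q : ℕ} (hF : Fintype.card F = q ^ 2) (hn : 2 ≤ n)
    (h23 : q = 2 → ∀ (e : Fin n ≃ Fin 3 × Fin 3) (P : GL (Fin n) F) (σ : F ≃+* F), (∀ x, σ x = x ^ q) →
      ∀ H : Subgroup (GL (Fin n) F), H ≤ GU n F q →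
      TPos σ (hermForm n F q) H e P (1 : Matrix (Fin 3) (Fin 3) F) (1 : Matrix (Fin 3) (Fin 3) F) →
      ∃ M, InUnitaryClass n F q M ∧ H ≤ M)
    (hexc : q = 2 → ∀ (σ : F ≃+* F), (∀ x, σ x = x ^ q) → ∀ (G : Matrix (Fin 3) (Fin 3) F) (N₀ : Subgroup (GL (Fin 3) F)),
      ⁅N₀, N₀⁆ = N₀ → Full N₀ → FixesForm (matrixSet N₀) (formOfGram σ G) → IsNondegenerateForm (formOfGram σ G) → False)
    {H : Subgroup (GL (Fin n) F)} (hH : H ≤ GU n F q) :
    (∃ M, InUnitaryClass n F q M ∧ H ≤ M) ∨ InUnitaryResidualClass H := by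
  by_cases hcl : ∃ M, InUnitaryClass n F q M ∧ H ≤ M
  · exact Or.inl hcl
  right
  have hne : Nonempty (Fin n) := ⟨⟨0, by omega⟩⟩
  have hpart : ¬ ∃ M, InUnitaryPartialClass n F q M ∧ H ≤ M := fun ⟨M, hM, hle⟩ => hcl ⟨M, Or.inl hM, hle⟩
  rcases gu_reduction hF (by omega) h23 hH with h | ⟨hirr, hall⟩
  · exact absurd h hcl
  obtain ⟨N, hNH, hN, hdich⟩ := exists_min_of_irr (by rw [Fintype.card_fin]; exact hn) hirr
  have hfull : Full N := by
    rcases hall N hNH hN.nb with h | h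
    · exact absurd h hN.ns
    · exact h
  rcases hdich with hnil | hperf
  · exact absurd (H96.AschSU.sympType_case hF hn hH hNH hN.nb hfull hnil (fun M hM hMB => hall M hM hMB)) hpart
  · obtain ⟨p, dd, σ, hp, hchar, hdd, hqp, hcard, hσ, hσ2, hσ1⟩ := H96.AschSU.exists_sigma hF
    have hu := H96.AschSU.hermForm_unitary hσ hσ2 hσ1 n
    have hne2 : ∃ u v, hermForm n F q u v ≠ 0 := by
      obtain ⟨i⟩ := hne
      obtain ⟨x, hx⟩ := (hu.nondegenerate (Pi.single i 1) (by
        intro h0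
        have := congrFun h0 i
        simp at this)).2
      exact ⟨_, x, hx⟩
    rcases pow_of_perfect (IsSesq.of_unitary hu) hne2 (fun g hg u v => (hH hg) u v) hN hperf hfull with
      hsimple | ⟨t, d, e, P, N₀, G, C, ht, hd, hpow⟩
    · refine ⟨N, ?_, ?_, ?_⟩
      · apply core_of_simple hNH hN.nb hN.ns hperf hfull hsimple
        intro F₀ h0 hreal
        exact hpart (H96.AschSU.subfield_case hF hn hH (hNH.trans hH) hN.nb hfull F₀ h0 hreal)
      · rintro ⟨Q, hQ, hfix⟩
        exact hpart (H96.AschSU.quad_case hF hn hH (hNH.trans hH) hN.nb hfull ⟨Q, hQ, hfix⟩)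
      · rintro ⟨f, hf, hfix⟩
        exact hpart (H96.AschSU.symp_case hF hn hH (hNH.trans hH) hN.nb hfull ⟨f, hf, hfix⟩)
    · exfalso
      apply hcl
      refine gu_pow hF hH hirr hσ hσ2 hσ1 ht hd hpow ?_
      rintro ⟨h3, rfl⟩
      exact hexc h3 σ hσ G N₀ hpow.perf hpow.full hpow.fix hpow.nd

/-- the reduction for the odd-dimensional orthogonal groups -/
theorem om_reduction [Fintype F] {m : ℕ} (hodd : Odd (Fintype.card F)) {H : Subgroup (GL (Unit ⊕ (Fin m ⊕ Fin m)) F)}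
    (hH : H ≤ isometryGroup F (quadFormOdd m F)) :
    (∃ M, InOrthogonalOddClass m F M ∧ H ≤ M) ∨
    (ActsIrreducibly (matrixSet H) ∧ ∀ N ≤ H, NB H N → N ≤ scalars (Unit ⊕ (Fin m ⊕ Fin m)) F ∨ Full N) := by
  by_cases hcl : ∃ M, InOrthogonalOddClass m F M ∧ H ≤ M
  · exact Or.inl hcl
  right
  have hirr : ActsIrreducibly (matrixSet H) := by
    by_contra hred
    exact hcl (H96.AschOdd2.reducible_odd hodd hH hred)
  refine ⟨hirr, fun N hNH hNB => ?_⟩
  rcases H96.AschOdd2.center_case_odd hodd hH hirr (hNH.trans hH) hNB with h | hZ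
  · exact absurd h hcl
  rcases tensor_position hirr hNB hZ with h | h | ⟨d, k, e, P, hd, hk, hle, hN⟩
  · exact Or.inl h
  · exact Or.inr h
  · exact absurd (om_tensor hodd hH hNH hd hk e P hle hN) hcl

/-- **Main theorem for the odd-dimensional orthogonal groups.** -/
theorem om_main [Fintype F] {m : ℕ} (hodd : Odd (Fintype.card F)) (hm : 1 ≤ m)
    (hexc : Fintype.card F = 3 → ∀ (G : Matrix (Fin 3) (Fin 3) F) (N₀ : Subgroup (GL (Fin 3) F)),
      ⁅N₀, N₀⁆ = N₀ → Full N₀ → FixesForm (matrixSet N₀) (formOfGram (RingEquiv.refl F) G) →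
      IsNondegenerateForm (formOfGram (RingEquiv.refl F) G) → False)
    {H : Subgroup (GL (Unit ⊕ (Fin m ⊕ Fin m)) F)} (hH : H ≤ isometryGroup F (quadFormOdd m F)) :
    (∃ M, InOrthogonalOddClass m F M ∧ H ≤ M) ∨ InOrthogonalResidualClass H := by
  by_cases hcl : ∃ M, InOrthogonalOddClass m F M ∧ H ≤ M
  · exact Or.inl hcl
  right
  have h2 : (2 : F) ≠ 0 := H96.AschSp.two_ne_zero_of_odd hodd
  rcases om_reduction hodd hH with h | ⟨hirr, hall⟩
  · exact absurd h hcl
  obtain ⟨N, hNH, hN, hdich⟩ := exists_min_of_irr (by rw [H96.AschOdd.card_Ix]; omega) hirr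
  have hfull : Full N := by
    rcases hall N hNH hN.nb with h | h
    · exact absurd h hN.ns
    · exact h
  rcases hdich with hnil | hperf
  · exact absurd (H96.AschOdd.sympType_false hodd hm hH hNH hN.nb hfull hnil (fun M hM hMB => hall M hM hMB)) id
  · have hbil := H96.AschOdd.polar_bilin m F
    have hne2 : ∃ u v, QuadraticMap.polar (quadFormOdd m F) u v ≠ 0 := by
      obtain ⟨x, hx⟩ := H96.AschOdd.polar_nondeg (m := m) h2 (Pi.single (Sum.inl ()) 1) (by
        intro h0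
        have := congrFun h0 (Sum.inl ())
        simp at this)
      exact ⟨_, x, hx⟩
    rcases pow_of_perfect (IsSesq.of_bilinear hbil) hne2
      (fun g hg u v => (H96.AschOdd.isometry_le _ (hH hg)) u v) hN hperf hfull with
      hsimple | ⟨t, d, e, P, N₀, G, C, ht, hd, hpow⟩
    · refine ⟨N, ?_, ?_⟩
      · apply core_of_simple hNH hN.nb hN.ns hperf hfull hsimple
        intro F₀ h0 hreal
        exact hcl (H96.AschOdd.subfield_case hodd hH (hNH.trans hH) hN.nb hfull F₀ h0 hreal)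
      · rintro ⟨σ, f, hf, hfix⟩
        exact hcl (H96.AschOdd.unitary_case hodd hH (hNH.trans hH) hN.nb hfull ⟨σ, f, hf, hfix⟩)
    · exfalso
      apply hcl
      refine om_pow hodd hH ht hd hpow ?_
      rintro ⟨h3, rfl⟩
      exact hexc h3 G N₀ hpow.perf hpow.full hpow.fix hpow.nd

end H97.AschAsm
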