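import Mathlib
import Cfsg.Agent.Lib.H97.AschAsm
import Cfsg.Agent.Lib.H96.AschSolv

/-!
Aschbacher library, part 35: the small exceptions.
-/

set_option autoImplicit false
set_option linter.unusedSectionVars false

namespace H97.AschFin

open Cfsg Cfsg.Geo Matrix H97.AschRad H97.AschUnits H97.AschSkolem H97.AschCS H97.AschTensor H97.AschEnv
open H97.AschGrp H97.AschNonab H97.AschForm H97.AschTwo
open H97.AschWreath H97.AschWreathNorm H97.AschLinear H97.AschTF H97.AschSL2 H97.AschTP H97.AschPos H97.AschPosE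
open H97.AschPow H97.AschPow2 H97.AschPosI H97.AschPosJ H97.AschAsm
open scoped Kronecker

variable {F : Type*} [Field F]

lemma not_full_bot {n : ℕ} (hn : 2 ≤ n) : ¬ Full (⊥ : Subgroup (GL (Fin n) F)) := by
  intro hfull
  obtain ⟨c, hc⟩ := hfull.comm (X := Matrix.single (⟨0, by omega⟩ : Fin n) (⟨1, by omega⟩ : Fin n) (1 : F)) (by
    intro x hx
    rw [Subgroup.mem_bot.mp hx, Units.val_one, mul_one, one_mul])
  have h1 := congrFun (congrFun hc ⟨0, by omega⟩) ⟨1, by omega⟩
  rw [Matrix.single_apply, if_pos ⟨rfl, rfl⟩, Matrix.algebraMap_matrix_apply, if_neg] at h1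
  · exact one_ne_zero h1
  · intro h; have := congrArg Fin.val h; simp at this

theorem exc_sp [Fintype F] (h3 : Fintype.card F = 3) (N₀ : Subgroup (GL (Fin 2) F)) (hp : ⁅N₀, N₀⁆ = N₀)
    (hfull : Full N₀) : False := by
  rw [H96.AschSolv.no_perfect_two h3 N₀ hp] at hfull
  exact not_full_bot (le_refl 2) hfull

theorem exc_om [Fintype F] (h3 : Fintype.card F = 3) (G : Matrix (Fin 3) (Fin 3) F) (N₀ : Subgroup (GL (Fin 3) F))
    (hp : ⁅N₀, N₀⁆ = N₀) (hfull : Full N₀) (hfix : FixesForm (matrixSet N₀) (formOfGram (RingEquiv.refl F) G))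
    (hnd : IsNondegenerateForm (formOfGram (RingEquiv.refl F) G)) : False := by
  have h2 : (2 : F) ≠ 0 := H96.AschSp.two_ne_zero_of_odd (by rw [h3]; decide)
  obtain ⟨c, hc1, hc2⟩ := flip_prop hfull (σ := RingEquiv.refl F) (fun _ => rfl) (fog_sesq _ G) hfix hnd
  have hu : IsUnit G := unit_of_nondeg _ hnd
  have hc : c = 1 := by
    have h1 : c * c = 1 := hc1
    have h2' : (c - 1) * (c + 1) = 0 := by linear_combination h1
    rcases mul_eq_zero.mp h2' with h4 | h4
    · linear_combination h4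
    · exfalso
      have hcm : c = -1 := by linear_combination h4
      have h5 : Gᵀ = -G := by
        ext a b
        have h6 := hc2 (Pi.single a 1) (Pi.single b 1)
        rw [fog_single, fog_single] at h6
        rw [Matrix.transpose_apply, Matrix.neg_apply]
        have h7 : G b a = c * G a b := h6
        rw [h7, hcm]; ring
      have h6 := congrArg Matrix.det h5
      rw [Matrix.det_transpose, Matrix.det_neg, Fintype.card_fin] at h6
      have h7 : (2 : F) * G.det = 0 := by linear_combination h6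
      exact ((Matrix.isUnit_iff_isUnit_det _).mp hu).ne_zero ((mul_eq_zero.mp h7).resolve_left h2)
  have hsymm : ∀ u v, formOfGram (RingEquiv.refl F) G u v = formOfGram (RingEquiv.refl F) G v u := by
    intro u v
    have h6 := hc2 v u
    rw [hc, one_mul] at h6
    exact h6
  have hbot := H96.AschSolv.no_perfect_orth h3 (fog_sesq _ G) hsymm hnd N₀ (H96.AschSympType5.fixesForm_iff.mp hfix) hp
  rw [hbot] at hfull
  exact not_full_bot (by norm_num) hfull

theorem exc_gu [Fintype F] {q : ℕ} (hF : Fintype.card F = q ^ 2) (hq : q = 2) (σ : F ≃+* F) (hσ : ∀ x, σ x = x ^ q)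
    (G : Matrix (Fin 3) (Fin 3) F) (N₀ : Subgroup (GL (Fin 3) F))
    (hp : ⁅N₀, N₀⁆ = N₀) (hfull : Full N₀) (hfix : FixesForm (matrixSet N₀) (formOfGram σ G))
    (hnd : IsNondegenerateForm (formOfGram σ G)) : False := by
  obtain ⟨p, dd, σ', hpp, hchar, hdd, hqp, hcard, hσ', hσ2, hσ1⟩ := H96.AschSU.exists_sigma hF
  have hσσ : σ' = σ := by ext x; rw [hσ', hσ]
  subst hσσ
  obtain ⟨c, hc1, hc2⟩ := flip_prop hfull hσ2 (fog_sesq σ' G) hfix hnd
  obtain ⟨l, hl0, hl⟩ := hilbert90 hσ2 hσ1 hc1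
  have hscale : ∀ (x y : Fin 3 → F), formOfGram σ' (l • G) x y = l * formOfGram σ' G x y := by
    intro x y
    simp only [formOfGram, Matrix.smul_apply, smul_eq_mul, Finset.mul_sum]
    exact Finset.sum_congr rfl (fun _ _ => Finset.sum_congr rfl (fun _ _ => by ring))
  have herm1 : ∀ x y, formOfGram σ' (l • G) x y = σ' (formOfGram σ' (l • G) y x) := by
    intro x y
    rw [hscale, hscale, map_mul, hc2]
    linear_combination (-(formOfGram σ' G x y)) * hl
  have hnd' : IsNondegenerateForm (formOfGram σ' (l • G)) := by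
    intro v hv
    obtain ⟨⟨x, hx⟩, ⟨y, hy⟩⟩ := hnd v hv
    exact ⟨⟨x, by rw [hscale]; exact mul_ne_zero hl0 hx⟩, ⟨y, by rw [hscale]; exact mul_ne_zero hl0 hy⟩⟩
  have hu : IsUnitaryForm σ' (formOfGram σ' (l • G)) :=
    ⟨hσ1, hσ2, (fog_sesq _ _).add_left, (fog_sesq _ _).smul_left, herm1, hnd'⟩
  have hfix' : FixesForm (matrixSet N₀) (formOfGram σ' (l • G)) := by
    intro s hs u v
    rw [hscale, hscale, hfix s hs]
  have hbot := H96.AschSolv.no_perfect_unitary (by rw [hF, hq]; norm_num) hu N₀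
    (H96.AschSympType5.fixesForm_iff.mp hfix') hp
  rw [hbot] at hfull
  exact not_full_bot (by norm_num) hfull

/-- **Main theorem, symplectic groups.** -/
theorem sp_theorem [Fintype F] {m : ℕ} (hm : 1 ≤ m) {H : Subgroup (GL (Fin m ⊕ Fin m) F)} (hH : H ≤ spGL m F) :
    (∃ M, InSymplecticClass m F M ∧ H ≤ M) ∨ InSymplecticResidualClass H :=
  sp_main hm (fun h3 N₀ hp hf => exc_sp h3 N₀ hp hf) hH

/-- **Main theorem, odd-dimensional orthogonal groups.** -/
theorem om_theorem [Fintype F] {m : ℕ} (hodd : Odd (Fintype.card F)) (hm : 1 ≤ m)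
    {H : Subgroup (GL (Unit ⊕ (Fin m ⊕ Fin m)) F)} (hH : H ≤ isometryGroup F (quadFormOdd m F)) :
    (∃ M, InOrthogonalOddClass m F M ∧ H ≤ M) ∨ InOrthogonalResidualClass H :=
  om_main hodd hm (fun h3 G N₀ hp hf hfix hnd => exc_om h3 G N₀ hp hf hfix hnd) hH

end H97.AschFin
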