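import Mathlib
import Cfsg.Agent.Lib.H97.AschPosJ
import Cfsg.Agent.Lib.H96.AschAdj

/-!
Aschbacher library, part 42: orthogonal decompositions and frames.
-/

set_option autoImplicit false
set_option linter.unusedSectionVars false

namespace H97.AschFrame

open Cfsg Cfsg.Geo Matrix H97.AschRad H97.AschUnits H97.AschSkolem H97.AschCS H97.AschTensor H97.AschEnv
open H97.AschGrp H97.AschNonab H97.AschForm H97.AschTwo
open H97.AschWreath H97.AschWreathNorm H97.AschLinear H97.AschTF H97.AschTP H97.AschPos H97.AschPosE H97.AschPosH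
open H97.AschPosI H97.AschPosJ H96.AschAdj H96.AschSympType5
open scoped Kronecker

variable {ι : Type} [Fintype ι] [DecidableEq ι] {F : Type*} [Field F] {σ : F ≃+* F} {ε : F}
variable {f : (ι → F) → (ι → F) → F}

/-- orthogonal nondegenerate subspaces are independent -/
theorem indep_of_orth (hf : HForm σ ε f) {t : ℕ} {D : Fin t → Submodule F (ι → F)} (hnd : ∀ i, IsNondegenerateOn f (D i))
    (horth : ∀ i j, i ≠ j → AreOrthogonalFor f (D i) (D j)) : iSupIndep D := by
  intro i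
  rw [Submodule.disjoint_def]
  intro x hx hx'
  by_contra hx0
  have h1 : (⨆ j, ⨆ (_ : j ≠ i), D j) ≤ hf.perp (D i) := by
    apply iSup₂_le
    intro j hj y hy w hw
    exact horth j i hj y hy w hw
  obtain ⟨-, y, hy, hxy⟩ := hnd i x hx hx0
  exact hxy (h1 hx' y hy)

/-- the decomposition attached to an orthogonal basis -/
theorem lines_mk (hf : HForm σ ε f) {t : ℕ} (ht : 2 ≤ t) (hc : Fintype.card ι = t) {w : Fin t → ι → F}
    (hw : ∀ i, f (w i) (w i) ≠ 0) (ho : ∀ i j, i ≠ j → f (w i) (w j) = 0) :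
    IsNondegenerateMDecomposition f 1 (fun i => Submodule.span F {w i}) := by
  have hw0 : ∀ i, w i ≠ 0 := fun i h => hw i (by rw [h]; exact hf.sesq.zero_left _)
  have hnd : ∀ i, IsNondegenerateOn f (Submodule.span F {w i}) := by
    intro i x hx hx0
    obtain ⟨c, rfl⟩ := Submodule.mem_span_singleton.mp hx
    have hc0 : c ≠ 0 := by rintro rfl; exact hx0 (zero_smul _ _)
    refine ⟨⟨w i, Submodule.mem_span_singleton_self _, ?_⟩, ⟨w i, Submodule.mem_span_singleton_self _, ?_⟩⟩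
    · rw [hf.sesq.smul_right]
      exact mul_ne_zero ((map_ne_zero σ).mpr hc0) (hw i)
    · rw [hf.sesq.smul_left]
      exact mul_ne_zero hc0 (hw i)
  have horth : ∀ i j, i ≠ j → AreOrthogonalFor f (Submodule.span F {w i}) (Submodule.span F {w j}) := by
    intro i j hij x hx y hy
    obtain ⟨c, rfl⟩ := Submodule.mem_span_singleton.mp hx
    obtain ⟨d, rfl⟩ := Submodule.mem_span_singleton.mp hy
    rw [hf.sesq.smul_left, hf.sesq.smul_right, ho i j hij, mul_zero, mul_zero]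
  have hind := indep_of_orth hf hnd horth
  refine ⟨⟨ht, one_pos, fun i => finrank_span_singleton (hw0 i), hind, ?_⟩, hnd, horth⟩
  have hli : LinearIndependent F w := by
    rw [Fintype.linearIndependent_iff]
    intro c hcs i
    have h1 : f (∑ j, c j • w j) (w i) = 0 := by rw [hcs]; exact hf.sesq.zero_left _
    rw [hf.sesq.sum_left, Finset.sum_eq_single i] at h1
    · rw [hf.sesq.smul_left] at h1
      exact (mul_eq_zero.mp h1).resolve_right (hw i)
    · intro j _ hj
      rw [hf.sesq.smul_left, ho j i hj, mul_zero]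
    · intro h; exact absurd (Finset.mem_univ _) h
  have hspan : Submodule.span F (Set.range w) = ⊤ := by
    apply hli.span_eq_top_of_card_eq_finrank'
    rw [Fintype.card_fin, Module.finrank_fintype_fun_eq_card, hc]
  rw [← hspan, Submodule.span_range_eq_iSup]

theorem lines_stab {t : ℕ} {w : Fin t → ι → F} {g : GL ι F} (π : Equiv.Perm (Fin t))
    (hg : ∀ i, ∃ c : F, c ≠ 0 ∧ (g : Matrix ι ι F) *ᵥ w i = c • w (π i)) :
    g ∈ decompositionStabilizer (fun i => Submodule.span F {w i}) := by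
  refine ⟨π, fun i => ?_⟩
  obtain ⟨c, hc, h⟩ := hg i
  rw [Submodule.map_span, Set.image_singleton, Matrix.toLin'_apply, h]
  exact Submodule.span_singleton_smul_eq (IsUnit.mk0 c hc) _

/-- the map onto a factor of a tensor product decomposition -/
def emb {d k : ℕ} (e : ι ≃ Fin d × Fin k) (P : GL ι F) (y : Fin k → F) : (Fin d → F) →ₗ[F] (ι → F) where
  toFun x := (P : Matrix ι ι F) *ᵥ (pv x y ∘ e)
  map_add' x x' := by
    rw [pv_add_left]
    have : (pv x y + pv x' y) ∘ e = pv x y ∘ e + pv x' y ∘ e := rfl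
    rw [this, Matrix.mulVec_add]
  map_smul' c x := by
    rw [pv_smul_left]
    have : (c • pv x y) ∘ e = c • (pv x y ∘ e) := rfl
    rw [this, Matrix.mulVec_smul]; rfl

lemma emb_apply {d k : ℕ} (e : ι ≃ Fin d × Fin k) (P : GL ι F) (y : Fin k → F) (x : Fin d → F) :
    emb e P y x = (P : Matrix ι ι F) *ᵥ (pv x y ∘ e) := rfl

lemma emb_injective {d k : ℕ} (e : ι ≃ Fin d × Fin k) (P : GL ι F) (j : Fin k) :
    Function.Injective (emb e P (Pi.single j (1 : F))) := by
  intro x x' h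
  rw [emb_apply, emb_apply] at h
  have h1 := congrArg (fun w => ((P⁻¹ : GL ι F) : Matrix ι ι F) *ᵥ w) h
  simp only [Matrix.mulVec_mulVec, ← Units.val_mul, inv_mul_cancel, Units.val_one, Matrix.one_mulVec] at h1
  ext i
  have h2 := congrFun h1 (e.symm (i, j))
  simpa [pv] using h2

/-- a monomial second factor gives an orthogonal decomposition -/
theorem frame (hf : HForm σ ε f) {H : Subgroup (GL ι F)} (hH : H ≤ isom f) {d k : ℕ} (hd : 0 < d) (hk : 2 ≤ k)
    {e : ι ≃ Fin d × Fin k} {P : GL ι F} {G₁ : Matrix (Fin d) (Fin d) F} {l : F} (hl : l ≠ 0)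
    (h : TPos σ f H e P G₁ (l • (1 : Matrix (Fin k) (Fin k) F)))
    (hmono : ∀ (b : GL (Fin k) F) (c : F), c ≠ 0 →
      (b : Matrix (Fin k) (Fin k) F)ᵀ * (b : Matrix (Fin k) (Fin k) F).map σ = c • (1 : Matrix (Fin k) (Fin k) F) →
      ∃ π : Equiv.Perm (Fin k), ∀ j, ∃ c : F, c ≠ 0 ∧
        (b : Matrix (Fin k) (Fin k) F) *ᵥ Pi.single j 1 = c • (Pi.single (π j) 1 : Fin k → F)) :
    ∃ D : Fin k → Submodule F (ι → F), IsNondegenerateMDecomposition f d D ∧ H ≤ decompositionStabilizer D := by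
  classical
  let D : Fin k → Submodule F (ι → F) := fun j => LinearMap.range (emb e P (Pi.single j (1 : F)))
  have hform : ∀ i j (x y : Fin d → F), f (emb e P (Pi.single i 1) x) (emb e P (Pi.single j 1) y) =
      formOfGram σ G₁ x y * (if i = j then l else 0) := by
    intro i j x y
    change coF e P f _ _ = _
    rw [h.form, fog_pv, fog_single, Matrix.smul_apply, Matrix.one_apply, smul_eq_mul, mul_ite, mul_one, mul_zero]
  have hnd : ∀ i, IsNondegenerateOn f (D i) := by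
    rintro i _ ⟨x, rfl⟩ hx0
    have hx : x ≠ 0 := by rintro rfl; exact hx0 (map_zero _)
    obtain ⟨⟨y, hy⟩, ⟨z, hz⟩⟩ := fog_nondeg σ h.u1 x hx
    refine ⟨⟨_, ⟨y, rfl⟩, ?_⟩, ⟨_, ⟨z, rfl⟩, ?_⟩⟩
    · rw [hform, if_pos rfl]; exact mul_ne_zero hy hl
    · rw [hform, if_pos rfl]; exact mul_ne_zero hz hl
  have horth : ∀ i j, i ≠ j → AreOrthogonalFor f (D i) (D j) := by
    rintro i j hij _ ⟨x, rfl⟩ _ ⟨y, rfl⟩
    rw [hform, if_neg hij, mul_zero]
  refine ⟨D, ⟨⟨hk, hd, fun i => ?_, indep_of_orth hf hnd horth, ?_⟩, hnd, horth⟩, ?_⟩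
  · have := LinearMap.finrank_range_of_inj (emb_injective e P i)
    rw [Module.finrank_fintype_fun_eq_card, Fintype.card_fin] at this
    exact this
  · rw [eq_top_iff]
    intro v _
    let u : Fin d × Fin k → F := fun p => (((P⁻¹ : GL ι F) : Matrix ι ι F) *ᵥ v) (e.symm p)
    have h1 : v = ∑ j, emb e P (Pi.single j 1) (fun i => u (i, j)) := by
      have h2 : ∀ j, emb e P (Pi.single j 1) (fun i => u (i, j)) =
          (P : Matrix ι ι F) *ᵥ (pv (fun i => u (i, j)) (Pi.single j 1) ∘ e) := fun j => rfl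
      simp only [h2]
      rw [← Matrix.mulVec_sum]
      have h3 : ∑ j, (pv (fun i => u (i, j)) (Pi.single j (1 : F)) ∘ e) = ((P⁻¹ : GL ι F) : Matrix ι ι F) *ᵥ v := by
        ext x
        rw [Finset.sum_apply, Finset.sum_eq_single (e x).2]
        · simp [pv, u]
        · intro j _ hj
          simp [pv, Pi.single_eq_of_ne (Ne.symm hj)]
        · intro h; exact absurd (Finset.mem_univ _) h
      rw [h3, Matrix.mulVec_mulVec, ← Units.val_mul, mul_inv_cancel, Units.val_one, Matrix.one_mulVec]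
    rw [h1]
    exact Submodule.sum_mem _ (fun j _ => Submodule.mem_iSup_of_mem j ⟨_, rfl⟩)
  · intro g hg
    obtain ⟨a, b, c, hc, hab, ha, hb⟩ := h.mult hd (by omega) hg (mem_isom.mp (hH hg))
    have hb' : (b : Matrix (Fin k) (Fin k) F)ᵀ * (b : Matrix (Fin k) (Fin k) F).map σ =
        c⁻¹ • (1 : Matrix (Fin k) (Fin k) F) := by
      rw [Matrix.mul_smul, Matrix.smul_mul, mul_one, smul_comm c⁻¹ l] at hb
      have h5 := congrArg (fun X => l⁻¹ • X) hb
      simpa only [smul_smul, inv_mul_cancel₀ hl, one_smul, ← mul_assoc, one_mul] using h5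
    obtain ⟨π, hπ⟩ := hmono b c⁻¹ (inv_ne_zero hc) hb'
    have hgT : ∀ j x, ∃ c' : F, c' ≠ 0 ∧ (g : Matrix ι ι F) *ᵥ emb e P (Pi.single j 1) x =
        c' • emb e P (Pi.single (π j) 1) ((a : Matrix (Fin d) (Fin d) F) *ᵥ x) := by
      intro j x
      obtain ⟨c', hc', h1⟩ := hπ j
      refine ⟨c', hc', ?_⟩
      rw [emb_apply, hab, cr_mulVec', kron_pv, h1, pv_smul_right, emb_apply, ← Matrix.mulVec_smul]
      rfl
    refine ⟨π, fun j => ?_⟩
    apply le_antisymm
    · rintro _ ⟨_, ⟨x, rfl⟩, rfl⟩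
      obtain ⟨c', hc', h1⟩ := hgT j x
      rw [Matrix.toLin'_apply, h1]
      exact Submodule.smul_mem _ _ ⟨_, rfl⟩
    · rintro _ ⟨x, rfl⟩
      obtain ⟨c', hc', h1⟩ := hgT j (((a⁻¹ : GL (Fin d) F) : Matrix (Fin d) (Fin d) F) *ᵥ x)
      refine ⟨c'⁻¹ • emb e P (Pi.single j 1) (((a⁻¹ : GL (Fin d) F) : Matrix (Fin d) (Fin d) F) *ᵥ x),
        Submodule.smul_mem _ _ ⟨_, rfl⟩, ?_⟩
      rw [map_smul, Matrix.toLin'_apply, h1, smul_smul, inv_mul_cancel₀ hc', one_smul, Matrix.mulVec_mulVec,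
        ← Units.val_mul, mul_inv_cancel, Units.val_one, Matrix.one_mulVec]

/-- from a tensor structure to a tensor position -/
theorem tpos_of_struct {H : Subgroup (GL ι F)} {d k : ℕ} {e : ι ≃ Fin d × Fin k} {P : GL ι F}
    {f₁ : (Fin d → F) → (Fin d → F) → F} {f₂ : (Fin k → F) → (Fin k → F) → F} (h1 : IsSesq σ f₁)
    (hn1 : ∀ v, v ≠ 0 → ∃ x, f₁ v x ≠ 0) (h2 : IsSesq σ f₂) (hn2 : ∀ v, v ≠ 0 → ∃ x, f₂ v x ≠ 0)
    (hle : H ≤ tensorProductSubgroup d k e P) (hs : IsTensorFormStructure σ f f₁ f₂ e P) :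
    ∃ c : F, c ≠ 0 ∧ TPos σ f H e P (c • gramMatrix f₁) (gramMatrix f₂) := by
  obtain ⟨c, hc, hform⟩ := hs
  have hu : ∀ {n : ℕ} {f : (Fin n → F) → (Fin n → F) → F}, IsSesq σ f → (∀ v, v ≠ 0 → ∃ x, f v x ≠ 0) →
      IsUnit (gramMatrix f) := by
    intro n f hf hn
    have h3 := hf.isUnit_gram hn
    rw [Matrix.isUnit_iff_isUnit_det, Matrix.det_transpose, ← Matrix.isUnit_iff_isUnit_det] at h3
    exact h3
  refine ⟨c, hc, hle, ?_, hu h2 hn2, fun x y => ?_⟩
  · obtain ⟨U, hU⟩ := hu h1 hn1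
    exact ⟨Units.mk0 c hc • U, by rw [Units.val_smul, hU]; rfl⟩
  · change f _ _ = _
    rw [hform, Matrix.smul_kronecker, formOfGram, formOfGram, Finset.mul_sum]
    refine Finset.sum_congr rfl (fun a _ => ?_)
    rw [Finset.mul_sum]
    refine Finset.sum_congr rfl (fun b _ => ?_)
    rw [Matrix.smul_apply, smul_eq_mul]
    ring

end H97.AschFrame
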