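import Mathlib
import Cfsg.Agent.Lib.H97.AschTwo

/-!
Aschbacher library, part 21: block coordinates for a direct sum decomposition; forms invariant under small
decomposition stabilisers.
-/

set_option autoImplicit false
set_option linter.unusedSectionVars false

namespace H97.AschBlock

open Cfsg Cfsg.Geo Matrix H97.AschForm H97.AschTwo

variable {ι : Type} [Fintype ι] [DecidableEq ι] {F : Type*} [Field F]

theorem card_decomposition {t m : ℕ} {D : Fin t → Submodule F (ι → F)} (hD : IsMDecomposition m D) :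
    Fintype.card ι = t * m := by
  classical
  have hint : DirectSum.IsInternal D :=
    DirectSum.isInternal_submodule_of_iSupIndep_of_iSup_eq_top hD.indep hD.iSup_eq_top
  let b : ∀ i, Module.Basis (Fin m) F (D i) := fun i => Module.finBasisOfFinrankEq F (D i) (hD.finrank_eq i)
  let B := hint.collectedBasis b
  have h1 := Module.finrank_eq_card_basis B
  rw [Module.finrank_fintype_fun_eq_card] at h1
  rw [h1]
  simp

/-- block coordinates -/
theorem block_coords {t m : ℕ} {D : Fin t → Submodule F (ι → F)} (hD : IsMDecomposition m D) :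
    ∃ L : (ι → F) ≃ₗ[F] (Fin t × Fin m → F),
      (∀ i u, u ∈ D i → ∀ j a, j ≠ i → L u (j, a) = 0) ∧
      ∀ g ∈ decompositionStabilizer D, ∃ (σ : Equiv.Perm (Fin t)) (A : Fin t → Matrix (Fin m) (Fin m) F),
        (∀ i, IsUnit (A i)) ∧ ∀ u i a, L ((g : Matrix ι ι F) *ᵥ u) (σ i, a) = ∑ b, A i a b * L u (i, b) := by
  classical
  have hint : DirectSum.IsInternal D :=
    DirectSum.isInternal_submodule_of_iSupIndep_of_iSup_eq_top hD.indep hD.iSup_eq_top
  let b : ∀ i, Module.Basis (Fin m) F (D i) := fun i => Module.finBasisOfFinrankEq F (D i) (hD.finrank_eq i)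
  let B0 : Module.Basis (Σ _ : Fin t, Fin m) F (ι → F) := hint.collectedBasis b
  let B : Module.Basis (Fin t × Fin m) F (ι → F) := B0.reindex (Equiv.sigmaEquivProd _ _)
  let L : (ι → F) ≃ₗ[F] (Fin t × Fin m → F) := B.equivFun
  have hBmem : ∀ i a, B (i, a) ∈ D i := by
    intro i a
    have := hint.collectedBasis_mem b ⟨i, a⟩
    change B0.reindex (Equiv.sigmaEquivProd _ _) (i, a) ∈ D i
    rw [Module.Basis.reindex_apply]
    exact this
  have hLzero : ∀ i u, u ∈ D i → ∀ j a, j ≠ i → L u (j, a) = 0 := by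
    intro i u hu j a hj
    have h1 := hint.collectedBasis_repr_of_mem_ne b (x := u) (i := i) (j := j) (a := a) (by exact fun h => hj h.symm) hu
    change B.equivFun u (j, a) = 0
    rw [Module.Basis.equivFun_apply, Module.Basis.repr_reindex_apply]
    exact h1
  have hexp : ∀ u, u = ∑ p : Fin t × Fin m, L u p • B p := by
    intro u
    exact (B.sum_equivFun u).symm
  refine ⟨L, hLzero, fun g hg => ?_⟩
  obtain ⟨σ, hσ⟩ := hg
  have hgmem : ∀ i a, (g : Matrix ι ι F) *ᵥ B (i, a) ∈ D (σ i) := by
    intro i a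
    rw [← hσ i]
    exact ⟨B (i, a), hBmem i a, by rw [Matrix.toLin'_apply]⟩
  let A : Fin t → Matrix (Fin m) (Fin m) F := fun i a b => L ((g : Matrix ι ι F) *ᵥ B (i, b)) (σ i, a)
  have hA : ∀ u i a, L ((g : Matrix ι ι F) *ᵥ u) (σ i, a) = ∑ b, A i a b * L u (i, b) := by
    intro u i a
    have h1 : (g : Matrix ι ι F) *ᵥ u = ∑ p : Fin t × Fin m, L u p • ((g : Matrix ι ι F) *ᵥ B p) := by
      conv_lhs => rw [hexp u]
      rw [Matrix.mulVec_sum]
      exact Finset.sum_congr rfl (fun p _ => Matrix.mulVec_smul _ _ _)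
    rw [h1, map_sum, Finset.sum_apply, Fintype.sum_prod_type, Finset.sum_eq_single i]
    · refine Finset.sum_congr rfl (fun b _ => ?_)
      rw [map_smul, Pi.smul_apply, smul_eq_mul, mul_comm]
    · intro j _ hj
      refine Finset.sum_eq_zero (fun b _ => ?_)
      rw [map_smul, Pi.smul_apply, hLzero (σ j) _ (hgmem j b) (σ i) a (fun h => hj (σ.injective h).symm), smul_zero]
    · intro h; exact absurd (Finset.mem_univ _) h
  refine ⟨σ, A, fun i => ?_, hA⟩
  rw [← Matrix.mulVec_injective_iff_isUnit]
  intro c c' hcc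
  have hz : A i *ᵥ (c - c') = 0 := by
    rw [Matrix.mulVec_sub]; exact sub_eq_zero.mpr hcc
  let u : ι → F := L.symm (fun p => if p.1 = i then (c - c') p.2 else 0)
  have hLu : ∀ j b, L u (j, b) = if j = i then (c - c') b else 0 := by
    intro j b
    change L (L.symm _) (j, b) = _
    rw [LinearEquiv.apply_symm_apply]
  have h1 : L ((g : Matrix ι ι F) *ᵥ u) = 0 := by
    ext ⟨j, a⟩
    obtain ⟨k, rfl⟩ := σ.surjective j
    rw [hA]
    by_cases hk : k = i
    · subst hk
      have h2 := congrFun hz a
      rw [mulVec, dotProduct] at h2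
      simp only [hLu, if_true]
      exact h2
    · simp only [hLu, if_neg hk, mul_zero, Finset.sum_const_zero]
      rfl
  have h2 : (g : Matrix ι ι F) *ᵥ u = 0 := L.injective (by rw [h1, map_zero])
  have h3 : u = 0 := by
    have := congrArg (fun w => ((g⁻¹ : GL ι F) : Matrix ι ι F) *ᵥ w) h2
    simpa [Matrix.mulVec_mulVec, ← Units.val_mul] using this
  have h4 : c - c' = 0 := by
    ext b
    have := hLu i b
    rw [if_pos rfl, h3, map_zero] at this
    exact this.symm
  exact sub_eq_zero.mp h4

/-! ### transport of forms along a linear equivalence -/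

variable {κ : Type} [Fintype κ]

def pullL (L : (ι → F) ≃ₗ[F] (κ → F)) (f : (κ → F) → (κ → F) → F) : (ι → F) → (ι → F) → F := fun u v => f (L u) (L v)

lemma pullL_bilinear (L : (ι → F) ≃ₗ[F] (κ → F)) {f : (κ → F) → (κ → F) → F} (h : IsBilinearForm f) :
    IsBilinearForm (pullL L f) where
  add_left x y v := by rw [pullL, map_add, h.add_left]; rfl
  smul_left c x v := by rw [pullL, map_smul, h.smul_left]; rfl
  add_right v x y := by rw [pullL, map_add, h.add_right]; rfl
  smul_right c v x := by rw [pullL, map_smul, h.smul_right]; rfl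

lemma pullL_nondeg (L : (ι → F) ≃ₗ[F] (κ → F)) {f : (κ → F) → (κ → F) → F} (h : IsNondegenerateForm f) :
    IsNondegenerateForm (pullL L f) := by
  intro v hv
  obtain ⟨⟨x, hx⟩, ⟨y, hy⟩⟩ := h (L v) (by
    intro h0
    exact hv (L.injective (by rw [h0, map_zero])))
  refine ⟨⟨L.symm x, ?_⟩, ⟨L.symm y, ?_⟩⟩
  · rw [pullL, LinearEquiv.apply_symm_apply]; exact hx
  · rw [pullL, LinearEquiv.apply_symm_apply]; exact hy

lemma pullL_symplectic (L : (ι → F) ≃ₗ[F] (κ → F)) {f : (κ → F) → (κ → F) → F} (h : IsSymplecticForm f) :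
    IsSymplecticForm (pullL L f) where
  bilinear := pullL_bilinear L h.bilinear
  skew _ _ := h.skew _ _
  alternating _ := h.alternating _
  nondegenerate := pullL_nondeg L h.nondegenerate

lemma pullL_unitary (L : (ι → F) ≃ₗ[F] (κ → F)) {σ : F ≃+* F} {f : (κ → F) → (κ → F) → F} (h : IsUnitaryForm σ f) :
    IsUnitaryForm σ (pullL L f) where
  ne_refl := h.ne_refl
  involutive := h.involutive
  add_left x y v := by rw [pullL, map_add, h.add_left]; rfl
  smul_left c x v := by rw [pullL, map_smul, h.smul_left]; rfl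
  herm _ _ := h.herm _ _
  nondegenerate := pullL_nondeg L h.nondegenerate

/-! ### the standard forms on κ → F -/

lemma sum_nondeg [DecidableEq κ] (τ : F ≃+* F) : IsNondegenerateForm (fun x y : κ → F => ∑ i, x i * τ (y i)) := by
  intro v hv
  obtain ⟨i, hi⟩ := Function.ne_iff.mp hv
  refine ⟨⟨Pi.single i 1, ?_⟩, ⟨Pi.single i 1, ?_⟩⟩
  · change (∑ j, (Pi.single i (1 : F) : κ → F) j * τ (v j)) ≠ 0
    rw [Finset.sum_eq_single i]
    · rw [Pi.single_eq_same, one_mul]
      exact fun h => hi (τ.injective (by rw [h, Pi.zero_apply, map_zero]))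
    · intro j _ hj
      rw [Pi.single_eq_of_ne hj, zero_mul]
    · intro h; exact absurd (Finset.mem_univ _) h
  · change (∑ j, v j * τ ((Pi.single i (1 : F) : κ → F) j)) ≠ 0
    rw [Finset.sum_eq_single i]
    · rw [Pi.single_eq_same, map_one, mul_one]
      exact hi
    · intro j _ hj
      rw [Pi.single_eq_of_ne hj, map_zero, mul_zero]
    · intro h; exact absurd (Finset.mem_univ _) h

lemma sum_bilinear : IsBilinearForm (fun x y : κ → F => ∑ i, x i * y i) where
  add_left x y v := by
    simp only [Pi.add_apply, add_mul, Finset.sum_add_distrib]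
  smul_left c x v := by
    simp only [Pi.smul_apply, smul_eq_mul, mul_assoc, Finset.mul_sum]
  add_right v x y := by
    simp only [Pi.add_apply, mul_add, Finset.sum_add_distrib]
  smul_right c v x := by
    simp only [Pi.smul_apply, smul_eq_mul, Finset.mul_sum]
    exact Finset.sum_congr rfl (fun i _ => by ring)

lemma sum_unitary [DecidableEq κ] {τ : F ≃+* F} (h1 : τ ≠ RingEquiv.refl F) (h2 : ∀ a, τ (τ a) = a) :
    IsUnitaryForm τ (fun x y : κ → F => ∑ i, x i * τ (y i)) where
  ne_refl := h1
  involutive := h2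
  add_left x y v := by
    simp only [Pi.add_apply, add_mul, Finset.sum_add_distrib]
  smul_left c x v := by
    simp only [Pi.smul_apply, smul_eq_mul, mul_assoc, Finset.mul_sum]
  herm v w := by
    simp only [map_sum, map_mul, h2]
    exact Finset.sum_congr rfl (fun i _ => mul_comm _ _)
  nondegenerate := sum_nondeg τ

/-! ### small fields -/

/-- line decompositions -/
theorem line_coords {t : ℕ} {D : Fin t → Submodule F (ι → F)} (hD : IsMDecomposition 1 D) :
    ∃ L : (ι → F) ≃ₗ[F] (Fin t → F), ∀ g ∈ decompositionStabilizer D, ∃ (σ : Equiv.Perm (Fin t)) (c : Fin t → F),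
      (∀ i, c i ≠ 0) ∧ ∀ u i, L ((g : Matrix ι ι F) *ᵥ u) (σ i) = c i * L u i := by
  obtain ⟨L, -, hL⟩ := block_coords hD
  let E : (Fin t × Fin 1 → F) ≃ₗ[F] (Fin t → F) := LinearEquiv.funCongrLeft F F (Equiv.prodUnique (Fin t) (Fin 1)).symm
  refine ⟨L.trans E, fun g hg => ?_⟩
  obtain ⟨σ, A, hA, h⟩ := hL g hg
  refine ⟨σ, fun i => A i 0 0, fun i h0 => ?_, fun u i => ?_⟩
  · have h1 := (Matrix.isUnit_iff_isUnit_det _).mp (hA i)
    rw [Matrix.det_fin_one] at h1
    exact h1.ne_zero h0
  · have h1 := h u i 0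
    rw [Fin.sum_univ_one] at h1
    exact h1

/-- q = 2: a line decomposition has a fixed vector -/
theorem lines_two [Fintype F] (hq : Fintype.card F = 2) {t : ℕ} {D : Fin t → Submodule F (ι → F)}
    (hD : IsMDecomposition 1 D) : ∃ W : Submodule F (ι → F), W ≠ ⊥ ∧ W ≠ ⊤ ∧ decompositionStabilizer D ≤ subspaceStabilizer W := by
  classical
  have ht := hD.two_le
  have hcard := card_decomposition hD
  have hone : ∀ x : F, x ≠ 0 → x = 1 := by
    intro x hx
    have := FiniteField.pow_card_sub_one_eq_one x hx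
    rwa [hq, pow_one] at this
  obtain ⟨L, hL⟩ := line_coords hD
  let u : ι → F := L.symm (fun _ => 1)
  have hu : L u = fun _ => 1 := L.apply_symm_apply _
  have hfix : ∀ g ∈ decompositionStabilizer D, (g : Matrix ι ι F) *ᵥ u = u := by
    intro g hg
    obtain ⟨σ, c, hc, h⟩ := hL g hg
    apply L.injective
    ext j
    obtain ⟨i, rfl⟩ := σ.surjective j
    rw [h, hu, hone _ (hc i), one_mul]
  refine ⟨Submodule.span F {u}, ?_, ?_, ?_⟩
  · intro h
    have h1 := Submodule.mem_span_singleton_self (R := F) u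
    rw [h, Submodule.mem_bot] at h1
    rw [h1, map_zero] at hu
    have := congrFun hu ⟨0, by omega⟩
    exact zero_ne_one this
  · intro h
    have h1 := finrank_span_le_card (R := F) ({u} : Set (ι → F))
    rw [h, finrank_top, Module.finrank_fintype_fun_eq_card, hcard] at h1
    simp at h1
    omega
  · intro g hg v
    have key : ∀ g ∈ decompositionStabilizer D, ∀ v ∈ Submodule.span F {u}, (g : Matrix ι ι F) *ᵥ v ∈ Submodule.span F {u} := by
      intro g hg v hv
      obtain ⟨c, rfl⟩ := Submodule.mem_span_singleton.mp hv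
      rw [Matrix.mulVec_smul, hfix g hg]
      exact hv
    constructor
    · exact key g hg v
    · intro hv
      have h3 := key g⁻¹ (Subgroup.inv_mem _ hg) _ hv
      change ((g⁻¹ : GL ι F) : Matrix ι ι F) *ᵥ ((g : Matrix ι ι F) *ᵥ v) ∈ _ at h3
      rwa [Matrix.mulVec_mulVec, ← Units.val_mul, inv_mul_cancel, Units.val_one, Matrix.one_mulVec] at h3

/-- q = 3: a line decomposition has an invariant quadratic form -/
theorem lines_three [Fintype F] (hq : Fintype.card F = 3) {t : ℕ} {D : Fin t → Submodule F (ι → F)}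
    (hD : IsMDecomposition 1 D) :
    ∃ Q : (ι → F) → F, IsNondegenerateQuadraticForm Q ∧ decompositionStabilizer D ≤ quadSimilarityGroup Q := by
  classical
  have hsq : ∀ x : F, x ≠ 0 → x * x = 1 := by
    intro x hx
    have := FiniteField.pow_card_sub_one_eq_one x hx
    rw [hq] at this
    rw [← this]; ring
  have h2 : (2 : F) ≠ 0 := by
    intro h2
    have h3 : (Fintype.card F : F) = 0 := FiniteField.cast_card_eq_zero F
    rw [hq] at h3
    have : (1 : F) = 0 := by
      have h4 : ((3 : ℕ) : F) = 2 + 1 := by norm_num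
      rw [h4, h2, zero_add] at h3
      exact h3
    exact one_ne_zero this
  obtain ⟨L, hL⟩ := line_coords hD
  let f : (ι → F) → (ι → F) → F := pullL L (fun x y => ∑ i, x i * y i)
  obtain ⟨h3, h4⟩ := quad_of_symm (f := f) h2 (pullL_bilinear L sum_bilinear)
    (fun u v => by
      change (∑ i, L u i * L v i) = ∑ i, L v i * L u i
      exact Finset.sum_congr rfl (fun i _ => mul_comm _ _))
    (pullL_nondeg L (sum_nondeg (RingEquiv.refl F)))
  refine ⟨_, h3, le_trans ?_ h4⟩
  intro g hg
  obtain ⟨σ, c, hc, h⟩ := hL g hg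
  refine ⟨1, fun u v => ?_⟩
  rw [Units.val_one, one_mul]
  change (∑ i, L ((g : Matrix ι ι F) *ᵥ u) i * L ((g : Matrix ι ι F) *ᵥ v) i) = ∑ i, L u i * L v i
  rw [← Equiv.sum_comp σ]
  refine Finset.sum_congr rfl (fun i _ => ?_)
  rw [h, h]
  have := hsq _ (hc i)
  linear_combination (L u i * L v i) * this

/-- the Frobenius automorphism of the field with four elements -/
lemma exists_frob_four [Fintype F] (hq : Fintype.card F = 4) :
    ∃ τ : F ≃+* F, τ ≠ RingEquiv.refl F ∧ (∀ a, τ (τ a) = a) ∧ ∀ a, a ≠ 0 → a * τ a = 1 := by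
  classical
  have hchar : CharP F 2 := by
    obtain ⟨p, hp⟩ := CharP.exists F
    obtain ⟨m, hpp, hcard⟩ := FiniteField.card F p
    have h1 : p ∣ 2 ^ 2 := by
      have : p ∣ p ^ (m : ℕ) := dvd_pow_self p m.pos.ne'
      rw [← hcard, hq] at this
      exact this
    have h2 : p = 2 := (Nat.prime_dvd_prime_iff_eq hpp Nat.prime_two).mp (hpp.dvd_of_dvd_pow h1)
    rwa [h2] at hp
  have hfact : Fact (Nat.Prime 2) := ⟨Nat.prime_two⟩
  have : ExpChar F 2 := ExpChar.prime Nat.prime_two
  have hbij : Function.Bijective (frobenius F 2) := (Fintype.bijective_iff_injective_and_card _).mpr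
    ⟨frobenius_inj F 2, rfl⟩
  let τ : F ≃+* F := RingEquiv.ofBijective (frobenius F 2) hbij
  have hτ : ∀ a, τ a = a ^ 2 := fun a => rfl
  have h4 : ∀ a : F, a ^ 4 = a := by
    intro a
    have := FiniteField.pow_card a
    rwa [hq] at this
  refine ⟨τ, ?_, ?_, ?_⟩
  · intro h
    have h1 : ∀ a : F, a ^ 2 = a := by
      intro a
      rw [← hτ, h]; rfl
    have h2 : ∀ a : F, a = 0 ∨ a = 1 := by
      intro a
      have : a * (a - 1) = 0 := by linear_combination h1 a
      rcases mul_eq_zero.mp this with h | h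
      · left; exact h
      · right; exact sub_eq_zero.mp h
    have h3 : Fintype.card F ≤ 2 := by
      rw [← Finset.card_univ]
      calc (Finset.univ : Finset F).card ≤ ({0, 1} : Finset F).card := by
            apply Finset.card_le_card
            intro a _
            rcases h2 a with h | h <;> simp [h]
        _ ≤ 2 := Finset.card_le_two
    omega
  · intro a
    rw [hτ, hτ, ← pow_mul]
    exact h4 a
  · intro a ha
    rw [hτ]
    have := FiniteField.pow_card_sub_one_eq_one a ha
    rw [hq] at this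
    rw [← this]; ring

/-- q = 4: a line decomposition has an invariant unitary form -/
theorem lines_four [Fintype F] (hq : Fintype.card F = 4) {t : ℕ} {D : Fin t → Submodule F (ι → F)}
    (hD : IsMDecomposition 1 D) :
    ∃ (τ : F ≃+* F) (f : (ι → F) → (ι → F) → F), IsUnitaryForm τ f ∧ decompositionStabilizer D ≤ similarityGroup f := by
  classical
  obtain ⟨τ, h1, h2, h3⟩ := exists_frob_four hq
  obtain ⟨L, hL⟩ := line_coords hD
  refine ⟨τ, pullL L (fun x y => ∑ i, x i * τ (y i)), pullL_unitary L (sum_unitary h1 h2), ?_⟩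
  intro g hg
  obtain ⟨σ, c, hc, h⟩ := hL g hg
  refine ⟨1, fun u v => ?_⟩
  rw [Units.val_one, one_mul]
  change (∑ i, L ((g : Matrix ι ι F) *ᵥ u) i * τ (L ((g : Matrix ι ι F) *ᵥ v) i)) = ∑ i, L u i * τ (L v i)
  rw [← Equiv.sum_comp σ]
  refine Finset.sum_congr rfl (fun i _ => ?_)
  rw [h, h, map_mul]
  have := h3 _ (hc i)
  linear_combination (L u i * τ (L v i)) * this

/-! ### planes -/

/-- the sum of symplectic planes -/
def planes (t : ℕ) (F : Type*) [Field F] (x y : Fin t × Fin 2 → F) : F :=
  ∑ i, (x (i, 0) * y (i, 1) - x (i, 1) * y (i, 0))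

lemma planes_symplectic (t : ℕ) : IsSymplecticForm (planes t F) where
  bilinear :=
    { add_left := by
        intro x y v
        simp only [planes, Pi.add_apply]
        rw [← Finset.sum_add_distrib]
        exact Finset.sum_congr rfl (fun i _ => by ring)
      smul_left := by
        intro c x v
        simp only [planes, Pi.smul_apply, smul_eq_mul]
        rw [Finset.mul_sum]
        exact Finset.sum_congr rfl (fun i _ => by ring)
      add_right := by
        intro v x y
        simp only [planes, Pi.add_apply]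
        rw [← Finset.sum_add_distrib]
        exact Finset.sum_congr rfl (fun i _ => by ring)
      smul_right := by
        intro c v x
        simp only [planes, Pi.smul_apply, smul_eq_mul]
        rw [Finset.mul_sum]
        exact Finset.sum_congr rfl (fun i _ => by ring) }
  skew v w := by
    simp only [planes]
    rw [← Finset.sum_neg_distrib]
    exact Finset.sum_congr rfl (fun i _ => by ring)
  alternating v := by
    simp only [planes]
    exact Finset.sum_eq_zero (fun i _ => by ring)
  nondegenerate := by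
    have hval : ∀ (v : Fin t × Fin 2 → F) (i : Fin t),
        planes t F (Pi.single (i, 0) 1) v = v (i, 1) ∧ planes t F (Pi.single (i, 1) 1) v = - v (i, 0) ∧
        planes t F v (Pi.single (i, 0) 1) = - v (i, 1) ∧ planes t F v (Pi.single (i, 1) 1) = v (i, 0) := by
      intro v i
      refine ⟨?_, ?_, ?_, ?_⟩ <;>
      · simp only [planes]
        rw [Finset.sum_eq_single i]
        · simp [Pi.single_apply]
        · intro j _ hj
          simp [Pi.single_apply, hj]
        · intro h; exact absurd (Finset.mem_univ _) h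
    intro v hv
    obtain ⟨⟨i, a⟩, ha⟩ := Function.ne_iff.mp hv
    obtain ⟨h1, h2, h3, h4⟩ := hval v i
    rw [Pi.zero_apply] at ha
    fin_cases a
    · exact ⟨⟨Pi.single (i, 1) 1, by rw [h2]; exact neg_ne_zero.mpr ha⟩,
        ⟨Pi.single (i, 1) 1, by rw [h4]; exact ha⟩⟩
    · exact ⟨⟨Pi.single (i, 0) 1, by rw [h1]; exact ha⟩,
        ⟨Pi.single (i, 0) 1, by rw [h3]; exact neg_ne_zero.mpr ha⟩⟩

/-- a block monomial map with equal determinants is a similarity of the sum of planes -/
lemma planes_block {t : ℕ} (σ : Equiv.Perm (Fin t)) (A : Fin t → Matrix (Fin 2) (Fin 2) F) (c : F)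
    (hc : ∀ i, (A i).det = c) {x y x' y' : Fin t × Fin 2 → F}
    (hx : ∀ i a, x' (σ i, a) = ∑ b, A i a b * x (i, b)) (hy : ∀ i a, y' (σ i, a) = ∑ b, A i a b * y (i, b)) :
    planes t F x' y' = c * planes t F x y := by
  rw [planes, planes, ← Equiv.sum_comp σ, Finset.mul_sum]
  refine Finset.sum_congr rfl (fun i _ => ?_)
  rw [hx, hx, hy, hy, ← hc i, Matrix.det_fin_two, Fin.sum_univ_two, Fin.sum_univ_two, Fin.sum_univ_two,
    Fin.sum_univ_two]
  ring

/-- q = 2: a plane decomposition has an invariant symplectic form -/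
theorem planes_two [Fintype F] (hq : Fintype.card F = 2) {t : ℕ} {D : Fin t → Submodule F (ι → F)}
    (hD : IsMDecomposition 2 D) :
    ∃ f : (ι → F) → (ι → F) → F, IsSymplecticForm f ∧ decompositionStabilizer D ≤ similarityGroup f := by
  classical
  have hone : ∀ x : F, x ≠ 0 → x = 1 := by
    intro x hx
    have := FiniteField.pow_card_sub_one_eq_one x hx
    rwa [hq, pow_one] at this
  obtain ⟨L, -, hL⟩ := block_coords hD
  refine ⟨pullL L (planes t F), pullL_symplectic L (planes_symplectic t), ?_⟩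
  intro g hg
  obtain ⟨σ, A, hA, h⟩ := hL g hg
  refine ⟨1, fun u v => ?_⟩
  exact planes_block σ A _ (fun i => hone _ ((Matrix.isUnit_iff_isUnit_det _).mp (hA i)).ne_zero) (h u) (h v)

end H97.AschBlock
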