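import Mathlib
import Cfsg.Agent.Lib.H97.AschLinear
import Cfsg.Agent.Lib.H96.AschSympType4

/-!
Aschbacher library, part 20: the main theorem in the linear case, with a refined list of classes.
-/

set_option autoImplicit false
set_option linter.unusedSectionVars false

namespace H97.AschMain

open Cfsg Cfsg.Geo Matrix H97.AschRad H97.AschUnits H97.AschSkolem H97.AschCS H97.AschTensor H97.AschEnv
open H97.AschGrp H97.AschNonab H97.AschForm H97.AschReal H97.AschTwo H97.AschSubfield H97.AschDecomp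
open H97.AschWreath H97.AschWreathNorm H97.AschLinear
open scoped Kronecker commutatorElement

/-- The refined list of geometric classes: as `InLinearClass`, with more information on the sixth class. -/
def Ref (n : ℕ) (F : Type*) [Field F] [Fintype F] (M : Subgroup (GL (Fin n) F)) : Prop :=
  (∃ W : Submodule F (Fin n → F), W ≠ ⊥ ∧ W ≠ ⊤ ∧ M = subspaceStabilizer W) ∨
  (∃ W U : Submodule F (Fin n → F), W ≠ ⊥ ∧ W < U ∧ Module.finrank F W + Module.finrank F U = n ∧
      M = subspaceStabilizer W ⊓ subspaceStabilizer U) ∨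
  (∃ W U : Submodule F (Fin n → F), W ≠ ⊥ ∧ W ⊓ U = ⊥ ∧ W ⊔ U = ⊤ ∧
      Module.finrank F W < Module.finrank F U ∧ M = subspaceStabilizer W ⊓ subspaceStabilizer U) ∨
  (∃ (t m : ℕ) (D : Fin t → Submodule F (Fin n → F)), IsMDecomposition m D ∧ M = decompositionStabilizer D) ∨
  (∃ (r : ℕ) (K : Subalgebra F (Matrix (Fin n) (Fin n) F)), r.Prime ∧ IsFieldSubalgebra r K ∧
      M = subalgebraNormalizer K) ∨
  (∃ (n₁ n₂ : ℕ) (e : Fin n ≃ Fin n₁ × Fin n₂) (P : GL (Fin n) F), 2 ≤ n₁ ∧ n₁ < n₂ ∧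
      M = tensorProductSubgroup n₁ n₂ e P) ∨
  (∃ (F₀ : Subfield F) (r : ℕ) (P : GL (Fin n) F), r.Prime ∧ Fintype.card F = Nat.card F₀ ^ r ∧
      M = subfieldSubgroup F₀ P) ∨
  (∃ (r : ℕ) (R : Subgroup (GL (Fin n) F)), (IsLinearSymplecticTypeData r R ∧ (∃ m, 1 ≤ m ∧ n = r ^ m) ∧
      Nat.card R = n ^ 2 * Nat.card (Subgroup.center R) ∧ Full R) ∧ M = subgroupNormalizer R) ∨
  (∃ (m t : ℕ) (e : Fin n ≃ (Fin t → Fin m)) (P : GL (Fin n) F), 3 ≤ m ∧ 2 ≤ t ∧
      M = tensorWreathSubgroup m t e P) ∨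
  (∃ f : (Fin n → F) → (Fin n → F) → F, IsSymplecticForm f ∧ Even n ∧ 4 ≤ n ∧ M = similarityGroup f) ∨
  (∃ (σ : F ≃+* F) (f : (Fin n → F) → (Fin n → F) → F), IsUnitaryForm σ f ∧ 3 ≤ n ∧ M = similarityGroup f) ∨
  (∃ Q : (Fin n → F) → F, IsNondegenerateQuadraticForm Q ∧ Odd (Fintype.card F) ∧ 3 ≤ n ∧
      M = quadSimilarityGroup Q)

variable {F : Type*} [Field F]

theorem Ref.toClass [Fintype F] {n : ℕ} {M : Subgroup (GL (Fin n) F)} (h : Ref n F M) : InLinearClass n F M := by
  rcases h with h | h | h | h | h | h | h | ⟨r, R, ⟨h1, -⟩, h2⟩ | h | h | h | h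
  · exact Or.inl h
  · exact Or.inr (Or.inl h)
  · exact Or.inr (Or.inr (Or.inl h))
  · exact Or.inr (Or.inr (Or.inr (Or.inl h)))
  · exact Or.inr (Or.inr (Or.inr (Or.inr (Or.inl h))))
  · exact Or.inr (Or.inr (Or.inr (Or.inr (Or.inr (Or.inl h)))))
  · exact Or.inr (Or.inr (Or.inr (Or.inr (Or.inr (Or.inr (Or.inl h))))))
  · exact Or.inr (Or.inr (Or.inr (Or.inr (Or.inr (Or.inr (Or.inr (Or.inl ⟨r, R, h1, h2⟩)))))))
  · exact Or.inr (Or.inr (Or.inr (Or.inr (Or.inr (Or.inr (Or.inr (Or.inr (Or.inl h))))))))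
  · exact Or.inr (Or.inr (Or.inr (Or.inr (Or.inr (Or.inr (Or.inr (Or.inr (Or.inr (Or.inl h)))))))))
  · exact Or.inr (Or.inr (Or.inr (Or.inr (Or.inr (Or.inr (Or.inr (Or.inr (Or.inr (Or.inr (Or.inl h))))))))))
  · exact Or.inr (Or.inr (Or.inr (Or.inr (Or.inr (Or.inr (Or.inr (Or.inr (Or.inr (Or.inr (Or.inr h))))))))))

/-- the tensor wreath group of a symplectic plane lies in a class-8 group -/
theorem wreath2_ref [Fintype F] (n t : ℕ) (ht : 2 ≤ t) (e : Fin n ≃ (Fin t → Fin 2)) (P : GL (Fin n) F) :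
    ∃ M, Ref n F M ∧ tensorWreathSubgroup 2 t e P ≤ M := by
  have hn : n = 2 ^ t := by
    have := Fintype.card_congr e
    simpa using this
  have hev : Even n := by
    rw [hn, Nat.even_pow]
    exact ⟨even_two, by omega⟩
  have h4 : 4 ≤ n := by
    rw [hn]
    calc 4 = 2 ^ 2 := rfl
      _ ≤ 2 ^ t := Nat.pow_le_pow_right (by norm_num) ht
  by_cases hcase : (2 : F) = 0 ∨ Odd t
  · refine ⟨similarityGroup (pull e P (bf (JT t F))), ?_, pull_sim e P _ _ (wreath2_le_similarity t)⟩
    have hskew : ∀ v w, bf (JT t F) v w = - bf (JT t F) w v := by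
      intro v w
      rw [← bf_transpose, JT_transpose, bf_smul]
      rcases hcase with h | h
      · have h1 : (-1 : F) = 1 := by
          have : (1 : F) + 1 = 0 := by rw [one_add_one_eq_two, h]
          exact (eq_neg_of_add_eq_zero_left this).symm
        rw [h1, one_pow, one_mul]
        have h3 : bf (JT t F) w v + bf (JT t F) w v = 0 := by rw [← two_mul, h, zero_mul]
        exact eq_neg_of_add_eq_zero_left h3
      · rw [h.neg_one_pow, neg_one_mul]
    have hsymp : IsSymplecticForm (bf (JT t F)) := by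
      refine ⟨bf_bilinear _, hskew, ?_, bf_nondeg _ (JT_isUnit t)⟩
      intro v
      by_cases h : (2 : F) = 0
      · apply bf_alt_char_two h _ ?_ (fun x => JT_diag (by omega) x)
        rw [JT_transpose]
        have h1 : (-1 : F) = 1 := by
          have : (1 : F) + 1 = 0 := by rw [one_add_one_eq_two, h]
          exact (eq_neg_of_add_eq_zero_left this).symm
        rw [h1, one_pow, one_smul]
      · have h3 := hskew v v
        have h4 : (2 : F) * bf (JT t F) v v = 0 := by rw [two_mul]; nth_rewrite 1 [h3]; ring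
        exact (mul_eq_zero.mp h4).resolve_left h
    iterate 9 right
    left
    exact ⟨_, pull_symplectic e P hsymp, hev, h4, rfl⟩
  · push Not at hcase
    obtain ⟨h2, ht2⟩ := hcase
    rw [Nat.not_odd_iff_even] at ht2
    have hsymm : ∀ v w, bf (JT t F) v w = bf (JT t F) w v := by
      intro v w
      rw [← bf_transpose, JT_transpose, bf_smul, ht2.neg_one_pow, one_mul]
    obtain ⟨hq1, hq2⟩ := quad_of_symm h2 (bf_bilinear (JT t F)) hsymm (bf_nondeg _ (JT_isUnit t))
    refine ⟨quadSimilarityGroup (pullQ e P (fun v => bf (JT t F) v v)), ?_,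
      pullQ_sim e P _ _ ((wreath2_le_similarity t).trans hq2)⟩
    iterate 11 right
    refine ⟨_, pullQ_nondeg e P hq1, ?_, by omega, rfl⟩
    rw [← Nat.not_even_iff_odd]
    intro he
    apply h2
    obtain ⟨k, hk⟩ := he
    have hc : (Fintype.card F : F) = 0 := FiniteField.cast_card_eq_zero F
    rw [hk] at hc
    have h5 : (2 : F) * (k : F) = 0 := by push_cast at hc; linear_combination hc
    rcases mul_eq_zero.mp h5 with h6 | h6
    · exact h6
    · exfalso
      -- card F is a power of the characteristic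
      obtain ⟨p, hp⟩ := CharP.exists F
      obtain ⟨m, hpp, hcard⟩ := FiniteField.card F p
      have h7 : 2 ∣ p ^ (m : ℕ) := by rw [← hcard, hk]; exact ⟨k, by ring⟩
      have h8 : 2 ∣ p := Nat.prime_two.dvd_of_dvd_pow h7
      have h9 : p = 2 := ((Nat.prime_dvd_prime_iff_eq Nat.prime_two hpp).mp h8).symm
      subst h9
      exact h2 (by exact_mod_cast (CharP.cast_eq_zero F 2))

/-- The geometric reduction in the linear case. -/
theorem geometric_reduction_ref [Fintype F] {n : ℕ} (hn : 3 ≤ n) (H : Subgroup (GL (Fin n) F)) :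
    (∃ M, Ref n F M ∧ H ≤ M) ∨
    (ActsIrreducibly (matrixSet H) ∧ ∀ N, NB H N → N ≤ scalars (Fin n) F ∨ Full N) := by
  have : Nonempty (Fin n) := ⟨⟨0, by omega⟩⟩
  by_contra hcon
  push Not at hcon
  obtain ⟨hC, h2⟩ := hcon
  by_cases hirr : ActsIrreducibly (matrixSet H)
  swap
  · obtain ⟨W, hW1, hW2, hW3⟩ := exists_stabilizer_of_not_irreducible hirr
    exact hC _ (Or.inl ⟨W, hW1, hW2, rfl⟩) hW3
  obtain ⟨N, hN, hNs, hNf⟩ := h2 hirr
  rcases center_trichotomy hirr hN with ⟨t, m, D, hD, hHD⟩ | ⟨r, K, hr, hK, -, hHK⟩ | hZ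
  · refine hC (decompositionStabilizer D) ?_ hHD
    iterate 3 right
    left
    exact ⟨t, m, D, hD, rfl⟩
  · refine hC (subalgebraNormalizer K) ?_ (le_subalgebraNormalizer K H hHK)
    iterate 4 right
    left
    exact ⟨r, K, hr, hK, rfl⟩
  · rcases tensor_position hirr hN hZ with h | h | ⟨d, m, e, P, hd, hm, hHle, -⟩
    · exact hNs h
    · exact hNf h
    · rcases lt_trichotomy d m with hlt | heq | hgt
      · refine hC (tensorProductSubgroup d m e P) ?_ hHle
        iterate 5 right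
        left
        exact ⟨d, m, e, P, hd, hlt, rfl⟩
      · subst heq
        by_cases hd2 : d = 2
        · subst hd2
          obtain ⟨M, hM, hle⟩ := wreath2_ref n 2 (le_refl 2) (e.trans (pairEquiv 2)) P
          exact hC M hM (hHle.trans ((tensorProduct_le_wreath 2 e P).trans hle))
        · refine hC (tensorWreathSubgroup d 2 (e.trans (pairEquiv d)) P) ?_
            (hHle.trans (tensorProduct_le_wreath d e P))
          iterate 8 right
          left
          exact ⟨d, 2, _, P, by omega, le_refl 2, rfl⟩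
      · refine hC (tensorProductSubgroup m d (e.trans (Equiv.prodComm _ _)) P) ?_
          (hHle.trans (tensorProduct_swap d m e P))
        iterate 5 right
        left
        exact ⟨m, d, _, P, hm, hgt, rfl⟩

/-- a full normal subgroup fixing a form or realisable over a subfield puts H in a class -/
theorem ref_of_structure [Fintype F] {n : ℕ} (hn : 3 ≤ n) {H N : Subgroup (GL (Fin n) F)} (hN : NB H N)
    (hfull : Full N)
    (h : (∃ Q : (Fin n → F) → F, IsNondegenerateQuadraticForm Q ∧ FixesQuadForm (matrixSet N) Q) ∨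
      (∃ f : (Fin n → F) → (Fin n → F) → F, IsSymplecticForm f ∧ FixesForm (matrixSet N) f) ∨
      (∃ (σ : F ≃+* F) (f : (Fin n → F) → (Fin n → F) → F), IsUnitaryForm σ f ∧ FixesForm (matrixSet N) f) ∨
      (∃ F₀ : Subfield F, F₀ ≠ ⊤ ∧ RealisableOver F₀ (matrixSet N))) :
    ∃ M, Ref n F M ∧ H ≤ M := by
  have : Nonempty (Fin n) := ⟨⟨0, by omega⟩⟩
  have hsymp : ∀ f : (Fin n → F) → (Fin n → F) → F, IsSymplecticForm f → FixesForm (matrixSet N) f →
      ∃ M, Ref n F M ∧ H ≤ M := by
    intro f hf hNf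
    have hev := even_of_symplectic hf
    rw [Fintype.card_fin] at hev
    refine ⟨similarityGroup f, ?_, fun g hg => sim_symplectic hfull hf hNf (hN g hg)⟩
    iterate 9 right
    left
    refine ⟨f, hf, hev, ?_, rfl⟩
    obtain ⟨k, hk⟩ := hev
    omega
  rcases h with ⟨Q, hQ, hNQ⟩ | ⟨f, hf, hNf⟩ | ⟨σ, f, hf, hNf⟩ | ⟨F₀, h0, hreal⟩
  · by_cases h2 : (2 : F) = 0
    · exact hsymp _ (polar_symplectic hQ h2) (polar_fixes hNQ)
    · refine ⟨quadSimilarityGroup Q, ?_, fun g hg => sim_quadratic hfull h2 hQ hNQ (hN g hg)⟩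
      iterate 11 right
      exact ⟨Q, hQ, odd_card_of_two_ne_zero h2, hn, rfl⟩
  · exact hsymp f hf hNf
  · refine ⟨similarityGroup f, ?_, fun g hg => sim_unitary hfull hf hNf (hN g hg)⟩
    iterate 10 right
    left
    exact ⟨σ, f, hf, hn, rfl⟩
  · obtain ⟨F₁, r, P, -, hr, hcard, hle⟩ := subfield_case hfull F₀ h0 hreal
    refine ⟨subfieldSubgroup F₁ P, ?_, fun g hg => hle g (hN g hg)⟩
    iterate 6 right
    left
    exact ⟨F₁, r, P, hr, hcard, rfl⟩

/-- the perfect case -/
theorem perfect_case_ref [Fintype F] {n : ℕ} (hn : 3 ≤ n) {H N : Subgroup (GL (Fin n) F)}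
    (hN : MinNS (scalars (Fin n) F) H N) (hperf : ⁅N, N⁆ = N) (hfull : Full N) :
    (∃ M, Ref n F M ∧ H ≤ M) ∨ InLinearResidualClass H := by
  have : Nonempty (Fin n) := ⟨⟨0, by omega⟩⟩
  obtain ⟨t, Q, ht, hinj, hQN, hsup, hQperf, hQns, hQnb, hcomm, hperm, htrans, hQmin⟩ :=
    perfect_structure scalars_central hN hperf
  by_cases ht1 : t = 1
  · subst ht1
    have hQ0 : Q 0 = N := by
      rw [← hsup]
      apply le_antisymm (le_iSup Q 0)
      apply iSup_le
      intro i
      rw [Subsingleton.elim i 0]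
    by_cases hst : (∃ Q : (Fin n → F) → F, IsNondegenerateQuadraticForm Q ∧ FixesQuadForm (matrixSet N) Q) ∨
      (∃ f : (Fin n → F) → (Fin n → F) → F, IsSymplecticForm f ∧ FixesForm (matrixSet N) f) ∨
      (∃ (σ : F ≃+* F) (f : (Fin n → F) → (Fin n → F) → F), IsUnitaryForm σ f ∧ FixesForm (matrixSet N) f) ∨
      (∃ F₀ : Subfield F, F₀ ≠ ⊤ ∧ RealisableOver F₀ (matrixSet N))
    · left
      exact ref_of_structure hn hN.nb hfull hst
    · right
      push Not at hst
      obtain ⟨h1, h2, h3, h4⟩ := hst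
      refine ⟨N, ?_, ?_, ?_, ?_⟩
      · apply core_of_simple hN.le hN.nb hN.ns hperf hfull ?_ h4
        intro K hK hKN
        rw [← hQ0] at hK hKN ⊢
        exact hQmin 0 K hK hKN
      · rintro ⟨Q, hQ, hQ'⟩; exact h1 Q hQ hQ'
      · rintro ⟨f, hf, hf'⟩; exact h2 f hf hf'
      · rintro ⟨σ, f, hf, hf'⟩; exact h3 σ f hf hf'
  · left
    obtain ⟨d, e, P, φ, hd, -, -, -, -, hnorm⟩ :=
      wreath_case (H := H) hfull ht Q hsup hQns hQnb hcomm hperm htrans
    have hle : H ≤ tensorWreathSubgroup d t e P := by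
      intro h hh
      obtain ⟨σ, a, -, h2⟩ := hnorm h hh
      rw [h2]
      exact crGL_mem_wreath e P σ a
    by_cases hd2 : d = 2
    · subst hd2
      obtain ⟨M, hM, hle'⟩ := wreath2_ref n t (by omega) e P
      exact ⟨M, hM, hle.trans hle'⟩
    · refine ⟨_, ?_, hle⟩
      iterate 8 right
      left
      exact ⟨d, t, e, P, by omega, by omega, rfl⟩


/-- **Main theorem, linear case, refined.** -/
theorem main_ref [Fintype F] {n : ℕ} (hn : 3 ≤ n) (H : Subgroup (GL (Fin n) F)) :
    (∃ M, Ref n F M ∧ H ≤ M) ∨ InLinearResidualClass H := by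
  have hne : Nonempty (Fin n) := ⟨⟨0, by omega⟩⟩
  rcases geometric_reduction_ref hn H with h | ⟨hirr, hall⟩
  · left; exact h
  have hfinM : Finite (GL (Fin n) F) := inferInstance
  have hnotall : ∀ N, N ≤ scalars (Fin n) F → ¬ Full N := by
    intro N hN hfull
    obtain ⟨c, hc⟩ := hfull.comm (X := Matrix.single (⟨0, by omega⟩ : Fin n) (⟨1, by omega⟩ : Fin n) (1 : F)) (by
      intro x hx
      obtain ⟨c, hc⟩ := (mem_scalars_iff x).mp (hN hx)
      rw [hc, Matrix.mul_smul, Matrix.smul_mul, mul_one, one_mul])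
    have h1 := congrFun (congrFun hc ⟨0, by omega⟩) ⟨1, by omega⟩
    rw [Matrix.single_apply, if_pos ⟨rfl, rfl⟩, Matrix.algebraMap_matrix_apply, if_neg] at h1
    · exact one_ne_zero h1
    · intro h; have := congrArg Fin.val h; simp at this
  have hHH : NB H H := fun h hh x hx => H.mul_mem (H.mul_mem hh hx) (H.inv_mem hh)
  have hHns : ¬ H ≤ scalars (Fin n) F := by
    intro hH
    -- a scalar group is not irreducible
    let v : Fin n → F := Pi.single ⟨0, by omega⟩ 1
    have hv : v ≠ 0 := by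
      intro h0
      have := congrFun h0 ⟨0, by omega⟩
      simp [v] at this
    rcases hirr (Submodule.span F {v}) (by
      rintro _ ⟨x, hx, rfl⟩
      obtain ⟨c, hc⟩ := (mem_scalars_iff x).mp (hH hx)
      rintro _ ⟨w, hw, rfl⟩
      rw [Matrix.toLin'_apply]
      change (x : Matrix (Fin n) (Fin n) F) *ᵥ w ∈ _
      rw [hc, Matrix.smul_mulVec, Matrix.one_mulVec]
      exact Submodule.smul_mem _ _ hw) with h | h
    · have h1 := Submodule.mem_span_singleton_self (R := F) v
      rw [h, Submodule.mem_bot] at h1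
      exact hv h1
    · have h1 := finrank_span_le_card (R := F) ({v} : Set (Fin n → F))
      rw [h, finrank_top, Module.finrank_fintype_fun_eq_card, Fintype.card_fin] at h1
      simp at h1
      omega
  obtain ⟨N, hNH, hN⟩ := exists_minNS (scalars (Fin n) F) H H (le_refl H) hHH hHns
  have hfull : Full N := by
    rcases hall N hN.nb with h | h
    · exact absurd h hN.ns
    · exact h
  rcases hN.min ⁅N, N⁆ (by
    rw [Subgroup.commutator_le]
    intro a ha b hb
    rw [commutatorElement_def]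
    exact N.mul_mem (N.mul_mem (N.mul_mem ha hb) (N.inv_mem ha)) (N.inv_mem hb)) (NB_commutator hN.nb hN.nb)
    with hcomm | hperf
  · left
    have hnil : ∀ x ∈ N, ∀ y ∈ N, x * y * x⁻¹ * y⁻¹ ∈ scalars (Fin n) F :=
      fun x hx y hy => hcomm (Subgroup.commutator_mem_commutator hx hy)
    obtain ⟨r, p, R, hD, -, hR⟩ := H96.AschSympType3.exists_sympData (by rw [Fintype.card_fin]; omega) H N hNH hN.nb
      hfull hnil (fun M _ hM => hall M hM)
    rcases H96.AschSympType4.linear_of_sympType (by rw [Fintype.card_fin]; exact hn) hD with ⟨h1, h2, h3⟩ | h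
    · refine ⟨subgroupNormalizer R, ?_, ?_⟩
      · iterate 7 right
        left
        rw [Fintype.card_fin] at h2 h3
        exact ⟨r, R, ⟨h1, h2, h3, hD.full⟩, rfl⟩
      · intro h hh
        change h ∈ Subgroup.normalizer (R : Set (GL (Fin n) F))
        rw [Subgroup.mem_normalizer_iff]
        intro x
        constructor
        · exact hR h hh x
        · intro hx
          have := hR h⁻¹ (H.inv_mem hh) _ hx
          have h4 : h⁻¹ * (h * x * h⁻¹) * h⁻¹⁻¹ = x := by group
          rwa [h4] at this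
    · exact ref_of_structure hn hR hD.full h
  · exact perfect_case_ref hn hN hperf hfull

end H97.AschMain
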