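import Mathlib
import Cfsg.Agent.Lib.H97.AschSL

/-!
Aschbacher library, part 19: the special linear group is contained in no member of the geometric classes, continued.
-/

set_option autoImplicit false
set_option linter.unusedSectionVars false

namespace H97.AschSL3

open Cfsg Cfsg.Geo Matrix H97.AschRad H97.AschUnits H97.AschSkolem H97.AschCS H97.AschTensor H97.AschEnv
open H97.AschGrp H97.AschNonab H97.AschForm H97.AschReal H97.AschTwo H97.AschSubfield H97.AschDecomp
open H97.AschWreath H97.AschWreathNorm H97.AschLinear H97.AschSL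
open scoped Kronecker commutatorElement

variable {ι : Type} [Fintype ι] [DecidableEq ι] {F : Type*} [Field F]

theorem not_le_subfield (hn : 2 ≤ Fintype.card ι) {F₀ : Subfield F} (h0 : F₀ ≠ ⊤) (P : GL ι F) :
    ¬ specialLinear ι F ≤ subfieldSubgroup F₀ P := by
  intro h
  apply h0
  rw [eq_top_iff]
  intro c _
  obtain ⟨i, j, hij⟩ := Fintype.exists_pair_of_one_lt_card (α := ι) (by omega)
  have h1 : (Pi.single j (1 : F) : ι → F) ⬝ᵥ (Pi.single i c : ι → F) = 0 := by
    rw [single_dotProduct, Pi.single_eq_of_ne hij.symm, mul_zero]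
  obtain ⟨t, ht⟩ : ∃ t, t = H94.Transv.tGL (Pi.single i c) (Pi.single j (1 : F)) h1 := ⟨_, rfl⟩
  have htv : (t : Matrix ι ι F) = Matrix.transvection i j c := by
    rw [ht, H94.Transv.transvection_eq_tm]; rfl
  have hmem : P * t * P⁻¹ ∈ specialLinear ι F := by
    rw [specialLinear, MonoidHom.mem_ker, map_mul, map_mul, map_inv]
    have h2 := H94.Transv.tGL_mem_specialLinear (Pi.single i c) (Pi.single j (1 : F)) h1
    rw [specialLinear, MonoidHom.mem_ker, ← ht] at h2
    rw [h2, mul_one, mul_inv_cancel]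
  obtain ⟨y, hy, hyP⟩ := h hmem
  have h3 : y = t := by
    have h4 : P * y * P⁻¹ = P * t * P⁻¹ := hyP
    exact mul_left_cancel (mul_right_cancel h4)
  obtain ⟨Q', hQ', z, hz, hQz⟩ := Subgroup.mem_sup_of_normal_right.mp hy
  obtain ⟨Q, hQ⟩ := MonoidHom.mem_range.mp hQ'
  obtain ⟨l, hl⟩ := (mem_scalars_iff z).mp hz
  have hQv : ∀ a b, (Q' : Matrix ι ι F) a b ∈ F₀ := by
    intro a b
    rw [← hQ]
    exact ((Q : Matrix ι ι F₀) a b).2
  have h4 : ∀ a b, (l : F) * (Q' : Matrix ι ι F) a b = Matrix.transvection i j c a b := by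
    intro a b
    rw [← htv, ← h3, ← hQz, Units.val_mul, hl, Matrix.mul_smul, mul_one, Matrix.smul_apply, smul_eq_mul]
  have h5 : (l : F) * (Q' : Matrix ι ι F) i i = 1 := by
    rw [h4, Matrix.transvection, Matrix.add_apply, Matrix.one_apply_eq, Matrix.single_apply, if_neg, add_zero]
    exact fun h => hij h.2.symm
  have h6 : (l : F) * (Q' : Matrix ι ι F) i j = c := by
    rw [h4, Matrix.transvection, Matrix.add_apply, Matrix.one_apply_ne hij, Matrix.single_apply, if_pos ⟨rfl, rfl⟩,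
      zero_add]
  have h7 : (Q' : Matrix ι ι F) i i ≠ 0 := by
    intro h; rw [h, mul_zero] at h5; exact zero_ne_one h5
  have h8 : c = (Q' : Matrix ι ι F) i j * ((Q' : Matrix ι ι F) i i)⁻¹ := by
    rw [eq_mul_inv_iff_mul_eq₀ h7, ← h6]
    linear_combination ((Q' : Matrix ι ι F) i j) * h5
  rw [h8]
  exact F₀.mul_mem (hQv i j) (F₀.inv_mem (hQv i i))

/-- matrices for which every vector is an eigenvector are scalar -/
lemma scalar_of_eigen (x : Matrix ι ι F) (hx : ∀ v : ι → F, x *ᵥ v ∈ Submodule.span F {v}) :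
    ∃ c : F, x = algebraMap F _ c := by
  apply scalar_of_commute_trans
  intro v φ h
  apply matrix_ext_vec
  intro w
  have hinv : (((H94.Transv.tGL v φ h)⁻¹ : GL ι F) : Matrix ι ι F) *ᵥ w = w - (φ ⬝ᵥ w) • v := by
    rw [H94.Transv.tGL_inv_val, H94.Transv.tm_mulVec, neg_dotProduct, neg_smul, sub_eq_add_neg]
  rw [← Matrix.mulVec_mulVec, ← Matrix.mulVec_mulVec, hinv, H94.Transv.tGL_val, H94.Transv.tm_mulVec,
    Matrix.mulVec_sub, Matrix.mulVec_smul]
  obtain ⟨a, ha⟩ := Submodule.mem_span_singleton.mp (hx v)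
  obtain ⟨b, hb⟩ := Submodule.mem_span_singleton.mp (hx w)
  obtain ⟨c, hc⟩ := Submodule.mem_span_singleton.mp (hx (v + w))
  rw [← ha, ← hb, dotProduct_sub, dotProduct_smul, dotProduct_smul, dotProduct_smul, h, smul_zero, smul_zero,
    sub_zero]
  by_cases hv : v = 0
  · rw [hv]; simp
  by_cases hw : φ ⬝ᵥ w = 0
  · rw [hw]; simp
  -- v, w independent since φ v = 0 ≠ φ w
  have h1 : c • (v + w) = a • v + b • w := by rw [hc, Matrix.mulVec_add, ha, hb]
  have h2 : c = b := by
    have h3 := congrArg (fun u => φ ⬝ᵥ u) h1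
    simp only [dotProduct_smul, dotProduct_add, h, zero_add, smul_eq_mul, mul_zero] at h3
    exact mul_right_cancel₀ hw h3
  have h3 : a = b := by
    rw [h2, smul_add] at h1
    have h4 : b • v = a • v := add_right_cancel h1
    have h5 : (b - a) • v = 0 := by rw [sub_smul, h4, sub_self]
    rcases smul_eq_zero.mp h5 with h6 | h6
    · exact (sub_eq_zero.mp h6).symm
    · exact absurd h6 hv
  rw [h3, smul_eq_mul, smul_smul, mul_comm b (φ ⬝ᵥ w)]
  abel

/-- no similarity group of a nondegenerate form contains SL, n ≥ 3 -/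
theorem not_le_similarity (hn : 3 ≤ Fintype.card ι) {σ : F ≃+* F} {f : (ι → F) → (ι → F) → F} (hf : IsSesq σ f)
    (hnd : ∀ v : ι → F, v ≠ 0 → ∃ x, f x v ≠ 0) : ¬ specialLinear ι F ≤ similarityGroup f := by
  intro h
  have hne : Nonempty ι := Fintype.card_pos_iff.mp (by omega)
  obtain ⟨i⟩ := hne
  let u : ι → F := Pi.single i 1
  have hu : u ≠ 0 := by
    intro h0
    have := congrFun h0 i
    simp [u] at this
  obtain ⟨x, hx⟩ := hnd u hu
  obtain ⟨c1, hc1⟩ := exists_not_mem_of_finrank_lt (W := Submodule.span F {u}) (by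
    have := fr1 (F := F) u; omega)
  obtain ⟨c2, hc2⟩ := exists_not_mem_of_finrank_lt (W := Submodule.span F {u} ⊔ Submodule.span F {c1}) (by
    have h1 := Submodule.finrank_add_le_finrank_add_finrank (Submodule.span F {u}) (Submodule.span F {c1})
    have := fr1 (F := F) u
    have := fr1 (F := F) c1
    omega)
  obtain ⟨a, ha, hfa⟩ : ∃ a, a ∉ Submodule.span F {u} ∧ f a u = 0 := by
    by_cases h1 : f c1 u = 0
    · exact ⟨c1, hc1, h1⟩
    · refine ⟨c2 + (-(f c2 u * (f c1 u)⁻¹)) • c1, ?_, ?_⟩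
      · intro h2
        apply hc2
        have h3 : c2 = (c2 + (-(f c2 u * (f c1 u)⁻¹)) • c1) + (f c2 u * (f c1 u)⁻¹) • c1 := by
          rw [neg_smul, neg_add_cancel_right]
        rw [h3]
        exact Submodule.add_mem _ (Submodule.mem_sup_left h2)
          (Submodule.smul_mem _ _ (Submodule.mem_sup_right (Submodule.mem_span_singleton_self c1)))
      · rw [hf.add_left, hf.smul_left]
        field_simp
        ring
  obtain ⟨b, hb, hfb⟩ : ∃ b, b ∉ Submodule.span F {u} ∧ f b u ≠ 0 := by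
    by_cases h1 : x ∈ Submodule.span F {u}
    · refine ⟨x + a, ?_, ?_⟩
      · intro h2
        apply ha
        have := Submodule.sub_mem _ h2 h1
        rwa [add_sub_cancel_left] at this
      · rw [hf.add_left, hfa, add_zero]; exact hx
    · exact ⟨x, h1, hx⟩
  obtain ⟨g, hg, hgu, hga⟩ := move_two hn ha hb
  obtain ⟨c, hc⟩ := h hg
  have h1 := hc a u
  rw [hga, hgu, hfa, mul_zero] at h1
  exact hfb h1

theorem not_le_quadSimilarity (hn : 3 ≤ Fintype.card ι) {Q : (ι → F) → F} (hQ : IsNondegenerateQuadraticForm Q) :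
    ¬ specialLinear ι F ≤ quadSimilarityGroup Q := by
  intro h
  apply not_le_similarity hn (IsSesq.of_bilinear hQ.polar_bilinear) (fun v hv => (hQ.nondegenerate v hv).1)
  intro g hg
  obtain ⟨c, hc⟩ := h hg
  refine ⟨c, fun u v => ?_⟩
  rw [QuadraticMap.polar, QuadraticMap.polar, ← Matrix.mulVec_add, hc, hc, hc]
  ring

/-- a subgroup normalised by SL and containing a nonscalar element has at least q^n - q elements -/
theorem card_le_of_normalizes [Fintype F] (hn : 3 ≤ Fintype.card ι) {R : Subgroup (GL ι F)}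
    (h : specialLinear ι F ≤ subgroupNormalizer R) {x : GL ι F} (hx : x ∈ R) (hxs : x ∉ scalars ι F) :
    Fintype.card F ^ Fintype.card ι - Fintype.card F ≤ Nat.card R := by
  classical
  have hne : Nonempty ι := Fintype.card_pos_iff.mp (by omega)
  obtain ⟨v, hv⟩ : ∃ v : ι → F, (x : Matrix ι ι F) *ᵥ v ∉ Submodule.span F {v} := by
    by_contra hcon
    push Not at hcon
    obtain ⟨c, hc⟩ := scalar_of_eigen _ hcon
    exact hxs (mem_scalars_of_algebraMap hc)
  have hg : ∀ b : {b : ι → F // b ∉ Submodule.span F {v}}, ∃ g ∈ specialLinear ι F,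
      (g : Matrix ι ι F) *ᵥ v = v ∧ (g : Matrix ι ι F) *ᵥ ((x : Matrix ι ι F) *ᵥ v) = b.1 :=
    fun b => move_two hn hv b.2
  choose g hgS hgv hgx using hg
  have hmem : ∀ b, g b * x * (g b)⁻¹ ∈ R := by
    intro b
    exact ((Subgroup.mem_normalizer_iff.mp (h (hgS b))) x).mp hx
  have hval : ∀ b, ((g b * x * (g b)⁻¹ : GL ι F) : Matrix ι ι F) *ᵥ v = b.1 := by
    intro b
    have h1 : (((g b)⁻¹ : GL ι F) : Matrix ι ι F) *ᵥ v = v := by
      nth_rewrite 1 [← hgv b]
      rw [Matrix.mulVec_mulVec, ← Units.val_mul, inv_mul_cancel, Units.val_one, Matrix.one_mulVec]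
    rw [Units.val_mul, Units.val_mul, ← Matrix.mulVec_mulVec, ← Matrix.mulVec_mulVec, h1, hgx]
  have hinj : Function.Injective (fun b => (⟨g b * x * (g b)⁻¹, hmem b⟩ : R)) := by
    intro b b' hbb
    apply Subtype.ext
    rw [← hval b, ← hval b']
    have := congrArg (fun z : R => ((z : GL ι F) : Matrix ι ι F) *ᵥ v) hbb
    exact this
  have hfinR : Finite R := Subtype.finite
  have h1 := Nat.card_le_card_of_injective _ hinj
  refine le_trans ?_ h1
  have h2 : Nat.card {b : ι → F // b ∉ Submodule.span F {v}} =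
      Nat.card (ι → F) - Nat.card (Submodule.span F {v}) := by
    have h3 : Nat.card (ι → F) = Nat.card (Submodule.span F {v}) + Nat.card {b : ι → F // b ∉ Submodule.span F {v}} := by
      rw [← Nat.card_sum]
      exact (Nat.card_congr (Equiv.sumCompl (fun b => b ∈ Submodule.span F {v}))).symm
    omega
  have h3 : Nat.card (ι → F) = Fintype.card F ^ Fintype.card ι := by
    rw [Nat.card_eq_fintype_card, Fintype.card_fun]
  have h4 : Nat.card (Submodule.span F {v}) ≤ Fintype.card F := by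
    rw [← Nat.card_eq_fintype_card]
    apply Nat.card_le_card_of_surjective (fun c : F => (⟨c • v, Submodule.smul_mem _ _
      (Submodule.mem_span_singleton_self v)⟩ : Submodule.span F {v}))
    rintro ⟨y, hy⟩
    obtain ⟨c, hc⟩ := Submodule.mem_span_singleton.mp hy
    exact ⟨c, Subtype.ext hc⟩
  rw [h2, h3]
  omega

lemma arith_bound {q n : ℕ} (hq : 3 ≤ q) (hn : 3 ≤ n) : n ^ 2 * (q - 1) < q ^ n - q := by
  induction n, hn using Nat.le_induction with
  | base =>
    obtain ⟨k, rfl⟩ : ∃ k, q = k + 3 := ⟨q - 3, by omega⟩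
    have h1 : k + 3 - 1 = k + 2 := by omega
    have h2 : 3 ^ 2 * (k + 2) + (k + 3) < (k + 3) ^ 3 := by nlinarith [sq_nonneg k, Nat.zero_le (k^3)]
    rw [h1]
    omega
  | succ n hn ih =>
    have h1 : q ^ (n + 1) = q * q ^ n := by ring
    have h2 : q ≤ q ^ n := Nat.le_self_pow (by omega) q
    have h3 : (n + 1) ^ 2 ≤ 3 * n ^ 2 := by nlinarith
    have h4 : (n + 1) ^ 2 * (q - 1) ≤ 3 * (n ^ 2 * (q - 1)) := by
      calc (n + 1) ^ 2 * (q - 1) ≤ (3 * n ^ 2) * (q - 1) := Nat.mul_le_mul_right _ h3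
        _ = 3 * (n ^ 2 * (q - 1)) := by ring
    have h5 : 3 * (n ^ 2 * (q - 1)) < 3 * (q ^ n - q) := by omega
    have h6 : 3 * (q ^ n - q) + q ≤ q * q ^ n := by
      have : 3 * q ^ n ≤ q * q ^ n := Nat.mul_le_mul_right _ hq
      omega
    rw [h1]
    omega

end H97.AschSL3
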