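import Mathlib
import Cfsg.Agent.Lib.H97.AschMain
import Cfsg.Agent.Lib.H97.AschSL3
import Cfsg.Agent.Lib.H97.AschSL2
import Cfsg.Agent.Lib.H97.AschBlock

/-!
Aschbacher library, part 22: maximal subgroups of SL_n(q), general statement and small field eliminations.
-/

set_option autoImplicit false
set_option linter.unusedSectionVars false

namespace H97.AschCases

open Cfsg Cfsg.Geo Matrix H97.AschRad H97.AschUnits H97.AschSkolem H97.AschCS H97.AschTensor H97.AschEnv
open H97.AschGrp H97.AschNonab H97.AschForm H97.AschReal H97.AschTwo H97.AschSubfield H97.AschDecomp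
open H97.AschWreath H97.AschWreathNorm H97.AschLinear H97.AschMain H97.AschSL H97.AschSL2 H97.AschSL3 H97.AschBlock
open scoped Kronecker commutatorElement

section general

variable {ι : Type} [Fintype ι] [DecidableEq ι] {F : Type*} [Field F]

/-- the degree of a subfield of the matrix algebra divides the dimension -/
theorem dvd_of_field {r : ℕ} {K : Subalgebra F (Matrix ι ι F)} (hK : IsFieldSubalgebra r K) [Nonempty ι] :
    r ∣ Fintype.card ι := by
  classical
  have hF : IsField K := by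
    refine ⟨⟨0, 1, fun h => ?_⟩, ?_, ?_⟩
    · have := congrArg Subtype.val h
      exact zero_ne_one this
    · intro x y
      exact Subtype.ext (hK.comm _ x.2 _ y.2)
    · intro x hx
      obtain ⟨y, hy, hxy⟩ := hK.inv x.1 x.2 (fun h => hx (Subtype.ext h))
      exact ⟨⟨y, hy⟩, Subtype.ext hxy⟩
  have hnt : Nontrivial K := ⟨⟨0, 1, fun h => zero_ne_one (congrArg Subtype.val h)⟩⟩
  let φ : K →+* Module.End F (ι → F) :=
    (Matrix.toLinAlgEquiv' : Matrix ι ι F ≃ₐ[F] _).toRingEquiv.toRingHom.comp K.val.toRingHom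
  let mod : Module K (ι → F) := Module.compHom (ι → F) φ
  have hsmul : ∀ (k : K) (v : ι → F), k • v = (k : Matrix ι ι F) *ᵥ v := fun k v => rfl
  have htower : IsScalarTower F K (ι → F) := ⟨fun c k v => by
    rw [hsmul, hsmul]
    change (c • (k : Matrix ι ι F)) *ᵥ v = _
    rw [Matrix.smul_mulVec]⟩
  have hfree : Module.Free K (ι → F) := @Module.Free.of_divisionRing K (ι → F) hF.toField.toDivisionRing _ mod
  have hfd : Module.Finite F K := inferInstance
  have hnoeth : IsNoetherianRing K := isNoetherian_of_tower F (inferInstance : IsNoetherian F K)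
  have hs1 : StrongRankCondition F := inferInstance
  have hs2 : StrongRankCondition K := inferInstance
  have hs3 : Module.Free F K := inferInstance
  have h1 := @Module.finrank_mul_finrank F K (ι → F) _ _ _ K.instModuleSubtypeMem mod (Pi.Function.module ι F F) htower hs1 hs2 hs3 hfree
  rw [Module.finrank_fintype_fun_eq_card] at h1
  have h2 : Module.finrank F K = r := hK.finrank_eq
  rw [← h2]
  exact ⟨_, h1.symm⟩

theorem eq_of_max {S H M : Subgroup (GL ι F)} (hH : IsMaximalIn S H) (hle : H ≤ M) (hnot : ¬ S ≤ M) : H = M ⊓ S := by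
  rcases hH.2 (M ⊓ S) (le_inf hle hH.1.le) inf_le_right with h | h
  · exact h.symm
  · exact absurd (h ▸ inf_le_left : S ≤ M) hnot

end general

variable {F : Type*} [Field F]

/-- general list of the maximal subgroups of SL_n -/
theorem max_cases [Fintype F] {n : ℕ} (hn : 3 ≤ n) {H : Subgroup (GL (Fin n) F)}
    (hH : IsMaximalIn (specialLinear (Fin n) F) H) :
    (∃ W : Submodule F (Fin n → F), W ≠ ⊥ ∧ W ≠ ⊤ ∧ H = subspaceStabilizer W ⊓ specialLinear (Fin n) F) ∨
    (∃ (t m : ℕ) (D : Fin t → Submodule F (Fin n → F)), IsMDecomposition m D ∧ 2 ≤ t ∧ 1 ≤ m ∧ n = t * m ∧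
      H = decompositionStabilizer D ⊓ specialLinear (Fin n) F) ∨
    (∃ (r : ℕ) (K : Subalgebra F (Matrix (Fin n) (Fin n) F)), r.Prime ∧ r ∣ n ∧ IsFieldSubalgebra r K ∧
      H = subalgebraNormalizer K ⊓ specialLinear (Fin n) F) ∨
    (∃ (n₁ n₂ : ℕ) (e : Fin n ≃ Fin n₁ × Fin n₂) (P : GL (Fin n) F), 2 ≤ n₁ ∧ n₁ < n₂ ∧ n = n₁ * n₂ ∧
      H = tensorProductSubgroup n₁ n₂ e P ⊓ specialLinear (Fin n) F) ∨
    (∃ (F₀ : Subfield F) (r : ℕ) (P : GL (Fin n) F), r.Prime ∧ Fintype.card F = Nat.card F₀ ^ r ∧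
      H = subfieldSubgroup F₀ P ⊓ specialLinear (Fin n) F) ∨
    (∃ (r : ℕ) (R : Subgroup (GL (Fin n) F)), IsLinearSymplecticTypeData r R ∧ (∃ m, 1 ≤ m ∧ n = r ^ m) ∧
      H = subgroupNormalizer R ⊓ specialLinear (Fin n) F) ∨
    (∃ (m t : ℕ) (e : Fin n ≃ (Fin t → Fin m)) (P : GL (Fin n) F), 3 ≤ m ∧ 2 ≤ t ∧ n = m ^ t ∧
      H = tensorWreathSubgroup m t e P ⊓ specialLinear (Fin n) F) ∨
    (∃ f : (Fin n → F) → (Fin n → F) → F, IsSymplecticForm f ∧ Even n ∧
      H = similarityGroup f ⊓ specialLinear (Fin n) F) ∨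
    (∃ (σ : F ≃+* F) (f : (Fin n → F) → (Fin n → F) → F), IsUnitaryForm σ f ∧
      H = similarityGroup f ⊓ specialLinear (Fin n) F) ∨
    (Odd (Fintype.card F) ∧ ∃ Q : (Fin n → F) → F, IsNondegenerateQuadraticForm Q ∧
      H = quadSimilarityGroup Q ⊓ specialLinear (Fin n) F) ∨
    InLinearResidualClass H := by
  have hc : Fintype.card (Fin n) = n := Fintype.card_fin n
  have hne : Nonempty (Fin n) := ⟨⟨0, by omega⟩⟩
  rcases main_ref hn H with ⟨M, hM, hle⟩ | h
  swap
  · iterate 10 right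
    exact h
  rcases hM with ⟨W, h1, h2, rfl⟩ | ⟨W, U, h1, h2, h3, rfl⟩ | ⟨W, U, h1, h2, h3, h4, rfl⟩ | ⟨t, m, D, hD, rfl⟩ |
    ⟨r, K, hr, hK, rfl⟩ | ⟨n₁, n₂, e, P, h1, h2, rfl⟩ | ⟨F₀, r, P, hr, h1, rfl⟩ |
    ⟨r, R, ⟨h1, h2, h3, h4⟩, rfl⟩ | ⟨m, t, e, P, h1, h2, rfl⟩ | ⟨f, h1, h2, h3, rfl⟩ | ⟨σ, f, h1, h2, rfl⟩ |
    ⟨Q, h1, h2, h3, rfl⟩
  · left
    exact ⟨W, h1, h2, eq_of_max hH hle (not_le_subspace (by omega) h1 h2)⟩
  · left
    have hWt : W ≠ ⊤ := by
      rintro rfl
      exact absurd h2 (not_top_lt)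
    exact ⟨W, h1, hWt, eq_of_max hH (hle.trans inf_le_left) (not_le_subspace (by omega) h1 hWt)⟩
  · left
    have hWt : W ≠ ⊤ := by
      rintro rfl
      rw [top_inf_eq] at h2
      rw [h2, finrank_bot] at h4
      omega
    exact ⟨W, h1, hWt, eq_of_max hH (hle.trans inf_le_left) (not_le_subspace (by omega) h1 hWt)⟩
  · right; left
    have h1 := card_decomposition hD
    rw [hc] at h1
    exact ⟨t, m, D, hD, hD.two_le, hD.pos, h1, eq_of_max hH hle (not_le_decomposition (by omega) hD)⟩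
  · iterate 2 right
    left
    have h1 := dvd_of_field hK
    rw [hc] at h1
    exact ⟨r, K, hr, h1, hK, eq_of_max hH hle (not_le_field (by omega) hr.one_lt.ne' hK)⟩
  · iterate 3 right
    left
    have h3 := card_eq_of_equiv e
    rw [hc] at h3
    exact ⟨n₁, n₂, e, P, h1, h2, h3, eq_of_max hH hle (not_le_tensor e P h1 (by omega))⟩
  · iterate 4 right
    left
    refine ⟨F₀, r, P, hr, h1, eq_of_max hH hle (not_le_subfield (by omega) ?_ P)⟩
    rintro rfl
    have h2 : Nat.card (⊤ : Subfield F) = Fintype.card F := by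
      rw [← Nat.card_eq_fintype_card]
      exact Nat.card_congr (Equiv.Set.univ F)
    rw [h2] at h1
    have h3 : 1 < Fintype.card F := Fintype.one_lt_card
    have h4 : Fintype.card F ^ 1 < Fintype.card F ^ r := Nat.pow_lt_pow_right h3 hr.one_lt
    rw [pow_one] at h4
    omega
  · iterate 5 right
    left
    refine ⟨r, R, h1, h2, eq_of_max hH hle ?_⟩
    intro hle'
    -- a nonscalar element of R
    have hns : ∃ x ∈ R, x ∉ scalars (Fin n) F := by
      by_contra hcon
      push Not at hcon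
      obtain ⟨c, hc'⟩ := h4.comm (X := Matrix.single (⟨0, by omega⟩ : Fin n) (⟨1, by omega⟩ : Fin n) (1 : F)) (by
        intro x hx
        obtain ⟨c, hc⟩ := (mem_scalars_iff x).mp (hcon x hx)
        rw [hc, Matrix.mul_smul, Matrix.smul_mul, mul_one, one_mul])
      have h5 := congrFun (congrFun hc' ⟨0, by omega⟩) ⟨1, by omega⟩
      rw [Matrix.single_apply, if_pos ⟨rfl, rfl⟩, Matrix.algebraMap_matrix_apply, if_neg] at h5
      · exact one_ne_zero h5
      · intro h; have := congrArg Fin.val h; simp at this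
    obtain ⟨x, hx, hxs⟩ := hns
    have h5 := card_le_of_normalizes (by omega) hle' hx hxs
    rw [hc, h3] at h5
    -- the centre has order at most q - 1
    have h6 : Nat.card (Subgroup.center R) ∣ Fintype.card F - 1 := by
      obtain ⟨p, e, hrp, ⟨hp, -, hq, hdvd, -⟩, -⟩ := h1.field
      rw [hq]; exact hdvd
    have hq1 : 1 < Fintype.card F := Fintype.one_lt_card
    have h7 : Nat.card (Subgroup.center R) ≤ Fintype.card F - 1 := Nat.le_of_dvd (by omega) h6
    have h8 : 2 ≤ Nat.card (Subgroup.center R) := by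
      obtain ⟨p, e, hrp, -, h | h | h⟩ := h1.field
      · rw [h.2.2.1]; exact h1.symplecticType.prime.two_le
      · rw [h.2.2.1]; norm_num
      · rw [h.2.2.2.2.1]
    have h9 := arith_bound (q := Fintype.card F) (n := n) (by omega) hn
    have h10 : n ^ 2 * Nat.card (Subgroup.center R) ≤ n ^ 2 * (Fintype.card F - 1) := Nat.mul_le_mul_left _ h7
    omega
  · iterate 6 right
    left
    have h3 : n = m ^ t := by
      have := Fintype.card_congr e
      simpa using this
    exact ⟨m, t, e, P, h1, h2, h3, eq_of_max hH hle (not_le_wreath e P h1 h2)⟩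
  · iterate 7 right
    left
    exact ⟨f, h1, h2, eq_of_max hH hle (not_le_similarity (by omega) (IsSesq.of_bilinear h1.bilinear)
      (fun v hv => (h1.nondegenerate v hv).1))⟩
  · iterate 8 right
    left
    exact ⟨σ, f, h1, eq_of_max hH hle (not_le_similarity (by omega) (IsSesq.of_unitary h1)
      (fun v hv => (h1.nondegenerate v hv).1))⟩
  · iterate 9 right
    left
    exact ⟨h2, Q, h1, eq_of_max hH hle (not_le_quadSimilarity (by omega) h1)⟩

/-- line decompositions for small q lie in other classes -/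
theorem lines_small [Fintype F] {n : ℕ} (hn : 3 ≤ n) {H : Subgroup (GL (Fin n) F)}
    (hH : IsMaximalIn (specialLinear (Fin n) F) H) {t : ℕ} {D : Fin t → Submodule F (Fin n → F)}
    (hD : IsMDecomposition 1 D) (hHD : H = decompositionStabilizer D ⊓ specialLinear (Fin n) F) :
    (∃ W : Submodule F (Fin n → F), W ≠ ⊥ ∧ W ≠ ⊤ ∧ H = subspaceStabilizer W ⊓ specialLinear (Fin n) F) ∨
    5 ≤ Fintype.card F ∨
    (∃ (σ : F ≃+* F) (f : (Fin n → F) → (Fin n → F) → F), IsUnitaryForm σ f ∧
      H = similarityGroup f ⊓ specialLinear (Fin n) F) ∨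
    (Odd (Fintype.card F) ∧ ∃ Q : (Fin n → F) → F, IsNondegenerateQuadraticForm Q ∧
      H = quadSimilarityGroup Q ⊓ specialLinear (Fin n) F) := by
  have hc : Fintype.card (Fin n) = n := Fintype.card_fin n
  have hle : H ≤ decompositionStabilizer D := by rw [hHD]; exact inf_le_left
  by_cases h5 : 5 ≤ Fintype.card F
  · right; left; exact h5
  have h1 : 1 < Fintype.card F := Fintype.one_lt_card
  have : Fintype.card F = 2 ∨ Fintype.card F = 3 ∨ Fintype.card F = 4 := by omega
  rcases this with hq | hq | hq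
  · left
    obtain ⟨W, h1, h2, h3⟩ := lines_two hq hD
    exact ⟨W, h1, h2, eq_of_max hH (hle.trans h3) (not_le_subspace (by omega) h1 h2)⟩
  · iterate 3 right
    obtain ⟨Q, h1, h3⟩ := lines_three hq hD
    exact ⟨by rw [hq]; decide, Q, h1, eq_of_max hH (hle.trans h3) (not_le_quadSimilarity (by omega) h1)⟩
  · iterate 2 right
    left
    obtain ⟨τ, f, h1, h3⟩ := lines_four hq hD
    exact ⟨τ, f, h1, eq_of_max hH (hle.trans h3) (not_le_similarity (by omega) (IsSesq.of_unitary h1)
      (fun v hv => (h1.nondegenerate v hv).1))⟩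

/-- plane decompositions for q = 2 are symplectic -/
theorem planes_small [Fintype F] {n : ℕ} (hn : 3 ≤ n) {H : Subgroup (GL (Fin n) F)}
    (hH : IsMaximalIn (specialLinear (Fin n) F) H) {t : ℕ} {D : Fin t → Submodule F (Fin n → F)}
    (hD : IsMDecomposition 2 D) (hHD : H = decompositionStabilizer D ⊓ specialLinear (Fin n) F) :
    3 ≤ Fintype.card F ∨
    (∃ f : (Fin n → F) → (Fin n → F) → F, IsSymplecticForm f ∧
      H = similarityGroup f ⊓ specialLinear (Fin n) F) := by
  have hc : Fintype.card (Fin n) = n := Fintype.card_fin n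
  have hle : H ≤ decompositionStabilizer D := by rw [hHD]; exact inf_le_left
  by_cases h5 : 3 ≤ Fintype.card F
  · left; exact h5
  have h1 : 1 < Fintype.card F := Fintype.one_lt_card
  have hq : Fintype.card F = 2 := by omega
  right
  obtain ⟨f, h1, h3⟩ := planes_two hq hD
  exact ⟨f, h1, eq_of_max hH (hle.trans h3) (not_le_similarity (by omega) (IsSesq.of_bilinear h1.bilinear)
      (fun v hv => (h1.nondegenerate v hv).1))⟩

/-- powers modulo a number and minimality -/
lemma min_field_mod {z p e : ℕ} [Fintype F] (hz : 2 ≤ z) (h : IsMinimalFieldFor z p e F) :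
    p ^ e % z = 1 ∧ ∀ d, 0 < d → d < e → p ^ d % z ≠ 1 := by
  obtain ⟨hp, -, -, h1, h2⟩ := h
  have key : ∀ d, z ∣ p ^ d - 1 ↔ p ^ d % z = 1 := by
    intro d
    have hpos : 0 < p ^ d := pow_pos hp.pos d
    rw [← Nat.modEq_iff_dvd' (by omega)]
    constructor
    · intro h
      have : 1 % z = p ^ d % z := h
      rw [← this, Nat.mod_eq_of_lt (by omega)]
    · intro h
      change 1 % z = p ^ d % z
      rw [h, Nat.mod_eq_of_lt (by omega)]
  exact ⟨(key e).mp h1, fun d hd hde h => h2 d hd hde ((key d).mpr h)⟩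

end H97.AschCases
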