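import Mathlib
import Cfsg.Agent.Lib.H97.AschSL2

/-!
Aschbacher library, part 36: transvections and the geometric classes.
-/

set_option autoImplicit false
set_option linter.unusedSectionVars false

namespace H97.AschNC

open Cfsg Cfsg.Geo Matrix H97.AschRad H97.AschUnits H97.AschSkolem H97.AschCS H97.AschTensor H97.AschEnv
open H97.AschGrp H97.AschNonab H97.AschForm H97.AschTwo
open H97.AschWreath H97.AschWreathNorm H97.AschLinear H97.AschSL H97.AschSL2
open scoped Kronecker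

variable {ι : Type} [Fintype ι] [DecidableEq ι] {F : Type*} [Field F]

/-- `g` is the transvection `v ↦ v + a f(v,u) u` -/
structure IsTv (f : (ι → F) → (ι → F) → F) (g : GL ι F) (u : ι → F) (a : F) : Prop where
  val : ∀ v, (g : Matrix ι ι F) *ᵥ v = v + (a * f v u) • u
  a0 : a ≠ 0
  iso : f u u = 0
  ne : ∃ v, f v u ≠ 0

variable {σ : F ≃+* F} {f : (ι → F) → (ι → F) → F} {g : GL ι F} {u : ι → F} {a : F}

lemma IsTv.u0 (h : IsTv f g u a) (hf : IsSesq σ f) : u ≠ 0 := by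
  rintro rfl
  obtain ⟨v, hv⟩ := h.ne
  exact hv (hf.zero_right v)

lemma IsTv.inv (h : IsTv f g u a) (hf : IsSesq σ f) (v : ι → F) :
    ((g⁻¹ : GL ι F) : Matrix ι ι F) *ᵥ v = v - (a * f v u) • u := by
  have h1 : (g : Matrix ι ι F) *ᵥ (v - (a * f v u) • u) = v := by
    rw [h.val, sub_eq_add_neg, ← neg_smul, hf.add_left, hf.smul_left, h.iso, mul_zero, add_zero, neg_smul,
      neg_add_cancel_right]
  have h2 := congrArg (fun w => ((g⁻¹ : GL ι F) : Matrix ι ι F) *ᵥ w) h1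
  simp only [Matrix.mulVec_mulVec, ← Units.val_mul, inv_mul_cancel, Units.val_one, Matrix.one_mulVec] at h2
  exact h2.symm

/-- conjugation by a transvection changes a matrix only by rank two -/
lemma IsTv.agree (h : IsTv f g u a) (hf : IsSesq σ f) (X : Matrix ι ι F) {v : ι → F} (h1 : f v u = 0)
    (h2 : f (X *ᵥ v) u = 0) :
    ((g : Matrix ι ι F) * X * ((g⁻¹ : GL ι F) : Matrix ι ι F)) *ᵥ v = X *ᵥ v := by
  rw [← Matrix.mulVec_mulVec, ← Matrix.mulVec_mulVec, h.inv hf, h1, mul_zero, zero_smul, sub_zero, h.val, h2, mul_zero,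
    zero_smul, add_zero]

lemma IsTv.exists_agree (h : IsTv f g u a) (hf : IsSesq σ f) (X : Matrix ι ι F) {m : ℕ} (hm : 3 ≤ m)
    (L : (Fin m → F) →ₗ[F] (ι → F)) :
    ∃ w : Fin m → F, w ≠ 0 ∧ ((g : Matrix ι ι F) * X * ((g⁻¹ : GL ι F) : Matrix ι ι F)) *ᵥ (L w) = X *ᵥ (L w) := by
  let Φ : (ι → F) →ₗ[F] F :=
    { toFun := fun w => f w u
      map_add' := fun a b => hf.add_left _ _ _
      map_smul' := fun c a => hf.smul_left _ _ _ }
  obtain ⟨w, hw0, h1, h2⟩ := exists_common_zero hm (Φ.comp L) (Φ.comp ((Matrix.toLin' X).comp L))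
  refine ⟨w, hw0, h.agree hf X h1 ?_⟩
  have : f (Matrix.toLin' X (L w)) u = 0 := h2
  rwa [Matrix.toLin'_apply] at this

/-- a matrix commuting with a transvection has its centre as an eigenvector -/
lemma IsTv.eigen (h : IsTv f g u a) {X : Matrix ι ι F}
    (hX : (g : Matrix ι ι F) * X * ((g⁻¹ : GL ι F) : Matrix ι ι F) = X) : ∃ c : F, X *ᵥ u = c • u := by
  obtain ⟨v, hv⟩ := h.ne
  have h1 : (g : Matrix ι ι F) * X = X * (g : Matrix ι ι F) := by
    calc (g : Matrix ι ι F) * X = (g : Matrix ι ι F) * X * ((g⁻¹ : GL ι F) : Matrix ι ι F) * (g : Matrix ι ι F) := by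
          rw [mul_assoc _ _ (g : Matrix ι ι F), ← Units.val_mul, inv_mul_cancel, Units.val_one, mul_one]
      _ = _ := by rw [hX]
  have h2 : (g : Matrix ι ι F) *ᵥ (X *ᵥ v) = X *ᵥ ((g : Matrix ι ι F) *ᵥ v) := by
    rw [Matrix.mulVec_mulVec, Matrix.mulVec_mulVec, h1]
  rw [h.val, h.val, Matrix.mulVec_add, Matrix.mulVec_smul] at h2
  have h3 := add_left_cancel h2
  have h4 : a * f v u ≠ 0 := mul_ne_zero h.a0 hv
  refine ⟨(a * f v u)⁻¹ * (a * f (X *ᵥ v) u), ?_⟩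
  rw [mul_smul, h3, smul_smul, inv_mul_cancel₀ h4, one_smul]

/-- **fields** -/
theorem not_mem_field (hf : IsSesq σ f) (h : IsTv f g u a) (hn : 3 ≤ Fintype.card ι) {r : ℕ} (hr : r ≠ 1)
    {K : Subalgebra F (Matrix ι ι F)} (hK : IsFieldSubalgebra r K) : g ∉ subalgebraNormalizer K := by
  intro hg
  have hu := h.u0 hf
  have hzero : ∀ x ∈ K, ∀ v : ι → F, v ≠ 0 → x *ᵥ v = 0 → x = 0 := by
    intro x hx v hv hxv
    by_contra hx0
    obtain ⟨z, hz, hz1⟩ := hK.inv x hx hx0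
    rw [hK.comm x hx z hz] at hz1
    apply hv
    rw [← Matrix.one_mulVec v, ← hz1, ← Matrix.mulVec_mulVec, hxv, Matrix.mulVec_zero]
  have key : ∀ x ∈ K, ∃ c : F, x = algebraMap F _ c := by
    intro x hx
    have h1 : (g : Matrix ι ι F) * x * ((g⁻¹ : GL ι F) : Matrix ι ι F) ∈ K := (hg x).mp hx
    let e : Fin (Fintype.card ι) ≃ ι := (Fintype.equivFin ι).symm
    let L : (Fin (Fintype.card ι) → F) ≃ₗ[F] (ι → F) := LinearEquiv.funCongrLeft F F e.symm
    obtain ⟨w, hw, hagree⟩ := h.exists_agree hf x hn (L : (Fin (Fintype.card ι) → F) →ₗ[F] (ι → F))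
    have h2 : (g : Matrix ι ι F) * x * ((g⁻¹ : GL ι F) : Matrix ι ι F) - x = 0 := by
      apply hzero _ (K.sub_mem h1 hx) (L w)
      · intro h0
        exact hw (L.injective (by rw [h0, map_zero]))
      · rw [Matrix.sub_mulVec]
        exact sub_eq_zero.mpr hagree
    obtain ⟨c, hc⟩ := h.eigen (sub_eq_zero.mp h2)
    refine ⟨c, ?_⟩
    have h3 : x - algebraMap F _ c = 0 := by
      apply hzero _ (K.sub_mem hx (K.algebraMap_mem c)) u hu
      rw [Matrix.sub_mulVec, hc, Algebra.algebraMap_eq_smul_one, Matrix.smul_mulVec, Matrix.one_mulVec, sub_self]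
    exact sub_eq_zero.mp h3
  apply hr
  rw [← hK.finrank_eq]
  have : Nonempty ι := Fintype.card_pos_iff.mp (by omega)
  rw [Subalgebra.finrank_eq_one_iff, eq_bot_iff]
  intro x hx
  obtain ⟨c, hc⟩ := key x hx
  rw [Algebra.mem_bot]
  exact ⟨c, hc.symm⟩

/-- **tensor products** -/
theorem not_mem_tensor (hf : IsSesq σ f) (h : IsTv f g u a) {n₁ n₂ : ℕ} (e : ι ≃ Fin n₁ × Fin n₂) (P : GL ι F)
    (h1 : 2 ≤ n₁) (h2 : 3 ≤ n₂) : g ∉ tensorProductSubgroup n₁ n₂ e P := by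
  intro hg
  obtain ⟨A, B, hAB⟩ := (mem_tensorProductSubgroup_iff e P g).mp hg
  have hgi : ((g⁻¹ : GL ι F) : Matrix ι ι F) = cr e P (((A⁻¹ : GL (Fin n₁) F) : Matrix (Fin n₁) (Fin n₁) F) ⊗ₖ
      ((B⁻¹ : GL (Fin n₂) F) : Matrix (Fin n₂) (Fin n₂) F)) := by
    have h3 : (g : Matrix ι ι F) * cr e P (((A⁻¹ : GL (Fin n₁) F) : Matrix (Fin n₁) (Fin n₁) F) ⊗ₖ
        ((B⁻¹ : GL (Fin n₂) F) : Matrix (Fin n₂) (Fin n₂) F)) = 1 := by
      rw [hAB, ← map_mul, ← Matrix.mul_kronecker_mul, ← Units.val_mul, ← Units.val_mul, mul_inv_cancel, mul_inv_cancel,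
        Units.val_one, Units.val_one, Matrix.one_kronecker_one, map_one]
    calc ((g⁻¹ : GL ι F) : Matrix ι ι F) = ((g⁻¹ : GL ι F) : Matrix ι ι F) * ((g : Matrix ι ι F) * cr e P (((A⁻¹ : GL (Fin n₁) F) : Matrix (Fin n₁) (Fin n₁) F) ⊗ₖ
        ((B⁻¹ : GL (Fin n₂) F) : Matrix (Fin n₂) (Fin n₂) F))) := by rw [h3, mul_one]
      _ = _ := by rw [← mul_assoc, ← Units.val_mul, inv_mul_cancel, Units.val_one, one_mul]
  have key : ∀ X : Matrix (Fin n₁) (Fin n₁) F, ∃ c : F, cr e P (X ⊗ₖ (1 : Matrix (Fin n₂) (Fin n₂) F)) *ᵥ u = c • u := by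
    intro X
    apply h.eigen
    have hconj : (g : Matrix ι ι F) * cr e P (X ⊗ₖ (1 : Matrix (Fin n₂) (Fin n₂) F)) * ((g⁻¹ : GL ι F) : Matrix ι ι F) =
        cr e P (((A : Matrix _ _ F) * X * ((A⁻¹ : GL (Fin n₁) F) : Matrix (Fin n₁) (Fin n₁) F)) ⊗ₖ (1 : Matrix (Fin n₂) (Fin n₂) F)) := by
      rw [hgi, hAB, ← map_mul, ← map_mul, ← Matrix.mul_kronecker_mul, ← Matrix.mul_kronecker_mul, mul_one,
        ← Units.val_mul B, mul_inv_cancel, Units.val_one]
    rw [hconj]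
    congr 2
    set Y := (A : Matrix _ _ F) * X * ((A⁻¹ : GL (Fin n₁) F) : Matrix (Fin n₁) (Fin n₁) F) with hY
    ext i j
    let E : (Fin n₂ → F) →ₗ[F] (Fin n₁ × Fin n₂ → F) :=
      { toFun := fun w p => if p.1 = j then w p.2 else 0
        map_add' := by
          intro w w'; ext p
          by_cases hp : p.1 = j <;> simp [hp]
        map_smul' := by
          intro c w; ext p
          by_cases hp : p.1 = j <;> simp [hp] }
    have hE : ∀ (Z : Matrix (Fin n₁) (Fin n₁) F) (w : Fin n₂ → F) (p : Fin n₁ × Fin n₂),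
        ((Z ⊗ₖ (1 : Matrix (Fin n₂) (Fin n₂) F)) *ᵥ (E w)) p = Z p.1 j * w p.2 := by
      intro Z w p
      change ∑ q, (Z ⊗ₖ (1 : Matrix (Fin n₂) (Fin n₂) F)) p q * (if q.1 = j then w q.2 else 0) = _
      rw [Fintype.sum_prod_type, Finset.sum_eq_single j]
      · rw [Finset.sum_eq_single p.2]
        · simp [Matrix.kroneckerMap_apply]
        · intro b _ hb
          simp [Matrix.kroneckerMap_apply, Matrix.one_apply_ne hb.symm]
        · intro hh; exact absurd (Finset.mem_univ _) hh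
      · intro b _ hb
        apply Finset.sum_eq_zero
        intro c _
        simp [hb]
      · intro hh; exact absurd (Finset.mem_univ _) hh
    obtain ⟨w, hw, hagree⟩ := h.exists_agree hf (cr e P (X ⊗ₖ (1 : Matrix (Fin n₂) (Fin n₂) F))) h2 ((Lmap e P).comp E)
    rw [hconj] at hagree
    have h7 : (Lmap e P).comp E w = (P : Matrix ι ι F) *ᵥ ((E w) ∘ e) := rfl
    rw [h7, cr_mulVec, cr_mulVec] at hagree
    have h8 := P_injective e P hagree
    obtain ⟨k, hk⟩ := Function.ne_iff.mp hw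
    have h9 := congrFun h8 (i, k)
    rw [hE, hE] at h9
    exact mul_right_cancel₀ hk h9
  -- u in coordinates
  obtain ⟨u', hu'⟩ : ∃ u' : Fin n₁ × Fin n₂ → F, u = (P : Matrix ι ι F) *ᵥ (u' ∘ e) := by
    refine ⟨(((P⁻¹ : GL ι F) : Matrix ι ι F) *ᵥ u) ∘ e.symm, ?_⟩
    have : ((((P⁻¹ : GL ι F) : Matrix ι ι F) *ᵥ u) ∘ e.symm) ∘ e = ((P⁻¹ : GL ι F) : Matrix ι ι F) *ᵥ u := by
      ext i; simp
    rw [this, Matrix.mulVec_mulVec, ← Units.val_mul, mul_inv_cancel, Units.val_one, Matrix.one_mulVec]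
  have hu'0 : u' ≠ 0 := by
    rintro rfl
    apply h.u0 hf
    rw [hu']
    have : (0 : Fin n₁ × Fin n₂ → F) ∘ e = 0 := rfl
    rw [this, Matrix.mulVec_zero]
  obtain ⟨⟨i, k⟩, hik⟩ := Function.ne_iff.mp hu'0
  obtain ⟨i', hi'⟩ : ∃ i' : Fin n₁, i' ≠ i := by
    have : Nontrivial (Fin n₁) := Fin.nontrivial_iff_two_le.mpr h1
    exact exists_ne i
  obtain ⟨c, hc⟩ := key (Matrix.single i' i 1)
  rw [hu', cr_mulVec, ← Matrix.mulVec_smul] at hc
  have h3 : (P : Matrix ι ι F) *ᵥ ((((Matrix.single i' i (1 : F)) ⊗ₖ (1 : Matrix (Fin n₂) (Fin n₂) F)) *ᵥ u') ∘ e) =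
      (P : Matrix ι ι F) *ᵥ ((c • u') ∘ e) := hc
  have h4 := P_injective e P h3
  have hval : ∀ p : Fin n₁ × Fin n₂, (((Matrix.single i' i (1 : F)) ⊗ₖ (1 : Matrix (Fin n₂) (Fin n₂) F)) *ᵥ u') p =
      if p.1 = i' then u' (i, p.2) else 0 := by
    intro p
    change ∑ q, ((Matrix.single i' i (1 : F)) ⊗ₖ (1 : Matrix (Fin n₂) (Fin n₂) F)) p q * u' q = _
    rw [Fintype.sum_prod_type, Finset.sum_eq_single i]
    · rw [Finset.sum_eq_single p.2]
      · rw [Matrix.kroneckerMap_apply, Matrix.one_apply_eq, mul_one, Matrix.single_apply]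
        by_cases hp : p.1 = i'
        · rw [if_pos ⟨hp.symm, rfl⟩, if_pos hp, one_mul]
        · rw [if_neg (fun h => hp h.1.symm), if_neg hp, zero_mul]
      · intro b _ hb
        rw [Matrix.kroneckerMap_apply, Matrix.one_apply_ne hb.symm]; ring
      · intro hh; exact absurd (Finset.mem_univ _) hh
    · intro b _ hb
      apply Finset.sum_eq_zero
      intro c _
      rw [Matrix.kroneckerMap_apply, Matrix.single_apply, if_neg (fun h => hb h.2.symm)]; ring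
    · intro hh; exact absurd (Finset.mem_univ _) hh
  have h5 := congrFun h4 (i, k)
  rw [hval, if_neg hi'.symm, Pi.smul_apply, smul_eq_mul] at h5
  have h6 : c = 0 := by
    rcases mul_eq_zero.mp h5.symm with h7 | h7
    · exact h7
    · exact absurd h7 hik
  have h7 := congrFun h4 (i', k)
  rw [hval, if_pos rfl, h6, zero_smul] at h7
  exact hik h7

end H97.AschNC
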