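import Mathlib
import Cfsg.Agent.Lib.H97.AschNC

/-!
Aschbacher library, part 37: transvections and the wreathed tensor and subfield groups.
-/

set_option autoImplicit false
set_option linter.unusedSectionVars false

namespace H97.AschNC2

open Cfsg Cfsg.Geo Matrix H97.AschRad H97.AschUnits H97.AschSkolem H97.AschCS H97.AschTensor H97.AschEnv
open H97.AschGrp H97.AschNonab H97.AschForm H97.AschTwo
open H97.AschWreath H97.AschWreathNorm H97.AschLinear H97.AschSL H97.AschSL2 H97.AschNC
open scoped Kronecker

variable {ι : Type} [Fintype ι] [DecidableEq ι] {F : Type*} [Field F]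
variable {σ : F ≃+* F} {f : (ι → F) → (ι → F) → F} {g : GL ι F} {u : ι → F} {a : F}

/-- three index functions agreeing at a given place -/
lemma exists_three {t k : ℕ} (hk : 2 ≤ k) (ht : 2 ≤ t) (hkt : 3 ≤ k ∨ 3 ≤ t) (i : Fin t) (m0 : Fin k) :
    ∃ b : Fin 3 → (Fin t → Fin k), Function.Injective b ∧ ∀ s, b s i = m0 := by
  obtain ⟨m1, hm1⟩ : ∃ m1 : Fin k, m1 ≠ m0 := by
    have : Nontrivial (Fin k) := Fin.nontrivial_iff_two_le.mpr hk
    exact exists_ne m0
  obtain ⟨j, hj⟩ : ∃ j : Fin t, j ≠ i := by
    have : Nontrivial (Fin t) := Fin.nontrivial_iff_two_le.mpr ht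
    exact exists_ne i
  rcases hkt with hk3 | ht3
  · obtain ⟨m2, hm2⟩ : ∃ m2 : Fin k, m2 ∉ ({m0, m1} : Finset (Fin k)) := by
      by_contra hcon
      push Not at hcon
      have h1 : (Finset.univ : Finset (Fin k)) ⊆ {m0, m1} := fun x _ => hcon x
      have h2 := Finset.card_le_card h1
      rw [Finset.card_univ, Fintype.card_fin] at h2
      have h3 : ({m0, m1} : Finset (Fin k)).card ≤ 2 := Finset.card_le_two
      omega
    rw [Finset.mem_insert, Finset.mem_singleton, not_or] at hm2
    refine ⟨![fun _ => m0, Function.update (fun _ => m0) j m1, Function.update (fun _ => m0) j m2], ?_, ?_⟩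
    · intro s s' hss
      have hval : ∀ s : Fin 3, (![fun _ => m0, Function.update (fun _ => m0) j m1, Function.update (fun _ => m0) j m2] :
          Fin 3 → (Fin t → Fin k)) s j = (![m0, m1, m2] : Fin 3 → Fin k) s := by
        intro s
        fin_cases s <;> simp
      have h1 := congrFun hss j
      rw [hval, hval] at h1
      fin_cases s <;> fin_cases s' <;> first | rfl | (exfalso; revert h1; simp [hm1, hm1.symm, hm2.1, hm2.2, Ne.symm hm2.1, Ne.symm hm2.2]; done)
    · intro s
      fin_cases s <;> simp [hj.symm]
  · obtain ⟨l, hl⟩ : ∃ l : Fin t, l ∉ ({i, j} : Finset (Fin t)) := by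
      by_contra hcon
      push Not at hcon
      have h1 : (Finset.univ : Finset (Fin t)) ⊆ {i, j} := fun x _ => hcon x
      have h2 := Finset.card_le_card h1
      rw [Finset.card_univ, Fintype.card_fin] at h2
      have h3 : ({i, j} : Finset (Fin t)).card ≤ 2 := Finset.card_le_two
      omega
    rw [Finset.mem_insert, Finset.mem_singleton, not_or] at hl
    refine ⟨![fun _ => m0, Function.update (fun _ => m0) j m1, Function.update (fun _ => m0) l m1], ?_, ?_⟩
    · intro s s' hss
      have hval : ∀ s : Fin 3, (![fun _ => m0, Function.update (fun _ => m0) j m1, Function.update (fun _ => m0) l m1] :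
          Fin 3 → (Fin t → Fin k)) s j = (![m0, m1, m0] : Fin 3 → Fin k) s := by
        intro s
        fin_cases s <;> simp [Ne.symm hl.2]
      have hval2 : ∀ s : Fin 3, (![fun _ => m0, Function.update (fun _ => m0) j m1, Function.update (fun _ => m0) l m1] :
          Fin 3 → (Fin t → Fin k)) s l = (![m0, m0, m1] : Fin 3 → Fin k) s := by
        intro s
        fin_cases s <;> simp [hl.2]
      have h1 := congrFun hss j
      have h2 := congrFun hss l
      rw [hval, hval] at h1
      rw [hval2, hval2] at h2
      fin_cases s <;> fin_cases s' <;> first | rfl | (exfalso; revert h1; simp [hm1, hm1.symm]; done) |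
        (exfalso; revert h2; simp [hm1, hm1.symm]; done)
    · intro s
      fin_cases s <;> simp [hj.symm, Ne.symm hl.1]

/-- **wreathed tensor products** -/
theorem not_mem_wreath (hf : IsSesq σ f) (h : IsTv f g u a) {k t : ℕ} (e : ι ≃ (Fin t → Fin k)) (P : GL ι F)
    (hk : 2 ≤ k) (ht : 2 ≤ t) (hkt : 3 ≤ k ∨ 3 ≤ t) : g ∉ tensorWreathSubgroup k t e P := by
  intro hg
  let m0 : Fin k := ⟨0, by omega⟩
  let m1 : Fin k := ⟨1, by omega⟩
  have hm01 : m0 ≠ m1 := by
    intro h; have := congrArg Fin.val h; simp [m0, m1] at this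
  obtain ⟨s, hs, hgs'⟩ := (mem_transport _ e P _).mp hg
  have hgs : (g : Matrix ι ι F) = cr e P (s : Matrix (Fin t → Fin k) (Fin t → Fin k) F) := by
    rw [hgs']; rfl
  obtain ⟨τ, hτ, -⟩ := wreath_le_facSub t k hs
  have hconj : ∀ i X Y, (s : Matrix (Fin t → Fin k) (Fin t → Fin k) F) * B t k F i X = B t k F (τ i) Y * s →
      (g : Matrix ι ι F) * cr e P (B t k F i X) * ((g⁻¹ : GL ι F) : Matrix ι ι F) = cr e P (B t k F (τ i) Y) := by
    intro i X Y hXY
    have h1 : (g : Matrix ι ι F) * cr e P (B t k F i X) = cr e P (B t k F (τ i) Y) * (g : Matrix ι ι F) := by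
      rw [hgs, ← map_mul, ← map_mul, hXY]
    rw [h1, mul_assoc, ← Units.val_mul, mul_inv_cancel, Units.val_one, mul_one]
  -- the permutation is trivial
  have hfix : ∀ i, τ i = i := by
    intro i
    by_contra hj
    obtain ⟨b, hb, hbi⟩ := exists_three hk ht hkt i m0
    obtain ⟨Y, hY⟩ := hτ i (Matrix.single m0 m0 1)
    have h1 := hconj i _ Y hY
    let E : (Fin 3 → F) →ₗ[F] ((Fin t → Fin k) → F) :=
      { toFun := fun w c => ∑ r, if Function.update c i m0 = b r then w r else 0
        map_add' := by
          intro w w'; ext c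
          rw [Pi.add_apply, ← Finset.sum_add_distrib]
          exact Finset.sum_congr rfl (fun r _ => by split_ifs <;> simp)
        map_smul' := by
          intro l w; ext c
          rw [Pi.smul_apply, smul_eq_mul, Finset.mul_sum]
          exact Finset.sum_congr rfl (fun r _ => by split_ifs <;> simp) }
    have hEconst : ∀ w c x, E w (Function.update c i x) = E w c := by
      intro w c x
      change ∑ r, (if Function.update (Function.update c i x) i m0 = b r then w r else 0) =
        ∑ r, (if Function.update c i m0 = b r then w r else 0)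
      rw [Function.update_idem]
    have hEb : ∀ w r, E w (b r) = w r := by
      intro w r
      change ∑ r', (if Function.update (b r) i m0 = b r' then w r' else 0) = _
      have h2 : Function.update (b r) i m0 = b r := by rw [← hbi r, Function.update_eq_self]
      rw [h2, Finset.sum_eq_single r]
      · rw [if_pos rfl]
      · intro r' _ hr'
        rw [if_neg (fun h => hr' (hb h).symm)]
      · intro hh; exact absurd (Finset.mem_univ _) hh
    obtain ⟨w, hw, hagree⟩ := h.exists_agree hf (cr e P (B t k F i (Matrix.single m0 m0 1))) (le_refl 3) ((Lmap e P).comp E)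
    rw [h1] at hagree
    have h7 : (Lmap e P).comp E w = (P : Matrix ι ι F) *ᵥ ((E w) ∘ e) := rfl
    rw [h7, cr_mulVec, cr_mulVec] at hagree
    have h8 := P_injective e P hagree
    obtain ⟨r, hr⟩ := Function.ne_iff.mp hw
    have hR : ∀ c : Fin t → Fin k, (B t k F i (Matrix.single m0 m0 1) *ᵥ (E w)) c =
        (if c i = m0 then 1 else 0) * E w c := by
      intro c
      rw [B_mulVec, Finset.sum_eq_single m0]
      · rw [hEconst, Matrix.single_apply]
        simp [eq_comm]
      · intro x _ hx
        rw [Matrix.single_apply, if_neg (fun h => hx h.2.symm), zero_mul]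
      · intro hh; exact absurd (Finset.mem_univ _) hh
    have hL : ∀ (c : Fin t → Fin k) x, (B t k F (τ i) Y *ᵥ (E w)) (Function.update c i x) =
        (B t k F (τ i) Y *ᵥ (E w)) c := by
      intro c x
      rw [B_mulVec, B_mulVec]
      apply Finset.sum_congr rfl
      intro y _
      rw [Function.update_of_ne hj, Function.update_comm (fun h => hj h.symm), hEconst]
    have h9 := congrFun h8 (b r)
    have h10 := congrFun h8 (Function.update (b r) i m1)
    rw [hL, hR, Function.update_self, if_neg hm01.symm, zero_mul] at h10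
    rw [h10, hR, hbi, if_pos rfl, one_mul, hEb] at h9
    exact hr h9.symm
  -- g commutes with all factors
  have hcomm : ∀ i X, (g : Matrix ι ι F) * cr e P (B t k F i X) * ((g⁻¹ : GL ι F) : Matrix ι ι F) = cr e P (B t k F i X) := by
    intro i X
    obtain ⟨b, hb, hbi⟩ := exists_three hk ht hkt i m0
    obtain ⟨Y, hY⟩ := hτ i X
    have h1 := hconj i _ Y hY
    rw [h1, hfix]
    congr 2
    ext p q
    let E : (Fin 3 → F) →ₗ[F] ((Fin t → Fin k) → F) :=
      { toFun := fun w c => if c i = q then ∑ r, (if Function.update c i m0 = b r then w r else 0) else 0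
        map_add' := by
          intro w w'; ext c
          rw [Pi.add_apply]
          by_cases hc : c i = q
          · rw [if_pos hc, if_pos hc, if_pos hc, ← Finset.sum_add_distrib]
            exact Finset.sum_congr rfl (fun r _ => by split_ifs <;> simp)
          · rw [if_neg hc, if_neg hc, if_neg hc, add_zero]
        map_smul' := by
          intro l w; ext c
          rw [Pi.smul_apply, smul_eq_mul]
          by_cases hc : c i = q
          · rw [if_pos hc, if_pos hc, Finset.mul_sum]
            exact Finset.sum_congr rfl (fun r _ => by split_ifs <;> simp)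
          · rw [if_neg hc, if_neg hc, mul_zero] }
    have hE : ∀ (Z : Matrix (Fin k) (Fin k) F) (w : Fin 3 → F) (r : Fin 3),
        (B t k F i Z *ᵥ (E w)) (Function.update (b r) i p) = Z p q * w r := by
      intro Z w r
      rw [B_mulVec, Function.update_self, Finset.sum_eq_single q]
      · congr 1
        change (if Function.update (Function.update (b r) i p) i q i = q then
          ∑ r', (if Function.update (Function.update (Function.update (b r) i p) i q) i m0 = b r' then w r' else 0) else 0) = w r
        rw [Function.update_self, if_pos rfl, Function.update_idem, Function.update_idem]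
        have h2 : Function.update (b r) i m0 = b r := by rw [← hbi r, Function.update_eq_self]
        rw [h2, Finset.sum_eq_single r]
        · rw [if_pos rfl]
        · intro r' _ hr'
          rw [if_neg (fun h => hr' (hb h).symm)]
        · intro hh; exact absurd (Finset.mem_univ _) hh
      · intro c _ hc
        change Z p c * (if Function.update (Function.update (b r) i p) i c i = q then _ else 0) = 0
        rw [Function.update_self, if_neg hc, mul_zero]
      · intro hh; exact absurd (Finset.mem_univ _) hh
    obtain ⟨w, hw, hagree⟩ := h.exists_agree hf (cr e P (B t k F i X)) (le_refl 3) ((Lmap e P).comp E)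
    rw [h1, hfix] at hagree
    have h7 : (Lmap e P).comp E w = (P : Matrix ι ι F) *ᵥ ((E w) ∘ e) := rfl
    rw [h7, cr_mulVec, cr_mulVec] at hagree
    have h8 := P_injective e P hagree
    obtain ⟨r, hr⟩ := Function.ne_iff.mp hw
    have h9 := congrFun h8 (Function.update (b r) i p)
    rw [hE, hE] at h9
    exact mul_right_cancel₀ hr h9
  -- u in coordinates
  obtain ⟨u', hu'⟩ : ∃ u' : (Fin t → Fin k) → F, u = (P : Matrix ι ι F) *ᵥ (u' ∘ e) := by
    refine ⟨(((P⁻¹ : GL ι F) : Matrix ι ι F) *ᵥ u) ∘ e.symm, ?_⟩
    have : ((((P⁻¹ : GL ι F) : Matrix ι ι F) *ᵥ u) ∘ e.symm) ∘ e = ((P⁻¹ : GL ι F) : Matrix ι ι F) *ᵥ u := by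
      ext i; simp
    rw [this, Matrix.mulVec_mulVec, ← Units.val_mul, mul_inv_cancel, Units.val_one, Matrix.one_mulVec]
  have hu'0 : u' ≠ 0 := by
    rintro rfl
    apply h.u0 hf
    rw [hu']
    have : (0 : (Fin t → Fin k) → F) ∘ e = 0 := rfl
    rw [this, Matrix.mulVec_zero]
  obtain ⟨c, hc0⟩ := Function.ne_iff.mp hu'0
  let i : Fin t := ⟨0, by omega⟩
  obtain ⟨x, hx⟩ : ∃ x : Fin k, x ≠ c i := by
    have : Nontrivial (Fin k) := Fin.nontrivial_iff_two_le.mpr hk
    exact exists_ne (c i)
  obtain ⟨l, hl⟩ := h.eigen (hcomm i (Matrix.single x (c i) 1))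
  rw [hu', cr_mulVec, ← Matrix.mulVec_smul] at hl
  have h3 : (P : Matrix ι ι F) *ᵥ ((B t k F i (Matrix.single x (c i) 1) *ᵥ u') ∘ e) =
      (P : Matrix ι ι F) *ᵥ ((l • u') ∘ e) := hl
  have h4 := P_injective e P h3
  have hval : ∀ d : Fin t → Fin k, (B t k F i (Matrix.single x (c i) 1) *ᵥ u') d =
      if d i = x then u' (Function.update d i (c i)) else 0 := by
    intro d
    rw [B_mulVec, Finset.sum_eq_single (c i)]
    · rw [Matrix.single_apply]
      by_cases hd : d i = x
      · rw [if_pos ⟨hd.symm, rfl⟩, if_pos hd, one_mul]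
      · rw [if_neg (fun h => hd h.1.symm), if_neg hd, zero_mul]
    · intro y _ hy
      rw [Matrix.single_apply, if_neg (fun h => hy h.2.symm), zero_mul]
    · intro hh; exact absurd (Finset.mem_univ _) hh
  have h5 := congrFun h4 c
  rw [hval, if_neg hx.symm, Pi.smul_apply, smul_eq_mul] at h5
  have h6 : l = 0 := by
    rcases mul_eq_zero.mp h5.symm with h7 | h7
    · exact h7
    · exact absurd h7 hc0
  have h7 := congrFun h4 (Function.update c i x)
  rw [hval, Function.update_self, if_pos rfl, Function.update_idem, Function.update_eq_self, h6, zero_smul] at h7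
  exact hc0 h7

end H97.AschNC2
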