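import Mathlib
import Cfsg.Agent.Lib.H97.AschNC2

/-!
Aschbacher library, part 38: transvections and subfield groups, normalisers of class-two groups, subspaces, decompositions.
-/

set_option autoImplicit false
set_option linter.unusedSectionVars false

namespace H97.AschNC3

open Cfsg Cfsg.Geo Matrix H97.AschRad H97.AschUnits H97.AschSkolem H97.AschCS H97.AschTensor H97.AschEnv
open H97.AschGrp H97.AschNonab H97.AschForm H97.AschTwo
open H97.AschWreath H97.AschWreathNorm H97.AschLinear H97.AschSL H97.AschSL2 H97.AschNC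
open scoped Kronecker

variable {ι : Type} [Fintype ι] [DecidableEq ι] {F : Type*} [Field F]
variable {σ : F ≃+* F} {f : (ι → F) → (ι → F) → F} {g : GL ι F} {u : ι → F} {a : F}

/-! ### subfield groups -/

lemma IsTv.pow (h : IsTv f g u a) (hf : IsSesq σ f) (n : ℕ) (v : ι → F) :
    ((g ^ n : GL ι F) : Matrix ι ι F) *ᵥ v = v + ((n : F) * (a * f v u)) • u := by
  induction n with
  | zero => simp
  | succ n ih =>
    rw [pow_succ', Units.val_mul, ← Matrix.mulVec_mulVec, ih, h.val, hf.add_left, hf.smul_left, h.iso, mul_zero, add_zero,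
      Nat.cast_succ, add_mul, one_mul, add_smul, add_assoc]

lemma IsTv.pow_char (h : IsTv f g u a) (hf : IsSesq σ f) {p : ℕ} [CharP F p] : g ^ p = 1 := by
  ext1
  apply matrix_ext_vec
  intro v
  rw [IsTv.pow h hf, CharP.cast_eq_zero, zero_mul, zero_smul, add_zero, Units.val_one, Matrix.one_mulVec]

/-- a transvection in a subfield group lies over the subfield -/
theorem over_of_tv [Fintype F] [Nonempty ι] (hf : IsSesq σ f) (h : IsTv f g u a) {F₀ : Subfield F} {P : GL ι F}
    (hg : g ∈ subfieldSubgroup F₀ P) (i j : ι) : ((P⁻¹ * g * P : GL ι F) : Matrix ι ι F) i j ∈ F₀ := by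
  obtain ⟨p, hp⟩ := CharP.exists F
  have hpp : p.Prime := by
    rcases CharP.char_is_prime_or_zero F p with h | h
    · exact h
    · exfalso
      subst h
      have := CharP.charP_to_charZero F
      exact not_injective_infinite_finite (fun n : ℕ => (n : F)) Nat.cast_injective
  have : Fact p.Prime := ⟨hpp⟩
  obtain ⟨y, hy, hyP⟩ := hg
  have hy' : P * y * P⁻¹ = g := hyP
  have hy2 : P⁻¹ * g * P = y := by rw [← hy']; group
  rw [hy2]
  obtain ⟨Q', hQ', z, hz, hQz⟩ := Subgroup.mem_sup_of_normal_right.mp hy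
  obtain ⟨Q, hQ⟩ := MonoidHom.mem_range.mp hQ'
  obtain ⟨l, hl⟩ := (mem_scalars_iff z).mp hz
  have hval : (Q' : Matrix ι ι F) = (Q : Matrix ι ι F₀).map (F₀.subtype : F₀ →+* F) := by rw [← hQ]; rfl
  have hQv : ∀ a b, (Q' : Matrix ι ι F) a b ∈ F₀ := by
    intro a b
    rw [hval]
    exact ((Q : Matrix ι ι F₀) a b).2
  have hyp : y ^ p = 1 := by
    rw [← hy2]
    have : (P⁻¹ * g * P) ^ p = P⁻¹ * g ^ p * P := by
      have := conj_pow (i := p) (a := P⁻¹) (b := g)
      rwa [inv_inv] at this
    rw [this, IsTv.pow_char h hf, mul_one, inv_mul_cancel]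
  have hyv : (y : Matrix ι ι F) = (l : F) • (Q' : Matrix ι ι F) := by
    rw [← hQz, Units.val_mul, hl, Matrix.mul_smul, mul_one]
  -- l ^ p lies in the subfield
  have hQp : ∀ a b, ((Q' : Matrix ι ι F) ^ p) a b ∈ F₀ := by
    intro a b
    rw [hval]
    have : ((Q : Matrix ι ι F₀).map (F₀.subtype : F₀ →+* F)) ^ p = ((Q : Matrix ι ι F₀) ^ p).map (F₀.subtype : F₀ →+* F) := by
      exact (map_pow (F₀.subtype : F₀ →+* F).mapMatrix (Q : Matrix ι ι F₀) p).symm
    rw [this]
    exact (((Q : Matrix ι ι F₀) ^ p) a b).2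
  have hlp : (l : F) ^ p ∈ F₀ := by
    obtain ⟨i0⟩ := ‹Nonempty ι›
    have h1 : ((y ^ p : GL ι F) : Matrix ι ι F) i0 i0 = 1 := by rw [hyp, Units.val_one, Matrix.one_apply_eq]
    rw [Units.val_pow_eq_pow_val, hyv, smul_pow, Matrix.smul_apply, smul_eq_mul] at h1
    have h2 : (l : F) ^ p = (((Q' : Matrix ι ι F) ^ p) i0 i0)⁻¹ := eq_inv_of_mul_eq_one_left h1
    rw [h2]
    exact F₀.inv_mem (hQp _ _)
  have hlF : (l : F) ∈ F₀ := by
    have hinj : Function.Injective (fun x : F₀ => x ^ p) := by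
      intro x y hxy
      exact frobenius_inj F₀ p hxy
    have hsurj := Finite.surjective_of_injective hinj
    obtain ⟨m, hm⟩ := hsurj ⟨(l : F) ^ p, hlp⟩
    have h3 : (m : F) ^ p = (l : F) ^ p := congrArg Subtype.val hm
    have h4 : (m : F) = l := frobenius_inj F p h3
    rw [← h4]; exact m.2
  rw [hyv, Matrix.smul_apply, smul_eq_mul]
  exact F₀.mul_mem hlF (hQv i j)

/-- **subfields**, with all transvections of one centre -/
theorem subfield_top [Fintype F] (hf : IsSesq σ f) {S : Subgroup (GL ι F)} {u : ι → F}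
    (hS : ∀ a : F, a ≠ 0 → ∃ g ∈ S, IsTv f g u a) {F₀ : Subfield F} {P : GL ι F} (hle : S ≤ subfieldSubgroup F₀ P) :
    F₀ = ⊤ := by
  obtain ⟨g1, hg1, h1⟩ := hS 1 one_ne_zero
  have hu := h1.u0 hf
  have hne : Nonempty ι := by
    obtain ⟨i, -⟩ := Function.ne_iff.mp hu
    exact ⟨i⟩
  obtain ⟨v, hv⟩ := h1.ne
  have key : ∀ (a : F) (g : GL ι F), IsTv f g u a → ∀ w : ι → F, ∀ i,
      (((P⁻¹ * g * P : GL ι F) : Matrix ι ι F) *ᵥ w) i = w i +
        a * (f ((P : Matrix ι ι F) *ᵥ w) u * (((P⁻¹ : GL ι F) : Matrix ι ι F) *ᵥ u) i) := by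
    intro a g h w i
    rw [Units.val_mul, Units.val_mul, ← Matrix.mulVec_mulVec, ← Matrix.mulVec_mulVec, h.val, Matrix.mulVec_add,
      Matrix.mulVec_smul, Matrix.mulVec_mulVec, ← Units.val_mul, inv_mul_cancel, Units.val_one, Matrix.one_mulVec,
      Pi.add_apply, Pi.smul_apply, smul_eq_mul]
    ring
  -- a nonzero entry
  have hPu : ((P⁻¹ : GL ι F) : Matrix ι ι F) *ᵥ u ≠ 0 := by
    intro h0
    apply hu
    have h2 := congrArg (fun w => (P : Matrix ι ι F) *ᵥ w) h0
    simpa [Matrix.mulVec_mulVec, ← Units.val_mul] using h2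
  obtain ⟨i, hi⟩ := Function.ne_iff.mp hPu
  obtain ⟨j, hj⟩ : ∃ j, f ((P : Matrix ι ι F) *ᵥ Pi.single j 1) u ≠ 0 := by
    by_contra hcon
    push Not at hcon
    apply hv
    have h2 : v = (P : Matrix ι ι F) *ᵥ (((P⁻¹ : GL ι F) : Matrix ι ι F) *ᵥ v) := by
      rw [Matrix.mulVec_mulVec, ← Units.val_mul, mul_inv_cancel, Units.val_one, Matrix.one_mulVec]
    rw [h2]
    set w := ((P⁻¹ : GL ι F) : Matrix ι ι F) *ᵥ v
    rw [vec_eq_sum w, Matrix.mulVec_sum, hf.sum_left]
    apply Finset.sum_eq_zero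
    intro j _
    rw [Matrix.mulVec_smul, hf.smul_left, hcon j, mul_zero]
  set c := f ((P : Matrix ι ι F) *ᵥ Pi.single j 1) u * (((P⁻¹ : GL ι F) : Matrix ι ι F) *ᵥ u) i with hc
  have hc0 : c ≠ 0 := mul_ne_zero hj hi
  have hent : ∀ a : F, a ≠ 0 → a * c ∈ F₀ := by
    intro a ha
    obtain ⟨g, hg, h⟩ := hS a ha
    have h2 := over_of_tv hf h (hle hg) i j
    have h3 := key a g h (Pi.single j 1) i
    rw [Matrix.mulVec_single_one] at h3
    change ((P⁻¹ * g * P : GL ι F) : Matrix ι ι F) i j = _ at h3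
    rw [h3] at h2
    have h4 : (Pi.single j (1 : F) : ι → F) i ∈ F₀ := by
      by_cases hij : i = j
      · rw [hij, Pi.single_eq_same]; exact F₀.one_mem
      · rw [Pi.single_eq_of_ne hij]; exact F₀.zero_mem
    have h5 := F₀.sub_mem h2 h4
    rwa [add_sub_cancel_left] at h5
  have hcF : c ∈ F₀ := by
    have := hent 1 one_ne_zero
    rwa [one_mul] at this
  rw [eq_top_iff]
  intro a _
  by_cases ha : a = 0
  · rw [ha]; exact F₀.zero_mem
  · have h2 := F₀.mul_mem (hent a ha) (F₀.inv_mem hcF)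
    rwa [mul_assoc, mul_inv_cancel₀ hc0, mul_one] at h2

/-! ### normalisers of class-two groups -/

/-- **class-two groups** in dimension at least four -/
theorem not_mem_normalizer (hf : IsSesq σ f) (h : IsTv f g u a) (hn : 4 ≤ Fintype.card ι) {R : Subgroup (GL ι F)}
    (hfull : Full R) (hnil : ∀ x ∈ R, ∀ y ∈ R, x * y * x⁻¹ * y⁻¹ ∈ scalars ι F) : g ∉ subgroupNormalizer R := by
  classical
  intro hg
  have hne : Nonempty ι := Fintype.card_pos_iff.mp (by omega)
  have hu := h.u0 hf
  have hmem : ∀ x, x ∈ R ↔ g * x * g⁻¹ ∈ R := Subgroup.mem_normalizer_iff.mp hg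
  let Φ : (ι → F) → (ι → F) →ₗ[F] F := fun z =>
    { toFun := fun w => f w z
      map_add' := fun a b => hf.add_left _ _ _
      map_smul' := fun c a => hf.smul_left _ _ _ }
  have hcomm : ∀ x ∈ R, g * x = x * g := by
    intro x hx
    set y := g * x * g⁻¹ * x⁻¹ with hy
    have hyR : y ∈ R := R.mul_mem ((hmem x).mp hx) (R.inv_mem hx)
    set w := (x : Matrix ι ι F) *ᵥ u with hw
    have hxx : ∀ v : ι → F, (x : Matrix ι ι F) *ᵥ (((x⁻¹ : GL ι F) : Matrix ι ι F) *ᵥ v) = v := by
      intro v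
      rw [Matrix.mulVec_mulVec, ← Units.val_mul, mul_inv_cancel, Units.val_one, Matrix.one_mulVec]
    have hyv : ∀ v, (y : Matrix ι ι F) *ᵥ v =
        (v - (a * f (((x⁻¹ : GL ι F) : Matrix ι ι F) *ᵥ v) u) • w) +
          (a * f (v - (a * f (((x⁻¹ : GL ι F) : Matrix ι ι F) *ᵥ v) u) • w) u) • u := by
      intro v
      rw [hy, Units.val_mul, Units.val_mul, Units.val_mul, ← Matrix.mulVec_mulVec, ← Matrix.mulVec_mulVec,
        ← Matrix.mulVec_mulVec, h.inv hf, Matrix.mulVec_sub, Matrix.mulVec_smul, hxx, ← hw, h.val]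
    -- fixed vectors
    let Fx : Submodule F (ι → F) := LinearMap.ker ((Φ u).prod ((Φ u).comp (Matrix.toLin' ((x⁻¹ : GL ι F) : Matrix ι ι F))))
    have hFx : ∀ v ∈ Fx, (y : Matrix ι ι F) *ᵥ v = v := by
      intro v hv
      rw [LinearMap.mem_ker] at hv
      have h1 : f v u = 0 := congrArg Prod.fst hv
      have h2 : f (((x⁻¹ : GL ι F) : Matrix ι ι F) *ᵥ v) u = 0 := by
        have : f (Matrix.toLin' ((x⁻¹ : GL ι F) : Matrix ι ι F) v) u = 0 := congrArg Prod.snd hv
        rwa [Matrix.toLin'_apply] at this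
      rw [hyv, h2, mul_zero, zero_smul, sub_zero, h1, mul_zero, zero_smul, add_zero]
    have hdim : Fintype.card ι ≤ Module.finrank F Fx + 2 := by
      have h1 := LinearMap.finrank_range_add_finrank_ker
        ((Φ u).prod ((Φ u).comp (Matrix.toLin' ((x⁻¹ : GL ι F) : Matrix ι ι F))))
      rw [Module.finrank_fintype_fun_eq_card] at h1
      have h2 := Submodule.finrank_le (LinearMap.range ((Φ u).prod ((Φ u).comp (Matrix.toLin' ((x⁻¹ : GL ι F) : Matrix ι ι F)))))
      rw [Module.finrank_prod, Module.finrank_self] at h2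
      change _ ≤ Module.finrank F (LinearMap.ker _) + 2
      omega
    have hFxne : ∃ v ∈ Fx, v ≠ 0 := by
      have : Fx ≠ ⊥ := by
        intro h0
        rw [h0, finrank_bot] at hdim
        omega
      obtain ⟨v, hv, hv0⟩ := Submodule.exists_mem_ne_zero_of_ne_bot this
      exact ⟨v, hv, hv0⟩
    -- y is scalar
    have hys : ∃ c : F, (y : Matrix ι ι F) = algebraMap F _ c := by
      apply hfull.comm
      intro z hz
      by_contra hcon
      obtain ⟨ζ, hζ⟩ := (mem_scalars_iff _).mp (hnil y hyR z hz)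
      have hyz : ∀ v, (y : Matrix ι ι F) *ᵥ ((z : Matrix ι ι F) *ᵥ v) =
          (ζ : F) • ((z : Matrix ι ι F) *ᵥ ((y : Matrix ι ι F) *ᵥ v)) := by
        intro v
        have h1 : y * z = (y * z * y⁻¹ * z⁻¹) * (z * y) := by group
        rw [Matrix.mulVec_mulVec, ← Units.val_mul, h1, Units.val_mul, hζ, Matrix.smul_mul, one_mul, Matrix.smul_mulVec,
          Units.val_mul, Matrix.mulVec_mulVec]
      have hζ1 : (ζ : F) ≠ 1 := by
        intro h1
        apply hcon
        have h2 : y * z * y⁻¹ * z⁻¹ = 1 := by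
          ext1
          rw [hζ, h1, one_smul, Units.val_one]
        have h3 : y * z = z * y := by
          have : y * z = (y * z * y⁻¹ * z⁻¹) * (z * y) := by group
          rw [this, h2, one_mul]
        rw [← Units.val_mul, ← Units.val_mul, h3]
      -- the translate of the fixed space
      let E : Submodule F (ι → F) := Fx.map (Matrix.toLin' (z : Matrix ι ι F))
      have hE : ∀ v ∈ E, (y : Matrix ι ι F) *ᵥ v = (ζ : F) • v := by
        rintro _ ⟨v, hv, rfl⟩
        rw [Matrix.toLin'_apply, hyz, hFx v hv]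
      have hEdim : Module.finrank F E = Module.finrank F Fx := by
        have hinj : Function.Injective (Matrix.toLin' (z : Matrix ι ι F)) := by
          intro v v' hvv
          rw [Matrix.toLin'_apply, Matrix.toLin'_apply] at hvv
          have := congrArg (fun w => ((z⁻¹ : GL ι F) : Matrix ι ι F) *ᵥ w) hvv
          simpa [Matrix.mulVec_mulVec, ← Units.val_mul] using this
        exact (LinearEquiv.finrank_eq (Submodule.equivMapOfInjective _ hinj Fx)).symm
      have hdisj : Disjoint Fx E := by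
        rw [Submodule.disjoint_def]
        intro v hv hvE
        have h1 := hFx v hv
        rw [hE v hvE] at h1
        have h2 : ((ζ : F) - 1) • v = 0 := by rw [sub_smul, h1, one_smul, sub_self]
        rcases smul_eq_zero.mp h2 with h3 | h3
        · exact absurd (sub_eq_zero.mp h3) hζ1
        · exact h3
      have hsum := Submodule.finrank_add_finrank_le_of_disjoint hdisj
      rw [Module.finrank_fintype_fun_eq_card, hEdim] at hsum
      have hn4 : Fintype.card ι = 4 := by omega
      have hE2 : Module.finrank F E = 2 := by omega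
      -- E is spanned by u and w
      have hEle : E ≤ Submodule.span F {u, w} := by
        intro v hv
        have h1 := hE v hv
        have h2 : (y : Matrix ι ι F) *ᵥ v - v ∈ Submodule.span F {u, w} := by
          rw [hyv]
          have h3 : (v - (a * f (((x⁻¹ : GL ι F) : Matrix ι ι F) *ᵥ v) u) • w) +
              (a * f (v - (a * f (((x⁻¹ : GL ι F) : Matrix ι ι F) *ᵥ v) u) • w) u) • u - v =
              (a * f (v - (a * f (((x⁻¹ : GL ι F) : Matrix ι ι F) *ᵥ v) u) • w) u) • u -
              (a * f (((x⁻¹ : GL ι F) : Matrix ι ι F) *ᵥ v) u) • w := by abel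
          rw [h3]
          exact Submodule.sub_mem _ (Submodule.smul_mem _ _ (Submodule.subset_span (by simp)))
            (Submodule.smul_mem _ _ (Submodule.subset_span (by simp)))
        rw [h1] at h2
        have h3 : ((ζ : F) - 1) ≠ 0 := sub_ne_zero.mpr hζ1
        have h4 : v = ((ζ : F) - 1)⁻¹ • ((ζ : F) • v - v) := by
          have : (ζ : F) • v - v = ((ζ : F) - 1) • v := by rw [sub_smul, one_smul]
          rw [this, smul_smul, inv_mul_cancel₀ h3, one_smul]
        rw [h4]
        exact Submodule.smul_mem _ _ h2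
      have hspan : Module.finrank F (Submodule.span F {u, w}) ≤ 2 := by
        have h1 := finrank_span_finset_le_card (R := F) ({u, w} : Finset (ι → F))
        have h2 : ({u, w} : Finset (ι → F)).card ≤ 2 := Finset.card_le_two
        have h3 : (({u, w} : Finset (ι → F)) : Set (ι → F)) = {u, w} := by simp
        rw [Set.finrank, h3] at h1
        omega
      have hEeq : E = Submodule.span F {u, w} := by
        apply Submodule.eq_of_le_of_finrank_le hEle
        omega
      have hwE : w ∈ E := by rw [hEeq]; exact Submodule.subset_span (by simp)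
      have huE : u ∈ E := by rw [hEeq]; exact Submodule.subset_span (by simp)
      have h1 := hE w hwE
      have h2 : f (((x⁻¹ : GL ι F) : Matrix ι ι F) *ᵥ w) u = 0 := by
        rw [hw, Matrix.mulVec_mulVec, ← Units.val_mul, inv_mul_cancel, Units.val_one, Matrix.one_mulVec, h.iso]
      rw [hyv, h2, mul_zero, zero_smul, sub_zero] at h1
      have h3 : ((ζ : F) - 1) • w = (a * f w u) • u := by
        rw [sub_smul, one_smul, ← h1]; abel
      have h4 : w = (((ζ : F) - 1)⁻¹ * (a * f w u)) • u := by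
        rw [mul_smul, ← h3, smul_smul, inv_mul_cancel₀ (sub_ne_zero.mpr hζ1), one_smul]
      have h5 : Submodule.span F {u, w} ≤ Submodule.span F {u} := by
        rw [Submodule.span_le]
        rintro v (rfl | hv)
        · exact Submodule.mem_span_singleton_self _
        · rw [Set.mem_singleton_iff] at hv
          rw [hv, h4]
          exact Submodule.smul_mem _ _ (Submodule.mem_span_singleton_self _)
      have h6 := Submodule.finrank_mono h5
      have h7 := finrank_span_le_card (R := F) ({u} : Set (ι → F))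
      simp at h7
      rw [← hEeq, hE2] at h6
      omega
    obtain ⟨c, hc⟩ := hys
    obtain ⟨v, hv, hv0⟩ := hFxne
    have h1 := hFx v hv
    rw [hc, Algebra.algebraMap_eq_smul_one, Matrix.smul_mulVec, Matrix.one_mulVec] at h1
    have hc1 : c = 1 := by
      have h2 : (c - 1) • v = 0 := by rw [sub_smul, h1, one_smul, sub_self]
      rcases smul_eq_zero.mp h2 with h3 | h3
      · exact sub_eq_zero.mp h3
      · exact absurd h3 hv0
    have hy1 : y = 1 := by
      ext1
      rw [hc, hc1, map_one, Units.val_one]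
    have h2 : g * x = y * (x * g) := by rw [hy]; group
    rw [h2, hy1, one_mul]
  obtain ⟨c, hc⟩ := hfull.comm (X := (g : Matrix ι ι F)) (fun x hx => by
    rw [← Units.val_mul, ← Units.val_mul, hcomm x hx])
  have h1 := h.val u
  rw [h.iso, mul_zero, zero_smul, add_zero, hc, Algebra.algebraMap_eq_smul_one, Matrix.smul_mulVec,
    Matrix.one_mulVec] at h1
  have hc1 : c = 1 := by
    have h2 : (c - 1) • u = 0 := by rw [sub_smul, h1, one_smul, sub_self]
    rcases smul_eq_zero.mp h2 with h3 | h3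
    · exact sub_eq_zero.mp h3
    · exact absurd h3 hu
  obtain ⟨v, hv⟩ := h.ne
  have h2 := h.val v
  rw [hc, hc1, map_one, Matrix.one_mulVec] at h2
  have h3 : (a * f v u) • u = 0 := by
    have := congrArg (fun z => z - v) h2
    simpa using this.symm
  rcases smul_eq_zero.mp h3 with h4 | h4
  · exact mul_ne_zero h.a0 hv h4
  · exact hu h4

/-! ### subspaces and decompositions -/

/-- a set of centres which is not contained in the union of a subspace and its perpendicular space -/
structure Gen (f : (ι → F) → (ι → F) → F) (U : Set (ι → F)) : Prop where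
  span : Submodule.span F U = ⊤
  add : ∀ u ∈ U, ∀ u' ∈ U, f u u' = 0 → u + u' ≠ 0 → u + u' ∈ U
  nz : ∀ u ∈ U, u ≠ 0

lemma tv_stab (h : IsTv f g u a) {W : Submodule F (ι → F)} (hW : ∀ w ∈ W, (g : Matrix ι ι F) *ᵥ w ∈ W) :
    u ∈ W ∨ ∀ w ∈ W, f w u = 0 := by
  by_contra hcon
  push Not at hcon
  obtain ⟨huW, w, hw, hwu⟩ := hcon
  apply huW
  have h1 := W.sub_mem (hW w hw) hw
  rw [h.val, add_sub_cancel_left] at h1
  have h2 : a * f w u ≠ 0 := mul_ne_zero h.a0 hwu
  have h3 := W.smul_mem (a * f w u)⁻¹ h1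
  rwa [smul_smul, inv_mul_cancel₀ h2, one_smul] at h3

theorem gen_subspace (hf : IsSesq σ f) (hnd : ∀ v : ι → F, v ≠ 0 → ∃ x, f v x ≠ 0)
    (hrefl : ∀ v w, f v w = 0 → f w v = 0) {U : Set (ι → F)} (hU : Gen f U) {W : Submodule F (ι → F)} (h0 : W ≠ ⊥)
    (h1 : W ≠ ⊤) : ¬ ∀ u ∈ U, u ∈ W ∨ ∀ w ∈ W, f w u = 0 := by
  intro h
  obtain ⟨u, hu, huW⟩ : ∃ u ∈ U, u ∉ W := by
    by_contra hcon
    push Not at hcon
    apply h1
    rw [eq_top_iff, ← hU.span, Submodule.span_le]
    exact hcon
  have huP : ∀ w ∈ W, f w u = 0 := (h u hu).resolve_left huW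
  obtain ⟨w0, hw0, hw00⟩ := Submodule.exists_mem_ne_zero_of_ne_bot h0
  obtain ⟨u', hu', w1, hw1, hwu'⟩ : ∃ u' ∈ U, ∃ w1 ∈ W, f w1 u' ≠ 0 := by
    by_contra hcon
    push Not at hcon
    obtain ⟨x, hx⟩ := hnd w0 hw00
    apply hx
    let S : Submodule F (ι → F) :=
      { carrier := {x | f w0 x = 0}
        add_mem' := fun {a b} ha hb => by
          change f w0 (a + b) = 0
          rw [hf.add_right, ha, hb, add_zero]
        zero_mem' := hf.zero_right _
        smul_mem' := fun c a ha => by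
          change f w0 (c • a) = 0
          rw [hf.smul_right, ha, mul_zero] }
    have h3 : (⊤ : Submodule F (ι → F)) ≤ S := by
      rw [← hU.span, Submodule.span_le]
      exact fun z hz => hcon z hz w0 hw0
    exact h3 (Submodule.mem_top (x := x))
  have hu'W : u' ∈ W := by
    rcases h u' hu' with h3 | h3
    · exact h3
    · exact absurd (h3 w1 hw1) hwu'
  have h4 : u + u' ≠ 0 := by
    intro h5
    apply huW
    have : u = -u' := eq_neg_of_add_eq_zero_left h5
    rw [this]; exact W.neg_mem hu'W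
  have h5 := hU.add u hu u' hu' (hrefl _ _ (huP u' hu'W)) h4
  rcases h _ h5 with h6 | h6
  · apply huW
    have := W.sub_mem h6 hu'W
    rwa [add_sub_cancel_right] at this
  · have h7 := h6 w1 hw1
    rw [hf.add_right, huP w1 hw1, zero_add] at h7
    exact hwu' h7

/-- decompositions into spaces of dimension at least two -/
theorem gen_decomposition (hf : IsSesq σ f) (hnd : ∀ v : ι → F, v ≠ 0 → ∃ x, f v x ≠ 0)
    (hrefl : ∀ v w, f v w = 0 → f w v = 0) {U : Set (ι → F)} (hU : Gen f U) {S : Subgroup (GL ι F)}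
    (hS : ∀ u ∈ U, ∃ g ∈ S, ∃ a, IsTv f g u a) {t k : ℕ} (hk : 2 ≤ k) {D : Fin t → Submodule F (ι → F)}
    (hD : IsMDecomposition k D) : ¬ S ≤ decompositionStabilizer D := by
  intro hle
  have ht := hD.two_le
  let i0 : Fin t := ⟨0, by omega⟩
  have hdis : ∀ i j, i ≠ j → ∀ x ∈ D i, x ∈ D j → x = 0 := by
    intro i j hij x hx hx'
    have h1 := hD.indep.pairwiseDisjoint hij
    exact Submodule.disjoint_def.mp h1 x hx hx'
  refine gen_subspace hf hnd hrefl hU (W := D i0) ?_ ?_ ?_
  · intro h0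
    have := hD.finrank_eq i0
    rw [h0, finrank_bot] at this
    omega
  · intro h0
    let i1 : Fin t := ⟨1, by omega⟩
    have h01 : i0 ≠ i1 := by
      intro h; have := congrArg Fin.val h; simp [i0, i1] at this
    have h2 : D i1 = ⊥ := by
      rw [eq_bot_iff]
      intro x hx
      rw [Submodule.mem_bot]
      exact hdis i0 i1 h01 x (by rw [h0]; exact Submodule.mem_top) hx
    have := hD.finrank_eq i1
    rw [h2, finrank_bot] at this
    omega
  · intro u hu
    obtain ⟨g, hg, a, h⟩ := hS u hu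
    obtain ⟨τ, hτ⟩ := hle hg
    apply tv_stab h
    -- a nonzero vector of D i0 fixed by g
    let Φ : (ι → F) →ₗ[F] F :=
      { toFun := fun w => f w u
        map_add' := fun a b => hf.add_left _ _ _
        map_smul' := fun c a => hf.smul_left _ _ _ }
    have hker : LinearMap.ker (Φ.comp (D i0).subtype) ≠ ⊥ := by
      apply LinearMap.ker_ne_bot_of_finrank_lt
      rw [Module.finrank_self, hD.finrank_eq]
      omega
    obtain ⟨⟨v, hv⟩, hvk, hv0⟩ := Submodule.exists_mem_ne_zero_of_ne_bot hker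
    rw [LinearMap.mem_ker] at hvk
    have hvu : f v u = 0 := hvk
    have hv0' : v ≠ 0 := fun h => hv0 (Subtype.ext h)
    have hgv : (g : Matrix ι ι F) *ᵥ v = v := by
      rw [h.val, hvu, mul_zero, zero_smul, add_zero]
    have h1 : v ∈ D (τ i0) := by
      rw [← hτ i0]
      exact ⟨v, hv, by rw [Matrix.toLin'_apply, hgv]⟩
    have hτi : τ i0 = i0 := by
      by_contra hne
      exact hv0' (hdis _ _ hne v h1 hv)
    intro w hw
    have h2 : (g : Matrix ι ι F) *ᵥ w ∈ D (τ i0) := by
      rw [← hτ i0]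
      exact ⟨w, hw, by rw [Matrix.toLin'_apply]⟩
    rwa [hτi] at h2

end H97.AschNC3
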