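import Mathlib
import Cfsg.Agent.Lib.H97.AschNonab
import Cfsg.Agent.Lib.H96.AschSympType2
import Cfsg.Agent.Lib.H35.SympExp4
import Cfsg.Agent.Lib.H3.Critical

/-!
Aschbacher library, part 39: absolutely irreducible groups of symplectic type have class two.
-/

set_option autoImplicit false
set_option linter.unusedSectionVars false

namespace H97.AschNil

open Cfsg Cfsg.Geo Matrix H97.AschRad H97.AschUnits H97.AschCS H97.AschTensor H97.AschEnv H97.AschNonab
open H96.AschSympType1 H96.AschSympType2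
open scoped Kronecker commutatorElement

variable {ι : Type} [Fintype ι] [DecidableEq ι] {F : Type*} [Field F]

/-- Burnside -/
theorem full_of_absIrr [Finite F] [Nonempty ι] {R : Subgroup (GL ι F)} (h : ActsAbsolutelyIrreducibly (matrixSet R)) :
    Full R := by
  have hcs : ∀ X : Matrix ι ι F, (∀ x ∈ R, X * (x : Matrix ι ι F) = x * X) → ∃ c : F, X = algebraMap F _ c := by
    intro X hX
    obtain ⟨c, hc⟩ := h.2 X (by rintro _ ⟨x, hx, rfl⟩; exact hX x hx)
    exact ⟨c, by rw [hc, Algebra.algebraMap_eq_smul_one]⟩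
  obtain ⟨d, m, e, P, hd, hm, hmem, -⟩ := tensor_of_center R h.1 (env R)
    (env_norm R (fun h hh x hx => R.mul_mem (R.mul_mem hh hx) (R.inv_mem hh)))
    (fun z _ hz => hcs z (fun x hx => hz _ (mem_env hx)))
  have hm1 : m = 1 := by
    by_contra hm1
    have h2 : 1 < m := by omega
    let a : Fin m := ⟨0, by omega⟩
    let b : Fin m := ⟨1, by omega⟩
    obtain ⟨c, hc⟩ := hcs (cr e P ((1 : Matrix (Fin d) (Fin d) F) ⊗ₖ Matrix.single a b (1 : F))) (by
      intro x hx
      obtain ⟨Y, hY⟩ := (hmem _).1 (mem_env hx)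
      rw [hY, ← map_mul, ← map_mul, ← Matrix.mul_kronecker_mul, ← Matrix.mul_kronecker_mul, one_mul, mul_one, one_mul,
        mul_one])
    have h3 : (1 : Matrix (Fin d) (Fin d) F) ⊗ₖ Matrix.single a b (1 : F) = algebraMap F _ c := by
      apply (cr e P).injective
      rw [hc, AlgEquiv.commutes]
    have h4 := congrFun (congrFun h3 (⟨0, hd⟩, a)) (⟨0, hd⟩, b)
    rw [Matrix.kroneckerMap_apply, Matrix.one_apply_eq, Matrix.single_apply, if_pos ⟨rfl, rfl⟩, mul_one,
      Matrix.algebraMap_matrix_apply, if_neg] at h4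
    · exact one_ne_zero h4
    · intro h5
      have := congrArg (fun z => (z.2 : ℕ)) h5
      simp [a, b] at this
  subst hm1
  change env R = ⊤
  rw [eq_top_iff]
  intro X _
  exact (hmem X).2 (full_of_m_one e P X)

/-- number of characters -/
theorem card_char_le (B : Type*) [Group B] [Finite B] : Finite (B →* F) ∧ Nat.card (B →* F) ≤ Nat.card B := by
  have h1 : LinearIndependent F (fun f : B →* F => (f : B → F)) := linearIndependent_monoidHom B F
  have := Fintype.ofFinite B
  have hfd : Finite (B →* F) := h1.finite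
  have := Fintype.ofFinite (B →* F)
  refine ⟨hfd, ?_⟩
  have h2 := h1.fintype_card_le_finrank
  rw [Module.finrank_fintype_fun_eq_card] at h2
  rw [Nat.card_eq_fintype_card, Nat.card_eq_fintype_card]
  exact h2

lemma comm_mem_scalars [Nonempty ι] {R : Subgroup (GL ι F)} (hR : Full R) {x y : R}
    (h : ∀ z : R, (x * y * x⁻¹ * y⁻¹) * z = z * (x * y * x⁻¹ * y⁻¹)) :
    (x : GL ι F) * y * (x : GL ι F)⁻¹ * (y : GL ι F)⁻¹ ∈ scalars ι F := by
  apply scalar_of_full_comm hR
  intro z hz
  exact congrArg Subtype.val (h ⟨z, hz⟩)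

/-- the character of a normalising element -/
theorem eq_top_of_pairing [Finite F] [Nonempty ι] {R : Subgroup (GL ι F)} (hR : Full R) (H : Subgroup R)
    (hcom : ∀ x ∈ H, ∀ g : R, g * x * g⁻¹ * x⁻¹ ∈ Subgroup.center R)
    (hZH : Subgroup.center R ≤ H) (hC : ∀ g : R, (∀ x ∈ H, g * x = x * g) → g ∈ Subgroup.center R) : H = ⊤ := by
  classical
  have hfin : Finite (Matrix ι ι F) := by unfold Matrix; infer_instance
  have hfinG : Finite (GL ι F) := inferInstance
  have hfinR : Finite R := Subtype.finite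
  obtain ⟨i0⟩ := ‹Nonempty ι›
  have hne : Nonempty ι := ⟨i0⟩
  let Z := Subgroup.center R
  have hsc : ∀ x ∈ H, ∀ g : R, ∃ c : Fˣ, ((g * x * g⁻¹ * x⁻¹ : R) : GL ι F) = sc ι c := by
    intro x hx g
    have h1 := hcom x hx g
    rw [center_eq hR, Subgroup.mem_subgroupOf] at h1
    obtain ⟨c, hc⟩ := mem_scalars_sc.mp h1
    exact ⟨c, hc.symm⟩
  have hsc' : ∀ x ∈ H, ∀ g : R, ∀ c : Fˣ, ((g * x * g⁻¹ * x⁻¹ : R) : GL ι F) = sc ι c →
      (((g * x * g⁻¹ * x⁻¹ : R) : GL ι F) : Matrix ι ι F) i0 i0 = c := by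
    intro x hx g c hc
    rw [hc, sc_val, Matrix.smul_apply, Matrix.one_apply_eq, smul_eq_mul, mul_one]
  let χ : R → (H →* F) := fun g =>
    { toFun := fun x => (((g * (x : R) * g⁻¹ * (x : R)⁻¹ : R) : GL ι F) : Matrix ι ι F) i0 i0
      map_one' := by simp
      map_mul' := by
        intro x y
        obtain ⟨c, hc⟩ := hsc x x.2 g
        obtain ⟨d, hd⟩ := hsc y y.2 g
        have h1 : ((g * ((x * y : H) : R) * g⁻¹ * ((x * y : H) : R)⁻¹ : R) : GL ι F) = sc ι (c * d) := by
          have h2 : (g * ((x * y : H) : R) * g⁻¹ * ((x * y : H) : R)⁻¹ : R) =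
              (g * (x : R) * g⁻¹ * (x : R)⁻¹) * ((x : R) * (g * (y : R) * g⁻¹ * (y : R)⁻¹) * (x : R)⁻¹) := by
            rw [Subgroup.coe_mul]; group
          rw [h2]
          have h3 : (((g * (x : R) * g⁻¹ * (x : R)⁻¹) * ((x : R) * (g * (y : R) * g⁻¹ * (y : R)⁻¹) * (x : R)⁻¹) : R) : GL ι F)
            = ((g * (x : R) * g⁻¹ * (x : R)⁻¹ : R) : GL ι F) * (((x : R) : GL ι F) * ((g * (y : R) * g⁻¹ * (y : R)⁻¹ : R) : GL ι F) *
              (((x : R) : GL ι F))⁻¹) := rfl
          rw [h3, hc, hd, ← sc_comm, mul_assoc (sc ι d), mul_inv_cancel, mul_one, map_mul]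
        rw [hsc' _ (x * y : H).2 g _ h1, hsc' _ x.2 g _ hc, hsc' _ y.2 g _ hd, Units.val_mul] }
  have hχ : ∀ g : R, ∀ x : H, χ g x = (((g * (x : R) * g⁻¹ * (x : R)⁻¹ : R) : GL ι F) : Matrix ι ι F) i0 i0 := fun g x => rfl
  have hχZ : ∀ g : R, ∀ x : H, x ∈ Z.subgroupOf H → χ g x = 1 := by
    intro g x hx
    rw [Subgroup.mem_subgroupOf] at hx
    have h1 : g * (x : R) * g⁻¹ * (x : R)⁻¹ = 1 := by
      rw [Subgroup.mem_center_iff.mp hx g]; group
    rw [hχ, h1]
    simp
  let Ψ : R → ((H ⧸ Z.subgroupOf H) →* F) := fun g => QuotientGroup.lift (Z.subgroupOf H) (χ g) (fun x hx => hχZ g x hx)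
  have hΨ : ∀ a b : R, Ψ a = Ψ b → a⁻¹ * b ∈ Z := by
    intro a b hab
    have h1 : ∀ x ∈ H, (a⁻¹ * b) * x = x * (a⁻¹ * b) := by
      intro x hx
      obtain ⟨c, hc⟩ := hsc x hx a
      obtain ⟨d, hd⟩ := hsc x hx b
      have h2 : χ a ⟨x, hx⟩ = χ b ⟨x, hx⟩ := congrArg (fun f : (H ⧸ Z.subgroupOf H) →* F => f (QuotientGroup.mk ⟨x, hx⟩)) hab
      rw [hχ, hχ, hsc' x hx a c hc, hsc' x hx b d hd] at h2
      have h3 : c = d := Units.ext h2
      have h4 : a * x * a⁻¹ * x⁻¹ = b * x * b⁻¹ * x⁻¹ := Subtype.ext (by rw [hc, hd, h3])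
      have h5 : a * x * a⁻¹ = b * x * b⁻¹ := mul_right_cancel h4
      have h6 : a⁻¹ * b * x * (a⁻¹ * b)⁻¹ = x := by
        calc a⁻¹ * b * x * (a⁻¹ * b)⁻¹ = a⁻¹ * (b * x * b⁻¹) * a := by group
          _ = a⁻¹ * (a * x * a⁻¹) * a := by rw [h5]
          _ = x := by group
      exact mul_inv_eq_iff_eq_mul.mp h6
    exact hC _ h1
  have hsub : (R ⧸ Z → ((H ⧸ Z.subgroupOf H) →* F)) := fun q => Ψ q.out
  have hinj : Function.Injective (fun q : R ⧸ Z => Ψ q.out) := by
    intro q q' hqq
    have h1 := hΨ _ _ hqq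
    have h2 : (QuotientGroup.mk q.out : R ⧸ Z) = QuotientGroup.mk q'.out := QuotientGroup.eq.mpr h1
    rwa [QuotientGroup.out_eq', QuotientGroup.out_eq'] at h2
  have hfinH : Finite (H ⧸ Z.subgroupOf H) := inferInstance
  obtain ⟨hf1, hf2⟩ := card_char_le (F := F) (H ⧸ Z.subgroupOf H)
  have h1 := Nat.card_le_card_of_injective _ hinj
  have h2 : Nat.card R = Nat.card (R ⧸ Z) * Nat.card Z := Subgroup.card_eq_card_quotient_mul_card_subgroup Z
  have h3 : Nat.card H = Nat.card (H ⧸ Z.subgroupOf H) * Nat.card (Z.subgroupOf H) :=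
    Subgroup.card_eq_card_quotient_mul_card_subgroup _
  have h4 : Nat.card (Z.subgroupOf H) = Nat.card Z := Nat.card_congr (Subgroup.subgroupOfEquivOfLe hZH).toEquiv
  apply Subgroup.eq_top_of_card_eq
  apply le_antisymm (Subgroup.card_le_card_group H)
  rw [h2, h3, h4]
  exact Nat.mul_le_mul_right _ (h1.trans hf2)

/-- groups of symplectic type have class at most two -/
theorem nil2_of_type [Finite F] [Nonempty ι] {r : ℕ} {R : Subgroup (GL ι F)} (h : IsSymplecticTypeGroup r R) (hR : Full R) :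
    Nil2 R := by
  have hfin : Finite (Matrix ι ι F) := by unfold Matrix; infer_instance
  have hfinG : Finite (GL ι F) := inferInstance
  have hfinR : Finite R := Subtype.finite
  have : Fact r.Prime := ⟨h.prime⟩
  by_cases hr2 : r = 2
  · subst hr2
    have hgood : H35.SympExp4.Good R := by
      refine ⟨h.pGroup, h.cyclic_of_characteristic, fun x => ?_⟩
      have h1 : Monoid.exponent R = 4 := by rw [h.exponent_eq]; rfl
      rw [← h1]
      exact Monoid.pow_exponent_eq_one x
    obtain ⟨ζ, hζ⟩ := H35.SympExp4.good_small _ R rfl hgood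
    intro x hx y hy
    exact comm_mem_scalars hR (x := ⟨x, hx⟩) (y := ⟨y, hy⟩) (fun z => hζ.central _ _ z)
  · have hexp : ∀ x : R, x ^ r = 1 := by
      intro x
      have hodd : Nat.gcd 2 r = 1 := by
        rcases h.prime.eq_two_or_odd' with h1 | h1
        · exact absurd h1 hr2
        · exact (Nat.coprime_two_left.mpr h1)
      have h1 : Monoid.exponent R = r := by rw [h.exponent_eq, hodd, mul_one]
      rw [← h1]
      exact Monoid.pow_exponent_eq_one x
    obtain ⟨H, hchar, h1, h2, h3⟩ := H3.Critical.exists_critical h.pGroup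
    by_cases hRt : Subsingleton R
    · intro x hx y hy
      have hx1 : (⟨x, hx⟩ : R) = 1 := Subsingleton.elim _ _
      have hx2 : x = 1 := congrArg Subtype.val hx1
      rw [hx2]
      simpa using (scalars ι F).one_mem
    have hnt : Nontrivial R := not_subsingleton_iff_nontrivial.mp hRt
    -- the centre of H is the centre of R
    let A : Subgroup R := H ⊓ Subgroup.centralizer (H : Set R)
    have hAchar : A.Characteristic := inferInstance
    have hAc : IsMulCommutative A := ⟨⟨by
      rintro ⟨x, hx⟩ ⟨y, hy⟩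
      apply Subtype.ext
      exact (Subgroup.mem_centralizer_iff.mp hy.2 x hx.1)⟩⟩
    have hcyc := h.cyclic_of_characteristic A hAchar hAc
    have hcard : Nat.card A ∣ r := by
      obtain ⟨g, hg⟩ := hcyc.exists_generator
      rw [← orderOf_eq_card_of_forall_mem_zpowers hg]
      apply orderOf_dvd_of_pow_eq_one
      apply Subtype.ext
      exact hexp g
    have hZA : Subgroup.center R ≤ A := by
      intro z hz
      have hz2 : z ∈ Subgroup.centralizer (H : Set R) := by
        rw [Subgroup.mem_centralizer_iff]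
        intro x _
        exact Subgroup.mem_center_iff.mp hz x
      exact ⟨h3 hz2, hz2⟩
    have hZne : Subgroup.center R ≠ ⊥ := by
      have := h.pGroup.center_nontrivial
      intro h0
      rw [Subgroup.nontrivial_iff_ne_bot] at this
      exact this h0
    have hAZ : A = Subgroup.center R := by
      symm
      apply Subgroup.eq_of_le_of_card_ge hZA
      have h4 : Nat.card (Subgroup.center R) ∣ Nat.card A := Subgroup.card_dvd_of_le hZA
      rcases (Nat.dvd_prime h.prime).mp (h4.trans hcard) with h5 | h5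
      · exact absurd (Subgroup.card_eq_one.mp h5) hZne
      · rw [h5]
        exact Nat.le_of_dvd h.prime.pos hcard
    have htop : H = ⊤ := by
      apply eq_top_of_pairing hR H
      · intro x hx g
        have h4 : ⁅x, g⁆ ∈ A := h2 x hx g
        have h5 : g * x * g⁻¹ * x⁻¹ = ⁅x, g⁆⁻¹ := by rw [commutatorElement_def]; group
        rw [h5, ← hAZ]
        exact A.inv_mem h4
      · exact hZA.trans inf_le_left
      · intro g hg
        rw [← hAZ]
        have hg2 : g ∈ Subgroup.centralizer (H : Set R) := by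
          rw [Subgroup.mem_centralizer_iff]
          intro x hx
          exact (hg x hx).symm
        exact ⟨h3 hg2, hg2⟩
    intro x hx y hy
    have h4 : ⁅(⟨x, hx⟩ : R), (⟨y, hy⟩ : R)⁆ ∈ A := h2 _ (by rw [htop]; trivial) _
    rw [hAZ, center_eq hR, Subgroup.mem_subgroupOf] at h4
    exact h4

/-- order and degree -/
theorem type_card [Finite F] [Nonempty ι] {r : ℕ} {R : Subgroup (GL ι F)} (h : IsSymplecticTypeGroup r R) (hR : Full R) :
    Nat.card R = Fintype.card ι ^ 2 * Nat.card (Subgroup.center R) := card_eq (nil2_of_type h hR) hR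

end H97.AschNil
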