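import Mathlib
import Cfsg.Agent.Lib.H97.AschNC3
import Cfsg.Agent.Lib.H97.AschNil
import Cfsg.Agent.Lib.H97.AschCases
import Cfsg.Agent.Lib.H96.AschSp2

/-!
Aschbacher library, part 40: the symplectic group lies in no member of the geometric classes.
-/

set_option autoImplicit false
set_option linter.unusedSectionVars false

namespace H97.AschNCSp

open Cfsg Cfsg.Geo Matrix H97.AschRad H97.AschUnits H97.AschCS H97.AschTensor H97.AschEnv H97.AschNonab
open H97.AschForm H97.AschNC H97.AschNC2 H97.AschNC3 H97.AschNil H97.AschCases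
open H96.AschSympType1 H96.AschSympType2 H96.AschSympType5 H96.AschAdj H96.AschSp H96.AschSp2
open scoped Kronecker

section general

variable {ι : Type} [Fintype ι] [DecidableEq ι] {F : Type*} [Field F]

/-- transvections exist -/
theorem exists_tv {σ : F ≃+* F} {ε : F} {f : (ι → F) → (ι → F) → F} (hf : HForm σ ε f) {u : ι → F} (hu : u ≠ 0)
    (huu : f u u = 0) {a : F} (ha : a ≠ 0) (hae : σ a + ε * a = 0) : ∃ g ∈ isom f, IsTv f g u a := by
  let w : ι → F := fun j => f (Pi.single j 1) u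
  have hw : ∀ v : ι → F, w ⬝ᵥ v = f v u := by
    intro v
    conv_rhs => rw [vec_eq_sum v, hf.sesq.sum_left]
    rw [dotProduct]
    refine Finset.sum_congr rfl (fun j _ => ?_)
    rw [hf.sesq.smul_left, mul_comm]
  have hT : ∀ (c : F) (v : ι → F), ((1 : Matrix ι ι F) + c • Matrix.vecMulVec u w) *ᵥ v = v + (c * f v u) • u := by
    intro c v
    rw [Matrix.add_mulVec, Matrix.one_mulVec, Matrix.smul_mulVec, Matrix.vecMulVec_mulVec, hw, op_smul_eq_smul, smul_smul]
  have hinv : ∀ c : F, ((1 : Matrix ι ι F) + c • Matrix.vecMulVec u w) * ((1 : Matrix ι ι F) + (-c) • Matrix.vecMulVec u w) = 1 := by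
    intro c
    apply matrix_ext_vec
    intro v
    rw [← Matrix.mulVec_mulVec, hT, hT, Matrix.one_mulVec, hf.sesq.add_left, hf.sesq.smul_left, huu, mul_zero, add_zero,
      add_assoc, ← add_smul]
    have : -c * f v u + c * f v u = 0 := by ring
    rw [this, zero_smul, add_zero]
  let g : GL ι F := ⟨1 + a • Matrix.vecMulVec u w, 1 + (-a) • Matrix.vecMulVec u w, hinv a, by
    have := hinv (-a)
    rwa [neg_neg] at this⟩
  have hg : ∀ v, (g : Matrix ι ι F) *ᵥ v = v + (a * f v u) • u := hT a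
  refine ⟨g, ?_, hg, ha, huu, ?_⟩
  · rw [mem_isom]
    intro v v'
    rw [hg, hg, hf.sesq.add_left, hf.sesq.add_right, hf.sesq.add_right, hf.sesq.smul_left, hf.sesq.smul_left,
      hf.sesq.smul_right, hf.sesq.smul_right, huu, map_mul]
    have h1 : f u v' = ε * σ (f v' u) := hf.herm u v'
    rw [h1]
    have h2 : σ a = -(ε * a) := eq_neg_of_add_eq_zero_left hae
    rw [h2]
    ring
  · exact hf.nd' u hu

/-- a one-dimensional nondegenerate subspace is not possible for an alternating form -/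
lemma two_le_of_nondeg {f : (ι → F) → (ι → F) → F} (hf : IsSymplecticForm f) {W : Submodule F (ι → F)}
    (hW : IsNondegenerateOn f W) (h0 : 0 < Module.finrank F W) : 2 ≤ Module.finrank F W := by
  by_contra hlt
  have h1 : Module.finrank F W = 1 := by omega
  obtain ⟨⟨w, hw⟩, hw0, hspan⟩ := finrank_eq_one_iff'.mp h1
  have hw0' : w ≠ 0 := fun h => hw0 (Subtype.ext h)
  obtain ⟨⟨x, hx, hxw⟩, -⟩ := hW w hw hw0'
  obtain ⟨c, hc⟩ := hspan ⟨x, hx⟩
  have hc' : c • w = x := congrArg Subtype.val hc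
  rw [← hc', hf.bilinear.smul_left, hf.alternating, mul_zero] at hxw
  exact hxw rfl

lemma card_top [Fintype F] : Nat.card (⊤ : Subfield F) = Fintype.card F := by
  rw [← Nat.card_eq_fintype_card]
  exact Nat.card_congr (Equiv.Set.univ F)

lemma ne_top_of_card [Fintype F] {F₀ : Subfield F} {r : ℕ} (hr : r.Prime) (h : Fintype.card F = Nat.card F₀ ^ r) :
    F₀ ≠ ⊤ := by
  rintro rfl
  rw [card_top] at h
  have h3 : 1 < Fintype.card F := Fintype.one_lt_card
  have h4 : Fintype.card F ^ 1 < Fintype.card F ^ r := Nat.pow_lt_pow_right h3 hr.one_lt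
  rw [pow_one] at h4
  omega

end general

variable {F : Type*} [Field F] {m : ℕ}

lemma sp_tv {u : Fin m ⊕ Fin m → F} (hu : u ≠ 0) {a : F} (ha : a ≠ 0) : ∃ g ∈ spGL m F, IsTv (sympForm m F) g u a :=
  exists_tv (sp_hform m F) hu ((sympForm_symplectic m F).alternating u) ha (by
    change a + -1 * a = 0
    ring)

lemma sp_gen (m : ℕ) (F : Type*) [Field F] : Gen (sympForm m F) {u | u ≠ 0} where
  span := by
    rw [eq_top_iff]
    intro v _
    by_cases hv : v = 0
    · rw [hv]; exact Submodule.zero_mem _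
    · exact Submodule.subset_span hv
  add := fun _ _ _ _ _ h => h
  nz := fun _ h => h

lemma sp_tvs (S : Subgroup (GL (Fin m ⊕ Fin m) F)) (hS : spGL m F ≤ S) : ∀ u ∈ {u : Fin m ⊕ Fin m → F | u ≠ 0},
    ∃ g ∈ S, ∃ a, IsTv (sympForm m F) g u a := by
  intro u hu
  obtain ⟨g, hg, h⟩ := sp_tv (m := m) hu (one_ne_zero)
  exact ⟨g, hS hg, 1, h⟩

lemma refl_sp (v w : Fin m ⊕ Fin m → F) (h : sympForm m F v w = 0) : sympForm m F w v = 0 :=
  (sp_hform m F).eq_zero_symm h

theorem sp_not_subspace {W : Submodule F (Fin m ⊕ Fin m → F)} (h0 : W ≠ ⊥) (h1 : W ≠ ⊤) :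
    ¬ spGL m F ≤ subspaceStabilizer W := by
  intro hle
  refine gen_subspace (sympForm_sesq m F) sympForm_nd refl_sp (sp_gen m F) h0 h1 ?_
  intro u hu
  obtain ⟨g, hg, a, h⟩ := sp_tvs _ hle u hu
  exact tv_stab h (fun w hw => (hg w).mp hw)

theorem sp_not_decomp {t k : ℕ} (hk : 2 ≤ k) {D : Fin t → Submodule F (Fin m ⊕ Fin m → F)} (hD : IsMDecomposition k D) :
    ¬ spGL m F ≤ decompositionStabilizer D :=
  fun hle => gen_decomposition (sympForm_sesq m F) sympForm_nd refl_sp (sp_gen m F) (sp_tvs _ hle) hk hD le_rfl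

theorem sp_not_field (hm : 2 ≤ m) {r : ℕ} (hr : r ≠ 1) {K : Subalgebra F (Matrix (Fin m ⊕ Fin m) (Fin m ⊕ Fin m) F)}
    (hK : IsFieldSubalgebra r K) : ¬ spGL m F ≤ subalgebraNormalizer K := by
  intro hle
  have hne := nonempty_index (m := m) (by omega)
  obtain ⟨u, hu⟩ : ∃ u : Fin m ⊕ Fin m → F, u ≠ 0 := exists_ne 0
  obtain ⟨g, hg, h⟩ := sp_tv (F := F) hu one_ne_zero
  exact not_mem_field (sympForm_sesq m F) h (by rw [card_index]; omega) hr hK (hle hg)

theorem sp_not_tensor (hm : 1 ≤ m) {n₁ n₂ : ℕ} (e : (Fin m ⊕ Fin m) ≃ Fin n₁ × Fin n₂) (P : GL (Fin m ⊕ Fin m) F)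
    (h1 : 2 ≤ n₁) (h2 : 3 ≤ n₂) : ¬ spGL m F ≤ tensorProductSubgroup n₁ n₂ e P := by
  intro hle
  have hne := nonempty_index (m := m) (by omega)
  obtain ⟨u, hu⟩ : ∃ u : Fin m ⊕ Fin m → F, u ≠ 0 := exists_ne 0
  obtain ⟨g, hg, h⟩ := sp_tv (F := F) hu one_ne_zero
  exact not_mem_tensor (sympForm_sesq m F) h e P h1 h2 (hle hg)

theorem sp_not_wreath (hm : 1 ≤ m) {k t : ℕ} (e : (Fin m ⊕ Fin m) ≃ (Fin t → Fin k)) (P : GL (Fin m ⊕ Fin m) F)
    (hk : 2 ≤ k) (ht : 2 ≤ t) (hkt : 3 ≤ k ∨ 3 ≤ t) : ¬ spGL m F ≤ tensorWreathSubgroup k t e P := by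
  intro hle
  have hne := nonempty_index (m := m) (by omega)
  obtain ⟨u, hu⟩ : ∃ u : Fin m ⊕ Fin m → F, u ≠ 0 := exists_ne 0
  obtain ⟨g, hg, h⟩ := sp_tv (F := F) hu one_ne_zero
  exact not_mem_wreath (sympForm_sesq m F) h e P hk ht hkt (hle hg)

theorem sp_not_subfield [Fintype F] (hm : 1 ≤ m) {F₀ : Subfield F} (h0 : F₀ ≠ ⊤) (P : GL (Fin m ⊕ Fin m) F) :
    ¬ spGL m F ≤ subfieldSubgroup F₀ P := by
  intro hle
  have hne := nonempty_index (m := m) (by omega)
  obtain ⟨u, hu⟩ : ∃ u : Fin m ⊕ Fin m → F, u ≠ 0 := exists_ne 0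
  exact h0 (subfield_top (sympForm_sesq m F) (S := spGL m F) (u := u) (fun a ha => sp_tv hu ha) hle)

theorem sp_not_type [Fintype F] (hm : 2 ≤ m) {r : ℕ} {R : Subgroup (GL (Fin m ⊕ Fin m) F)} (hR : IsSymplecticTypeGroup r R)
    (hi : ActsAbsolutelyIrreducibly (matrixSet R)) : ¬ spGL m F ≤ subgroupNormalizer R := by
  intro hle
  have hne := nonempty_index (m := m) (by omega)
  obtain ⟨u, hu⟩ : ∃ u : Fin m ⊕ Fin m → F, u ≠ 0 := exists_ne 0
  obtain ⟨g, hg, h⟩ := sp_tv (F := F) hu one_ne_zero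
  have hfull := full_of_absIrr hi
  exact not_mem_normalizer (sympForm_sesq m F) h (by rw [card_index]; omega) hfull (nil2_of_type hR hfull) (hle hg)

lemma exists_pair (hm : 2 ≤ m) {z : Fin m ⊕ Fin m → F} : ∃ x y, sympForm m F x z = 0 ∧ sympForm m F y z = 0 ∧
    sympForm m F x y ≠ 0 := by
  by_contra hcon
  push Not at hcon
  let h := sp_hform m F
  let W := h.perp (Submodule.span F {z})
  have hW : ∀ x, x ∈ W ↔ sympForm m F x z = 0 := by
    intro x
    constructor
    · intro hx; exact hx z (Submodule.mem_span_singleton_self z)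
    · intro hx w hw
      obtain ⟨c, rfl⟩ := Submodule.mem_span_singleton.mp hw
      rw [(sympForm_sesq m F).smul_right, hx, mul_zero]
  have h1 : W ≤ h.perp W := fun x hx y hy => hcon x y ((hW x).mp hx) ((hW y).mp hy)
  have h2 : h.perp W = Submodule.span F {z} := h.perp_perp _
  rw [h2] at h1
  have h3 := Submodule.finrank_mono h1
  have h4 := h.finrank_perp (Submodule.span F {z})
  have h5 : Module.finrank F (Submodule.span F {z}) ≤ 1 := by
    have := finrank_span_le_card (R := F) ({z} : Set (Fin m ⊕ Fin m → F))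
    simpa using this
  rw [card_index] at h4
  change _ + Module.finrank F W = _ at h4
  omega

theorem sp_not_quad (h2 : (2 : F) = 0) (hm : 2 ≤ m) {Q : (Fin m ⊕ Fin m → F) → F} (hQ : IsNondegenerateQuadraticForm Q)
    (hpol : ∀ u v, QuadraticMap.polar Q u v = sympForm m F u v) : ¬ spGL m F ≤ quadSimilarityGroup Q := by
  intro hle
  have hadd : ∀ x y, Q (x + y) = Q x + Q y + sympForm m F x y := by
    intro x y
    rw [← hpol, QuadraticMap.polar]; ring
  have key : ∀ z : Fin m ⊕ Fin m → F, z ≠ 0 → Q z = 1 := by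
    intro z hz
    obtain ⟨g, hg, h⟩ := sp_tv (F := F) hz one_ne_zero
    obtain ⟨c, hc⟩ := hle hg
    obtain ⟨x, y, hx, hy, hxy⟩ := exists_pair (F := F) hm (z := z)
    have hfix : ∀ v, sympForm m F v z = 0 → Q v = c * Q v := by
      intro v hv
      rw [← hc v, h.val, hv, mul_zero, zero_smul, add_zero]
    have hc1 : (c : F) = 1 := by
      have h3 : ∃ v, sympForm m F v z = 0 ∧ Q v ≠ 0 := by
        by_contra hcon
        push Not at hcon
        have h4 := hadd x y
        rw [hcon x hx, hcon y hy, hcon (x + y) (by rw [(sympForm_sesq m F).add_left, hx, hy, add_zero]), zero_add,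
          zero_add] at h4
        exact hxy h4.symm
      obtain ⟨v, hv, hQv⟩ := h3
      have h4 := hfix v hv
      have h5 : (c : F) * Q v = 1 * Q v := by rw [one_mul]; exact h4.symm
      exact mul_right_cancel₀ hQv h5
    obtain ⟨v, hv⟩ := h.ne
    have h3 := hc v
    rw [h.val, hc1, one_mul, one_mul, hadd, hQ.smul, (sympForm_sesq m F).smul_right] at h3
    have h4 : sympForm m F v z ^ 2 * (Q z + 1) = 0 := by
      have : (RingEquiv.refl F) (sympForm m F v z) = sympForm m F v z := rfl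
      rw [this] at h3
      linear_combination h3
    rcases mul_eq_zero.mp h4 with h5 | h5
    · exact absurd (pow_eq_zero_iff (two_ne_zero)|>.mp h5) hv
    · linear_combination h5 - h2
  have hne := nonempty_index (m := m) (by omega)
  obtain ⟨z, hz⟩ : ∃ z : Fin m ⊕ Fin m → F, z ≠ 0 := exists_ne 0
  obtain ⟨x, y, hx, hy, hxy⟩ := exists_pair (F := F) hm (z := z)
  have hx0 : x ≠ 0 := by
    rintro rfl
    exact hxy ((sympForm_sesq m F).zero_left y)
  have hxz : x + z ≠ 0 := by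
    intro h
    have h1 : x = -z := eq_neg_of_add_eq_zero_left h
    apply hxy
    rw [h1, ← neg_one_smul F, (sympForm_sesq m F).smul_left, refl_sp _ _ hy, mul_zero]
  have h3 := hadd x z
  rw [key _ hxz, key _ hx0, key _ hz, hx] at h3
  have h4 : (1 : F) = 0 := by linear_combination h3 + h2
  exact one_ne_zero h4

end H97.AschNCSp
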