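import Mathlib
import Cfsg.Agent.Lib.H97.AschNCSp
import Cfsg.Agent.Lib.H97.AschFrame
import Cfsg.Agent.Lib.H96.AschSU2

/-!
Aschbacher library, part 44: the special unitary group lies in no member of the geometric classes.
-/

set_option autoImplicit false
set_option linter.unusedSectionVars false

namespace H97.AschNCU

open Cfsg Cfsg.Geo Matrix H97.AschRad H97.AschUnits H97.AschCS H97.AschTensor H97.AschEnv H97.AschNonab
open H97.AschForm H97.AschNC H97.AschNC2 H97.AschNC3 H97.AschNil H97.AschCases H97.AschNCSp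
open H96.AschSympType1 H96.AschSympType2 H96.AschSympType5 H96.AschAdj H96.AschSU H96.AschSU2
open scoped Kronecker

section general

variable {ι : Type} [Fintype ι] [DecidableEq ι] {F : Type*} [Field F] {σ : F ≃+* F} {ε : F}
variable {f : (ι → F) → (ι → F) → F}

/-- transvections have determinant one -/
theorem tv_det (hf : HForm σ ε f) {g : GL ι F} {u : ι → F} {a : F} (h : IsTv f g u a) : g ∈ specialLinear ι F := by
  have hval : (g : Matrix ι ι F) = 1 + Matrix.replicateCol Unit (a • u) * Matrix.replicateRow Unit (fun j => f (Pi.single j 1) u) := by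
    apply matrix_ext_vec
    intro v
    have h1 : Matrix.replicateCol Unit (a • u) * Matrix.replicateRow Unit (fun j => f (Pi.single j 1) u) =
        Matrix.vecMulVec (a • u) (fun j => f (Pi.single j 1) u) := by
      ext i j
      simp [Matrix.mul_apply, Matrix.vecMulVec_apply]
    rw [h1, h.val, Matrix.add_mulVec, Matrix.one_mulVec, Matrix.vecMulVec_mulVec, op_smul_eq_smul, smul_smul]
    congr 2
    have hw : (fun j => f (Pi.single j 1) u) ⬝ᵥ v = f v u := by
      conv_rhs => rw [vec_eq_sum v, hf.sesq.sum_left]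
      rw [dotProduct]
      refine Finset.sum_congr rfl (fun j _ => ?_)
      rw [hf.sesq.smul_left, mul_comm]
    rw [hw, mul_comm]
  change g ∈ (Matrix.GeneralLinearGroup.det : GL ι F →* Fˣ).ker
  rw [MonoidHom.mem_ker]
  apply Units.ext
  rw [Matrix.GeneralLinearGroup.val_det_apply, hval, Matrix.det_one_add_replicateCol_mul_replicateRow, Units.val_one]
  have hw : (fun j => f (Pi.single j 1) u) ⬝ᵥ (a • u) = a * f u u := by
    rw [dotProduct_smul, smul_eq_mul]
    congr 1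
    conv_rhs => rw [vec_eq_sum u, hf.sesq.sum_left]
    rw [dotProduct]
    refine Finset.sum_congr rfl (fun j _ => ?_)
    rw [hf.sesq.smul_left, mul_comm, ← vec_eq_sum u]
  rw [hw, h.iso, mul_zero, add_zero]

lemma exists_skew (hσ2 : ∀ a, σ (σ a) = a) (hσ1 : σ ≠ RingEquiv.refl F) : ∃ a : F, a ≠ 0 ∧ σ a + 1 * a = 0 := by
  obtain ⟨x, hx⟩ : ∃ x, σ x ≠ x := by
    by_contra hcon
    push Not at hcon
    exact hσ1 (RingEquiv.ext hcon)
  refine ⟨x - σ x, sub_ne_zero.mpr (Ne.symm hx), ?_⟩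
  rw [map_sub, hσ2]; ring

end general

variable {F : Type*} [Field F] [Fintype F] {n q : ℕ} {σ : F ≃+* F}

/-- the standing hypotheses -/
structure Ctx (σ : F ≃+* F) (n q : ℕ) : Prop where
  card : Fintype.card F = q ^ 2
  val : ∀ x, σ x = x ^ q
  ne : σ ≠ RingEquiv.refl F
  form : HForm σ 1 (hermForm n F q)

lemma exists_ctx (hF : Fintype.card F = q ^ 2) (n : ℕ) : ∃ σ : F ≃+* F, Ctx σ n q := by
  obtain ⟨σ, h1, h2, h3⟩ := gu_hform hF n
  exact ⟨σ, hF, h1, h2, h3⟩

lemma Ctx.two_le (h : Ctx (F := F) σ n q) : 2 ≤ q := by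
  have h1 : 1 < Fintype.card F := Fintype.one_lt_card
  rw [h.card] at h1
  by_contra hlt
  have : q = 0 ∨ q = 1 := by omega
  rcases this with h | h <;> rw [h] at h1 <;> norm_num at h1

lemma Ctx.single (h : Ctx (F := F) σ n q) (i j : Fin n) :
    hermForm n F q (Pi.single i 1) (Pi.single j 1) = if i = j then 1 else 0 := by
  have h0 : (0 : F) ^ q = 0 := by rw [← h.val, map_zero]
  rw [hermForm, Finset.sum_eq_single i]
  · rw [Pi.single_eq_same, one_mul]
    by_cases hij : i = j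
    · subst hij; simp
    · rw [Pi.single_eq_of_ne hij, h0, if_neg hij]
  · intro b _ hb
    rw [Pi.single_eq_of_ne hb, zero_mul]
  · intro h; exact absurd (Finset.mem_univ _) h

/-- the isotropic vectors -/
def Iso (n q : ℕ) (F : Type*) [Field F] : Set (Fin n → F) := {u | u ≠ 0 ∧ hermForm n F q u u = 0}

lemma Ctx.tv (h : Ctx (F := F) σ n q) {u : Fin n → F} (hu : u ∈ Iso n q F) {a : F} (ha : a ≠ 0) (hs : σ a + 1 * a = 0) :
    ∃ g ∈ GU n F q ⊓ specialLinear (Fin n) F, IsTv (hermForm n F q) g u a := by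
  obtain ⟨g, hg, htv⟩ := exists_tv h.form hu.1 hu.2 ha hs
  exact ⟨g, ⟨hg, tv_det h.form htv⟩, htv⟩

lemma Ctx.tvs (h : Ctx (F := F) σ n q) (S : Subgroup (GL (Fin n) F)) (hS : GU n F q ⊓ specialLinear (Fin n) F ≤ S) :
    ∀ u ∈ Iso n q F, ∃ g ∈ S, ∃ a, IsTv (hermForm n F q) g u a := by
  intro u hu
  obtain ⟨a, ha, hs⟩ := exists_skew h.form.invol h.ne
  obtain ⟨g, hg, htv⟩ := h.tv hu ha hs
  exact ⟨g, hS hg, a, htv⟩

/-- vectors of norm `-1` in the field -/
lemma Ctx.norm (h : Ctx (F := F) σ n q) {c : F} (hc : c ≠ 0) (hcσ : σ c = c) : ∃ b : F, b ≠ 0 ∧ b * σ b = c := by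
  obtain ⟨w, hw⟩ := norm_surj h.card hc (by rw [← h.val, hcσ])
  exact ⟨w, w.ne_zero, by rw [h.val, hw]⟩

/-- norm one elements -/
lemma Ctx.ones (h : Ctx (F := F) σ n q) : ∃ ζ ξ : F, ζ * σ ζ = 1 ∧ ξ * σ ξ = 1 ∧ ζ ≠ 1 ∧ ξ ≠ 1 ∧ ζ ≠ ξ := by
  obtain ⟨x, hx⟩ : ∃ x, σ x ≠ x := by
    by_contra hcon
    push Not at hcon
    exact h.ne (RingEquiv.ext hcon)
  have hx0 : x ≠ 0 := by rintro rfl; exact hx (map_zero σ)
  have hx1 : x + 1 ≠ 0 := by
    intro h1
    apply hx
    have : x = -1 := eq_neg_of_add_eq_zero_left h1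
    rw [this, map_neg, map_one]
  have hs0 : σ x ≠ 0 := (map_ne_zero σ).mpr hx0
  have hs1 : σ x + 1 ≠ 0 := by
    have := (map_ne_zero σ).mpr hx1
    rwa [map_add, map_one] at this
  refine ⟨x / σ x, (x + 1) / (σ x + 1), ?_, ?_, ?_, ?_, ?_⟩
  · rw [map_div₀, h.form.invol]; field_simp
  · rw [map_div₀, map_add, map_add, map_one, h.form.invol]; field_simp
  · intro h1
    rw [div_eq_one_iff_eq hs0] at h1
    exact hx h1.symm
  · intro h1
    rw [div_eq_one_iff_eq hs1] at h1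
    exact hx (add_right_cancel h1).symm
  · intro h1
    rw [div_eq_div_iff hs0 hs1] at h1
    apply hx
    linear_combination -h1

lemma Ctx.iso_pair (h : Ctx (F := F) σ n q) {i j : Fin n} (hij : i ≠ j) {b : F} (hb : b * σ b = -1) :
    (Pi.single i 1 + b • Pi.single j 1 : Fin n → F) ∈ Iso n q F := by
  refine ⟨?_, ?_⟩
  · intro h0
    have := congrFun h0 i
    simp [Pi.single_eq_of_ne hij] at this
  · rw [h.form.sesq.add_left, h.form.sesq.add_right, h.form.sesq.add_right, h.form.sesq.smul_left,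
      h.form.sesq.smul_right, h.form.sesq.smul_left, h.form.sesq.smul_right, h.single, h.single, h.single, h.single,
      if_pos rfl, if_pos rfl, if_neg hij, if_neg (Ne.symm hij)]
    linear_combination hb

lemma Ctx.gen (h : Ctx (F := F) σ n q) (hn : 2 ≤ n) : Gen (hermForm n F q) (Iso n q F) where
  span := by
    rw [eq_top_iff]
    intro v _
    obtain ⟨b, hb0, hb⟩ := h.norm (c := -1) (neg_ne_zero.mpr one_ne_zero) (by rw [map_neg, map_one])
    obtain ⟨ζ, -, hζ, -, hζ1, -⟩ := h.ones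
    have hζ0 : ζ ≠ 0 := by rintro rfl; rw [zero_mul] at hζ; exact zero_ne_one hζ
    have key : ∀ i : Fin n, (Pi.single i 1 : Fin n → F) ∈ Submodule.span F (Iso n q F) := by
      intro i
      obtain ⟨j, hj⟩ : ∃ j : Fin n, j ≠ i := by
        by_cases hi : (i : ℕ) = 0
        · exact ⟨⟨1, by omega⟩, fun h => by have := congrArg Fin.val h; simp at this; omega⟩
        · exact ⟨⟨0, by omega⟩, fun h => hi (congrArg Fin.val h).symm⟩
      have h1 := Submodule.subset_span (R := F) (h.iso_pair (Ne.symm hj) hb)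
      have h2 := Submodule.subset_span (R := F) (h.iso_pair (Ne.symm hj) (b := b * ζ) (by rw [map_mul]; linear_combination hb * ζ * σ ζ - hζ))
      have h3 := Submodule.sub_mem _ (Submodule.smul_mem _ ζ h1) h2
      have h4 : ζ • (Pi.single i 1 + b • Pi.single j 1 : Fin n → F) - (Pi.single i 1 + (b * ζ) • Pi.single j 1) =
          (ζ - 1) • (Pi.single i 1 : Fin n → F) := by
        rw [smul_add, smul_smul, sub_smul, one_smul, mul_comm b ζ]; abel
      rw [h4] at h3
      have h5 := Submodule.smul_mem _ (ζ - 1)⁻¹ h3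
      rwa [smul_smul, inv_mul_cancel₀ (sub_ne_zero.mpr hζ1), one_smul] at h5
    rw [vec_eq_sum v]
    exact Submodule.sum_mem _ (fun i _ => Submodule.smul_mem _ _ (key i))
  add := by
    intro u hu u' hu' huu h0
    refine ⟨h0, ?_⟩
    rw [h.form.sesq.add_left, h.form.sesq.add_right, h.form.sesq.add_right, hu.2, hu'.2, huu, h.form.eq_zero_symm huu]
    simp
  nz := fun _ h => h.1

lemma Ctx.exists_iso (h : Ctx (F := F) σ n q) (hn : 2 ≤ n) : ∃ u, u ∈ Iso n q F := by
  obtain ⟨b, hb0, hb⟩ := h.norm (c := -1) (neg_ne_zero.mpr one_ne_zero) (by rw [map_neg, map_one])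
  exact ⟨_, h.iso_pair (i := ⟨0, by omega⟩) (j := ⟨1, by omega⟩) (fun h => by have := congrArg Fin.val h; simp at this) hb⟩

theorem Ctx.not_subspace (h : Ctx (F := F) σ n q) (hn : 2 ≤ n) {W : Submodule F (Fin n → F)} (h0 : W ≠ ⊥) (h1 : W ≠ ⊤) :
    ¬ GU n F q ⊓ specialLinear (Fin n) F ≤ subspaceStabilizer W := by
  intro hle
  refine gen_subspace h.form.sesq h.form.nd (fun v w => h.form.eq_zero_symm) (h.gen hn) h0 h1 ?_
  intro u hu
  obtain ⟨g, hg, a, htv⟩ := h.tvs _ hle u hu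
  exact tv_stab htv (fun w hw => (hg w).mp hw)

theorem Ctx.not_decomp (h : Ctx (F := F) σ n q) (hn : 2 ≤ n) {t k : ℕ} (hk : 2 ≤ k) {D : Fin t → Submodule F (Fin n → F)}
    (hD : IsMDecomposition k D) : ¬ GU n F q ⊓ specialLinear (Fin n) F ≤ decompositionStabilizer D :=
  fun hle => gen_decomposition h.form.sesq h.form.nd (fun v w => h.form.eq_zero_symm) (h.gen hn) (h.tvs _ hle) hk hD le_rfl

theorem Ctx.not_field (h : Ctx (F := F) σ n q) (hn : 3 ≤ n) {r : ℕ} (hr : r ≠ 1) {K : Subalgebra F (Matrix (Fin n) (Fin n) F)}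
    (hK : IsFieldSubalgebra r K) : ¬ GU n F q ⊓ specialLinear (Fin n) F ≤ subalgebraNormalizer K := by
  intro hle
  obtain ⟨u, hu⟩ := h.exists_iso (by omega)
  obtain ⟨g, hg, a, htv⟩ := h.tvs _ hle u hu
  exact not_mem_field h.form.sesq htv (by rw [Fintype.card_fin]; exact hn) hr hK hg

theorem Ctx.not_tensor (h : Ctx (F := F) σ n q) (hn : 2 ≤ n) {n₁ n₂ : ℕ} (e : Fin n ≃ Fin n₁ × Fin n₂) (P : GL (Fin n) F)
    (h1 : 2 ≤ n₁) (h2 : 3 ≤ n₂) : ¬ GU n F q ⊓ specialLinear (Fin n) F ≤ tensorProductSubgroup n₁ n₂ e P := by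
  intro hle
  obtain ⟨u, hu⟩ := h.exists_iso hn
  obtain ⟨g, hg, a, htv⟩ := h.tvs _ hle u hu
  exact not_mem_tensor h.form.sesq htv e P h1 h2 hg

theorem Ctx.not_wreath (h : Ctx (F := F) σ n q) (hn : 2 ≤ n) {k t : ℕ} (e : Fin n ≃ (Fin t → Fin k)) (P : GL (Fin n) F)
    (hk : 2 ≤ k) (ht : 2 ≤ t) (hkt : 3 ≤ k ∨ 3 ≤ t) :
    ¬ GU n F q ⊓ specialLinear (Fin n) F ≤ tensorWreathSubgroup k t e P := by
  intro hle
  obtain ⟨u, hu⟩ := h.exists_iso hn
  obtain ⟨g, hg, a, htv⟩ := h.tvs _ hle u hu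
  exact not_mem_wreath h.form.sesq htv e P hk ht hkt hg

theorem Ctx.not_type (h : Ctx (F := F) σ n q) (hn : 4 ≤ n) {r : ℕ} {R : Subgroup (GL (Fin n) F)}
    (hR : IsSymplecticTypeGroup r R) (hi : ActsAbsolutelyIrreducibly (matrixSet R)) :
    ¬ GU n F q ⊓ specialLinear (Fin n) F ≤ subgroupNormalizer R := by
  intro hle
  have hne : Nonempty (Fin n) := ⟨⟨0, by omega⟩⟩
  obtain ⟨u, hu⟩ := h.exists_iso (by omega)
  obtain ⟨g, hg, a, htv⟩ := h.tvs _ hle u hu
  have hfull := full_of_absIrr hi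
  exact not_mem_normalizer h.form.sesq htv (by rw [Fintype.card_fin]; exact hn) hfull (nil2_of_type hR hfull) hg

/-! ### frames -/

lemma lines_aux {f : (Fin n → F) → (Fin n → F) → F} (hf : HForm σ 1 f) {g : GL (Fin n) F} {u : Fin n → F} {a : F}
    (h : IsTv f g u a) {t : ℕ} {D : Fin t → Submodule F (Fin n → F)} (hD : IsNondegenerateMDecomposition f 1 D)
    {i0 i1 i2 : Fin t} (h01 : i0 ≠ i1) (h02 : i0 ≠ i2) (h12 : i1 ≠ i2) {w0 w1 w2 : Fin n → F} (hw0 : w0 ∈ D i0)
    (hw1 : w1 ∈ D i1) (hw2 : w2 ∈ D i2) (hu0 : f w0 u ≠ 0) (hu1 : f u w1 ≠ 0) (hu2 : f u w2 ≠ 0) :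
    g ∉ decompositionStabilizer D := by
  rintro ⟨π, hπ⟩
  have h1 : (g : Matrix (Fin n) (Fin n) F) *ᵥ w0 ∈ D (π i0) := by
    rw [← hπ i0]
    exact ⟨w0, hw0, Matrix.toLin'_apply _ _⟩
  rw [h.val] at h1
  have h2 : π i0 = i1 := by
    by_contra hne
    have h3 := hD.orthogonal (π i0) i1 hne _ h1 w1 hw1
    rw [hf.sesq.add_left, hf.sesq.smul_left, hD.orthogonal i0 i1 h01 w0 hw0 w1 hw1, zero_add] at h3
    exact mul_ne_zero (mul_ne_zero h.a0 hu0) hu1 h3
  have h3 : π i0 = i2 := by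
    by_contra hne
    have h3 := hD.orthogonal (π i0) i2 hne _ h1 w2 hw2
    rw [hf.sesq.add_left, hf.sesq.smul_left, hD.orthogonal i0 i2 h02 w0 hw0 w2 hw2, zero_add] at h3
    exact mul_ne_zero (mul_ne_zero h.a0 hu0) hu2 h3
  exact h12 (h2.symm.trans h3)

lemma Ctx.exists_beta (h : Ctx (F := F) σ n q) (hq : 3 ≤ q) : ∃ β : F, σ β = β ∧ β ≠ 0 ∧ β ≠ -1 := by
  classical
  by_contra hcon
  push Not at hcon
  have h1 : ∀ x : F, x ^ q = x → x = 0 ∨ x = -1 := by
    intro x hx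
    by_cases h0 : x = 0
    · exact Or.inl h0
    · exact Or.inr (hcon x (by rw [h.val, hx]) h0)
  -- all norms are 0 or -1, hence (q+1)-th powers of units are -1
  obtain ⟨b, hb0, hb⟩ := h.norm (c := 1) one_ne_zero (map_one σ)
  have hall : ∀ x : F, x ≠ 0 → x ^ (q + 1) = -1 := by
    intro x hx
    have h2 : (x ^ (q + 1)) ^ q = x ^ (q + 1) := by
      rw [pow_succ, mul_pow, ← pow_mul, ← pow_two, ← h.card, FiniteField.pow_card, mul_comm]
    exact (h1 _ h2).resolve_left (pow_ne_zero _ hx)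
  have hone : (1 : F) = -1 := by
    have := hall 1 one_ne_zero
    rwa [one_pow] at this
  -- x^(q+1) = 1 for all units: too many roots
  have hroots : ∀ x : Fˣ, x ^ (q + 1) = 1 := by
    intro x
    apply Units.ext
    rw [Units.val_pow_eq_pow_val, hall _ x.ne_zero, Units.val_one, ← hone]
  obtain ⟨g, hg⟩ := IsCyclic.exists_generator (α := Fˣ)
  have h3 : orderOf g = Fintype.card F - 1 := by
    rw [orderOf_eq_card_of_forall_mem_zpowers hg, Nat.card_units, Nat.card_eq_fintype_card]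
  have h4 := orderOf_dvd_of_pow_eq_one (hroots g)
  rw [h3, h.card] at h4
  have h5 := Nat.le_of_dvd (by omega) h4
  have h6 : 3 * q ≤ q ^ 2 := by nlinarith
  omega

theorem Ctx.not_lines (h : Ctx (F := F) σ n q) (hn : 3 ≤ n) (hnq : 3 ≤ q ∨ 4 ≤ n) {t : ℕ}
    {D : Fin t → Submodule F (Fin n → F)} (hD : IsNondegenerateMDecomposition (hermForm n F q) 1 D) :
    ¬ GU n F q ⊓ specialLinear (Fin n) F ≤ decompositionStabilizer D := by
  classical
  intro hle
  have htn : n = t := by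
    have := H97.AschBlock.card_decomposition hD.decomp
    rw [Fintype.card_fin, mul_one] at this
    exact this
  subst htn
  have hw : ∀ i, ∃ w ∈ D i, hermForm n F q w w ≠ 0 := by
    intro i
    have h1 := hD.decomp.finrank_eq i
    obtain ⟨⟨w, hw⟩, hw0, hspan⟩ := finrank_eq_one_iff'.mp h1
    have hw0' : w ≠ 0 := fun h => hw0 (Subtype.ext h)
    obtain ⟨⟨x, hx, hxw⟩, -⟩ := hD.nondegenerate i w hw hw0'
    obtain ⟨c, hc⟩ := hspan ⟨x, hx⟩
    have hc' : c • w = x := congrArg Subtype.val hc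
    rw [← hc', h.form.sesq.smul_left] at hxw
    exact ⟨w, hw, fun h => hxw (by rw [h, mul_zero])⟩
  choose w hwD hww using hw
  have ho : ∀ i j, i ≠ j → hermForm n F q (w i) (w j) = 0 := fun i j hij => hD.orthogonal i j hij _ (hwD i) _ (hwD j)
  have hfix : ∀ i, σ (hermForm n F q (w i) (w i)) = hermForm n F q (w i) (w i) := by
    intro i
    have := h.form.herm (w i) (w i)
    rw [one_mul] at this
    exact this.symm
  obtain ⟨s, hs, hs1⟩ := exists_skew h.form.invol h.ne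
  have hfin : ∀ (x : Fin n → F) (i j k : Fin n), i ≠ j → i ≠ k → j ≠ k → x i ≠ 0 → x j ≠ 0 → x k ≠ 0 →
      hermForm n F q (∑ l, x l • w l) (∑ l, x l • w l) = 0 → False := by
    intro x i j k hij hik hjk hxi hxj hxk hiso
    set u := ∑ l, x l • w l with hu
    have hur : ∀ i, hermForm n F q u (w i) = x i * hermForm n F q (w i) (w i) := by
      intro i
      rw [hu, h.form.sesq.sum_left, Finset.sum_eq_single i]
      · rw [h.form.sesq.smul_left]
      · intro j _ hj
        rw [h.form.sesq.smul_left, ho j i hj, mul_zero]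
      · intro h; exact absurd (Finset.mem_univ _) h
    have hul : ∀ i, hermForm n F q (w i) u ≠ 0 ↔ hermForm n F q u (w i) ≠ 0 := by
      intro i
      rw [not_iff_not]
      exact ⟨h.form.eq_zero_symm, h.form.eq_zero_symm⟩
    have hu0 : u ≠ 0 := by
      intro h0
      have := hur i
      rw [h0, h.form.sesq.zero_left] at this
      exact mul_ne_zero hxi (hww i) this.symm
    obtain ⟨g, hg, htv⟩ := h.tv ⟨hu0, hiso⟩ hs hs1
    exact lines_aux h.form htv hD hij hik hjk (hwD i) (hwD j) (hwD k)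
      ((hul i).mpr (by rw [hur]; exact mul_ne_zero hxi (hww i))) (by rw [hur]; exact mul_ne_zero hxj (hww j))
      (by rw [hur]; exact mul_ne_zero hxk (hww k)) (hle hg)
  have hsum : ∀ x : Fin n → F, hermForm n F q (∑ l, x l • w l) (∑ l, x l • w l) =
      ∑ l, x l * σ (x l) * hermForm n F q (w l) (w l) := by
    intro x
    rw [h.form.sesq.sum_left]
    refine Finset.sum_congr rfl (fun i _ => ?_)
    rw [h.form.sesq.smul_left, h.form.sesq.sum_right, Finset.sum_eq_single i]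
    · rw [h.form.sesq.smul_right]; ring
    · intro j _ hj
      rw [h.form.sesq.smul_right, ho i j (Ne.symm hj), mul_zero]
    · intro h; exact absurd (Finset.mem_univ _) h
  let i0 : Fin n := ⟨0, by omega⟩
  let i1 : Fin n := ⟨1, by omega⟩
  let i2 : Fin n := ⟨2, by omega⟩
  have h01 : i0 ≠ i1 := fun h => by have := congrArg Fin.val h; simp [i0, i1] at this
  have h02 : i0 ≠ i2 := fun h => by have := congrArg Fin.val h; simp [i0, i2] at this
  have h12 : i1 ≠ i2 := fun h => by have := congrArg Fin.val h; simp [i1, i2] at this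
  by_cases hq : 3 ≤ q
  · obtain ⟨β, hβ, hβ0, hβ1⟩ := h.exists_beta hq
    have hne : -(1 + β) ≠ 0 := by
      intro h0
      apply hβ1
      linear_combination -h0
    have hN : ∀ (i : Fin n) (c : F), c ≠ 0 → σ c = c → ∃ x : F, x ≠ 0 ∧ x * σ x * hermForm n F q (w i) (w i) = c := by
      intro i c hc hcσ
      obtain ⟨x, hx0, hx⟩ := h.norm (c := c / hermForm n F q (w i) (w i)) (div_ne_zero hc (hww i)) (by
        rw [map_div₀, hcσ, hfix])
      exact ⟨x, hx0, by rw [hx, div_mul_cancel₀ _ (hww i)]⟩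
    obtain ⟨x, hx0, hx⟩ := hN i0 1 one_ne_zero (map_one σ)
    obtain ⟨y, hy0, hy⟩ := hN i1 β hβ0 hβ
    obtain ⟨z, hz0, hz⟩ := hN i2 (-(1 + β)) hne (by rw [map_neg, map_add, map_one, hβ])
    let X : Fin n → F := fun i => if i = i0 then x else if i = i1 then y else if i = i2 then z else 0
    have hX0 : X i0 = x := if_pos rfl
    have hX1 : X i1 = y := by simp [X, Ne.symm h01]
    have hX2 : X i2 = z := by simp [X, Ne.symm h02, Ne.symm h12]
    refine hfin X i0 i1 i2 h01 h02 h12 (by rw [hX0]; exact hx0) (by rw [hX1]; exact hy0) (by rw [hX2]; exact hz0) ?_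
    rw [hsum]
    have hsub : ∑ l, X l * σ (X l) * hermForm n F q (w l) (w l) =
        ∑ l ∈ ({i0, i1, i2} : Finset (Fin n)), X l * σ (X l) * hermForm n F q (w l) (w l) := by
      symm
      apply Finset.sum_subset (Finset.subset_univ _)
      intro l _ hl
      simp only [Finset.mem_insert, Finset.mem_singleton, not_or] at hl
      have : X l = 0 := by simp only [X]; rw [if_neg hl.1, if_neg hl.2.1, if_neg hl.2.2]
      rw [this, zero_mul, zero_mul]
    rw [hsub, Finset.sum_insert (by simp [h01, h02]), Finset.sum_insert (by simp [h12]), Finset.sum_singleton, hX0, hX1,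
      hX2, hx, hy, hz]
    ring
  · have hq2 : q = 2 := by have := h.two_le; omega
    have hn4 : 4 ≤ n := by
      rcases hnq with h | h
      · exact absurd h hq
      · exact h
    have h2 : (2 : F) = 0 := by
      apply H96.AschSp.two_eq_zero_of_even
      rw [h.card, hq2]; decide
    have hw1 : ∀ i, hermForm n F q (w i) (w i) = 1 := by
      intro i
      have h3 := hfix i
      have h4 := hww i
      rw [h.val] at h3
      generalize hermForm n F q (w i) (w i) = l at h3 h4 ⊢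
      rw [hq2, pow_two] at h3
      exact mul_left_cancel₀ h4 (by rw [mul_one]; exact h3)
    let i3 : Fin n := ⟨3, by omega⟩
    let X : Fin n → F := fun i => if (i : ℕ) < 4 then 1 else 0
    refine hfin X i0 i1 i2 h01 h02 h12 (by simp [X, i0]) (by simp [X, i1]) (by simp [X, i2]) ?_
    rw [hsum]
    have hsub : ∑ l, X l * σ (X l) * hermForm n F q (w l) (w l) = ∑ l : Fin n, if (l : ℕ) < 4 then (1 : F) else 0 := by
      refine Finset.sum_congr rfl (fun l _ => ?_)
      rw [hw1]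
      simp only [X]
      split_ifs <;> simp
    rw [hsub, Finset.sum_boole]
    have h4 : (Finset.univ.filter (fun l : Fin n => (l : ℕ) < 4)).card = 4 := by
      have : (Finset.univ.filter (fun l : Fin n => (l : ℕ) < 4)) = Finset.univ.map (Fin.castLEEmb hn4) := by
        ext l
        simp only [Finset.mem_filter, Finset.mem_univ, true_and, Finset.mem_map]
        constructor
        · intro hl
          exact ⟨⟨l, hl⟩, rfl⟩
        · rintro ⟨a, rfl⟩
          exact a.2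
      rw [this, Finset.card_map, Finset.card_univ, Fintype.card_fin]
    rw [h4]
    push_cast
    linear_combination 2 * h2

/-! ### subfields -/

/-- centres of transvections in a subfield group are rational up to a scalar -/
theorem rational_of_tv {ι : Type} [Fintype ι] [DecidableEq ι] {f : (ι → F) → (ι → F) → F} (hf : IsSesq σ f)
    {g : GL ι F} {u : ι → F} {a : F} (h : IsTv f g u a) {F₀ : Subfield F} {P : GL ι F} (hg : g ∈ subfieldSubgroup F₀ P) :
    ∃ (c : F) (z : ι → F), c ≠ 0 ∧ (∀ i, z i ∈ F₀) ∧ (P : Matrix ι ι F) *ᵥ z = c • u := by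
  have hu := h.u0 hf
  have hne : Nonempty ι := by
    obtain ⟨i, -⟩ := Function.ne_iff.mp hu
    exact ⟨i⟩
  have key : ∀ (w : ι → F) i, (((P⁻¹ * g * P : GL ι F) : Matrix ι ι F) *ᵥ w) i = w i +
        a * (f ((P : Matrix ι ι F) *ᵥ w) u * (((P⁻¹ : GL ι F) : Matrix ι ι F) *ᵥ u) i) := by
    intro w i
    rw [Units.val_mul, Units.val_mul, ← Matrix.mulVec_mulVec, ← Matrix.mulVec_mulVec, h.val, Matrix.mulVec_add,
      Matrix.mulVec_smul, Matrix.mulVec_mulVec, ← Units.val_mul, inv_mul_cancel, Units.val_one, Matrix.one_mulVec,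
      Pi.add_apply, Pi.smul_apply, smul_eq_mul]
    ring
  obtain ⟨v, hv⟩ := h.ne
  obtain ⟨j, hj⟩ : ∃ j, f ((P : Matrix ι ι F) *ᵥ Pi.single j 1) u ≠ 0 := by
    by_contra hcon
    push Not at hcon
    apply hv
    have h2 : v = (P : Matrix ι ι F) *ᵥ (((P⁻¹ : GL ι F) : Matrix ι ι F) *ᵥ v) := by
      rw [Matrix.mulVec_mulVec, ← Units.val_mul, mul_inv_cancel, Units.val_one, Matrix.one_mulVec]
    rw [h2]
    set w := ((P⁻¹ : GL ι F) : Matrix ι ι F) *ᵥ v
    rw [vec_eq_sum w, Matrix.mulVec_sum, hf.sum_left]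
    apply Finset.sum_eq_zero
    intro j _
    rw [Matrix.mulVec_smul, hf.smul_left, hcon j, mul_zero]
  refine ⟨a * f ((P : Matrix ι ι F) *ᵥ Pi.single j 1) u,
    (a * f ((P : Matrix ι ι F) *ᵥ Pi.single j 1) u) • (((P⁻¹ : GL ι F) : Matrix ι ι F) *ᵥ u), mul_ne_zero h.a0 hj, ?_, ?_⟩
  · intro i
    have h2 := over_of_tv hf h hg i j
    have h3 := key (Pi.single j 1) i
    rw [Matrix.mulVec_single_one] at h3
    change ((P⁻¹ * g * P : GL ι F) : Matrix ι ι F) i j = _ at h3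
    rw [h3] at h2
    have h4 : (Pi.single j (1 : F) : ι → F) i ∈ F₀ := by
      by_cases hij : i = j
      · rw [hij, Pi.single_eq_same]; exact F₀.one_mem
      · rw [Pi.single_eq_of_ne hij]; exact F₀.zero_mem
    have h5 := F₀.sub_mem h2 h4
    rw [add_sub_cancel_left, ← mul_assoc] at h5
    exact h5
  · rw [Matrix.mulVec_smul, Matrix.mulVec_mulVec, ← Units.val_mul, mul_inv_cancel, Units.val_one, Matrix.one_mulVec]

/-- ratios of admissible parameters lie in the subfield -/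
theorem ratio_mem {ι : Type} [Fintype ι] [DecidableEq ι] {f : (ι → F) → (ι → F) → F} (hf : IsSesq σ f)
    {g g' : GL ι F} {u : ι → F} {a a' : F} (h : IsTv f g u a) (h' : IsTv f g' u a') {F₀ : Subfield F} {P : GL ι F}
    (hg : g ∈ subfieldSubgroup F₀ P) (hg' : g' ∈ subfieldSubgroup F₀ P) : a' / a ∈ F₀ := by
  have hu := h.u0 hf
  have hne : Nonempty ι := by
    obtain ⟨i, -⟩ := Function.ne_iff.mp hu
    exact ⟨i⟩
  have key : ∀ (a : F) (g : GL ι F), IsTv f g u a → ∀ (w : ι → F) i, (((P⁻¹ * g * P : GL ι F) : Matrix ι ι F) *ᵥ w) i = w i +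
        a * (f ((P : Matrix ι ι F) *ᵥ w) u * (((P⁻¹ : GL ι F) : Matrix ι ι F) *ᵥ u) i) := by
    intro a g h w i
    rw [Units.val_mul, Units.val_mul, ← Matrix.mulVec_mulVec, ← Matrix.mulVec_mulVec, h.val, Matrix.mulVec_add,
      Matrix.mulVec_smul, Matrix.mulVec_mulVec, ← Units.val_mul, inv_mul_cancel, Units.val_one, Matrix.one_mulVec,
      Pi.add_apply, Pi.smul_apply, smul_eq_mul]
    ring
  obtain ⟨v, hv⟩ := h.ne
  have hPu : ((P⁻¹ : GL ι F) : Matrix ι ι F) *ᵥ u ≠ 0 := by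
    intro h0
    apply hu
    have h2 := congrArg (fun w => (P : Matrix ι ι F) *ᵥ w) h0
    simpa [Matrix.mulVec_mulVec, ← Units.val_mul] using h2
  obtain ⟨i, hi⟩ := Function.ne_iff.mp hPu
  obtain ⟨j, hj⟩ : ∃ j, f ((P : Matrix ι ι F) *ᵥ Pi.single j 1) u ≠ 0 := by
    by_contra hcon
    push Not at hcon
    apply hv
    have h2 : v = (P : Matrix ι ι F) *ᵥ (((P⁻¹ : GL ι F) : Matrix ι ι F) *ᵥ v) := by
      rw [Matrix.mulVec_mulVec, ← Units.val_mul, mul_inv_cancel, Units.val_one, Matrix.one_mulVec]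
    rw [h2]
    set w := ((P⁻¹ : GL ι F) : Matrix ι ι F) *ᵥ v
    rw [vec_eq_sum w, Matrix.mulVec_sum, hf.sum_left]
    apply Finset.sum_eq_zero
    intro j _
    rw [Matrix.mulVec_smul, hf.smul_left, hcon j, mul_zero]
  set c := f ((P : Matrix ι ι F) *ᵥ Pi.single j 1) u * (((P⁻¹ : GL ι F) : Matrix ι ι F) *ᵥ u) i with hc
  have hc0 : c ≠ 0 := mul_ne_zero hj hi
  have hent : ∀ (a : F) (g : GL ι F), IsTv f g u a → g ∈ subfieldSubgroup F₀ P → a * c ∈ F₀ := by
    intro a g h hg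
    have h2 := over_of_tv hf h hg i j
    have h3 := key a g h (Pi.single j 1) i
    rw [Matrix.mulVec_single_one] at h3
    change ((P⁻¹ * g * P : GL ι F) : Matrix ι ι F) i j = _ at h3
    rw [h3] at h2
    have h4 : (Pi.single j (1 : F) : ι → F) i ∈ F₀ := by
      by_cases hij : i = j
      · rw [hij, Pi.single_eq_same]; exact F₀.one_mem
      · rw [Pi.single_eq_of_ne hij]; exact F₀.zero_mem
    have h5 := F₀.sub_mem h2 h4
    rwa [add_sub_cancel_left] at h5
  have h1 := F₀.mul_mem (hent a' g' h' hg') (F₀.inv_mem (hent a g h hg))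
  have ha := h.a0
  have h2 : a' / a = a' * c * (a * c)⁻¹ := by field_simp
  rw [h2]; exact h1

/-- the subfield contains the fixed field of σ -/
theorem Ctx.fix_mem (h : Ctx (F := F) σ n q) (hn : 2 ≤ n) {F₀ : Subfield F} {P : GL (Fin n) F}
    (hle : GU n F q ⊓ specialLinear (Fin n) F ≤ subfieldSubgroup F₀ P) {x : F} (hx : σ x = x) : x ∈ F₀ := by
  by_cases hx0 : x = 0
  · rw [hx0]; exact F₀.zero_mem
  obtain ⟨u, hu⟩ := h.exists_iso hn
  obtain ⟨a, ha, hs⟩ := exists_skew h.form.invol h.ne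
  obtain ⟨g, hg, htv⟩ := h.tv hu ha hs
  obtain ⟨g', hg', htv'⟩ := h.tv hu (a := x * a) (mul_ne_zero hx0 ha) (by rw [map_mul, hx]; linear_combination x * hs)
  have h1 := ratio_mem h.form.sesq htv htv' (hle hg) (hle hg')
  rwa [mul_div_assoc, div_self ha, mul_one] at h1

/-- two different isotropic lines through a nonisotropic rational point are impossible -/
theorem Ctx.not_subfield_fix (h : Ctx (F := F) σ n q) (hn : 3 ≤ n) {F₀ : Subfield F} (hF₀ : ∀ x, x ∈ F₀ ↔ σ x = x)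
    {P : GL (Fin n) F} : ¬ GU n F q ⊓ specialLinear (Fin n) F ≤ subfieldSubgroup F₀ P := by
  intro hle
  have hrat : ∀ u ∈ Iso n q F, ∃ (c : F) (z : Fin n → F), c ≠ 0 ∧ (∀ i, z i ∈ F₀) ∧
      (P : Matrix (Fin n) (Fin n) F) *ᵥ z = c • u := by
    intro u hu
    obtain ⟨g, hg, a, htv⟩ := h.tvs _ hle u hu
    exact rational_of_tv h.form.sesq htv hg
  have hPinj : ∀ {z z' : Fin n → F}, (P : Matrix (Fin n) (Fin n) F) *ᵥ z = (P : Matrix (Fin n) (Fin n) F) *ᵥ z' → z = z' := by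
    intro z z' hzz
    have h1 := congrArg (fun w => ((P⁻¹ : GL (Fin n) F) : Matrix (Fin n) (Fin n) F) *ᵥ w) hzz
    simpa only [Matrix.mulVec_mulVec, ← Units.val_mul, inv_mul_cancel, Units.val_one, Matrix.one_mulVec] using h1
  let i0 : Fin n := ⟨0, by omega⟩
  let i1 : Fin n := ⟨1, by omega⟩
  let i2 : Fin n := ⟨2, by omega⟩
  have h01 : i0 ≠ i1 := fun h => by have := congrArg Fin.val h; simp [i0, i1] at this
  have h02 : i0 ≠ i2 := fun h => by have := congrArg Fin.val h; simp [i0, i2] at this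
  have h12 : i1 ≠ i2 := fun h => by have := congrArg Fin.val h; simp [i1, i2] at this
  obtain ⟨b, hb0, hb⟩ := h.norm (c := -1) (neg_ne_zero.mpr one_ne_zero) (by rw [map_neg, map_one])
  obtain ⟨ζ, ξ, hζ, hξ, hζ1, hξ1, hζξ⟩ := h.ones
  have hbz : ∀ ζ : F, ζ * σ ζ = 1 → (b * ζ) * σ (b * ζ) = -1 := by
    intro ζ hζ
    rw [map_mul]; linear_combination hb * ζ * σ ζ - hζ
  -- the vectors
  obtain ⟨c1, z1, hc1, hz1, hP1⟩ := hrat _ (h.iso_pair h01 hb)
  obtain ⟨c2, z2, hc2, hz2, hP2⟩ := hrat _ (h.iso_pair h01 (hbz ζ hζ))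
  obtain ⟨c3, z3, hc3, hz3, hP3⟩ := hrat _ (h.iso_pair h02 hb)
  obtain ⟨c4, z4, hc4, hz4, hP4⟩ := hrat _ (h.iso_pair h02 (hbz ζ hζ))
  obtain ⟨c5, z5, hc5, hz5, hP5⟩ := hrat _ (h.iso_pair h01 (hbz ξ hξ))
  have hζ0 : ζ ≠ 0 := by rintro rfl; rw [zero_mul] at hζ; exact zero_ne_one hζ
  have hξ0 : ξ ≠ 0 := by rintro rfl; rw [zero_mul] at hξ; exact zero_ne_one hξ
  -- a relation between z1, z2, z3, z4
  have hrel : (ζ / c1) • z1 - (1 / c2) • z2 = (ζ / c3) • z3 - (1 / c4) • z4 := by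
    apply hPinj
    rw [Matrix.mulVec_sub, Matrix.mulVec_sub, Matrix.mulVec_smul, Matrix.mulVec_smul, Matrix.mulVec_smul,
      Matrix.mulVec_smul, hP1, hP2, hP3, hP4, smul_smul, smul_smul, smul_smul, smul_smul, div_mul_cancel₀ _ hc1,
      div_mul_cancel₀ _ hc2, div_mul_cancel₀ _ hc3, div_mul_cancel₀ _ hc4]
    ext i
    simp only [Pi.sub_apply, Pi.smul_apply, Pi.add_apply, smul_eq_mul]
    ring
  -- apply a trace
  obtain ⟨μ, hμ⟩ : ∃ μ : F, μ * (ζ / c1) + σ (μ * (ζ / c1)) ≠ 0 := by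
    by_contra hcon
    push Not at hcon
    have h1 : ∀ y : F, y + σ y = 0 := by
      intro y
      have h2 := hcon (y / (ζ / c1))
      rwa [div_mul_cancel₀ _ (div_ne_zero hζ0 hc1)] at h2
    apply h.ne
    ext x
    have h2 := h1 1
    rw [map_one] at h2
    have h3 := h1 x
    change σ x = x
    linear_combination h3 - x * h2
  let θ : F → F := fun y => μ * y + σ (μ * y)
  have hθF : ∀ y, θ y ∈ F₀ := by
    intro y
    rw [hF₀]
    simp only [θ]
    rw [map_add, h.form.invol]; ring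
  have hθadd : ∀ y y' : F, θ (y - y') = θ y - θ y' := by
    intro y y'; simp only [θ]; rw [mul_sub, map_sub]; ring
  have hθmul : ∀ y r : F, r ∈ F₀ → θ (y * r) = θ y * r := by
    intro y r hr
    have hr' := (hF₀ r).mp hr
    simp only [θ]
    rw [← mul_assoc, map_mul, hr']; ring
  have hrel2 : θ (ζ / c1) • z1 - θ (1 / c2) • z2 = θ (ζ / c3) • z3 - θ (1 / c4) • z4 := by
    ext i
    have h1 := congrFun hrel i
    simp only [Pi.sub_apply, Pi.smul_apply, smul_eq_mul] at h1 ⊢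
    have h2 := congrArg θ h1
    rw [hθadd, hθadd, hθmul _ _ (hz1 i), hθmul _ _ (hz2 i), hθmul _ _ (hz3 i), hθmul _ _ (hz4 i)] at h2
    exact h2
  -- the common vector is a multiple of e0
  set z0 := θ (ζ / c1) • z1 - θ (1 / c2) • z2 with hz0
  have hz0F : ∀ i, z0 i ∈ F₀ := by
    intro i
    rw [hz0]
    exact F₀.sub_mem (F₀.mul_mem (hθF _) (hz1 i)) (F₀.mul_mem (hθF _) (hz2 i))
  have hPz0 : (P : Matrix (Fin n) (Fin n) F) *ᵥ z0 = (θ (ζ / c1) * c1 - θ (1 / c2) * c2) • (Pi.single i0 1 : Fin n → F) +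
      (θ (ζ / c1) * c1 * b - θ (1 / c2) * c2 * (b * ζ)) • (Pi.single i1 1 : Fin n → F) := by
    rw [hz0, Matrix.mulVec_sub, Matrix.mulVec_smul, Matrix.mulVec_smul, hP1, hP2]
    ext i
    simp only [Pi.sub_apply, Pi.smul_apply, Pi.add_apply, smul_eq_mul]
    ring
  have hPz0' : (P : Matrix (Fin n) (Fin n) F) *ᵥ z0 = (θ (ζ / c3) * c3 - θ (1 / c4) * c4) • (Pi.single i0 1 : Fin n → F) +
      (θ (ζ / c3) * c3 * b - θ (1 / c4) * c4 * (b * ζ)) • (Pi.single i2 1 : Fin n → F) := by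
    rw [hrel2, Matrix.mulVec_sub, Matrix.mulVec_smul, Matrix.mulVec_smul, hP3, hP4]
    ext i
    simp only [Pi.sub_apply, Pi.smul_apply, Pi.add_apply, smul_eq_mul]
    ring
  have hcoef : θ (ζ / c1) * c1 * b - θ (1 / c2) * c2 * (b * ζ) = 0 := by
    have h1 := congrFun (hPz0.symm.trans hPz0') i1
    simp only [Pi.add_apply, Pi.smul_apply, smul_eq_mul, Pi.single_eq_same, Pi.single_eq_of_ne (Ne.symm h01),
      Pi.single_eq_of_ne h12, mul_zero, mul_one, zero_add, add_zero] at h1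
    exact h1
  have hcoef2 : θ (ζ / c1) * c1 = θ (1 / c2) * c2 * ζ := by
    have h1 : b * (θ (ζ / c1) * c1 - θ (1 / c2) * c2 * ζ) = 0 := by linear_combination hcoef
    have h2 := (mul_eq_zero.mp h1).resolve_left hb0
    linear_combination h2
  set s := θ (1 / c2) * c2 with hs
  have hs0 : s ≠ 0 := by
    intro h0
    rw [h0, zero_mul] at hcoef2
    exact (mul_ne_zero hμ hc1) hcoef2
  have hPe : (P : Matrix (Fin n) (Fin n) F) *ᵥ z0 = (s * (ζ - 1)) • (Pi.single i0 1 : Fin n → F) := by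
    rw [hPz0, hcoef, zero_smul, add_zero, hcoef2]
    congr 1; ring
  -- compare with the isotropic points
  have ht0 : s * (ζ - 1) ≠ 0 := mul_ne_zero hs0 (sub_ne_zero.mpr hζ1)
  have hcmp : ∀ (η c : F) (z : Fin n → F), η * σ η = 1 → c ≠ 0 → (∀ i, z i ∈ F₀) →
      (P : Matrix (Fin n) (Fin n) F) *ᵥ z = c • (Pi.single i0 1 + (b * η) • Pi.single i1 1 : Fin n → F) →
      σ (c * (1 - η) / (s * (ζ - 1))) = c * (1 - η) / (s * (ζ - 1)) ∧ σ (c * η / c1) = c * η / c1 := by
    intro η c z hη hc hz hPz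
    have hη0 : η ≠ 0 := by rintro rfl; rw [zero_mul] at hη; exact zero_ne_one hη
    -- z = α z0 + β z1
    have h1 : z = (c * (1 - η) / (s * (ζ - 1))) • z0 + (c * η / c1) • z1 := by
      apply hPinj
      rw [Matrix.mulVec_add, Matrix.mulVec_smul, Matrix.mulVec_smul, hPe, hP1, hPz, smul_smul, smul_smul,
        div_mul_cancel₀ _ ht0, div_mul_cancel₀ _ hc1]
      ext i
      simp only [Pi.smul_apply, Pi.add_apply, smul_eq_mul]
      ring
    set α := c * (1 - η) / (s * (ζ - 1))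
    set β := c * η / c1
    have h2 : (σ α - α) • z0 + (σ β - β) • z1 = 0 := by
      ext i
      have h3 : z i = α * z0 i + β * z1 i := congrFun h1 i
      have h4 := congrArg σ h3
      rw [map_add, map_mul, map_mul, (hF₀ _).mp (hz i), (hF₀ _).mp (hz0F i), (hF₀ _).mp (hz1 i)] at h4
      simp only [Pi.smul_apply, Pi.add_apply, smul_eq_mul, Pi.zero_apply]
      linear_combination h3 - h4
    have h3 := congrArg (fun w => (P : Matrix (Fin n) (Fin n) F) *ᵥ w) h2
    simp only [Matrix.mulVec_add, Matrix.mulVec_smul, hPe, hP1, Matrix.mulVec_zero] at h3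
    have h4 := congrFun h3 i1
    simp only [Pi.add_apply, Pi.smul_apply, smul_eq_mul, Pi.single_eq_same, Pi.single_eq_of_ne (Ne.symm h01), mul_zero,
      zero_add, mul_one, Pi.zero_apply] at h4
    have h5 : σ β - β = 0 := (mul_eq_zero.mp h4).resolve_right (mul_ne_zero hc1 hb0)
    have h6 := congrFun h3 i0
    simp only [Pi.add_apply, Pi.smul_apply, smul_eq_mul, Pi.single_eq_same, Pi.single_eq_of_ne h01, mul_zero,
      add_zero, mul_one, Pi.zero_apply, h5, zero_mul] at h6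
    have h7 : σ α - α = 0 := (mul_eq_zero.mp h6).resolve_right ht0
    exact ⟨sub_eq_zero.mp h7, sub_eq_zero.mp h5⟩
  have hfinal : ∀ (η c : F) (z : Fin n → F), η * σ η = 1 → η ≠ 1 → c ≠ 0 → (∀ i, z i ∈ F₀) →
      (P : Matrix (Fin n) (Fin n) F) *ᵥ z = c • (Pi.single i0 1 + (b * η) • Pi.single i1 1 : Fin n → F) →
      σ (c1 / (s * (ζ - 1))) * η = -(c1 / (s * (ζ - 1))) := by
    intro η c z hη hη1 hc hz hPz
    have hη0 : η ≠ 0 := by rintro rfl; rw [zero_mul] at hη; exact zero_ne_one hη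
    have hση0 : σ η ≠ 0 := (map_ne_zero σ).mpr hη0
    obtain ⟨h1, h2⟩ := hcmp η c z hη hc hz hPz
    -- quotient
    have h3 : c * (1 - η) / (s * (ζ - 1)) = (c * η / c1) * ((1 - η) / η * (c1 / (s * (ζ - 1)))) := by
      field_simp
    have h4 : c * η / c1 ≠ 0 := div_ne_zero (mul_ne_zero hc hη0) hc1
    have h5 : σ ((1 - η) / η * (c1 / (s * (ζ - 1)))) = (1 - η) / η * (c1 / (s * (ζ - 1))) := by
      rw [h3, map_mul, h2] at h1
      exact mul_left_cancel₀ h4 h1
    rw [map_mul, map_div₀, map_sub, map_one] at h5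
    have h6 : (1 - σ η) / σ η = η - 1 := by
      rw [div_eq_iff hση0]; linear_combination -hη
    rw [h6] at h5
    have h7 : (η - 1) ≠ 0 := sub_ne_zero.mpr hη1
    have h8 : (η - 1) * (σ (c1 / (s * (ζ - 1))) * η) = (η - 1) * (-(c1 / (s * (ζ - 1)))) := by
      have : (1 - η) / η * (c1 / (s * (ζ - 1))) * η = (1 - η) * (c1 / (s * (ζ - 1))) := by
        rw [mul_right_comm, div_mul_cancel₀ _ hη0]
      calc (η - 1) * (σ (c1 / (s * (ζ - 1))) * η) = ((η - 1) * σ (c1 / (s * (ζ - 1)))) * η := by ring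
        _ = ((1 - η) / η * (c1 / (s * (ζ - 1)))) * η := by rw [h5]
        _ = (1 - η) * (c1 / (s * (ζ - 1))) := this
        _ = _ := by ring
    exact mul_left_cancel₀ h7 h8
  have h1 := hfinal ζ c2 z2 hζ hζ1 hc2 hz2 hP2
  have h2 := hfinal ξ c5 z5 hξ hξ1 hc5 hz5 hP5
  have h3 : σ (c1 / (s * (ζ - 1))) ≠ 0 := (map_ne_zero σ).mpr (div_ne_zero hc1 ht0)
  exact hζξ (mul_left_cancel₀ h3 (h1.trans h2.symm))

theorem Ctx.not_subfield (h : Ctx (F := F) σ n q) (hn : 3 ≤ n) {F₀ : Subfield F} {r : ℕ} (hr : r.Prime)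
    (hcard : Fintype.card F = Nat.card F₀ ^ r) {P : GL (Fin n) F} :
    ¬ GU n F q ⊓ specialLinear (Fin n) F ≤ subfieldSubgroup F₀ P := by
  intro hle
  by_cases hfix : ∀ x, x ∈ F₀ ↔ σ x = x
  · exact h.not_subfield_fix hn hfix hle
  -- the fixed field is contained properly, hence F₀ = ⊤
  have h1 : H96.AschDescent.fixField σ ≤ F₀ := by
    intro x hx
    exact h.fix_mem (by omega) hle (H96.AschDescent.mem_fixField.mp hx)
  have h2 : ∃ y ∈ F₀, σ y ≠ y := by
    by_contra hcon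
    push Not at hcon
    exact hfix (fun x => ⟨hcon x, fun hx => h1 (H96.AschDescent.mem_fixField.mpr hx)⟩)
  obtain ⟨y, hy, hy1⟩ := h2
  apply ne_top_of_card hr hcard
  rw [eq_top_iff]
  intro x _
  -- x = a + b y with a, b fixed
  have hd : y - σ y ≠ 0 := sub_ne_zero.mpr (Ne.symm hy1)
  have hσd : σ y - y ≠ 0 := sub_ne_zero.mpr hy1
  have hb : σ ((x - σ x) / (y - σ y)) = (x - σ x) / (y - σ y) := by
    rw [map_div₀, map_sub, map_sub, h.form.invol, h.form.invol, div_eq_div_iff hσd hd]; ring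
  have ha : σ (x - (x - σ x) / (y - σ y) * y) = x - (x - σ x) / (y - σ y) * y := by
    rw [map_sub, map_mul, hb]
    have : (x - σ x) / (y - σ y) * (y - σ y) = x - σ x := div_mul_cancel₀ _ hd
    linear_combination this
  have h3 : x = (x - (x - σ x) / (y - σ y) * y) + (x - σ x) / (y - σ y) * y := by ring
  rw [h3]
  exact F₀.add_mem (h.fix_mem (by omega) hle ha) (F₀.mul_mem (h.fix_mem (by omega) hle hb) hy)

end H97.AschNCU
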