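import Mathlib
import Cfsg.Agent.Lib.H97.AschNCU
import Cfsg.Agent.Lib.H96.AschSUfin

/-!
Aschbacher library, part 45: the list of maximal subgroups of the special unitary groups.
-/

set_option autoImplicit false
set_option linter.unusedSectionVars false

namespace H97.AschUCases

open Cfsg Cfsg.Geo Matrix H97.AschRad H97.AschUnits H97.AschCS H97.AschTensor H97.AschEnv H97.AschNonab
open H97.AschForm H97.AschNC H97.AschNC2 H97.AschNC3 H97.AschNil H97.AschCases H97.AschNCSp H97.AschNCU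
open H96.AschSympType1 H96.AschSympType2 H96.AschSympType5 H96.AschAdj H96.AschSU H96.AschSU2
open scoped Kronecker

variable {F : Type*} [Field F] {n q : ℕ}

/-- arithmetic of the class-six members -/
lemma even_exponent {p e : ℕ} (hp : p.Prime) (h : q ^ 2 = p ^ e) : ∃ j, e = 2 * j ∧ q = p ^ j := by
  have hqd : q ∣ p ^ e := by rw [← h]; exact Dvd.intro_left q (by ring)
  obtain ⟨j, _, hj⟩ := (Nat.dvd_prime_pow hp).1 hqd
  refine ⟨j, ?_, hj⟩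
  rw [hj, ← pow_mul] at h
  have := Nat.pow_right_injective hp.two_le h
  omega

/-- **the list of maximal subgroups of the special unitary groups** -/
theorem gu_cases [Fintype F] (hF : Fintype.card F = q ^ 2) (hn : 4 ≤ n) {H : Subgroup (GL (Fin n) F)}
    (hH : IsMaximalIn (GU n F q ⊓ specialLinear (Fin n) F) H) :
    (∃ W : Submodule F (Fin n → F), W ≠ ⊥ ∧ IsTotallySingularFor (hermForm n F q) W ∧
      H = subspaceStabilizer W ⊓ (GU n F q ⊓ specialLinear (Fin n) F)) ∨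
    (∃ W : Submodule F (Fin n → F), W ≠ ⊥ ∧ IsNondegenerateOn (hermForm n F q) W ∧ 2 * Module.finrank F W < n ∧
      H = subspaceStabilizer W ⊓ (GU n F q ⊓ specialLinear (Fin n) F)) ∨
    (∃ (t k : ℕ) (D : Fin t → Submodule F (Fin n → F)), IsNondegenerateMDecomposition (hermForm n F q) k D ∧
      2 ≤ t ∧ 1 ≤ k ∧ n = t * k ∧ H = decompositionStabilizer D ⊓ (GU n F q ⊓ specialLinear (Fin n) F)) ∨
    (∃ (k : ℕ) (D : Fin 2 → Submodule F (Fin n → F)), 2 * k = n ∧ IsMDecomposition k D ∧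
      (∀ i, IsTotallySingularFor (hermForm n F q) (D i)) ∧
      H = decompositionStabilizer D ⊓ (GU n F q ⊓ specialLinear (Fin n) F)) ∨
    (∃ (r : ℕ) (K : Subalgebra F (Matrix (Fin n) (Fin n) F)), r.Prime ∧ Odd r ∧ r ∣ n ∧ IsFieldSubalgebra r K ∧
      IsAdjointClosedFor (hermForm n F q) K ∧ H = subalgebraNormalizer K ⊓ (GU n F q ⊓ specialLinear (Fin n) F)) ∨
    (∃ (n₁ n₂ : ℕ) (e : Fin n ≃ Fin n₁ × Fin n₂) (P : GL (Fin n) F)
      (f₁ : (Fin n₁ → F) → (Fin n₁ → F) → F) (f₂ : (Fin n₂ → F) → (Fin n₂ → F) → F), 2 ≤ n₁ ∧ n₁ < n₂ ∧ n = n₁ * n₂ ∧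
      IsUnitaryFormPow q f₁ ∧ IsUnitaryFormPow q f₂ ∧
      IsTensorFormStructure (fun x : F => x ^ q) (hermForm n F q) f₁ f₂ e P ∧
      H = tensorProductSubgroup n₁ n₂ e P ⊓ (GU n F q ⊓ specialLinear (Fin n) F)) ∨
    (∃ (F₀ : Subfield F) (r : ℕ) (P : GL (Fin n) F), r.Prime ∧ Odd r ∧ Fintype.card F = Nat.card F₀ ^ r ∧
      IsFormRationalStructure (hermForm n F q) F₀ 1 P ∧
      H = subfieldSubgroup F₀ P ⊓ (GU n F q ⊓ specialLinear (Fin n) F)) ∨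
    (Odd q ∧ ∃ (F₀ : Subfield F) (P : GL (Fin n) F), Fintype.card F = Nat.card F₀ ^ 2 ∧
      IsFormRationalStructure (hermForm n F q) F₀ 1 P ∧
      H = subfieldSubgroup F₀ P ⊓ (GU n F q ⊓ specialLinear (Fin n) F)) ∨
    (Even n ∧ ∃ (F₀ : Subfield F) (P : GL (Fin n) F) (ζ : F), Fintype.card F = Nat.card F₀ ^ 2 ∧ ζ ≠ 0 ∧
      ζ + ζ ^ q = 0 ∧ IsFormRationalStructure (hermForm n F q) F₀ ζ P ∧
      (∀ u : Fin n → F, (∀ i, u i ∈ F₀) → hermForm n F q ((P : Matrix (Fin n) (Fin n) F) *ᵥ u)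
        ((P : Matrix (Fin n) (Fin n) F) *ᵥ u) = 0) ∧
      H = subfieldSubgroup F₀ P ⊓ (GU n F q ⊓ specialLinear (Fin n) F)) ∨
    (∃ (r : ℕ) (R : Subgroup (GL (Fin n) F)) (p j k : ℕ), IsSymplecticTypeGroup r R ∧
      ActsAbsolutelyIrreducibly (matrixSet R) ∧ R ≤ similarityGroup (hermForm n F q) ∧ p.Prime ∧ CharP F p ∧
      q = p ^ j ∧ 0 < j ∧ n = r ^ k ∧
      ((Odd r ∧ Nat.card (Subgroup.center R) = r ∧ Nat.card R = r ^ (1 + 2 * k) ∧ p ^ (2 * j) % r = 1 ∧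
        ∀ d, 0 < d → d < 2 * j → p ^ d % r ≠ 1) ∨
       (r = 2 ∧ j = 1 ∧ p % 4 = 3 ∧ Nat.card (Subgroup.center R) = 4 ∧ Nat.card R = 2 ^ (2 + 2 * k))) ∧
      H = subgroupNormalizer R ⊓ (GU n F q ⊓ specialLinear (Fin n) F)) ∨
    (∃ (k t : ℕ) (e : Fin n ≃ (Fin t → Fin k)) (P : GL (Fin n) F) (f₁ : (Fin k → F) → (Fin k → F) → F),
      3 ≤ k ∧ 2 ≤ t ∧ n = k ^ t ∧ ¬ (q = 2 ∧ k = 3) ∧ IsUnitaryFormPow q f₁ ∧
      IsTensorPowerFormStructure (fun x : F => x ^ q) (hermForm n F q) f₁ e P ∧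
      H = tensorWreathSubgroup k t e P ⊓ (GU n F q ⊓ specialLinear (Fin n) F)) ∨
    InUnitaryResidualClass H := by
  obtain ⟨σ, h⟩ := exists_ctx (F := F) hF n
  have hne : Nonempty (Fin n) := ⟨⟨0, by omega⟩⟩
  have hq2 := h.two_le
  have hcf : Fintype.card (Fin n) = n := Fintype.card_fin n
  have key : ∀ {X : Subgroup (GL (Fin n) F)}, H ≤ X ⊓ GU n F q → ¬ GU n F q ⊓ specialLinear (Fin n) F ≤ X →
      H = X ⊓ (GU n F q ⊓ specialLinear (Fin n) F) :=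
    fun hle hnot => eq_of_max hH (hle.trans inf_le_left) hnot
  rcases H96.AschSUfin.gu_theorem hF (by omega) (hH.1.le.trans inf_le_left) with ⟨M, hM, hle⟩ | h
  swap
  · iterate 11 right
    exact h
  rcases hM with (⟨W, h1, h2, rfl⟩ | ⟨W, h1, h2, h3, rfl⟩ | ⟨t, k, D, hD, rfl⟩ | ⟨k, D, h1, h2, h3, rfl⟩ |
    ⟨F₀, r, P, h1, h2, h3, h4, rfl⟩ | ⟨F₀, P, h1, h2, h3, rfl⟩ | ⟨F₀, P, ζ, h1, h2, h3, h4, h5, h6, rfl⟩ |
    ⟨r, R, p, e, k, h1, h2, h3, h4, h5, h6, rfl⟩) |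
    ⟨r, K, h1, h2, h3, h4, rfl⟩ | ⟨n₁, n₂, e, P, f₁, f₂, h1, h2, h3, h4, h5, rfl⟩ |
    ⟨k, t, e, P, f₁, h1, h2, h3, h4, h5, rfl⟩
  · left
    refine ⟨W, h1, h2, key hle (h.not_subspace (by omega) h1 ?_)⟩
    rintro rfl
    obtain ⟨w, hw⟩ : ∃ w : Fin n → F, w ≠ 0 := exists_ne 0
    obtain ⟨x, hx⟩ := h.form.nd w hw
    exact hx (h2 w Submodule.mem_top x Submodule.mem_top)
  · right; left
    refine ⟨W, h1, h2, h3, key hle (h.not_subspace (by omega) h1 ?_)⟩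
    rintro rfl
    rw [finrank_top, Module.finrank_fintype_fun_eq_card, hcf] at h3
    omega
  · iterate 2 right
    left
    have ht := hD.decomp.two_le
    have h1 := H97.AschBlock.card_decomposition hD.decomp
    rw [hcf] at h1
    have h2 : 1 ≤ k := hD.decomp.pos
    refine ⟨t, k, D, hD, ht, h2, h1, key hle ?_⟩
    by_cases hk : 2 ≤ k
    · exact h.not_decomp (by omega) hk hD.decomp
    · have hk1 : k = 1 := by omega
      subst hk1
      exact h.not_lines (by omega) (Or.inr hn) hD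
  · iterate 3 right
    left
    exact ⟨k, D, h1, h2, h3, key hle (h.not_decomp (by omega) (by omega) h2)⟩
  · iterate 6 right
    left
    exact ⟨F₀, r, P, h1, h2, h3, h4, key hle (h.not_subfield (by omega) h1 h3)⟩
  · iterate 7 right
    left
    exact ⟨h1, F₀, P, h2, h3, key hle (h.not_subfield (by omega) Nat.prime_two h2)⟩
  · iterate 8 right
    left
    exact ⟨h1, F₀, P, ζ, h2, h3, h4, h5, h6, key hle (h.not_subfield (by omega) Nat.prime_two h2)⟩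
  · iterate 9 right
    left
    have h10 := type_card h1 (full_of_absIrr h2)
    rw [hcf] at h10
    have hmin := min_field_mod (z := Nat.card (Subgroup.center R)) (by
      rcases h6 with ⟨-, h7, -⟩ | ⟨-, -, h7, -⟩
      · rw [h7]; exact h1.prime.two_le
      · rw [h7]; norm_num) h5
    obtain ⟨j, hj, hqj⟩ := even_exponent h5.1 (h.card.symm.trans h5.2.2.1)
    have hj0 : 0 < j := by
      rcases Nat.eq_zero_or_pos j with h0 | h0
      · rw [h0, pow_zero] at hqj; omega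
      · exact h0
    rcases h6 with ⟨h7, h8, h9, h11⟩ | ⟨h7, h8, h9, h11⟩
    · rw [h8, h11] at h10
      have h12 : n = r ^ k := by
        have h13 : n ^ 2 = (r ^ k) ^ 2 := by
          have : r ^ (1 + 2 * k) = (r ^ k) ^ 2 * r := by ring
          rw [this] at h10
          exact (Nat.eq_of_mul_eq_mul_right h1.prime.pos h10).symm
        exact Nat.pow_left_injective (n := 2) (by norm_num) h13
      refine ⟨r, R, p, j, k, h1, h2, h3, h5.1, h5.2.1, hqj, hj0, h12, Or.inl ⟨h7, h8, h11, ?_, ?_⟩, key hle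
        (h.not_type hn h1 h2)⟩
      · rw [← hj, ← h8]; exact hmin.1
      · rw [← hj, ← h8]; exact hmin.2
    · rw [h9, h11] at h10
      have h12 : n = r ^ k := by
        have h13 : n ^ 2 = (2 ^ k) ^ 2 := by
          have : 2 ^ (2 + 2 * k) = (2 ^ k) ^ 2 * 4 := by ring
          rw [this] at h10
          exact (Nat.eq_of_mul_eq_mul_right (by norm_num) h10).symm
        rw [h7]
        exact Nat.pow_left_injective (n := 2) (by norm_num) h13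
      have hj1 : j = 1 := by omega
      refine ⟨r, R, p, j, k, h1, h2, h3, h5.1, h5.2.1, hqj, hj0, h12, Or.inr ⟨h7, hj1, ?_, h9, h11⟩, key hle
        (h.not_type hn h1 h2)⟩
      rw [h9, h8] at hmin
      have h13 := hmin.2 1 one_pos (by norm_num)
      have h14 := hmin.1
      rw [pow_one] at h13
      have h15 : p % 4 < 4 := Nat.mod_lt _ (by norm_num)
      rw [Nat.pow_mod] at h14
      interval_cases h16 : p % 4
      · simp at h14
      · exact absurd rfl h13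
      · simp at h14
      · rfl
  · iterate 4 right
    left
    have h5 := dvd_of_field h3
    rw [hcf] at h5
    exact ⟨r, K, h1, h2, h5, h3, h4, key hle (h.not_field (by omega) h1.one_lt.ne' h3)⟩
  · iterate 5 right
    left
    have h6 := card_eq_of_equiv e
    rw [hcf] at h6
    exact ⟨n₁, n₂, e, P, f₁, f₂, h1, h2, h6, h3, h4, h5, key hle (h.not_tensor (by omega) e P h1 (by omega))⟩
  · iterate 10 right
    left
    have h6 : n = k ^ t := by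
      have := Fintype.card_congr e
      simpa using this
    exact ⟨k, t, e, P, f₁, h1, h2, h6, h3, h4, h5, key hle (h.not_wreath (by omega) e P (by omega) h2 (Or.inl h1))⟩

/-! ### arithmetic -/

lemma reduce {r p e : ℕ} (he : 0 < e) (h1 : p ^ e % r = 1) (h2 : ∀ d, 0 < d → d < e → p ^ d % r ≠ 1)
    (hr1 : 1 < r) (hfermat : ∀ a : Fin r, 0 < (a : ℕ) → (a : ℕ) ^ (r - 1) % r = 1) :
    ∃ a : Fin r, (a : ℕ) = p % r ∧ ∃ he : e < r, (a : ℕ) ^ e % r = 1 ∧ ∀ d : Fin r, 0 < (d : ℕ) → (d : ℕ) < e → (a : ℕ) ^ (d : ℕ) % r ≠ 1 := by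
  have hlt : p % r < r := Nat.mod_lt _ (by omega)
  have hpow : ∀ d, (p % r) ^ d % r = p ^ d % r := fun d => (Nat.pow_mod p d r).symm
  have ha0 : 0 < p % r := by
    by_contra h0
    have h00 : p % r = 0 := by omega
    have := hpow e
    rw [h00, h1, zero_pow he.ne', Nat.zero_mod] at this
    exact absurd this (by norm_num)
  refine ⟨⟨p % r, hlt⟩, rfl, ?_, ?_, ?_⟩
  · by_contra hge
    apply h2 (r - 1) (by omega) (by omega)
    rw [← hpow]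
    exact hfermat ⟨_, hlt⟩ ha0
  · change (p % r) ^ e % r = 1
    rw [hpow, h1]
  · intro d hd hde
    change (p % r) ^ (d : ℕ) % r ≠ 1
    rw [hpow]
    exact h2 d hd hde

theorem arith_three {p j : ℕ} (hj : 0 < j) (h1 : p ^ (2 * j) % 3 = 1) (h2 : ∀ d, 0 < d → d < 2 * j → p ^ d % 3 ≠ 1) :
    j = 1 ∧ p % 3 = 2 := by
  obtain ⟨a, ha, he3, h3, h4⟩ := reduce (by omega) h1 h2 (by norm_num) (by decide)
  have key : ∀ a e : Fin 3, 0 < (e : ℕ) → (e : ℕ) % 2 = 0 → (a : ℕ) ^ (e : ℕ) % 3 = 1 → (∀ d : Fin 3, 0 < (d : ℕ) → (d : ℕ) < e → (a : ℕ) ^ (d : ℕ) % 3 ≠ 1) →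
      (e : ℕ) = 2 ∧ (a : ℕ) = 2 := by decide
  obtain ⟨h5, h6⟩ := key a ⟨2 * j, he3⟩ (by change 0 < 2 * j; omega) (by change 2 * j % 2 = 0; omega) h3 h4
  change 2 * j = 2 at h5
  exact ⟨by omega, by rw [← ha, h6]⟩

theorem arith_five {p j : ℕ} (hj : 0 < j) (h1 : p ^ (2 * j) % 5 = 1) (h2 : ∀ d, 0 < d → d < 2 * j → p ^ d % 5 ≠ 1) :
    (j = 1 ∧ p % 5 = 4) ∨ (j = 2 ∧ (p % 5 = 2 ∨ p % 5 = 3)) := by
  obtain ⟨a, ha, he3, h3, h4⟩ := reduce (by omega) h1 h2 (by norm_num) (by decide)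
  have key : ∀ a e : Fin 5, 0 < (e : ℕ) → (e : ℕ) % 2 = 0 → (a : ℕ) ^ (e : ℕ) % 5 = 1 → (∀ d : Fin 5, 0 < (d : ℕ) → (d : ℕ) < e → (a : ℕ) ^ (d : ℕ) % 5 ≠ 1) →
      ((e : ℕ) = 2 ∧ (a : ℕ) = 4) ∨ ((e : ℕ) = 4 ∧ ((a : ℕ) = 2 ∨ (a : ℕ) = 3)) := by decide
  rcases key a ⟨2 * j, he3⟩ (by change 0 < 2 * j; omega) (by change 2 * j % 2 = 0; omega) h3 h4 with ⟨h5, h6⟩ | ⟨h5, h6⟩
  · change 2 * j = 2 at h5
    exact Or.inl ⟨by omega, by rw [← ha, h6]⟩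
  · change 2 * j = 4 at h5
    exact Or.inr ⟨by omega, by rwa [← ha]⟩

theorem arith_seven {p j : ℕ} (hj : 0 < j) (h1 : p ^ (2 * j) % 7 = 1) (h2 : ∀ d, 0 < d → d < 2 * j → p ^ d % 7 ≠ 1) :
    (j = 1 ∧ p % 7 = 6) ∨ (j = 3 ∧ (p % 7 = 3 ∨ p % 7 = 5)) := by
  obtain ⟨a, ha, he3, h3, h4⟩ := reduce (by omega) h1 h2 (by norm_num) (by decide)
  have key : ∀ a e : Fin 7, 0 < (e : ℕ) → (e : ℕ) % 2 = 0 → (a : ℕ) ^ (e : ℕ) % 7 = 1 → (∀ d : Fin 7, 0 < (d : ℕ) → (d : ℕ) < e → (a : ℕ) ^ (d : ℕ) % 7 ≠ 1) →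
      ((e : ℕ) = 2 ∧ (a : ℕ) = 6) ∨ ((e : ℕ) = 6 ∧ ((a : ℕ) = 3 ∨ (a : ℕ) = 5)) := by decide
  rcases key a ⟨2 * j, he3⟩ (by change 0 < 2 * j; omega) (by change 2 * j % 2 = 0; omega) h3 h4 with ⟨h5, h6⟩ | ⟨h5, h6⟩
  · change 2 * j = 2 at h5
    exact Or.inl ⟨by omega, by rw [← ha, h6]⟩
  · change 2 * j = 6 at h5
    exact Or.inr ⟨by omega, by rwa [← ha]⟩

set_option maxRecDepth 10000 in
theorem arith_eleven {p j : ℕ} (hj : 0 < j) (h1 : p ^ (2 * j) % 11 = 1) (h2 : ∀ d, 0 < d → d < 2 * j → p ^ d % 11 ≠ 1) :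
    (j = 1 ∧ p % 11 = 10) ∨ (j = 5 ∧ (p % 11 = 2 ∨ p % 11 = 6 ∨ p % 11 = 7 ∨ p % 11 = 8)) := by
  obtain ⟨a, ha, he3, h3, h4⟩ := reduce (by omega) h1 h2 (by norm_num) (by decide)
  have key : ∀ a e : Fin 11, 0 < (e : ℕ) → (e : ℕ) % 2 = 0 → (a : ℕ) ^ (e : ℕ) % 11 = 1 → (∀ d : Fin 11, 0 < (d : ℕ) → (d : ℕ) < e → (a : ℕ) ^ (d : ℕ) % 11 ≠ 1) →
      ((e : ℕ) = 2 ∧ (a : ℕ) = 10) ∨ (e : ℕ) = 10 := by decide
  have key2 : ∀ a : Fin 11, (a : ℕ) ^ 10 % 11 = 1 → (a : ℕ) ^ 5 % 11 ≠ 1 → (a : ℕ) ^ 2 % 11 ≠ 1 →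
      (a : ℕ) = 2 ∨ (a : ℕ) = 6 ∨ (a : ℕ) = 7 ∨ (a : ℕ) = 8 := by decide
  rcases key a ⟨2 * j, he3⟩ (by change 0 < 2 * j; omega) (by change 2 * j % 2 = 0; omega) h3 h4 with ⟨h5, h6⟩ | h5
  · change 2 * j = 2 at h5
    exact Or.inl ⟨by omega, by rw [← ha, h6]⟩
  · change 2 * j = 10 at h5
    have h7 := key2 a (by rw [← h5]; exact h3) (h4 5 (by decide) (by rw [h5]; decide)) (h4 2 (by decide) (by rw [h5]; decide))
    exact Or.inr ⟨by omega, by rwa [← ha]⟩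

end H97.AschUCases
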