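import Mathlib
import Cfsg.Agent.Lib.H97.AschUCases

/-!
Aschbacher library, part 46: eliminations over the field with four elements, unitary groups.
-/

set_option autoImplicit false
set_option linter.unusedSectionVars false

namespace H97.AschUElim

open Cfsg Cfsg.Geo Matrix H97.AschRad H97.AschUnits H97.AschCS H97.AschTensor H97.AschEnv H97.AschNonab
open H97.AschForm H97.AschTF H97.AschPos H97.AschPosE H97.AschPosH H97.AschNC H97.AschNC2 H97.AschNC3 H97.AschNil
open H97.AschCases H97.AschNCSp H97.AschNCU H97.AschFrame H97.AschUCases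
open H96.AschSympType1 H96.AschSympType2 H96.AschSympType5 H96.AschAdj H96.AschSU H96.AschSU2
open scoped Kronecker

variable {F : Type*} [Field F] [Fintype F] {n q : ℕ} {σ : F ≃+* F}

/-- orthonormal bases of nondegenerate subspaces -/
theorem orthonormal (h : Ctx (F := F) σ n q) {W : Submodule F (Fin n → F)}
    (hW : IsNondegenerateOn (hermForm n F q) W) {k : ℕ} (hk : Module.finrank F W = k) :
    ∃ w : Fin k → (Fin n → F), (∀ i, w i ∈ W) ∧ (∀ i j, hermForm n F q (w i) (w j) = if i = j then 1 else 0) ∧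
      ∀ v ∈ W, v = ∑ b, hermForm n F q v (w b) • w b := by
  classical
  let b := Module.finBasisOfFinrankEq F W hk
  let G : Matrix (Fin k) (Fin k) F := fun i j => hermForm n F q (b i) (b j)
  have hGs : Gᵀ = G.map σ := by
    ext i j
    have := h.form.herm (b j : Fin n → F) (b i)
    rw [one_mul] at this
    exact this
  have hexp : ∀ x : Fin k → F, ((b.equivFun.symm x : W) : Fin n → F) = ∑ i, x i • (b i : Fin n → F) := by
    intro x
    rw [Module.Basis.equivFun_symm_apply]
    simp
  have hGu : IsUnit G := by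
    have h1 : Function.Injective (fun v => Gᵀ *ᵥ v) := by
      intro x y hxy
      by_contra hne
      have hsub : Gᵀ *ᵥ (x - y) = 0 := by
        rw [Matrix.mulVec_sub]; exact sub_eq_zero.mpr hxy
      have hz : ((b.equivFun.symm (x - y) : W) : Fin n → F) ≠ 0 := by
        intro h0
        have h2 : b.equivFun.symm (x - y) = 0 := Subtype.ext h0
        exact sub_ne_zero.mpr hne ((LinearEquiv.map_eq_zero_iff _).mp h2)
      obtain ⟨-, ⟨z, hz', hzz⟩⟩ := hW _ (b.equivFun.symm (x - y)).2 hz
      apply hzz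
      have h3 : z = ∑ i, b.equivFun ⟨z, hz'⟩ i • (b i : Fin n → F) := by
        rw [← hexp, LinearEquiv.symm_apply_apply]
      rw [h3, hexp, h.form.sesq.sum_right]
      apply Finset.sum_eq_zero
      intro j _
      rw [h.form.sesq.smul_right, h.form.sesq.sum_left]
      have h4 : ∑ i, hermForm n F q ((x - y) i • (b i : Fin n → F)) (b j) = (Gᵀ *ᵥ (x - y)) j := by
        rw [Matrix.mulVec, dotProduct]
        refine Finset.sum_congr rfl (fun i _ => ?_)
        rw [h.form.sesq.smul_left, mul_comm]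
        rfl
      rw [h4, hsub, Pi.zero_apply, mul_zero]
    have h2 := Matrix.mulVec_injective_iff_isUnit.mp h1
    rwa [Matrix.isUnit_iff_isUnit_det, Matrix.det_transpose, ← Matrix.isUnit_iff_isUnit_det] at h2
  obtain ⟨A, hA⟩ := herm_congr' h.card h.val G 1 hGu isUnit_one hGs (by
    rw [Matrix.transpose_one]; ext i j; simp [Matrix.one_apply, apply_ite σ])
  let w : Fin k → (Fin n → F) := fun j => ∑ i, (A : Matrix (Fin k) (Fin k) F) i j • (b i : Fin n → F)
  have hwW : ∀ i, w i ∈ W := fun i => Submodule.sum_mem _ (fun j _ => Submodule.smul_mem _ _ (b j).2)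
  have hwf : ∀ i j, hermForm n F q (w i) (w j) = if i = j then 1 else 0 := by
    intro i j
    have h1 := congrFun (congrFun hA i) j
    rw [Matrix.one_apply] at h1
    rw [← h1]
    simp only [w]
    rw [h.form.sesq.sum_left]
    have h2 : ∀ x, hermForm n F q ((A : Matrix (Fin k) (Fin k) F) x i • (b x : Fin n → F))
        (∑ i, (A : Matrix (Fin k) (Fin k) F) i j • (b i : Fin n → F)) =
        ∑ y, (A : Matrix (Fin k) (Fin k) F) x i * G x y * σ ((A : Matrix (Fin k) (Fin k) F) y j) := by
      intro x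
      rw [h.form.sesq.smul_left, h.form.sesq.sum_right, Finset.mul_sum]
      refine Finset.sum_congr rfl (fun y _ => ?_)
      rw [h.form.sesq.smul_right]
      change _ * (_ * G x y) = _
      ring
    simp only [h2]
    rw [Matrix.mul_apply, Finset.sum_comm]
    refine Finset.sum_congr rfl (fun y _ => ?_)
    rw [Matrix.mul_apply, Finset.sum_mul]
    rfl
  refine ⟨w, hwW, hwf, fun v hv => ?_⟩
  -- the difference is orthogonal to all w, which span W
  have hli : LinearIndependent F (fun i => (⟨w i, hwW i⟩ : W)) := by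
    rw [Fintype.linearIndependent_iff]
    intro c hc i
    have h0 : ∑ j, c j • w j = 0 := by
      have := congrArg (Subtype.val) hc
      simpa using this
    have h1 : hermForm n F q (∑ j, c j • w j) (w i) = 0 := by rw [h0]; exact h.form.sesq.zero_left _
    rw [h.form.sesq.sum_left, Finset.sum_eq_single i] at h1
    · rw [h.form.sesq.smul_left, hwf, if_pos rfl, mul_one] at h1
      exact h1
    · intro j _ hj
      rw [h.form.sesq.smul_left, hwf, if_neg hj, mul_zero]
    · intro h; exact absurd (Finset.mem_univ _) h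
  have hspan : Submodule.span F (Set.range (fun i => (⟨w i, hwW i⟩ : W))) = ⊤ := by
    apply hli.span_eq_top_of_card_eq_finrank'
    rw [Fintype.card_fin, hk]
  have hmem : (⟨v, hv⟩ : W) ∈ Submodule.span F (Set.range (fun i => (⟨w i, hwW i⟩ : W))) := by
    rw [hspan]; exact Submodule.mem_top
  obtain ⟨c, hc⟩ := (Submodule.mem_span_range_iff_exists_fun F).mp hmem
  have hc' : ∑ i, c i • w i = v := by
    have := congrArg (Subtype.val) hc
    simpa using this
  have hcoef : ∀ i, hermForm n F q v (w i) = c i := by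
    intro i
    rw [← hc', h.form.sesq.sum_left, Finset.sum_eq_single i]
    · rw [h.form.sesq.smul_left, hwf, if_pos rfl, mul_one]
    · intro j _ hj
      rw [h.form.sesq.smul_left, hwf, if_neg hj, mul_zero]
    · intro h; exact absurd (Finset.mem_univ _) h
  conv_lhs => rw [← hc']
  exact Finset.sum_congr rfl (fun i _ => by rw [hcoef])

/-- over the field with four elements norms are 0 or 1 -/
lemma norm_four (h : Ctx (F := F) σ n q) (hq : q = 2) {x : F} (hx : x ≠ 0) : x * σ x = 1 := by
  rw [h.val, hq]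
  have h1 := FiniteField.pow_card_sub_one_eq_one x hx
  rw [h.card, hq] at h1
  rw [← h1]; ring

lemma two_zero (h : Ctx (F := F) σ n q) (hq : q = 2) : (2 : F) = 0 := by
  apply H96.AschSp.two_eq_zero_of_even
  rw [h.card, hq]; decide

lemma one_of_two (h : Ctx (F := F) σ n q) (hq : q = 2) {x y : F} (hxy : x * σ x + y * σ y = 1) :
    (x = 0 ∧ y ≠ 0) ∨ (x ≠ 0 ∧ y = 0) := by
  by_cases hx : x = 0
  · left
    refine ⟨hx, ?_⟩
    rintro rfl
    rw [hx] at hxy
    simp at hxy
  · right
    refine ⟨hx, ?_⟩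
    by_contra hy
    rw [norm_four h hq hx, norm_four h hq hy] at hxy
    have := two_zero h hq
    exact one_ne_zero (α := F) (by linear_combination this - hxy)

/-- over the field with four elements a nondegenerate decomposition into planes refines to a frame -/
theorem planes_lines (h : Ctx (F := F) σ n q) (hq : q = 2) {t : ℕ} {D : Fin t → Submodule F (Fin n → F)}
    (hD : IsNondegenerateMDecomposition (hermForm n F q) 2 D) :
    ∃ D' : Fin n → Submodule F (Fin n → F), IsNondegenerateMDecomposition (hermForm n F q) 1 D' ∧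
      decompositionStabilizer D ⊓ GU n F q ≤ decompositionStabilizer D' := by
  classical
  have hcard := H97.AschBlock.card_decomposition hD.decomp
  rw [Fintype.card_fin] at hcard
  have ht := hD.decomp.two_le
  have hw : ∀ i, ∃ w : Fin 2 → (Fin n → F), (∀ a, w a ∈ D i) ∧
      (∀ a b, hermForm n F q (w a) (w b) = if a = b then 1 else 0) ∧ ∀ v ∈ D i, v = ∑ b, hermForm n F q v (w b) • w b :=
    fun i => orthonormal h (hD.nondegenerate i) (hD.decomp.finrank_eq i)
  choose w hw1 hw2 hw3 using hw
  let E : Fin n ≃ Fin t × Fin 2 := (finCongr hcard).trans finProdFinEquiv.symm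
  let u : Fin n → (Fin n → F) := fun i => w (E i).1 (E i).2
  have huu : ∀ i, hermForm n F q (u i) (u i) ≠ 0 := by
    intro i
    simp only [u]
    rw [hw2, if_pos rfl]
    exact one_ne_zero
  have ho : ∀ i j, i ≠ j → hermForm n F q (u i) (u j) = 0 := by
    intro i j hij
    by_cases h1 : (E i).1 = (E j).1
    · have h2 : (E i).2 ≠ (E j).2 := fun h => hij (E.injective (Prod.ext h1 h))
      simp only [u]
      rw [h1, hw2, if_neg h2]
    · exact hD.orthogonal _ _ h1 _ (hw1 _ _) _ (hw1 _ _)
  refine ⟨fun i => Submodule.span F {u i}, lines_mk h.form (by omega) (Fintype.card_fin n) huu ho, ?_⟩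
  rintro g ⟨⟨π, hπ⟩, hg⟩
  have hg' : ∀ x y, hermForm n F q ((g : Matrix (Fin n) (Fin n) F) *ᵥ x) ((g : Matrix (Fin n) (Fin n) F) *ᵥ y) =
      hermForm n F q x y := hg
  have hmove : ∀ p : Fin t × Fin 2, ∃ b : Fin 2, ∃ c : F, c ≠ 0 ∧
      (g : Matrix (Fin n) (Fin n) F) *ᵥ (w p.1 p.2) = c • w (π p.1) b := by
    rintro ⟨i, a⟩
    have h1 : (g : Matrix (Fin n) (Fin n) F) *ᵥ (w i a) ∈ D (π i) := by
      rw [← hπ i]; exact ⟨_, hw1 i a, Matrix.toLin'_apply _ _⟩
    have h2 := hw3 (π i) _ h1
    rw [Fin.sum_univ_two] at h2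
    set x := hermForm n F q ((g : Matrix (Fin n) (Fin n) F) *ᵥ w i a) (w (π i) 0)
    set y := hermForm n F q ((g : Matrix (Fin n) (Fin n) F) *ᵥ w i a) (w (π i) 1)
    have h3 : x * σ x + y * σ y = 1 := by
      have h4 := hg' (w i a) (w i a)
      rw [hw2, if_pos rfl, h2, h.form.sesq.add_left, h.form.sesq.add_right, h.form.sesq.add_right,
        h.form.sesq.smul_left, h.form.sesq.smul_right, h.form.sesq.smul_left, h.form.sesq.smul_right,
        h.form.sesq.smul_left, h.form.sesq.smul_right, h.form.sesq.smul_left, h.form.sesq.smul_right,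
        hw2, hw2, hw2, hw2, if_pos rfl, if_pos rfl, if_neg (by decide), if_neg (by decide)] at h4
      linear_combination h4
    rcases one_of_two h hq h3 with ⟨h4, h5⟩ | ⟨h4, h5⟩
    · exact ⟨1, y, h5, by rw [h2, h4, zero_smul, zero_add]⟩
    · exact ⟨0, x, h4, by rw [h2, h5, zero_smul, add_zero]⟩
  choose β γ hγ hβ using hmove
  let ψ : Fin n → Fin n := fun i => E.symm (π (E i).1, β (E i))
  have hψ : ∀ i, (g : Matrix (Fin n) (Fin n) F) *ᵥ u i = γ (E i) • u (ψ i) := by
    intro i
    have h1 : u (ψ i) = w (π (E i).1) (β (E i)) := by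
      simp only [u, ψ, Equiv.apply_symm_apply]
    rw [h1]
    exact hβ (E i)
  have hinj : Function.Injective ψ := by
    intro i j hij
    by_contra hne
    have h1 := hg' (u i) (u j)
    rw [ho i j hne, hψ, hψ, hij, h.form.sesq.smul_left, h.form.sesq.smul_right] at h1
    exact mul_ne_zero (hγ _) (mul_ne_zero ((map_ne_zero σ).mpr (hγ _)) (huu _)) h1
  exact lines_stab (Equiv.ofBijective ψ (Finite.injective_iff_bijective.mp hinj)) (fun i => ⟨γ (E i), hγ _, hψ i⟩)

/-- a two-dimensional unitary similarity over the field with four elements is monomial -/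
lemma monomial_two (h : Ctx (F := F) σ n q) (hq : q = 2) (b : GL (Fin 2) F) (c : F) (hc : c ≠ 0)
    (hb : (b : Matrix (Fin 2) (Fin 2) F)ᵀ * (b : Matrix (Fin 2) (Fin 2) F).map σ = c • (1 : Matrix (Fin 2) (Fin 2) F)) :
    ∃ π : Equiv.Perm (Fin 2), ∀ j, ∃ c : F, c ≠ 0 ∧
        (b : Matrix (Fin 2) (Fin 2) F) *ᵥ Pi.single j 1 = c • (Pi.single (π j) 1 : Fin 2 → F) := by
  set B := (b : Matrix (Fin 2) (Fin 2) F) with hB
  have hent : ∀ i j, B 0 i * σ (B 0 j) + B 1 i * σ (B 1 j) = if i = j then c else 0 := by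
    intro i j
    have h1 := congrFun (congrFun hb i) j
    rw [Matrix.mul_apply, Fin.sum_univ_two, Matrix.smul_apply, Matrix.one_apply, smul_eq_mul, mul_ite, mul_one,
      mul_zero] at h1
    exact h1
  have hnorm01 : ∀ x : F, x * σ x = 0 ∨ x * σ x = 1 := by
    intro x
    by_cases hx : x = 0
    · left; rw [hx, zero_mul]
    · right; exact norm_four h hq hx
  have h2 := two_zero h hq
  have hc1 : c = 1 := by
    have h3 := hent 0 0
    rw [if_pos rfl] at h3
    rcases hnorm01 (B 0 0) with h4 | h4 <;> rcases hnorm01 (B 1 0) with h5 | h5 <;> rw [h4, h5] at h3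
    · exact absurd (by rw [← h3]; ring) hc
    · rw [← h3]; ring
    · rw [← h3]; ring
    · exact absurd (by rw [← h3]; linear_combination h2) hc
  have hcol : ∀ j, (B 0 j = 0 ∧ B 1 j ≠ 0) ∨ (B 0 j ≠ 0 ∧ B 1 j = 0) := by
    intro j
    apply one_of_two h hq
    have := hent j j
    rwa [if_pos rfl, hc1] at this
  have hvec : ∀ j, B *ᵥ Pi.single j 1 = fun i => B i j := by
    intro j
    rw [Matrix.mulVec_single_one]; rfl
  have hex : ∀ j, ∃ i : Fin 2, ∃ c : F, c ≠ 0 ∧ B *ᵥ Pi.single j 1 = c • (Pi.single i 1 : Fin 2 → F) := by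
    intro j
    rw [hvec]
    rcases hcol j with ⟨h3, h4⟩ | ⟨h3, h4⟩
    · refine ⟨1, B 1 j, h4, ?_⟩
      ext i
      fin_cases i
      · simp [h3]
      · simp
    · refine ⟨0, B 0 j, h3, ?_⟩
      ext i
      fin_cases i
      · simp
      · simp [h4]
  choose ψ γ hγ hψ using hex
  have hinj : Function.Injective ψ := by
    intro i j hij
    by_contra hne
    have h3 := hψ i
    have h4 := hψ j
    rw [hij] at h3
    have h5 : B *ᵥ (γ j • Pi.single i 1 - γ i • Pi.single j 1) = 0 := by
      rw [Matrix.mulVec_sub, Matrix.mulVec_smul, Matrix.mulVec_smul, h3, h4, smul_smul, smul_smul, mul_comm, sub_self]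
    have h6 : (γ j • Pi.single i 1 - γ i • Pi.single j 1 : Fin 2 → F) = 0 := by
      have h7 := congrArg (fun v => ((b⁻¹ : GL (Fin 2) F) : Matrix (Fin 2) (Fin 2) F) *ᵥ v) h5
      simpa only [hB, Matrix.mulVec_mulVec, ← Units.val_mul, inv_mul_cancel, Units.val_one, Matrix.one_mulVec,
        Matrix.mulVec_zero] using h7
    have h7 := congrFun h6 i
    simp [Pi.single_eq_of_ne hne] at h7
    exact hγ j h7
  exact ⟨Equiv.ofBijective ψ (Finite.injective_iff_bijective.mp hinj), fun j => ⟨γ j, hγ j, hψ j⟩⟩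

lemma unitary_sesq {k : ℕ} (h : Ctx (F := F) σ n q) {f : (Fin k → F) → (Fin k → F) → F} (hf : IsUnitaryFormPow q f) :
    IsSesq σ f where
  add_left := hf.add_left
  smul_left := hf.smul_left
  add_right v x y := by
    rw [hf.herm, hf.add_left, ← h.val, map_add, h.val, h.val, ← hf.herm, ← hf.herm]
  smul_right c v x := by
    rw [hf.herm, hf.smul_left, ← h.val, map_mul, h.val, h.val, ← hf.herm]

/-- over the field with four elements a two-dimensional tensor factor is monomial -/
theorem tensor_two (h : Ctx (F := F) σ n q) (hq : q = 2) {H : Subgroup (GL (Fin n) F)} (hH : H ≤ GU n F q) {k : ℕ}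
    (hk : 0 < k) {e : Fin n ≃ Fin 2 × Fin k} {P : GL (Fin n) F} (hle : H ≤ tensorProductSubgroup 2 k e P)
    {f₁ : (Fin 2 → F) → (Fin 2 → F) → F} {f₂ : (Fin k → F) → (Fin k → F) → F} (h1 : IsUnitaryFormPow q f₁)
    (h2 : IsUnitaryFormPow q f₂) (hs : IsTensorFormStructure (fun x : F => x ^ q) (hermForm n F q) f₁ f₂ e P) :
    ∃ D : Fin 2 → Submodule F (Fin n → F), IsNondegenerateMDecomposition (hermForm n F q) k D ∧
      H ≤ decompositionStabilizer D := by
  have hσf : (fun x : F => x ^ q) = ⇑σ := by ext x; exact (h.val x).symm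
  rw [hσf] at hs
  obtain ⟨c, hc, hpos⟩ := tpos_of_struct (σ := σ) (unitary_sesq h h1)
    (fun v hv => (h1.nondegenerate v hv).2) (unitary_sesq h h2) (fun v hv => (h2.nondegenerate v hv).2) hle hs
  -- the first Gram matrix is similar to the identity
  have hG1s : (gramMatrix f₁)ᵀ = (gramMatrix f₁).map σ := by
    ext i j
    change f₁ _ _ = σ (f₁ _ _)
    rw [h1.herm, h.val]
  have hG1u : IsUnit (gramMatrix f₁) := by
    have h3 := (unitary_sesq h h1).isUnit_gram (fun v hv => (h1.nondegenerate v hv).2)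
    rw [Matrix.isUnit_iff_isUnit_det, Matrix.det_transpose, ← Matrix.isUnit_iff_isUnit_det] at h3
    exact h3
  obtain ⟨A, hA⟩ := herm_congr' h.card h.val (gramMatrix f₁) 1 hG1u isUnit_one hG1s (by
    rw [Matrix.transpose_one]; ext i j; simp [Matrix.one_apply, apply_ite σ])
  have h3 := (TPos.change hpos A 1).swap
  have hA' : (A : Matrix (Fin 2) (Fin 2) F)ᵀ * (c • gramMatrix f₁) * (A : Matrix (Fin 2) (Fin 2) F).map σ =
      c • (1 : Matrix (Fin 2) (Fin 2) F) := by
    rw [Matrix.mul_smul, Matrix.smul_mul, hA]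
  rw [hA'] at h3
  exact frame h.form hH hk le_rfl hc h3 (fun b c hc hb => monomial_two h hq b c hc hb)

end H97.AschUElim
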