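import Mathlib
import Cfsg.Agent.Lib.H97.AschUElim

/-!
Aschbacher library, part 47: unitary groups inside the similarity group of an alternating form.
-/

set_option autoImplicit false
set_option linter.unusedSectionVars false

namespace H97.AschUSymp

open Cfsg Cfsg.Geo Matrix H97.AschRad H97.AschEnv H97.AschNonab H97.AschGrp H97.AschLinear H97.AschIdem H97.AschDecomp
open H97.AschForm H97.AschSubfield H97.AschReal H97.AschNCU
open H96.AschSympType1 H96.AschSympType3 H96.AschSubForm H96.AschSympType5 H96.AschAdj H96.AschComm H96.AschField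
open H96.AschSp H96.AschSp2 H96.AschSU H96.AschSU2 H96.AschOdd2 H96.AschDescent H96.AschSU3

variable {F : Type*} [Field F] [Fintype F] {n q : ℕ} {σ : F ≃+* F}

/-- a unitary group inside the similarity group of an alternating form whose square is a scalar lies in a subfield
group -/
theorem sim_subfield (h' : Ctx (F := F) σ n q) (hn : 0 < n) {H : Subgroup (GL (Fin n) F)}
    (hH : H ≤ GU n F q) {B : (Fin n → F) → (Fin n → F) → F}
    (hBs : IsSymplecticForm B) (hHB : H ≤ similarityGroup B) {τ : (Fin n → F) → (Fin n → F)}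
    (hτ : ∀ u v, hermForm n F q u v = B u (τ v)) {a : F} (hττ : ∀ v, τ (τ v) = a • v) :
    ∃ (F₀ : Subfield F) (P : GL (Fin n) F) (ζ : F), Fintype.card F = Nat.card F₀ ^ 2 ∧ ζ ≠ 0 ∧ ζ + ζ ^ q = 0 ∧
      IsFormRationalStructure (hermForm n F q) F₀ ζ P ∧
      (∀ u : Fin n → F, (∀ i, u i ∈ F₀) → hermForm n F q ((P : Matrix (Fin n) (Fin n) F) *ᵥ u)
        ((P : Matrix (Fin n) (Fin n) F) *ᵥ u) = 0) ∧ H ≤ subfieldSubgroup F₀ P := by
  classical
  have hne : Nonempty (Fin n) := ⟨⟨0, hn⟩⟩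
  have hF := h'.card
  have hσ := h'.val
  have hσ1 := h'.ne
  have h := h'.form
  have hB : HForm (RingEquiv.refl F) (-1) B := HForm.of_symplectic hBs
  set f := hermForm n F q with hf
  have hσ2 := h.invol
  have hfherm : ∀ u v, f u v = σ (f v u) := fun u v => by rw [h.herm u v, one_mul]
  have hτadd : ∀ a b, τ (a + b) = τ a + τ b := by
    intro a b
    apply hB.right_injective
    intro u
    rw [← hτ, h.sesq.add_right, hB.sesq.add_right, hτ, hτ]
  have hτsmul : ∀ (c : F) a, τ (c • a) = σ c • τ a := by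
    intro c a
    apply hB.right_injective
    intro u
    rw [← hτ, h.sesq.smul_right, hB.sesq.smul_right, hτ]; rfl
  have hτH : ∀ g ∈ H, ∃ c : Fˣ, ∀ v, τ ((g : Matrix (Fin n) (Fin n) F) *ᵥ v) =
      ((c⁻¹ : Fˣ) : F) • ((g : Matrix (Fin n) (Fin n) F) *ᵥ τ v) := by
    intro g hg
    obtain ⟨c, hc⟩ := hHB hg
    refine ⟨c, fun v => ?_⟩
    apply hB.right_injective
    intro u
    rw [← hτ, hB.sesq.smul_right, RingEquiv.refl_apply]
    have h1 : u = (g : Matrix (Fin n) (Fin n) F) *ᵥ (((g⁻¹ : GL (Fin n) F) : Matrix (Fin n) (Fin n) F) *ᵥ u) := by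
      rw [Matrix.mulVec_mulVec, Units.mul_inv, Matrix.one_mulVec]
    rw [h1, hc]
    have h2 : f ((g : Matrix (Fin n) (Fin n) F) *ᵥ (((g⁻¹ : GL (Fin n) F) : Matrix (Fin n) (Fin n) F) *ᵥ u))
        ((g : Matrix (Fin n) (Fin n) F) *ᵥ v) = f (((g⁻¹ : GL (Fin n) F) : Matrix (Fin n) (Fin n) F) *ᵥ u) v :=
      hH hg _ _
    rw [h2, hτ, ← mul_assoc, ← Units.val_mul, inv_mul_cancel, Units.val_one, one_mul]
  have hτ0 : ∀ v, τ v = 0 → v = 0 := by
    intro v hv
    apply h.right_injective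
    intro u
    rw [hτ, hv, hB.sesq.zero_right, h.sesq.zero_right]
  obtain ⟨u₁, hu₁⟩ : ∃ u₁ : Fin n → F, u₁ ≠ 0 := by
    obtain ⟨i⟩ := hne
    refine ⟨Pi.single i 1, fun h0 => ?_⟩
    have := congrFun h0 i
    simp at this
  have ha0 : a ≠ 0 := by
    intro h0
    apply hu₁
    apply hτ0
    apply hτ0
    rw [hττ, h0, zero_smul]
  have haσ : σ a = a := by
    -- apply τ to τ τ v = a v
    have h1 : τ (a • u₁) = a • τ u₁ := by
      rw [← hττ u₁, hττ (τ u₁)]
    rw [hτsmul] at h1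
    have h2 : τ u₁ ≠ 0 := fun h0 => hu₁ (hτ0 _ h0)
    have h3 : (σ a - a) • τ u₁ = 0 := by rw [sub_smul, h1, sub_self]
    rcases smul_eq_zero.mp h3 with h4 | h4
    · exact sub_eq_zero.mp h4
    · exact absurd h4 h2
  obtain ⟨w, hw⟩ := norm_surj hF (η := a⁻¹) (inv_ne_zero ha0) (by rw [← hσ, map_inv₀, haσ])
  rw [← hσ] at hw
  let τ' : (Fin n → F) → (Fin n → F) := fun v => (w : F) • τ v
  have hτ'add : ∀ a b, τ' (a + b) = τ' a + τ' b := by
    intro a b
    simp only [τ']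
    rw [hτadd, smul_add]
  have hτ'smul : ∀ (c : F) a, τ' (c • a) = σ c • τ' a := by
    intro c a
    simp only [τ']
    rw [hτsmul, smul_smul, smul_smul, mul_comm]
  have hτ'τ' : ∀ v, τ' (τ' v) = v := by
    intro v
    simp only [τ']
    rw [hτsmul, hττ, smul_smul, smul_smul, hw, inv_mul_cancel₀ ha0, one_smul]
  obtain ⟨P, hP⟩ := exists_fixed_basis hσ1 τ' hτ'add hτ'smul hτ'τ'
  set F₀ := fixField σ with hF₀
  have hcard : Fintype.card F = Nat.card F₀ ^ 2 := by
    rw [← Nat.card_eq_fintype_card]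
    exact card_fixField hσ2 hσ1
  -- fixed vectors
  have hfix : ∀ u, VOver F₀ u → τ' ((P : Matrix (Fin n) (Fin n) F) *ᵥ u) = (P : Matrix (Fin n) (Fin n) F) *ᵥ u := by
    intro u hu
    have hexp : (P : Matrix (Fin n) (Fin n) F) *ᵥ u = ∑ j, u j • ((P : Matrix (Fin n) (Fin n) F) *ᵥ Pi.single j 1) := by
      conv_lhs => rw [vec_eq_sum u, Matrix.mulVec_sum]
      exact Finset.sum_congr rfl (fun j _ => by rw [Matrix.mulVec_smul])
    let τh : (Fin n → F) →+ (Fin n → F) := AddMonoidHom.mk' τ' hτ'add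
    have hτh : ∀ v, τ' v = τh v := fun v => rfl
    rw [hexp, hτh, map_sum]
    refine Finset.sum_congr rfl (fun j _ => ?_)
    rw [← hτh, hτ'smul, hP, mem_fixField.1 (hu j)]
  -- the centralizer of τ'
  let C : Subgroup (GL (Fin n) F) :=
    { carrier := {g | ∀ v, τ' ((g : Matrix (Fin n) (Fin n) F) *ᵥ v) = (g : Matrix (Fin n) (Fin n) F) *ᵥ τ' v}
      mul_mem' := by
        intro x y hx hy v
        have hx' : ∀ v, τ' ((x : Matrix (Fin n) (Fin n) F) *ᵥ v) = (x : Matrix (Fin n) (Fin n) F) *ᵥ τ' v := hx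
        have hy' : ∀ v, τ' ((y : Matrix (Fin n) (Fin n) F) *ᵥ v) = (y : Matrix (Fin n) (Fin n) F) *ᵥ τ' v := hy
        rw [Units.val_mul, ← Matrix.mulVec_mulVec, hx', hy', Matrix.mulVec_mulVec]
      one_mem' := by
        intro v
        rw [Units.val_one, Matrix.one_mulVec, Matrix.one_mulVec]
      inv_mem' := by
        intro x hx v
        have hx' : ∀ v, τ' ((x : Matrix (Fin n) (Fin n) F) *ᵥ v) = (x : Matrix (Fin n) (Fin n) F) *ᵥ τ' v := hx
        have h1 : v = (x : Matrix (Fin n) (Fin n) F) *ᵥ (((x⁻¹ : GL (Fin n) F) : Matrix (Fin n) (Fin n) F) *ᵥ v) := by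
          rw [Matrix.mulVec_mulVec, Units.mul_inv, Matrix.one_mulVec]
        conv_rhs => rw [h1, hx', Matrix.mulVec_mulVec, Units.inv_mul, Matrix.one_mulVec] }
  have hCmem : ∀ g, g ∈ C ↔ ∀ v, τ' ((g : Matrix (Fin n) (Fin n) F) *ᵥ v) = (g : Matrix (Fin n) (Fin n) F) *ᵥ τ' v :=
    fun g => Iff.rfl
  have hCP : OverVia F₀ P C := by
    intro g hg i j
    have h1 : ((P⁻¹ * g * P : GL (Fin n) F) : Matrix (Fin n) (Fin n) F) i j =
        (((P⁻¹ * g * P : GL (Fin n) F) : Matrix (Fin n) (Fin n) F) *ᵥ Pi.single j 1) i := by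
      rw [Matrix.mulVec_single_one]; rfl
    set x : Fin n → F := ((P⁻¹ * g * P : GL (Fin n) F) : Matrix (Fin n) (Fin n) F) *ᵥ Pi.single j 1 with hx
    have h2 : (P : Matrix (Fin n) (Fin n) F) *ᵥ x = (g : Matrix (Fin n) (Fin n) F) *ᵥ ((P : Matrix (Fin n) (Fin n) F) *ᵥ Pi.single j 1) := by
      rw [hx, Matrix.mulVec_mulVec, Matrix.mulVec_mulVec, ← Units.val_mul, ← Units.val_mul]
      congr 2
      group
    have h3 : τ' ((P : Matrix (Fin n) (Fin n) F) *ᵥ x) = (P : Matrix (Fin n) (Fin n) F) *ᵥ x := by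
      rw [h2, (hCmem g).1 hg, hP]
    have h4 : τ' ((P : Matrix (Fin n) (Fin n) F) *ᵥ x) = (P : Matrix (Fin n) (Fin n) F) *ᵥ (fun i => σ (x i)) := by
      have hexp : ∀ y : Fin n → F, (P : Matrix (Fin n) (Fin n) F) *ᵥ y = ∑ j, y j • ((P : Matrix (Fin n) (Fin n) F) *ᵥ Pi.single j 1) := by
        intro y
        conv_lhs => rw [vec_eq_sum y, Matrix.mulVec_sum]
        exact Finset.sum_congr rfl (fun j _ => by rw [Matrix.mulVec_smul])
      let τh : (Fin n → F) →+ (Fin n → F) := AddMonoidHom.mk' τ' hτ'add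
      have hτh : ∀ v, τ' v = τh v := fun v => rfl
      rw [hexp x, hexp (fun i => σ (x i)), hτh, map_sum]
      refine Finset.sum_congr rfl (fun j _ => ?_)
      rw [← hτh, hτ'smul, hP]
    have h5 : (fun i => σ (x i)) = x := by
      have h6 : (P : Matrix (Fin n) (Fin n) F) *ᵥ (fun i => σ (x i)) = (P : Matrix (Fin n) (Fin n) F) *ᵥ x := by
        rw [← h4, h3]
      have h7 := congrArg (fun y => ((P⁻¹ : GL (Fin n) F) : Matrix (Fin n) (Fin n) F) *ᵥ y) h6
      simpa [Matrix.mulVec_mulVec] using h7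
    change ((P⁻¹ * g * P : GL (Fin n) F) : Matrix (Fin n) (Fin n) F) i j ∈ F₀
    rw [h1, mem_fixField]
    exact congrFun h5 i
  have hCle := le_subfieldSubgroup_of_over hCP
  have hscle : ∀ c : Fˣ, sc (Fin n) c ∈ subfieldSubgroup F₀ P := by
    intro c
    refine ⟨sc (Fin n) c, ?_, ?_⟩
    · apply (le_sup_right : scalars (Fin n) F ≤ _)
      exact ⟨c, rfl⟩
    · change P * sc (Fin n) c * P⁻¹ = sc (Fin n) c
      rw [← sc_comm, mul_assoc, mul_inv_cancel, mul_one]
  have hle : H ≤ subfieldSubgroup F₀ P := by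
    intro g hg
    obtain ⟨c, hc⟩ := hτH g hg
    set κ : F := ((c⁻¹ : Fˣ) : F) with hκ
    have hκ0 : κ ≠ 0 := Units.ne_zero _
    -- κ σ κ = 1
    have hκκ : σ κ * κ = 1 := by
      have h1 := hττ ((g : Matrix (Fin n) (Fin n) F) *ᵥ u₁)
      rw [hc, hτsmul, hc, hττ, smul_smul, Matrix.mulVec_smul, smul_comm] at h1
      have hgu : (g : Matrix (Fin n) (Fin n) F) *ᵥ u₁ ≠ 0 := by
        intro h0
        apply hu₁
        have := congrArg (fun y => ((g⁻¹ : GL (Fin n) F) : Matrix (Fin n) (Fin n) F) *ᵥ y) h0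
        simpa [Matrix.mulVec_mulVec] using this
      have h2 : (σ κ * κ) • ((g : Matrix (Fin n) (Fin n) F) *ᵥ u₁) = (g : Matrix (Fin n) (Fin n) F) *ᵥ u₁ :=
        smul_right_injective _ ha0 h1
      obtain ⟨i, hi⟩ := Function.ne_iff.mp hgu
      have h3 := congrFun h2 i
      rw [Pi.smul_apply, smul_eq_mul] at h3
      exact mul_eq_right₀ hi |>.mp h3
    -- Hilbert 90: σ μ * κ = μ
    obtain ⟨μ, hμ0, hμ⟩ : ∃ μ : F, μ ≠ 0 ∧ σ μ * κ = μ := by
      by_contra hno
      push Not at hno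
      have h1 : ∀ x : F, x + κ * σ x = 0 := by
        intro x
        by_contra h0
        apply hno (x + κ * σ x) h0
        rw [map_add, map_mul, hσ2, add_mul]
        have : σ κ * x * κ = x := by
          calc σ κ * x * κ = (σ κ * κ) * x := by ring
            _ = x := by rw [hκκ, one_mul]
        rw [this]; ring
      have h2 : κ = -1 := by
        have := h1 1
        rw [map_one, mul_one] at this
        exact (neg_eq_of_add_eq_zero_right this).symm
      apply hσ1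
      ext x
      have := h1 x
      rw [h2, neg_one_mul] at this
      exact (add_neg_eq_zero.mp this).symm
    have hmem : sc (Fin n) (Units.mk0 μ hμ0) * g ∈ C := by
      rw [hCmem]
      intro v
      have e1 : ∀ x : Fin n → F, ((sc (Fin n) (Units.mk0 μ hμ0) * g : GL (Fin n) F) : Matrix (Fin n) (Fin n) F) *ᵥ x =
          μ • ((g : Matrix (Fin n) (Fin n) F) *ᵥ x) := by
        intro x
        rw [Units.val_mul, sc_val, Matrix.smul_mul, one_mul, Matrix.smul_mulVec, Units.val_mk0]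
      rw [e1, e1, hτ'smul]
      simp only [τ']
      rw [hc, Matrix.mulVec_smul, smul_smul, smul_smul, smul_smul]
      congr 1
      calc σ μ * (w : F) * κ = (σ μ * κ) * w := by ring
        _ = μ * w := by rw [hμ]
    have h1 : g = (sc (Fin n) (Units.mk0 μ hμ0))⁻¹ * (sc (Fin n) (Units.mk0 μ hμ0) * g) := by
      rw [inv_mul_cancel_left]
    rw [h1]
    exact Subgroup.mul_mem _ (Subgroup.inv_mem _ (hscle _)) (hCle hmem)
  -- the forms
  have hfB : ∀ u v, VOver F₀ v → f ((P : Matrix (Fin n) (Fin n) F) *ᵥ u) ((P : Matrix (Fin n) (Fin n) F) *ᵥ v) =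
      (w : F)⁻¹ * B ((P : Matrix (Fin n) (Fin n) F) *ᵥ u) ((P : Matrix (Fin n) (Fin n) F) *ᵥ v) := by
    intro u v hv
    have h1 : τ ((P : Matrix (Fin n) (Fin n) F) *ᵥ v) = (w : F)⁻¹ • ((P : Matrix (Fin n) (Fin n) F) *ᵥ v) := by
      have h2 := hfix v hv
      have h3 : (w : F)⁻¹ • τ' ((P : Matrix (Fin n) (Fin n) F) *ᵥ v) = τ ((P : Matrix (Fin n) (Fin n) F) *ᵥ v) := by
        simp only [τ']
        rw [smul_smul, inv_mul_cancel₀ (Units.ne_zero w), one_smul]
      rw [← h3, h2]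
    rw [hτ, h1, hB.sesq.smul_right]; rfl
  obtain ⟨ζ, hζ0, hζσ⟩ : ∃ ζ : F, ζ ≠ 0 ∧ σ ζ = -ζ := by
    obtain ⟨c, hc⟩ : ∃ c : F, σ c ≠ c := by
      by_contra hno
      push Not at hno
      exact hσ1 (RingEquiv.ext hno)
    exact ⟨c - σ c, sub_ne_zero.mpr (Ne.symm hc), by rw [map_sub, hσ2]; ring⟩
  refine ⟨F₀, P, ζ, hcard, hζ0, ?_, ?_, ?_, hle⟩
  · rw [← hσ, hζσ, add_neg_cancel]
  · intro u v hu hv
    change ζ * f _ _ ∈ F₀
    rw [mem_fixField, map_mul, hζσ]
    have h1 : f ((P : Matrix (Fin n) (Fin n) F) *ᵥ u) ((P : Matrix (Fin n) (Fin n) F) *ᵥ v) =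
        - σ (f ((P : Matrix (Fin n) (Fin n) F) *ᵥ u) ((P : Matrix (Fin n) (Fin n) F) *ᵥ v)) := by
      rw [← hfherm]
      rw [hfB u v hv, hfB v u hu, hBs.skew]
      ring
    nth_rewrite 2 [h1]
    ring
  · intro u hu
    change f _ _ = 0
    rw [hfB u u hu, hBs.alternating, mul_zero]

end H97.AschUSymp
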