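import Mathlib
import Cfsg.Agent.Lib.H97.AschUSymp

/-!
Aschbacher library, part 48: pairs of totally singular planes in four-dimensional unitary spaces over small fields.
-/

set_option autoImplicit false
set_option linter.unusedSectionVars false

namespace H97.AschUPair

open Cfsg Cfsg.Geo Matrix H97.AschRad H97.AschEnv H97.AschNonab H97.AschGrp H97.AschLinear H97.AschIdem H97.AschDecomp
open H97.AschForm H97.AschSubfield H97.AschReal H97.AschNCU H97.AschUSymp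
open H96.AschSympType1 H96.AschSympType3 H96.AschSubForm H96.AschSympType5 H96.AschAdj H96.AschComm H96.AschField
open H96.AschSp H96.AschSp2 H96.AschSU H96.AschSU2 H96.AschOdd2 H96.AschDescent H96.AschSU3

/-- matrices with prescribed independent columns -/
lemma exists_cols {ι : Type} [Fintype ι] [DecidableEq ι] {F : Type*} [Field F] {w : ι → ι → F}
    (hw : ∀ x : ι → F, ∑ j, x j • w j = 0 → x = 0) :
    ∃ Q : GL ι F, ∀ x, (Q : Matrix ι ι F) *ᵥ x = ∑ j, x j • w j := by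
  let A : Matrix ι ι F := fun i j => w j i
  have hA : ∀ x, A *ᵥ x = ∑ j, x j • w j := by
    intro x
    ext i
    rw [Finset.sum_apply, Matrix.mulVec, dotProduct]
    refine Finset.sum_congr rfl (fun j _ => ?_)
    rw [Pi.smul_apply, smul_eq_mul, mul_comm]
  have hinj : Function.Injective (fun v => A *ᵥ v) := by
    intro x y hxy
    have h1 : A *ᵥ (x - y) = 0 := by
      rw [Matrix.mulVec_sub]; exact sub_eq_zero.mpr hxy
    rw [hA] at h1
    exact sub_eq_zero.mp (hw _ h1)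
  obtain ⟨U, hU⟩ := Matrix.mulVec_injective_iff_isUnit.mp hinj
  exact ⟨U, fun x => by rw [hU]; exact hA x⟩

section det

variable {R : Type*} [CommRing R]

lemma det_diag (M : Matrix (Fin 4) (Fin 4) R) (h02 : M 0 2 = 0) (h03 : M 0 3 = 0) (h12 : M 1 2 = 0) (h13 : M 1 3 = 0)
    (h20 : M 2 0 = 0) (h21 : M 2 1 = 0) (h30 : M 3 0 = 0) (h31 : M 3 1 = 0) :
    M.det = (M 0 0 * M 1 1 - M 0 1 * M 1 0) * (M 2 2 * M 3 3 - M 2 3 * M 3 2) := by
  have hM : M = !![M 0 0, M 0 1, 0, 0; M 1 0, M 1 1, 0, 0; 0, 0, M 2 2, M 2 3; 0, 0, M 3 2, M 3 3] := by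
    ext i j
    fin_cases i <;> fin_cases j <;> simp [h02, h03, h12, h13, h20, h21, h30, h31]
  rw [hM]
  simp [Matrix.det_succ_row_zero, Fin.sum_univ_succ, Fin.succAbove]
  ring

lemma det_anti (M : Matrix (Fin 4) (Fin 4) R) (h00 : M 0 0 = 0) (h01 : M 0 1 = 0) (h10 : M 1 0 = 0) (h11 : M 1 1 = 0)
    (h22 : M 2 2 = 0) (h23 : M 2 3 = 0) (h32 : M 3 2 = 0) (h33 : M 3 3 = 0) :
    M.det = (M 0 2 * M 1 3 - M 0 3 * M 1 2) * (M 2 0 * M 3 1 - M 2 1 * M 3 0) := by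
  have hM : M = !![0, 0, M 0 2, M 0 3; 0, 0, M 1 2, M 1 3; M 2 0, M 2 1, 0, 0; M 3 0, M 3 1, 0, 0] := by
    ext i j
    fin_cases i <;> fin_cases j <;> simp [h00, h01, h10, h11, h22, h23, h32, h33]
  rw [hM]
  simp [Matrix.det_succ_row_zero, Fin.sum_univ_succ, Fin.succAbove]
  ring

end det

variable {F : Type*} [Field F] [Fintype F] {n q : ℕ} {σ : F ≃+* F}

/-- a hyperbolic basis adapted to a pair of totally singular planes -/
theorem hyp_basis (h : Ctx (F := F) σ 4 q) {D : Fin 2 → Submodule F (Fin 4 → F)} (hD : IsMDecomposition 2 D)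
    (hs : ∀ i, IsTotallySingularFor (hermForm 4 F q) (D i)) :
    ∃ e₁ ∈ D 0, ∃ e₂ ∈ D 0, ∃ f₁ ∈ D 1, ∃ f₂ ∈ D 1, hermForm 4 F q e₁ f₁ = 1 ∧ hermForm 4 F q e₁ f₂ = 0 ∧
      hermForm 4 F q e₂ f₁ = 0 ∧ hermForm 4 F q e₂ f₂ = 1 := by
  have hS := h.form.sesq
  have hdec : ∀ z : Fin 4 → F, ∃ z₀ ∈ D 0, ∃ z₁ ∈ D 1, z₀ + z₁ = z := by
    intro z
    have h1 : z ∈ D 0 ⊔ D 1 := by
      have h2 : iSup D = D 0 ⊔ D 1 := by
        apply le_antisymm
        · apply iSup_le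
          intro i
          fin_cases i
          · exact le_sup_left
          · exact le_sup_right
        · exact sup_le (le_iSup D 0) (le_iSup D 1)
      rw [← h2, hD.iSup_eq_top]
      exact Submodule.mem_top
    exact Submodule.mem_sup.mp h1
  have hdual : ∀ x ∈ D 0, x ≠ 0 → ∃ y ∈ D 1, hermForm 4 F q x y = 1 := by
    intro x hx hx0
    obtain ⟨z, hz⟩ := h.form.nd x hx0
    obtain ⟨z₀, h0, z₁, h1, rfl⟩ := hdec z
    rw [hS.add_right, hs 0 x hx z₀ h0, zero_add] at hz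
    refine ⟨σ (hermForm 4 F q x z₁)⁻¹ • z₁, (D 1).smul_mem _ h1, ?_⟩
    rw [hS.smul_right, h.form.invol, inv_mul_cancel₀ hz]
  obtain ⟨e₁, he₁, he₁0⟩ : ∃ e₁ ∈ D 0, e₁ ≠ 0 := by
    by_contra hno
    push Not at hno
    have h1 : D 0 = ⊥ := (Submodule.eq_bot_iff _).mpr hno
    have h2 := hD.finrank_eq 0
    rw [h1, finrank_bot] at h2
    omega
  obtain ⟨f₁, hf₁, hef⟩ := hdual e₁ he₁ he₁0
  obtain ⟨v, hv, hvn⟩ : ∃ v ∈ D 0, v ∉ Submodule.span F {e₁} := by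
    by_contra hno
    push Not at hno
    have h1 : D 0 ≤ Submodule.span F {e₁} := hno
    have h2 := Submodule.finrank_mono h1
    rw [hD.finrank_eq, finrank_span_singleton he₁0] at h2
    omega
  set e₂ := v - hermForm 4 F q v f₁ • e₁ with he₂
  have he₂D : e₂ ∈ D 0 := (D 0).sub_mem hv ((D 0).smul_mem _ he₁)
  have he₂0 : e₂ ≠ 0 := by
    intro h0
    apply hvn
    rw [sub_eq_zero.mp h0]
    exact Submodule.smul_mem _ _ (Submodule.mem_span_singleton_self _)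
  have he₂f : hermForm 4 F q e₂ f₁ = 0 := by
    rw [he₂, sub_eq_add_neg, ← neg_smul, hS.add_left, hS.smul_left, hef]
    ring
  obtain ⟨f₂', hf₂', hef'⟩ := hdual e₂ he₂D he₂0
  refine ⟨e₁, he₁, e₂, he₂D, f₁, hf₁, f₂' + (-σ (hermForm 4 F q e₁ f₂')) • f₁,
    (D 1).add_mem hf₂' ((D 1).smul_mem _ hf₁), hef, ?_, he₂f, ?_⟩
  · rw [hS.add_right, hS.smul_right, hef, map_neg, h.form.invol]
    ring
  · rw [hS.add_right, hS.smul_right, he₂f, hef', mul_zero, add_zero]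

/-- the standard alternating form in four variables -/
def alt4 (x y : Fin 4 → F) : F := x 0 * y 1 - x 1 * y 0 + (x 2 * y 3 - x 3 * y 2)

/-- the semilinear map relating the two forms -/
def tau4 (σ : F ≃+* F) (y : Fin 4 → F) : Fin 4 → F := ![-σ (y 3), σ (y 2), -σ (y 1), σ (y 0)]

/-- **pairs of totally singular planes for q ≤ 3** -/
theorem pair_symp (h : Ctx (F := F) σ 4 q) (hq : q = 2 ∨ q = 3) {D : Fin 2 → Submodule F (Fin 4 → F)}
    (hD : IsMDecomposition 2 D) (hs : ∀ i, IsTotallySingularFor (hermForm 4 F q) (D i)) :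
    ∃ (F₀ : Subfield F) (P : GL (Fin 4) F) (ζ : F), Fintype.card F = Nat.card F₀ ^ 2 ∧ ζ ≠ 0 ∧ ζ + ζ ^ q = 0 ∧
      IsFormRationalStructure (hermForm 4 F q) F₀ ζ P ∧
      (∀ u : Fin 4 → F, (∀ i, u i ∈ F₀) → hermForm 4 F q ((P : Matrix (Fin 4) (Fin 4) F) *ᵥ u)
        ((P : Matrix (Fin 4) (Fin 4) F) *ᵥ u) = 0) ∧
      decompositionStabilizer D ⊓ (GU 4 F q ⊓ specialLinear (Fin 4) F) ≤ subfieldSubgroup F₀ P := by
  classical
  obtain ⟨e₁, he₁, e₂, he₂, f₁, hf₁, f₂, hf₂, h11, h12, h21, h22⟩ := hyp_basis h hD hs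
  have hS := h.form.sesq
  have hherm : ∀ u v, hermForm 4 F q v u = σ (hermForm 4 F q u v) := fun u v => by rw [h.form.herm v u, one_mul]
  have g11 : hermForm 4 F q f₁ e₁ = 1 := by rw [hherm e₁ f₁, h11, map_one]
  have g12 : hermForm 4 F q f₁ e₂ = 0 := by rw [hherm e₂ f₁, h21, map_zero]
  have g21 : hermForm 4 F q f₂ e₁ = 0 := by rw [hherm e₁ f₂, h12, map_zero]
  have g22 : hermForm 4 F q f₂ e₂ = 1 := by rw [hherm e₂ f₂, h22, map_one]
  have z0 : ∀ u ∈ D 0, ∀ v ∈ D 0, hermForm 4 F q u v = 0 := hs 0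
  have z1 : ∀ u ∈ D 1, ∀ v ∈ D 1, hermForm 4 F q u v = 0 := hs 1
  let w : Fin 4 → (Fin 4 → F) := ![e₁, e₂, f₁, f₂]
  have hsum : ∀ x : Fin 4 → F, ∑ j, x j • w j = x 0 • e₁ + x 1 • e₂ + (x 2 • f₁ + x 3 • f₂) := by
    intro x
    rw [Fin.sum_univ_four, add_assoc (x 0 • w 0 + x 1 • w 1)]
    rfl
  have hgram : ∀ x y : Fin 4 → F, hermForm 4 F q (∑ j, x j • w j) (∑ j, y j • w j) =
      x 0 * σ (y 2) + x 1 * σ (y 3) + x 2 * σ (y 0) + x 3 * σ (y 1) := by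
    intro x y
    rw [hsum, hsum]
    simp only [hS.add_left, hS.add_right, hS.smul_left, hS.smul_right, h11, h12, h21, h22, g11, g12, g21, g22,
      z0 e₁ he₁ e₁ he₁, z0 e₁ he₁ e₂ he₂, z0 e₂ he₂ e₁ he₁, z0 e₂ he₂ e₂ he₂,
      z1 f₁ hf₁ f₁ hf₁, z1 f₁ hf₁ f₂ hf₂, z1 f₂ hf₂ f₁ hf₁, z1 f₂ hf₂ f₂ hf₂]
    ring
  obtain ⟨Q, hQ⟩ := exists_cols (w := w) (by
    intro x hx
    have key : ∀ y : Fin 4 → F, x 0 * σ (y 2) + x 1 * σ (y 3) + x 2 * σ (y 0) + x 3 * σ (y 1) = 0 := by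
      intro y
      rw [← hgram, hx, hS.zero_left]
    ext i
    fin_cases i
    · have := key (Pi.single 2 1); simpa using this
    · have := key (Pi.single 3 1); simpa using this
    · have := key (Pi.single 0 1); simpa using this
    · have := key (Pi.single 1 1); simpa using this)
  have hQf : ∀ x y, hermForm 4 F q ((Q : Matrix (Fin 4) (Fin 4) F) *ᵥ x) ((Q : Matrix (Fin 4) (Fin 4) F) *ᵥ y) =
      x 0 * σ (y 2) + x 1 * σ (y 3) + x 2 * σ (y 0) + x 3 * σ (y 1) := by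
    intro x y; rw [hQ, hQ, hgram]
  have hQinv : ∀ v, (Q : Matrix (Fin 4) (Fin 4) F) *ᵥ (((Q⁻¹ : GL (Fin 4) F) : Matrix (Fin 4) (Fin 4) F) *ᵥ v) = v := by
    intro v
    rw [Matrix.mulVec_mulVec, Units.mul_inv, Matrix.one_mulVec]
  have hQinv' : ∀ v, ((Q⁻¹ : GL (Fin 4) F) : Matrix (Fin 4) (Fin 4) F) *ᵥ ((Q : Matrix (Fin 4) (Fin 4) F) *ᵥ v) = v := by
    intro v
    rw [Matrix.mulVec_mulVec, Units.inv_mul, Matrix.one_mulVec]
  -- membership in coordinates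
  have hm0 : ∀ x, (Q : Matrix (Fin 4) (Fin 4) F) *ᵥ x ∈ D 0 → x 2 = 0 ∧ x 3 = 0 := by
    intro x hx
    have e1 := z0 _ hx e₁ he₁
    have e2 := z0 _ hx e₂ he₂
    rw [hQ, hsum, hS.add_left, hS.add_left, hS.add_left, hS.smul_left, hS.smul_left, hS.smul_left, hS.smul_left,
      z0 e₁ he₁ e₁ he₁, z0 e₂ he₂ e₁ he₁, g11, g21] at e1
    rw [hQ, hsum, hS.add_left, hS.add_left, hS.add_left, hS.smul_left, hS.smul_left, hS.smul_left, hS.smul_left,
      z0 e₁ he₁ e₂ he₂, z0 e₂ he₂ e₂ he₂, g12, g22] at e2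
    exact ⟨by linear_combination e1, by linear_combination e2⟩
  have hm1 : ∀ x, (Q : Matrix (Fin 4) (Fin 4) F) *ᵥ x ∈ D 1 → x 0 = 0 ∧ x 1 = 0 := by
    intro x hx
    have e1 := z1 _ hx f₁ hf₁
    have e2 := z1 _ hx f₂ hf₂
    rw [hQ, hsum, hS.add_left, hS.add_left, hS.add_left, hS.smul_left, hS.smul_left, hS.smul_left, hS.smul_left,
      z1 f₁ hf₁ f₁ hf₁, z1 f₂ hf₂ f₁ hf₁, h11, h21] at e1
    rw [hQ, hsum, hS.add_left, hS.add_left, hS.add_left, hS.smul_left, hS.smul_left, hS.smul_left, hS.smul_left,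
      z1 f₁ hf₁ f₂ hf₂, z1 f₂ hf₂ f₂ hf₂, h12, h22] at e2
    exact ⟨by linear_combination e1, by linear_combination e2⟩
  -- the alternating form
  let B : (Fin 4 → F) → (Fin 4 → F) → F := fun u v =>
    alt4 (((Q⁻¹ : GL (Fin 4) F) : Matrix (Fin 4) (Fin 4) F) *ᵥ u) (((Q⁻¹ : GL (Fin 4) F) : Matrix (Fin 4) (Fin 4) F) *ᵥ v)
  have hBdef : ∀ x y, B ((Q : Matrix (Fin 4) (Fin 4) F) *ᵥ x) ((Q : Matrix (Fin 4) (Fin 4) F) *ᵥ y) = alt4 x y := by
    intro x y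
    simp only [B]
    rw [hQinv', hQinv']
  have hBskew : ∀ v w, B v w = - B w v := by
    intro v w
    simp only [B, alt4]
    ring
  have hBnd : ∀ v, v ≠ 0 → ∃ x, B v x ≠ 0 := by
    intro v hv
    by_contra hno
    push Not at hno
    apply hv
    have h1 : ((Q⁻¹ : GL (Fin 4) F) : Matrix (Fin 4) (Fin 4) F) *ᵥ v = 0 := by
      have key : ∀ y : Fin 4 → F, alt4 (((Q⁻¹ : GL (Fin 4) F) : Matrix (Fin 4) (Fin 4) F) *ᵥ v) y = 0 := by
        intro y
        have h2 := hno ((Q : Matrix (Fin 4) (Fin 4) F) *ᵥ y)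
        rw [← hQinv v, hBdef] at h2
        exact h2
      ext i
      fin_cases i
      · have := key (Pi.single 1 1); simpa [alt4] using this
      · have := key (Pi.single 0 1); simpa [alt4] using this
      · have := key (Pi.single 3 1); simpa [alt4] using this
      · have := key (Pi.single 2 1); simpa [alt4] using this
    rw [← hQinv v, h1, Matrix.mulVec_zero]
  have hBs : IsSymplecticForm B := by
    refine ⟨⟨?_, ?_, ?_, ?_⟩, hBskew, ?_, fun v hv => ⟨?_, hBnd v hv⟩⟩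
    · intro v w x
      simp only [B, Matrix.mulVec_add, alt4, Pi.add_apply]; ring
    · intro c v w
      simp only [B, Matrix.mulVec_smul, alt4, Pi.smul_apply, smul_eq_mul]; ring
    · intro v w x
      simp only [B, Matrix.mulVec_add, alt4, Pi.add_apply]; ring
    · intro c v w
      simp only [B, Matrix.mulVec_smul, alt4, Pi.smul_apply, smul_eq_mul]; ring
    · intro v
      simp only [B, alt4]; ring
    · obtain ⟨x, hx⟩ := hBnd v hv
      refine ⟨x, ?_⟩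
      rw [hBskew]
      exact neg_ne_zero.mpr hx
  let τ : (Fin 4 → F) → (Fin 4 → F) := fun v =>
    (Q : Matrix (Fin 4) (Fin 4) F) *ᵥ tau4 σ (((Q⁻¹ : GL (Fin 4) F) : Matrix (Fin 4) (Fin 4) F) *ᵥ v)
  have hτ : ∀ u v, hermForm 4 F q u v = B u (τ v) := by
    intro u v
    rw [← hQinv u, ← hQinv v]
    simp only [τ]
    rw [hQf, hBdef]
    rw [hQinv']
    simp only [alt4, tau4, Matrix.cons_val]
    ring
  have hττ : ∀ v, τ (τ v) = (-1 : F) • v := by
    intro v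
    conv_rhs => rw [← hQinv v, ← Matrix.mulVec_smul]
    simp only [τ]
    rw [hQinv']
    congr 1
    ext i
    fin_cases i <;> simp [tau4, h.form.invol]
  suffices hsuff : decompositionStabilizer D ⊓ (GU 4 F q ⊓ specialLinear (Fin 4) F) ≤ similarityGroup B by
    exact sim_subfield h (by norm_num) (inf_le_right.trans inf_le_left) hBs hsuff hτ hττ
  rintro g ⟨⟨π, hπ⟩, hgU, hgS⟩
  have hgU' : ∀ u v, hermForm 4 F q ((g : Matrix (Fin 4) (Fin 4) F) *ᵥ u) ((g : Matrix (Fin 4) (Fin 4) F) *ᵥ v) =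
      hermForm 4 F q u v := hgU
  set M : Matrix (Fin 4) (Fin 4) F := ((Q⁻¹ * g * Q : GL (Fin 4) F) : Matrix (Fin 4) (Fin 4) F) with hM
  have hdet : M.det = 1 := by
    have h1 : M.det = (g : Matrix (Fin 4) (Fin 4) F).det := by
      rw [hM, Units.val_mul, Units.val_mul, Matrix.det_mul, Matrix.det_mul, mul_comm (Matrix.det _) (Matrix.det (g : Matrix (Fin 4) (Fin 4) F)),
        mul_assoc, ← Matrix.det_mul, ← Units.val_mul, inv_mul_cancel, Units.val_one, Matrix.det_one, mul_one]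
    rw [h1]
    have h2 : Matrix.GeneralLinearGroup.det g = 1 := hgS
    have h3 := congrArg Units.val h2
    simpa using h3
  have hgQ : ∀ x, (g : Matrix (Fin 4) (Fin 4) F) *ᵥ ((Q : Matrix (Fin 4) (Fin 4) F) *ᵥ x) =
      (Q : Matrix (Fin 4) (Fin 4) F) *ᵥ (M *ᵥ x) := by
    intro x
    rw [hM, Matrix.mulVec_mulVec, Matrix.mulVec_mulVec, ← Units.val_mul, ← Units.val_mul]
    congr 2
    group
  have hiso : ∀ x y : Fin 4 → F, (M *ᵥ x) 0 * σ ((M *ᵥ y) 2) + (M *ᵥ x) 1 * σ ((M *ᵥ y) 3) + (M *ᵥ x) 2 * σ ((M *ᵥ y) 0) +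
      (M *ᵥ x) 3 * σ ((M *ᵥ y) 1) = x 0 * σ (y 2) + x 1 * σ (y 3) + x 2 * σ (y 0) + x 3 * σ (y 1) := by
    intro x y
    rw [← hQf, ← hQf, ← hgQ, ← hgQ, hgU']
  have hcol : ∀ i j, (M *ᵥ Pi.single j 1) i = M i j := by
    intro i j
    rw [Matrix.mulVec_single_one]; rfl
  have hent : ∀ i j : Fin 4, M 0 i * σ (M 2 j) + M 1 i * σ (M 3 j) + M 2 i * σ (M 0 j) + M 3 i * σ (M 1 j) =
      (Pi.single i 1 : Fin 4 → F) 0 * σ ((Pi.single j 1 : Fin 4 → F) 2) +
      (Pi.single i 1 : Fin 4 → F) 1 * σ ((Pi.single j 1 : Fin 4 → F) 3) +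
      (Pi.single i 1 : Fin 4 → F) 2 * σ ((Pi.single j 1 : Fin 4 → F) 0) +
      (Pi.single i 1 : Fin 4 → F) 3 * σ ((Pi.single j 1 : Fin 4 → F) 1) := by
    intro i j
    have := hiso (Pi.single i 1) (Pi.single j 1)
    simpa only [hcol] using this
  have hQ0 : (Q : Matrix (Fin 4) (Fin 4) F) *ᵥ Pi.single 0 1 ∈ D 0 := by
    rw [hQ, hsum]; simpa using he₁
  have hQ1 : (Q : Matrix (Fin 4) (Fin 4) F) *ᵥ Pi.single 1 1 ∈ D 0 := by
    rw [hQ, hsum]; simpa using he₂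
  have hQ2 : (Q : Matrix (Fin 4) (Fin 4) F) *ᵥ Pi.single 2 1 ∈ D 1 := by
    rw [hQ, hsum]; simpa using hf₁
  have hQ3 : (Q : Matrix (Fin 4) (Fin 4) F) *ᵥ Pi.single 3 1 ∈ D 1 := by
    rw [hQ, hsum]; simpa using hf₂
  have hmap : ∀ i (v : Fin 4 → F), v ∈ D i → (g : Matrix (Fin 4) (Fin 4) F) *ᵥ v ∈ D (π i) := by
    intro i v hv
    rw [← hπ i]
    exact ⟨v, hv, Matrix.toLin'_apply _ _⟩
  -- the scalar
  have hscal : ∀ δ η : F, δ * η = 1 → δ * σ η = 1 → δ * δ = 1 ∧ η = δ := by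
    intro δ η h1 h2
    have hδ : δ ≠ 0 := left_ne_zero_of_mul_eq_one h1
    have h3 : σ η = η := mul_left_cancel₀ hδ (h2.trans h1.symm)
    have hη : η ≠ 0 := right_ne_zero_of_mul_eq_one h1
    rw [h.val] at h3
    rcases hq with hq2 | hq3
    · rw [hq2] at h3
      have h4 : η = 1 := by
        have : η * (η - 1) = 0 := by linear_combination h3
        rcases mul_eq_zero.mp this with h5 | h5
        · exact absurd h5 hη
        · exact sub_eq_zero.mp h5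
      rw [h4, mul_one] at h1
      exact ⟨by rw [h1, mul_one], by rw [h4, h1]⟩
    · rw [hq3] at h3
      have h4 : η * η = 1 := by
        have : η * (η * η - 1) = 0 := by linear_combination h3
        rcases mul_eq_zero.mp this with h5 | h5
        · exact absurd h5 hη
        · exact sub_eq_zero.mp h5
      have h5 : η = δ := by
        have : η * η = η * δ := by rw [h4, mul_comm, h1]
        exact mul_left_cancel₀ hη this
      exact ⟨by rw [← h5, h4], h5⟩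
  have hfin : ∀ δ : F, δ * δ = 1 → (∀ x y, alt4 (M *ᵥ x) (M *ᵥ y) = δ * alt4 x y) → g ∈ similarityGroup B := by
    intro δ hδ hall
    refine ⟨Units.mk0 δ (left_ne_zero_of_mul_eq_one hδ), fun u v => ?_⟩
    rw [← hQinv u, ← hQinv v, hgQ, hgQ, hBdef, hBdef, hall, Units.val_mk0]
  have hMv : ∀ (x : Fin 4 → F) i, (M *ᵥ x) i = M i 0 * x 0 + M i 1 * x 1 + M i 2 * x 2 + M i 3 * x 3 := by
    intro x i
    rw [Matrix.mulVec, dotProduct, Fin.sum_univ_four]
  have hcase : π 0 = 0 ∧ π 1 = 1 ∨ π 0 = 1 ∧ π 1 = 0 := by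
    have h1 : π 0 ≠ π 1 := fun h => by simpa using π.injective h
    revert h1
    generalize π 0 = a
    generalize π 1 = b
    fin_cases a <;> fin_cases b <;> simp
  rcases hcase with ⟨hp0, hp1⟩ | ⟨hp0, hp1⟩
  · have a0 := hmap 0 _ hQ0
    have a1 := hmap 0 _ hQ1
    have a2 := hmap 1 _ hQ2
    have a3 := hmap 1 _ hQ3
    rw [hp0, hgQ] at a0 a1
    rw [hp1, hgQ] at a2 a3
    obtain ⟨b20, b30⟩ := hm0 _ a0
    obtain ⟨b21, b31⟩ := hm0 _ a1
    obtain ⟨b02, b12⟩ := hm1 _ a2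
    obtain ⟨b03, b13⟩ := hm1 _ a3
    rw [hcol] at b20 b30 b21 b31 b02 b12 b03 b13
    have c1 := hent 0 2
    have c2 := hent 0 3
    have c3 := hent 1 2
    have c4 := hent 1 3
    simp [b20, b30, b21, b31, b02, b12, b03, b13] at c1 c2 c3 c4
    have hd := det_diag M b02 b03 b12 b13 b20 b21 b30 b31
    rw [hdet] at hd
    have hd2 : (M 0 0 * M 1 1 - M 0 1 * M 1 0) * σ (M 2 2 * M 3 3 - M 2 3 * M 3 2) = 1 := by
      rw [map_sub, map_mul, map_mul]
      linear_combination (M 0 1 * σ (M 2 3) + M 1 1 * σ (M 3 3)) * c1 - (M 0 0 * σ (M 2 3) + M 1 0 * σ (M 3 3)) * c3 + c4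
        - (0 : F) * c2
    obtain ⟨s1, s2⟩ := hscal _ _ hd.symm hd2
    apply hfin _ s1
    intro x y
    simp only [alt4, hMv, b20, b30, b21, b31, b02, b12, b03, b13]
    linear_combination (x 2 * y 3 - x 3 * y 2) * s2
  · have a0 := hmap 0 _ hQ0
    have a1 := hmap 0 _ hQ1
    have a2 := hmap 1 _ hQ2
    have a3 := hmap 1 _ hQ3
    rw [hp0, hgQ] at a0 a1
    rw [hp1, hgQ] at a2 a3
    obtain ⟨b00, b10⟩ := hm1 _ a0
    obtain ⟨b01, b11⟩ := hm1 _ a1
    obtain ⟨b22, b32⟩ := hm0 _ a2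
    obtain ⟨b23, b33⟩ := hm0 _ a3
    rw [hcol] at b00 b10 b01 b11 b22 b32 b23 b33
    have c1 := hent 2 0
    have c2 := hent 2 1
    have c3 := hent 3 0
    have c4 := hent 3 1
    simp [b00, b10, b01, b11, b22, b32, b23, b33] at c1 c2 c3 c4
    have hd := det_anti M b00 b01 b10 b11 b22 b23 b32 b33
    rw [hdet] at hd
    have hd2 : (M 0 2 * M 1 3 - M 0 3 * M 1 2) * σ (M 2 0 * M 3 1 - M 2 1 * M 3 0) = 1 := by
      rw [map_sub, map_mul, map_mul]
      linear_combination (M 0 3 * σ (M 2 1) + M 1 3 * σ (M 3 1)) * c1 - (M 0 2 * σ (M 2 1) + M 1 2 * σ (M 3 1)) * c3 + c4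
        - (0 : F) * c2
    obtain ⟨s1, s2⟩ := hscal _ _ hd.symm hd2
    apply hfin _ s1
    intro x y
    simp only [alt4, hMv, b00, b10, b01, b11, b22, b32, b23, b33]
    linear_combination (x 0 * y 1 - x 1 * y 0) * s2

end H97.AschUPair
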