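import Mathlib
import Cfsg.Agent.Lib.H97.AschUPair
import Cfsg.Agent.Lib.H96.AschSympEx

/-!
Aschbacher library, part 49: the four-dimensional group of symplectic type of order 64 attached to an orthonormal frame.
-/

set_option autoImplicit false
set_option linter.unusedSectionVars false

namespace H97.AschPauli

open Cfsg Cfsg.Geo Matrix H97.AschRad H97.AschEnv H97.AschNonab H97.AschGrp H97.AschLinear H97.AschIdem H97.AschDecomp
open H97.AschForm H97.AschSubfield H97.AschReal H97.AschNCU H97.AschUSymp H97.AschUPair H97.AschUElim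
open H96.AschSympType1 H96.AschSympType2 H96.AschSympType3 H96.AschSubForm H96.AschSympType5 H96.AschAdj
open H96.AschComm H96.AschField H96.AschSympEx
open H96.AschSp H96.AschSp2 H96.AschSU H96.AschSU2 H96.AschOdd2 H96.AschDescent H96.AschSU3

/-! ### the four-element index group -/

/-- addition of the Klein four group on four indices -/
def ad (x y : Fin 4) : Fin 4 := (![![0, 1, 2, 3], ![1, 0, 3, 2], ![2, 3, 0, 1], ![3, 2, 1, 0]] : Fin 4 → Fin 4 → Fin 4) x y

lemma ad_assoc : ∀ x y z, ad (ad x y) z = ad x (ad y z) := by decide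
lemma ad_comm : ∀ x y, ad x y = ad y x := by decide
lemma ad_zero : ∀ x, ad x 0 = x := by decide
lemma ad_ad : ∀ x y, ad (ad x y) y = x := by decide
lemma ad_eq_self : ∀ x y, ad x y = x → y = 0 := by decide
lemma exists_ad : ∀ x y, ∃ b, ad x b = y := by decide
lemma ad_swap : ∀ x y z, ad (ad x y) z = ad (ad x z) y := by decide

/-- translation as a permutation -/
def tr (b : Fin 4) : Equiv.Perm (Fin 4) := ⟨fun y => ad y b, fun y => ad y b, fun y => ad_ad y b, fun y => ad_ad y b⟩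

lemma tr_apply (b y : Fin 4) : tr b y = ad y b := rfl

set_option maxRecDepth 100000 in
lemma affine : ∀ (π : Equiv.Perm (Fin 4)) (b : Fin 4), ∃ b', ∀ y, π (ad y b) = ad (π y) b' := by decide

/-- the parity pairing -/
def par (a y : Fin 4) : ℕ := (![![0, 0, 0, 0], ![0, 1, 0, 1], ![0, 0, 1, 1], ![0, 1, 1, 0]] : Fin 4 → Fin 4 → ℕ) a y

lemma par_ad : ∀ a y b, par a (ad y b) % 2 = (par a y + par a b) % 2 := by decide
lemma par_exists : ∀ b, b ≠ 0 → ∃ a, par a b = 1 := by decide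

lemma arith (e : Fin 4 → ℕ) (he : (e 0 + e 1 + e 2 + e 3) % 2 = 0) (b c : Fin 4) :
    ∃ k, k % 2 = 0 ∧ ∀ y, (3 * e (ad y c) + e (ad (ad y c) b)) % 4 = (k + (3 * e y + e (ad y b))) % 4 := by
  refine ⟨3 * e c + e (ad c b) + 9 * e 0 + 3 * e b, ?_, fun y => ?_⟩
  · fin_cases b <;> fin_cases c <;> simp [ad] <;> omega
  · fin_cases b <;> fin_cases c <;> fin_cases y <;> simp [ad] <;> omega

section field

variable {F : Type*} [Field F]

def ch (a y : Fin 4) : F := (-1) ^ par a y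

lemma neg_one_pow_mod {a b : ℕ} (h : a % 2 = b % 2) : ((-1 : F)) ^ a = (-1) ^ b := by
  rw [neg_one_pow_eq_pow_mod_two, h, ← neg_one_pow_eq_pow_mod_two]

lemma ch_ad (a y b : Fin 4) : (ch a (ad y b) : F) = ch a b * ch a y := by
  rw [ch, ch, ch, ← pow_add, neg_one_pow_mod (par_ad a y b), add_comm]

lemma ch_sq (a y : Fin 4) : (ch a y : F) * ch a y = 1 := by
  rw [ch, ← mul_pow]; simp

lemma ch_sum (y z : Fin 4) : ∑ a, (ch a z : F) * ch a y = if y = z then 4 else 0 := by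
  rw [Fin.sum_univ_four]
  fin_cases y <;> fin_cases z <;> simp [ch, par] <;> norm_num

/-- functions which are characters up to fourth roots of unity -/
def Lf (f : Fin 4 → F) : Prop := (∀ x, f x ^ 4 = 1) ∧ ∀ b, ∃ s, s * s = 1 ∧ ∀ y, f (ad y b) = s * f y

lemma Lf.ne {f : Fin 4 → F} (h : Lf f) (x : Fin 4) : f x ≠ 0 := by
  intro h0
  have := h.1 x
  rw [h0] at this
  norm_num at this

lemma Lf_const {c : F} (hc : c ^ 4 = 1) : Lf (fun _ => c) := ⟨fun _ => hc, fun _ => ⟨1, one_mul 1, fun _ => (one_mul _).symm⟩⟩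

lemma Lf_ch (a : Fin 4) : Lf (F := F) (ch a) := by
  refine ⟨fun x => ?_, fun b => ⟨ch a b, ch_sq a b, fun y => ch_ad a y b⟩⟩
  have h1 := ch_sq (F := F) a x
  calc (ch a x : F) ^ 4 = (ch a x * ch a x) * (ch a x * ch a x) := by ring
    _ = 1 := by rw [h1, one_mul]

lemma Lf.mul {f g : Fin 4 → F} (hf : Lf f) (hg : Lf g) : Lf (fun y => f y * g y) := by
  refine ⟨fun x => by rw [mul_pow, hf.1, hg.1, one_mul], fun b => ?_⟩
  obtain ⟨s, hs, h1⟩ := hf.2 b
  obtain ⟨t, ht, h2⟩ := hg.2 b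
  refine ⟨s * t, by rw [mul_mul_mul_comm, hs, ht, one_mul], fun y => ?_⟩
  beta_reduce
  rw [h1, h2]; ring

lemma Lf.inv {f : Fin 4 → F} (hf : Lf f) : Lf (fun y => (f y)⁻¹) := by
  refine ⟨fun x => by rw [inv_pow, hf.1, inv_one], fun b => ?_⟩
  obtain ⟨s, hs, h1⟩ := hf.2 b
  refine ⟨s, hs, fun y => ?_⟩
  have hs' : s⁻¹ = s := inv_eq_of_mul_eq_one_right hs
  beta_reduce
  rw [h1, mul_inv, hs']

lemma Lf.perm {f : Fin 4 → F} (hf : Lf f) (π : Equiv.Perm (Fin 4)) : Lf (fun y => f (π y)) := by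
  refine ⟨fun x => hf.1 _, fun b => ?_⟩
  obtain ⟨b', hb⟩ := affine π b
  obtain ⟨s, hs, h1⟩ := hf.2 b'
  exact ⟨s, hs, fun y => by beta_reduce; rw [hb, h1]⟩

lemma root_cases {i x : F} (hi : i * i = -1) (hx : x ^ 4 = 1) : ∃ k : ℕ, x = i ^ k := by
  have h1 : (x - 1) * ((x + 1) * ((x - i) * (x + i))) = 0 := by
    have : (x - 1) * ((x + 1) * ((x - i) * (x + i))) = x ^ 4 - 1 - (x ^ 2 - 1) * (i * i + 1) := by ring
    rw [this, hx, hi]; ring
  rcases mul_eq_zero.mp h1 with h | h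
  · exact ⟨0, by rw [pow_zero]; exact sub_eq_zero.mp h⟩
  rcases mul_eq_zero.mp h with h | h
  · exact ⟨2, by rw [pow_two, hi]; exact eq_neg_of_add_eq_zero_left h⟩
  rcases mul_eq_zero.mp h with h | h
  · exact ⟨1, by rw [pow_one]; exact sub_eq_zero.mp h⟩
  · refine ⟨3, ?_⟩
    have : i ^ 3 = -i := by
      calc i ^ 3 = (i * i) * i := by ring
        _ = -i := by rw [hi]; ring
    rw [this]; exact eq_neg_of_add_eq_zero_left h

lemma ipow {i : F} (hi : i * i = -1) {a b : ℕ} (h : a % 4 = b % 4) : i ^ a = i ^ b := by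
  have h4 : i ^ 4 = 1 := by
    calc i ^ 4 = (i * i) * (i * i) := by ring
      _ = 1 := by rw [hi]; ring
  rw [← Nat.div_add_mod a 4, ← Nat.div_add_mod b 4, pow_add, pow_add, pow_mul, pow_mul, h4, one_pow, one_pow, h]

theorem Lf_main {i : F} (hi : i * i = -1) (h2 : (2 : F) ≠ 0) {d : Fin 4 → F} (hd : ∀ x, d x ^ 4 = 1)
    (hP : (∏ x, d x) ^ 2 = 1) (b : Fin 4) : Lf (fun y => (d y)⁻¹ * d (ad y b)) := by
  choose e he using fun x => root_cases hi (hd x)
  have hne : ∀ x, d x ≠ 0 := by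
    intro x h0
    have := hd x
    rw [h0] at this
    norm_num at this
  have heven : (e 0 + e 1 + e 2 + e 3) % 2 = 0 := by
    have h3 : ∏ x, d x = i ^ (e 0 + e 1 + e 2 + e 3) := by
      rw [Fin.prod_univ_four, he 0, he 1, he 2, he 3, pow_add, pow_add, pow_add]
    rw [h3, ← pow_mul, mul_comm, pow_mul, pow_two, hi] at hP
    have h4 : (-1 : F) ≠ 1 := by
      intro h
      apply h2
      linear_combination -h
    exact Nat.even_iff.mp ((neg_one_pow_eq_one_iff_even h4).mp hP)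
  have hinv : ∀ x, (d x)⁻¹ = i ^ (3 * e x) := by
    intro x
    apply inv_eq_of_mul_eq_one_right
    rw [he x, ← pow_add]
    have : i ^ (e x + 3 * e x) = i ^ 0 := ipow hi (by omega)
    rw [this, pow_zero]
  refine ⟨fun x => by rw [mul_pow, inv_pow, hd, hd, inv_one, one_mul], fun c => ?_⟩
  obtain ⟨k, hk, hy⟩ := arith e heven b c
  refine ⟨i ^ k, ?_, fun y => ?_⟩
  · rw [← pow_add]
    have : i ^ (k + k) = i ^ 0 := ipow hi (by omega)
    rw [this, pow_zero]
  · beta_reduce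
    rw [hinv, hinv, he, he (ad y b), ← pow_add, ← pow_add, ← pow_add]
    exact ipow hi (hy y)

/-! ### the group -/

variable {w : Fin 4 → (Fin 4 → F)}

/-- the group of symplectic type attached to a frame -/
def grp (w : Fin 4 → (Fin 4 → F)) : Subgroup (GL (Fin 4) F) where
  carrier := {g | ∃ (f : Fin 4 → F) (b : Fin 4), Lf f ∧ ∀ y, (g : Matrix (Fin 4) (Fin 4) F) *ᵥ w y = f y • w (ad y b)}
  one_mem' := ⟨fun _ => 1, 0, Lf_const (one_pow 4), fun y => by rw [Units.val_one, Matrix.one_mulVec, one_smul, ad_zero]⟩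
  mul_mem' := by
    rintro g g' ⟨f, b, hf, hg⟩ ⟨f', b', hf', hg'⟩
    refine ⟨fun y => f' y * f (ad y b'), ad b' b, hf'.mul (hf.perm (tr b')), fun y => ?_⟩
    rw [Units.val_mul, ← Matrix.mulVec_mulVec, hg', Matrix.mulVec_smul, hg, smul_smul, ad_assoc]
  inv_mem' := by
    rintro g ⟨f, b, hf, hg⟩
    refine ⟨fun y => (f (ad y b))⁻¹, b, (hf.perm (tr b)).inv, fun y => ?_⟩
    have h1 := hg (ad y b)
    rw [ad_ad] at h1
    have h2 : w y = (f (ad y b))⁻¹ • ((g : Matrix (Fin 4) (Fin 4) F) *ᵥ w (ad y b)) := by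
      rw [h1, smul_smul, inv_mul_cancel₀ (hf.ne _), one_smul]
    conv_lhs => rw [h2]
    rw [Matrix.mulVec_smul, Matrix.mulVec_mulVec, ← Units.val_mul, inv_mul_cancel, Units.val_one, Matrix.one_mulVec]

lemma mem_grp {g : GL (Fin 4) F} : g ∈ grp w ↔ ∃ (f : Fin 4 → F) (b : Fin 4), Lf f ∧
    ∀ y, (g : Matrix (Fin 4) (Fin 4) F) *ᵥ w y = f y • w (ad y b) := Iff.rfl

/-- matrices are determined by their values on the frame -/
lemma ext_frame (hw : ∀ x : Fin 4 → F, ∑ j, x j • w j = 0 → x = 0) {A B : Matrix (Fin 4) (Fin 4) F}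
    (h : ∀ y, A *ᵥ w y = B *ᵥ w y) : A = B := by
  obtain ⟨Q, hQ⟩ := exists_cols hw
  apply matrix_ext_vec
  intro v
  have h1 : v = (Q : Matrix (Fin 4) (Fin 4) F) *ᵥ (((Q⁻¹ : GL (Fin 4) F) : Matrix (Fin 4) (Fin 4) F) *ᵥ v) := by
    rw [Matrix.mulVec_mulVec, Units.mul_inv, Matrix.one_mulVec]
  rw [h1, hQ, Matrix.mulVec_sum, Matrix.mulVec_sum]
  refine Finset.sum_congr rfl (fun j _ => ?_)
  rw [Matrix.mulVec_smul, Matrix.mulVec_smul, h]

lemma exists_mono (hw : ∀ x : Fin 4 → F, ∑ j, x j • w j = 0 → x = 0) (π : Equiv.Perm (Fin 4)) {c : Fin 4 → F}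
    (hc : ∀ y, c y ≠ 0) : ∃ g : GL (Fin 4) F, ∀ y, (g : Matrix (Fin 4) (Fin 4) F) *ᵥ w y = c y • w (π y) := by
  obtain ⟨Q, hQ⟩ := exists_cols hw
  obtain ⟨Q', hQ'⟩ := exists_cols (w := fun j => c j • w (π j)) (by
    intro x hx
    have h1 : ∑ j, (x (π.symm j) * c (π.symm j)) • w j = 0 := by
      rw [← hx, ← Equiv.sum_comp π]
      refine Finset.sum_congr rfl (fun j _ => ?_)
      rw [Equiv.symm_apply_apply, smul_smul]
    have h2 := hw _ h1
    ext j
    have h3 := congrFun h2 (π j)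
    rw [Equiv.symm_apply_apply] at h3
    exact (mul_eq_zero.mp h3).resolve_right (hc j))
  refine ⟨Q' * Q⁻¹, fun y => ?_⟩
  have h1 : w y = (Q : Matrix (Fin 4) (Fin 4) F) *ᵥ Pi.single y 1 := by
    rw [hQ, Finset.sum_eq_single y]
    · rw [Pi.single_eq_same, one_smul]
    · intro j _ hj; rw [Pi.single_eq_of_ne hj, zero_smul]
    · intro h; exact absurd (Finset.mem_univ _) h
  rw [h1, Matrix.mulVec_mulVec, ← Units.val_mul, inv_mul_cancel_right, hQ', Finset.sum_eq_single y]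
  · rw [Pi.single_eq_same, one_smul]
  · intro j _ hj; rw [Pi.single_eq_of_ne hj, zero_smul]
  · intro h; exact absurd (Finset.mem_univ _) h

theorem grp_full (h2 : (2 : F) ≠ 0) (hw : ∀ x : Fin 4 → F, ∑ j, x j • w j = 0 → x = 0) : Full (grp w) := by
  obtain ⟨Q, hQ⟩ := exists_cols hw
  have hQs : ∀ y, w y = (Q : Matrix (Fin 4) (Fin 4) F) *ᵥ Pi.single y 1 := by
    intro y
    rw [hQ, Finset.sum_eq_single y]
    · rw [Pi.single_eq_same, one_smul]
    · intro j _ hj; rw [Pi.single_eq_of_ne hj, zero_smul]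
    · intro h; exact absurd (Finset.mem_univ _) h
  have h4 : (4 : F) ≠ 0 := by
    have : (4 : F) = 2 * 2 := by norm_num
    rw [this]
    exact mul_ne_zero h2 h2
  -- elementary operators
  have hE : ∀ z z' : Fin 4, (Q : Matrix (Fin 4) (Fin 4) F) * Matrix.single z' z (1 : F) *
      ((Q⁻¹ : GL (Fin 4) F) : Matrix (Fin 4) (Fin 4) F) ∈ env (grp w) := by
    intro z z'
    obtain ⟨b, rfl⟩ := exists_ad z z'
    have hm : ∀ a, ∃ g : GL (Fin 4) F, ∀ y, (g : Matrix (Fin 4) (Fin 4) F) *ᵥ w y = (ch a y : F) • w (tr b y) :=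
      fun a => exists_mono hw (tr b) (fun y => (Lf_ch a).ne y)
    choose g hg using hm
    have hgR : ∀ a, g a ∈ grp w := fun a => ⟨ch a, b, Lf_ch a, fun y => hg a y⟩
    have heq : (Q : Matrix (Fin 4) (Fin 4) F) * Matrix.single (ad z b) z (1 : F) *
        ((Q⁻¹ : GL (Fin 4) F) : Matrix (Fin 4) (Fin 4) F) = (4 : F)⁻¹ • ∑ a, (ch a z : F) • (g a : Matrix (Fin 4) (Fin 4) F) := by
      apply ext_frame hw
      intro y
      have e1 : ((Q : Matrix (Fin 4) (Fin 4) F) * Matrix.single (ad z b) z (1 : F) *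
        ((Q⁻¹ : GL (Fin 4) F) : Matrix (Fin 4) (Fin 4) F)) *ᵥ w y = if y = z then w (ad z b) else 0 := by
        conv_lhs => rw [hQs y]
        rw [Matrix.mulVec_mulVec, Matrix.mul_assoc, Units.inv_mul, Matrix.mul_one, ← Matrix.mulVec_mulVec,
          Matrix.mulVec_single_one]
        by_cases hyz : y = z
        · rw [if_pos hyz, hyz, hQs]
          congr 1
          ext k
          rw [Matrix.col_apply, Matrix.single_apply, Pi.single_apply]
          by_cases hk : k = ad z b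
          · simp [hk]
          · simp [hk, Ne.symm hk]
        · rw [if_neg hyz]
          have : (Matrix.single (ad z b) z (1 : F)).col y = 0 := by
            ext k
            rw [Matrix.col_apply, Matrix.single_apply, Pi.zero_apply]
            simp [Ne.symm hyz]
          rw [this, Matrix.mulVec_zero]
      have e2 : ((4 : F)⁻¹ • ∑ a, (ch a z : F) • (g a : Matrix (Fin 4) (Fin 4) F)) *ᵥ w y =
          (4 : F)⁻¹ • ((∑ a, (ch a z : F) * ch a y) • w (ad y b)) := by
        rw [Matrix.smul_mulVec, Matrix.sum_mulVec, Finset.sum_smul]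
        congr 1
        refine Finset.sum_congr rfl (fun a _ => ?_)
        rw [Matrix.smul_mulVec, hg, smul_smul]
        rfl
      rw [e1, e2, ch_sum]
      by_cases hyz : y = z
      · rw [if_pos hyz, if_pos hyz, smul_smul, inv_mul_cancel₀ h4, one_smul, hyz]
      · rw [if_neg hyz, if_neg hyz, zero_smul, smul_zero]
    rw [heq]
    exact (env _).smul_mem (Subalgebra.sum_mem _ (fun a _ => (env _).smul_mem (mem_env (hgR a)) _)) _
  rw [Full, eq_top_iff]
  intro X _
  have hX : X = (Q : Matrix (Fin 4) (Fin 4) F) * (((Q⁻¹ : GL (Fin 4) F) : Matrix (Fin 4) (Fin 4) F) * X * Q) *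
      ((Q⁻¹ : GL (Fin 4) F) : Matrix (Fin 4) (Fin 4) F) := by
    rw [← Matrix.mul_assoc, ← Matrix.mul_assoc, Units.mul_inv, Matrix.one_mul, Matrix.mul_assoc, Units.mul_inv,
      Matrix.mul_one]
  rw [hX, Matrix.matrix_eq_sum_single (((Q⁻¹ : GL (Fin 4) F) : Matrix (Fin 4) (Fin 4) F) * X *
    (Q : Matrix (Fin 4) (Fin 4) F)), Matrix.mul_sum, Matrix.sum_mul]
  refine Subalgebra.sum_mem _ (fun i _ => ?_)
  rw [Matrix.mul_sum, Matrix.sum_mul]
  refine Subalgebra.sum_mem _ (fun j _ => ?_)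
  have h3 : Matrix.single i j ((((Q⁻¹ : GL (Fin 4) F) : Matrix (Fin 4) (Fin 4) F) * X * (Q : Matrix (Fin 4) (Fin 4) F)) i j) =
      ((((Q⁻¹ : GL (Fin 4) F) : Matrix (Fin 4) (Fin 4) F) * X * (Q : Matrix (Fin 4) (Fin 4) F)) i j) •
        Matrix.single i j (1 : F) := by
    rw [Matrix.smul_single, smul_eq_mul, mul_one]
  rw [h3, Matrix.mul_smul, Matrix.smul_mul]
  exact (env _).smul_mem (hE _ _) _

lemma smul_frame_inj (hw : ∀ x : Fin 4 → F, ∑ j, x j • w j = 0 → x = 0) {y z : Fin 4} {a b : F} (ha : a ≠ 0)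
    (h : a • w y = b • w z) : y = z ∧ a = b := by
  have h1 : ∑ j, (Pi.single y a - Pi.single z b : Fin 4 → F) j • w j = 0 := by
    simp only [Pi.sub_apply, sub_smul, Finset.sum_sub_distrib]
    rw [Finset.sum_eq_single y, Finset.sum_eq_single z, Pi.single_eq_same, Pi.single_eq_same, h, sub_self]
    · intro j _ hj; rw [Pi.single_eq_of_ne hj, zero_smul]
    · intro h; exact absurd (Finset.mem_univ _) h
    · intro j _ hj; rw [Pi.single_eq_of_ne hj, zero_smul]
    · intro h; exact absurd (Finset.mem_univ _) h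
  have h2 := hw _ h1
  by_cases hyz : y = z
  · subst hyz
    have h3 := congrFun h2 y
    rw [Pi.sub_apply, Pi.single_eq_same, Pi.single_eq_same] at h3
    exact ⟨rfl, sub_eq_zero.mp h3⟩
  · exfalso
    have h3 := congrFun h2 y
    rw [Pi.sub_apply, Pi.single_eq_same, Pi.single_eq_of_ne hyz, sub_zero] at h3
    exact ha h3

theorem grp_nil (hw : ∀ x : Fin 4 → F, ∑ j, x j • w j = 0 → x = 0) : Nil2 (grp w) := by
  rintro x ⟨f, b, hf, hx⟩ y ⟨f', b', hf', hy⟩
  obtain ⟨s, hs, h1⟩ := hf.2 b'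
  obtain ⟨s', hs', h2⟩ := hf'.2 b
  refine mem_scalars_sc.2 ⟨Units.mk0 (s * s') (mul_ne_zero (left_ne_zero_of_mul_eq_one hs) (left_ne_zero_of_mul_eq_one hs')), ?_⟩
  have h3 : x * y = sc (Fin 4) (Units.mk0 (s * s') (mul_ne_zero (left_ne_zero_of_mul_eq_one hs)
      (left_ne_zero_of_mul_eq_one hs'))) * (y * x) := by
    apply Units.ext
    apply ext_frame hw
    intro z
    rw [Units.val_mul, Units.val_mul, Units.val_mul, ← Matrix.mulVec_mulVec, ← Matrix.mulVec_mulVec, ← Matrix.mulVec_mulVec,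
      hy, hx, sc_val, Matrix.smul_mulVec, Matrix.one_mulVec, Matrix.mulVec_smul, Matrix.mulVec_smul, hx, hy, smul_smul,
      smul_smul, smul_smul, h1, h2, ad_swap, Units.val_mk0]
    congr 1
    linear_combination (-f z * f' z * s) * hs'
  rw [h3]; group

lemma grp_sq (hw : ∀ x : Fin 4 → F, ∑ j, x j • w j = 0 → x = 0) {x : GL (Fin 4) F} (hx : x ∈ grp w) :
    ∃ c : Fˣ, c * c = 1 ∧ x ^ 2 = sc (Fin 4) c := by
  obtain ⟨f, b, hf, hx⟩ := hx
  obtain ⟨s, hs, h1⟩ := hf.2 b
  have hconst : ∀ y, f y * f y = f 0 * f 0 := by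
    intro y
    obtain ⟨c, hc⟩ := exists_ad 0 y
    obtain ⟨t, ht, h2⟩ := hf.2 c
    rw [← hc, h2]
    linear_combination (f 0 * f 0) * ht
  have h4 : s * (f 0 * f 0) * (s * (f 0 * f 0)) = 1 := by
    have := hf.1 0
    linear_combination (f 0 ^ 4) * hs + this
  refine ⟨Units.mk0 (s * (f 0 * f 0)) (left_ne_zero_of_mul_eq_one h4), ?_, ?_⟩
  · apply Units.ext
    rw [Units.val_mul, Units.val_mk0, Units.val_one, h4]
  · apply Units.ext
    apply ext_frame hw
    intro y
    rw [pow_two, Units.val_mul, ← Matrix.mulVec_mulVec, hx, Matrix.mulVec_smul, hx, ad_ad, smul_smul, h1, sc_val,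
      Matrix.smul_mulVec, Matrix.one_mulVec, Units.val_mk0, ← hconst y]
    congr 1
    ring

lemma grp_sc (hw : ∀ x : Fin 4 → F, ∑ j, x j • w j = 0 → x = 0) (c : Fˣ) : sc (Fin 4) c ∈ grp w ↔ c ^ 4 = 1 := by
  constructor
  · rintro ⟨f, b, hf, hc⟩
    have h1 := hc 0
    rw [sc_val, Matrix.smul_mulVec, Matrix.one_mulVec] at h1
    obtain ⟨-, h2⟩ := smul_frame_inj hw c.ne_zero h1
    apply Units.ext
    rw [Units.val_pow_eq_pow_val, h2, hf.1, Units.val_one]
  · intro hc
    refine ⟨fun _ => (c : F), 0, Lf_const ?_, fun y => ?_⟩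
    · rw [← Units.val_pow_eq_pow_val, hc, Units.val_one]
    · rw [sc_val, Matrix.smul_mulVec, Matrix.one_mulVec, ad_zero]

theorem grp_move {i : F} (hi : i * i = -1) (h2 : (2 : F) ≠ 0) (hw : ∀ x : Fin 4 → F, ∑ j, x j • w j = 0 → x = 0)
    {x : GL (Fin 4) F} (hx : x ∈ grp w) (hxs : x ∉ scalars (Fin 4) F) :
    ∃ u ∈ grp w, u * u = sc (Fin 4) (-1) ∧ x * u ≠ u * x := by
  obtain ⟨f, b, hf, hx⟩ := hx
  have hi0 : i ≠ 0 := by
    rintro rfl
    rw [mul_zero] at hi
    exact neg_ne_zero.mpr one_ne_zero hi.symm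
  have hi4 : i ^ 4 = 1 := by
    calc i ^ 4 = (i * i) * (i * i) := by ring
      _ = 1 := by rw [hi]; ring
  have hm1 : (-1 : F) ≠ 1 := by
    intro h
    apply h2
    linear_combination -h
  have hsc : ∀ g : GL (Fin 4) F, (∀ y, (g : Matrix (Fin 4) (Fin 4) F) *ᵥ w y = (-1 : F) • w y) → g = sc (Fin 4) (-1) := by
    intro g hg
    apply Units.ext
    apply ext_frame hw
    intro y
    rw [hg, sc_val, Matrix.smul_mulVec, Matrix.one_mulVec, Units.val_neg, Units.val_one]
  by_cases hb : b = 0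
  · subst hb
    -- f is not constant
    obtain ⟨c, hc⟩ : ∃ c, f c ≠ f 0 := by
      by_contra hno
      push Not at hno
      apply hxs
      refine mem_scalars_sc.2 ⟨Units.mk0 (f 0) (hf.ne 0), ?_⟩
      apply Units.ext
      apply ext_frame hw
      intro y
      rw [hx, ad_zero, sc_val, Matrix.smul_mulVec, Matrix.one_mulVec, Units.val_mk0, hno y]
    obtain ⟨c', rfl⟩ := exists_ad 0 c
    obtain ⟨s, hs, h1⟩ := hf.2 c'
    obtain ⟨u, hu⟩ := exists_mono hw (tr c') (c := fun _ => i) (fun _ => hi0)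
    refine ⟨u, ⟨fun _ => i, c', Lf_const hi4, hu⟩, ?_, ?_⟩
    · apply hsc
      intro y
      rw [Units.val_mul, ← Matrix.mulVec_mulVec, hu, Matrix.mulVec_smul, hu, smul_smul, hi, tr_apply, tr_apply, ad_ad]
    · intro hcon
      apply hc
      have h3 := congrArg (fun g : GL (Fin 4) F => (g : Matrix (Fin 4) (Fin 4) F) *ᵥ w 0) hcon
      simp only [Units.val_mul, ← Matrix.mulVec_mulVec, hu, hx, Matrix.mulVec_smul, smul_smul, tr_apply, ad_zero] at h3
      obtain ⟨-, h4⟩ := smul_frame_inj hw (mul_ne_zero hi0 (hf.ne _)) h3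
      rw [mul_comm] at h4
      exact mul_right_cancel₀ hi0 h4
  · obtain ⟨a, ha⟩ := par_exists b hb
    have hab : (ch a b : F) = -1 := by rw [ch, ha, pow_one]
    obtain ⟨u, hu⟩ := exists_mono hw (tr 0) (c := fun y => i * ch a y) (fun y => mul_ne_zero hi0 ((Lf_ch a).ne y))
    have hu' : ∀ y, (u : Matrix (Fin 4) (Fin 4) F) *ᵥ w y = (i * ch a y) • w y := by
      intro y; rw [hu, tr_apply, ad_zero]
    refine ⟨u, ⟨fun y => i * ch a y, 0, (Lf_const hi4).mul (Lf_ch a), hu⟩, ?_, ?_⟩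
    · apply hsc
      intro y
      rw [Units.val_mul, ← Matrix.mulVec_mulVec, hu', Matrix.mulVec_smul, hu', smul_smul]
      congr 1
      linear_combination hi + (i * i) * (ch_sq (F := F) a y)
    · intro hcon
      have h3 := congrArg (fun g : GL (Fin 4) F => (g : Matrix (Fin 4) (Fin 4) F) *ᵥ w 0) hcon
      simp only [Units.val_mul, ← Matrix.mulVec_mulVec, hu', hx, Matrix.mulVec_smul, smul_smul] at h3
      obtain ⟨-, h4⟩ := smul_frame_inj hw (mul_ne_zero (mul_ne_zero hi0 ((Lf_ch a).ne _)) (hf.ne _)) h3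
      rw [ch_ad, hab] at h4
      have h5 : (2 : F) * (i * ch a 0 * f 0) = 0 := by linear_combination h4
      exact (mul_ne_zero h2 (mul_ne_zero (mul_ne_zero hi0 ((Lf_ch a).ne _)) (hf.ne _))) h5

/-- **the group is of symplectic type** -/
theorem grp_type [Finite F] {i : F} (hi : i * i = -1) (h2 : (2 : F) ≠ 0)
    (hw : ∀ x : Fin 4 → F, ∑ j, x j • w j = 0 → x = 0) :
    IsSymplecticTypeGroup 2 (grp w) ∧ Nat.card (grp w) = 64 ∧ Nat.card (Subgroup.center (grp w)) = 4 := by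
  have hfull := grp_full h2 hw
  have hnil := grp_nil hw
  have hcard : Nat.card (Subgroup.center (grp w)) = 4 := by
    have hi0 : i ≠ 0 := by
      rintro rfl
      rw [mul_zero] at hi
      exact neg_ne_zero.mpr one_ne_zero hi.symm
    refine card_center_of (c₀ := Units.mk0 i hi0) hfull (grp_sc hw) ?_
    have h4 : (4 : ℕ) = 2 ^ (1 + 1) := by norm_num
    rw [h4]
    apply orderOf_eq_prime_pow
    · intro h
      have h3 := congrArg Units.val h
      rw [Units.val_pow_eq_pow_val, Units.val_mk0, Units.val_one, pow_one, pow_two, hi] at h3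
      apply h2
      linear_combination -h3
    · apply Units.ext
      rw [Units.val_pow_eq_pow_val, Units.val_mk0, Units.val_one]
      calc i ^ (2 ^ (1 + 1)) = (i * i) * (i * i) := by ring
        _ = 1 := by rw [hi]; ring
  refine ⟨?_, ?_, hcard⟩
  · apply sympType_two hfull hnil (by rw [Fintype.card_fin]; norm_num) h2
    · intro x hx
      obtain ⟨c, hc, h3⟩ := grp_sq hw hx
      have : x ^ 4 = (x ^ 2) * (x ^ 2) := by rw [← pow_add]
      rw [this, h3, ← map_mul, hc, map_one]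
    · intro x hx
      obtain ⟨c, -, h3⟩ := grp_sq hw hx
      rw [h3]
      exact sc_mem c
    · intro x hx hxs
      exact grp_move hi h2 hw hx hxs
  · rw [card_eq hnil hfull, hcard, Fintype.card_fin]
    norm_num

end field

variable {F : Type*} [Field F] [Fintype F] {n q : ℕ} {σ : F ≃+* F}

lemma det_mono {w : Fin 4 → (Fin 4 → F)} (hw : ∀ x : Fin 4 → F, ∑ j, x j • w j = 0 → x = 0) {g : GL (Fin 4) F}
    {π : Equiv.Perm (Fin 4)} {d : Fin 4 → F} (hg : ∀ y, (g : Matrix (Fin 4) (Fin 4) F) *ᵥ w y = d y • w (π y)) :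
    (∏ x, d x) ^ 2 = (g : Matrix (Fin 4) (Fin 4) F).det ^ 2 := by
  obtain ⟨Q, hQ⟩ := exists_cols hw
  have hQs : ∀ y, w y = (Q : Matrix (Fin 4) (Fin 4) F) *ᵥ Pi.single y 1 := by
    intro y
    rw [hQ, Finset.sum_eq_single y]
    · rw [Pi.single_eq_same, one_smul]
    · intro j _ hj; rw [Pi.single_eq_of_ne hj, zero_smul]
    · intro h; exact absurd (Finset.mem_univ _) h
  let A : Matrix (Fin 4) (Fin 4) F := Matrix.of (fun i j => d j * ((1 : Matrix (Fin 4) (Fin 4) F).submatrix id π) i j)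
  have hA : (g : Matrix (Fin 4) (Fin 4) F) * Q = Q * A := by
    ext i j
    have h1 := congrFun (hg j) i
    rw [hQs j, Matrix.mulVec_mulVec, Matrix.mulVec_single_one, hQs (π j), ← Matrix.mulVec_smul] at h1
    rw [Matrix.col_apply] at h1
    rw [h1, Matrix.mul_apply, Matrix.mulVec, dotProduct]
    refine Finset.sum_congr rfl (fun k _ => ?_)
    congr 1
    rw [Pi.smul_apply, smul_eq_mul]
    change d j * (Pi.single (π j) 1 : Fin 4 → F) k = d j * (1 : Matrix (Fin 4) (Fin 4) F) k (π j)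
    rw [Pi.single_apply, Matrix.one_apply]
  have hdet := congrArg Matrix.det hA
  rw [Matrix.det_mul, Matrix.det_mul, mul_comm] at hdet
  have hQd : (Q : Matrix (Fin 4) (Fin 4) F).det ≠ 0 := by
    have h1 : IsUnit (Q : Matrix (Fin 4) (Fin 4) F) := Q.isUnit
    rw [Matrix.isUnit_iff_isUnit_det] at h1
    exact h1.ne_zero
  have h3 := mul_left_cancel₀ hQd hdet
  rw [h3, Matrix.det_mul_row, Matrix.det_permute', Matrix.det_one, mul_one, mul_pow]
  have h4 : ((Equiv.Perm.sign π : ℤˣ) : ℤ) ^ 2 = 1 := by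
    rw [← Units.val_pow_eq_pow_val, Int.units_sq, Units.val_one]
  have h5 : (((Equiv.Perm.sign π : ℤˣ) : ℤ) : F) ^ 2 = 1 := by
    rw [← Int.cast_pow, h4, Int.cast_one]
  rw [h5, mul_one]

/-- **stabilisers of frames over the field with nine elements normalise a group of symplectic type** -/
theorem lines_type (h : Ctx (F := F) σ 4 q) (hq : q = 3) {D : Fin 4 → Submodule F (Fin 4 → F)}
    (hD : IsNondegenerateMDecomposition (hermForm 4 F q) 1 D) :
    ∃ R : Subgroup (GL (Fin 4) F), IsSymplecticTypeGroup 2 R ∧ ActsAbsolutelyIrreducibly (matrixSet R) ∧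
      R ≤ similarityGroup (hermForm 4 F q) ∧ Nat.card R = 64 ∧ Nat.card (Subgroup.center R) = 4 ∧
      decompositionStabilizer D ⊓ (GU 4 F q ⊓ specialLinear (Fin 4) F) ≤ subgroupNormalizer R := by
  classical
  have hS := h.form.sesq
  have hwe : ∀ i, ∃ w : Fin 1 → (Fin 4 → F), (∀ a, w a ∈ D i) ∧
      (∀ a b, hermForm 4 F q (w a) (w b) = if a = b then 1 else 0) ∧ ∀ v ∈ D i, v = ∑ b, hermForm 4 F q v (w b) • w b :=
    fun i => orthonormal h (hD.nondegenerate i) (hD.decomp.finrank_eq i)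
  choose w' hw1 hw2 hw3 using hwe
  set w : Fin 4 → (Fin 4 → F) := fun i => w' i 0 with hwdef
  have hwD : ∀ i, w i ∈ D i := fun i => hw1 i 0
  have hww : ∀ i j, hermForm 4 F q (w i) (w j) = if i = j then 1 else 0 := by
    intro i j
    by_cases hij : i = j
    · subst hij
      rw [if_pos rfl]
      have := hw2 i 0 0
      rwa [if_pos rfl] at this
    · rw [if_neg hij]
      exact hD.orthogonal i j hij _ (hwD i) _ (hwD j)
  have hexp : ∀ i, ∀ v ∈ D i, v = hermForm 4 F q v (w i) • w i := by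
    intro i v hv
    have := hw3 i v hv
    rwa [Fin.sum_univ_one] at this
  have hli : ∀ x : Fin 4 → F, ∑ j, x j • w j = 0 → x = 0 := by
    intro x hx
    ext j
    have h1 : hermForm 4 F q (∑ k, x k • w k) (w j) = 0 := by rw [hx]; exact hS.zero_left _
    rw [hS.sum_left, Finset.sum_eq_single j] at h1
    · rw [hS.smul_left, hww, if_pos rfl, mul_one] at h1
      exact h1
    · intro k _ hk
      rw [hS.smul_left, hww, if_neg hk, mul_zero]
    · intro h; exact absurd (Finset.mem_univ _) h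
  have h2 : (2 : F) ≠ 0 := by
    rw [← two_ne_zero_iff_odd h.card, hq]; decide
  obtain ⟨i, hi⟩ : ∃ i : F, i * i = -1 := by
    have h1 : IsSquare (-1 : F) := by
      rw [FiniteField.isSquare_neg_one_iff, h.card, hq]; norm_num
    obtain ⟨i, hi⟩ := h1
    exact ⟨i, hi.symm⟩
  obtain ⟨t1, t2, t3⟩ := grp_type hi h2 hli
  have hfull := grp_full h2 hli
  -- norm one elements
  have hnorm : ∀ x : F, x * σ x = 1 ↔ x ^ 4 = 1 := by
    intro x
    rw [h.val, hq]
    constructor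
    · intro h; rw [← h]; ring
    · intro h; rw [← h]; ring
  refine ⟨grp w, t1, hfull.absIrr, ?_, t2, t3, ?_⟩
  · rintro g ⟨f, b, hf, hg⟩
    refine ⟨1, fun u v => ?_⟩
    obtain ⟨Q, hQ⟩ := exists_cols hli
    have hQinv : ∀ v, (Q : Matrix (Fin 4) (Fin 4) F) *ᵥ (((Q⁻¹ : GL (Fin 4) F) : Matrix (Fin 4) (Fin 4) F) *ᵥ v) = v := by
      intro v
      rw [Matrix.mulVec_mulVec, Units.mul_inv, Matrix.one_mulVec]
    rw [Units.val_one, one_mul, ← hQinv u, ← hQinv v, hQ, hQ, Matrix.mulVec_sum, Matrix.mulVec_sum, hS.sum_left, hS.sum_left]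
    refine Finset.sum_congr rfl (fun y _ => ?_)
    rw [hS.sum_right, hS.sum_right]
    refine Finset.sum_congr rfl (fun z _ => ?_)
    rw [Matrix.mulVec_smul, Matrix.mulVec_smul, hg, hg]
    simp only [hS.smul_left, hS.smul_right, hww]
    by_cases hyz : y = z
    · subst hyz
      rw [if_pos rfl, if_pos rfl]
      have := (hnorm (f y)).2 (hf.1 y)
      linear_combination ((((Q⁻¹ : GL (Fin 4) F) : Matrix (Fin 4) (Fin 4) F) *ᵥ u) y *
        σ ((((Q⁻¹ : GL (Fin 4) F) : Matrix (Fin 4) (Fin 4) F) *ᵥ v) y)) * this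
    · have : ad y b ≠ ad z b := fun h => hyz ((tr b).injective h)
      rw [if_neg hyz, if_neg this]
      ring
  · rintro g ⟨⟨π, hπ⟩, hgU, hgS⟩
    have hgU' : ∀ u v, hermForm 4 F q ((g : Matrix (Fin 4) (Fin 4) F) *ᵥ u) ((g : Matrix (Fin 4) (Fin 4) F) *ᵥ v) =
        hermForm 4 F q u v := hgU
    have hmap : ∀ y, ∃ d : F, (g : Matrix (Fin 4) (Fin 4) F) *ᵥ w y = d • w (π y) := by
      intro y
      have h1 : (g : Matrix (Fin 4) (Fin 4) F) *ᵥ w y ∈ D (π y) := by
        rw [← hπ y]; exact ⟨_, hwD y, Matrix.toLin'_apply _ _⟩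
      exact ⟨_, hexp _ _ h1⟩
    choose d hd using hmap
    have hd4 : ∀ y, d y ^ 4 = 1 := by
      intro y
      rw [← hnorm]
      have h1 := hgU' (w y) (w y)
      rw [hd, hS.smul_left, hS.smul_right, hww, hww, if_pos rfl, if_pos rfl, mul_one] at h1
      exact h1
    have hdne : ∀ y, d y ≠ 0 := by
      intro y h0
      have := hd4 y
      rw [h0] at this
      norm_num at this
    have hP : (∏ x, d x) ^ 2 = 1 := by
      rw [det_mono hli hd]
      have h1 : Matrix.GeneralLinearGroup.det g = 1 := hgS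
      have h3 := congrArg Units.val h1
      have h4 : (g : Matrix (Fin 4) (Fin 4) F).det = 1 := by simpa using h3
      rw [h4, one_pow]
    apply mem_subgroupNormalizer
    rintro x ⟨f, b, hf, hx⟩
    obtain ⟨b', hb'⟩ := affine π b
    have hL : Lf (fun y => ((d y)⁻¹ * d (ad y b)) * f y) := (Lf_main hi h2 hd4 hP b).mul hf
    refine ⟨_, b', hL.perm π.symm, fun z => ?_⟩
    obtain ⟨y, rfl⟩ := π.surjective z
    have h1 : ((g⁻¹ : GL (Fin 4) F) : Matrix (Fin 4) (Fin 4) F) *ᵥ w (π y) = (d y)⁻¹ • w y := by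
      have h3 : w (π y) = (d y)⁻¹ • ((g : Matrix (Fin 4) (Fin 4) F) *ᵥ w y) := by
        rw [hd, smul_smul, inv_mul_cancel₀ (hdne y), one_smul]
      rw [h3, Matrix.mulVec_smul, Matrix.mulVec_mulVec, ← Units.val_mul, inv_mul_cancel, Units.val_one, Matrix.one_mulVec]
    rw [Units.val_mul, Units.val_mul, ← Matrix.mulVec_mulVec, ← Matrix.mulVec_mulVec, h1, Matrix.mulVec_smul, hx,
      Matrix.mulVec_smul, Matrix.mulVec_smul, hd, Equiv.symm_apply_apply, hb', smul_smul, smul_smul]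
    congr 1
    ring

end H97.AschPauli
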