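import Mathlib
import Cfsg.Agent.Lib.H97.AschPauli

/-!
Aschbacher library, part 50: stabilisers of frames in the six-dimensional unitary group over the field with four elements.
-/

set_option autoImplicit false
set_option linter.unusedSectionVars false

namespace H97.AschHex

open Cfsg Cfsg.Geo Matrix H97.AschRad H97.AschEnv H97.AschNonab H97.AschGrp H97.AschLinear H97.AschIdem H97.AschDecomp
open H97.AschForm H97.AschSubfield H97.AschReal H97.AschNCU H97.AschUSymp H97.AschUPair H97.AschUElim H97.AschPauli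
open H97.AschCases H97.AschNC
open H96.AschSympType1 H96.AschSympType2 H96.AschSympType3 H96.AschSubForm H96.AschSympType5 H96.AschAdj
open H96.AschComm H96.AschField H96.AschSympEx
open H96.AschSp H96.AschSp2 H96.AschSU H96.AschSU2 H96.AschOdd2 H96.AschDescent H96.AschSU3

/-! ### orthonormal frames -/

section frame

variable {F : Type*} [Field F] [Fintype F] {n q : ℕ} {σ : F ≃+* F}

/-- a decomposition into nondegenerate lines comes from an orthonormal frame -/
theorem frame_of_lines (h : Ctx (F := F) σ n q) {D : Fin n → Submodule F (Fin n → F)}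
    (hD : IsNondegenerateMDecomposition (hermForm n F q) 1 D) :
    ∃ w : Fin n → (Fin n → F), (∀ i, w i ∈ D i) ∧
      (∀ i j, hermForm n F q (w i) (w j) = if i = j then 1 else 0) ∧
      (∀ i, ∀ v ∈ D i, v = hermForm n F q v (w i) • w i) := by
  classical
  have hwe : ∀ i, ∃ w : Fin 1 → (Fin n → F), (∀ a, w a ∈ D i) ∧
      (∀ a b, hermForm n F q (w a) (w b) = if a = b then 1 else 0) ∧ ∀ v ∈ D i, v = ∑ b, hermForm n F q v (w b) • w b :=
    fun i => orthonormal h (hD.nondegenerate i) (hD.decomp.finrank_eq i)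
  choose w' hw1 hw2 hw3 using hwe
  refine ⟨fun i => w' i 0, fun i => hw1 i 0, ?_, ?_⟩
  · intro i j
    by_cases hij : i = j
    · subst hij
      rw [if_pos rfl]
      have := hw2 i 0 0
      rwa [if_pos rfl] at this
    · rw [if_neg hij]
      exact hD.orthogonal i j hij _ (hw1 i 0) _ (hw1 j 0)
  · intro i v hv
    have := hw3 i v hv
    rwa [Fin.sum_univ_one] at this

variable {w : Fin n → (Fin n → F)}

lemma frame_li (h : Ctx (F := F) σ n q) (hww : ∀ i j, hermForm n F q (w i) (w j) = if i = j then 1 else 0) :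
    ∀ x : Fin n → F, ∑ j, x j • w j = 0 → x = 0 := by
  intro x hx
  have hS := h.form.sesq
  ext j
  have h1 : hermForm n F q (∑ k, x k • w k) (w j) = 0 := by rw [hx]; exact hS.zero_left _
  rw [hS.sum_left, Finset.sum_eq_single j] at h1
  · rw [hS.smul_left, hww, if_pos rfl, mul_one] at h1
    exact h1
  · intro k _ hk
    rw [hS.smul_left, hww, if_neg hk, mul_zero]
  · intro h; exact absurd (Finset.mem_univ _) h

lemma frame_exp (h : Ctx (F := F) σ n q) (hww : ∀ i j, hermForm n F q (w i) (w j) = if i = j then 1 else 0)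
    (v : Fin n → F) : v = ∑ j, hermForm n F q v (w j) • w j := by
  have hS := h.form.sesq
  obtain ⟨Q, hQ⟩ := exists_cols (frame_li h hww)
  have h1 : v = (Q : Matrix (Fin n) (Fin n) F) *ᵥ (((Q⁻¹ : GL (Fin n) F) : Matrix (Fin n) (Fin n) F) *ᵥ v) := by
    rw [Matrix.mulVec_mulVec, Units.mul_inv, Matrix.one_mulVec]
  set c := ((Q⁻¹ : GL (Fin n) F) : Matrix (Fin n) (Fin n) F) *ᵥ v with hc
  rw [hQ] at h1
  have h2 : ∀ j, hermForm n F q v (w j) = c j := by
    intro j
    rw [h1, hS.sum_left, Finset.sum_eq_single j]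
    · rw [hS.smul_left, hww, if_pos rfl, mul_one]
    · intro k _ hk
      rw [hS.smul_left, hww, if_neg hk, mul_zero]
    · intro h; exact absurd (Finset.mem_univ _) h
  simp only [h2]
  exact h1

/-- elements of the stabiliser of the frame are monomial -/
lemma frame_mono (h : Ctx (F := F) σ n q) (hww : ∀ i j, hermForm n F q (w i) (w j) = if i = j then 1 else 0)
    {D : Fin n → Submodule F (Fin n → F)} (hwD : ∀ i, w i ∈ D i) (hexp : ∀ i, ∀ v ∈ D i, v = hermForm n F q v (w i) • w i)
    {g : GL (Fin n) F} (hgD : g ∈ decompositionStabilizer D) (hgU : g ∈ GU n F q) :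
    ∃ (π : Equiv.Perm (Fin n)) (d : Fin n → F), (∀ i, (g : Matrix (Fin n) (Fin n) F) *ᵥ w i = d i • w (π i)) ∧
      ∀ i, d i * σ (d i) = 1 := by
  have hS := h.form.sesq
  obtain ⟨π, hπ⟩ := hgD
  have hgU' : ∀ u v, hermForm n F q ((g : Matrix (Fin n) (Fin n) F) *ᵥ u) ((g : Matrix (Fin n) (Fin n) F) *ᵥ v) =
      hermForm n F q u v := hgU
  have hmap : ∀ y, ∃ d : F, (g : Matrix (Fin n) (Fin n) F) *ᵥ w y = d • w (π y) := by
    intro y
    have h1 : (g : Matrix (Fin n) (Fin n) F) *ᵥ w y ∈ D (π y) := by
      rw [← hπ y]; exact ⟨_, hwD y, Matrix.toLin'_apply _ _⟩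
    exact ⟨_, hexp _ _ h1⟩
  choose d hd using hmap
  refine ⟨π, d, hd, fun y => ?_⟩
  have h1 := hgU' (w y) (w y)
  rw [hd, hS.smul_left, hS.smul_right, hww, hww, if_pos rfl, if_pos rfl, mul_one] at h1
  exact h1

lemma det_mono' (hw : ∀ x : Fin n → F, ∑ j, x j • w j = 0 → x = 0) {g : GL (Fin n) F}
    {π : Equiv.Perm (Fin n)} {d : Fin n → F} (hg : ∀ y, (g : Matrix (Fin n) (Fin n) F) *ᵥ w y = d y • w (π y)) :
    (∏ x, d x) ^ 2 = (g : Matrix (Fin n) (Fin n) F).det ^ 2 := by
  obtain ⟨Q, hQ⟩ := exists_cols hw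
  have hQs : ∀ y, w y = (Q : Matrix (Fin n) (Fin n) F) *ᵥ Pi.single y 1 := by
    intro y
    rw [hQ, Finset.sum_eq_single y]
    · rw [Pi.single_eq_same, one_smul]
    · intro j _ hj; rw [Pi.single_eq_of_ne hj, zero_smul]
    · intro h; exact absurd (Finset.mem_univ _) h
  let A : Matrix (Fin n) (Fin n) F := Matrix.of (fun i j => d j * ((1 : Matrix (Fin n) (Fin n) F).submatrix id π) i j)
  have hA : (g : Matrix (Fin n) (Fin n) F) * Q = Q * A := by
    ext i j
    have h1 := congrFun (hg j) i
    rw [hQs j, Matrix.mulVec_mulVec, Matrix.mulVec_single_one, hQs (π j), ← Matrix.mulVec_smul] at h1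
    rw [Matrix.col_apply] at h1
    rw [h1, Matrix.mul_apply, Matrix.mulVec, dotProduct]
    refine Finset.sum_congr rfl (fun k _ => ?_)
    congr 1
    rw [Pi.smul_apply, smul_eq_mul]
    change d j * (Pi.single (π j) 1 : Fin n → F) k = d j * (1 : Matrix (Fin n) (Fin n) F) k (π j)
    rw [Pi.single_apply, Matrix.one_apply]
  have hdet := congrArg Matrix.det hA
  rw [Matrix.det_mul, Matrix.det_mul, mul_comm] at hdet
  have hQd : (Q : Matrix (Fin n) (Fin n) F).det ≠ 0 := by
    have h1 : IsUnit (Q : Matrix (Fin n) (Fin n) F) := Q.isUnit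
    rw [Matrix.isUnit_iff_isUnit_det] at h1
    exact h1.ne_zero
  have h3 := mul_left_cancel₀ hQd hdet
  rw [h3, Matrix.det_mul_row, Matrix.det_permute', Matrix.det_one, mul_one, mul_pow]
  have h4 : ((Equiv.Perm.sign π : ℤˣ) : ℤ) ^ 2 = 1 := by
    rw [← Units.val_pow_eq_pow_val, Int.units_sq, Units.val_one]
  have h5 : (((Equiv.Perm.sign π : ℤˣ) : ℤ) : F) ^ 2 = 1 := by
    rw [← Int.cast_pow, h4, Int.cast_one]
  rw [h5, mul_one]

lemma coord_mono (h : Ctx (F := F) σ n q)
    {g : GL (Fin n) F} (hgU : g ∈ GU n F q) {π : Equiv.Perm (Fin n)} {d : Fin n → F}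
    (hg : ∀ y, (g : Matrix (Fin n) (Fin n) F) *ᵥ w y = d y • w (π y)) (hd : ∀ i, d i * σ (d i) = 1) (v : Fin n → F)
    (i : Fin n) : hermForm n F q ((g : Matrix (Fin n) (Fin n) F) *ᵥ v) (w (π i)) = d i * hermForm n F q v (w i) := by
  have hS := h.form.sesq
  have hgU' : ∀ u v, hermForm n F q ((g : Matrix (Fin n) (Fin n) F) *ᵥ u) ((g : Matrix (Fin n) (Fin n) F) *ᵥ v) =
      hermForm n F q u v := hgU
  have h1 := hgU' v (w i)
  rw [hg, hS.smul_right] at h1
  rw [← h1, ← mul_assoc, hd, one_mul]

end frame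

/-! ### the configuration -/

section field

variable {F : Type*} [Field F]

def Two (x : Fin 6 → F) : Prop := ∃ i j, i ≠ j ∧ x i ≠ 0 ∧ x j ≠ 0 ∧ ∀ k, k ≠ i → k ≠ j → x k = 0
def All (x : Fin 6 → F) : Prop := (∀ i, x i ≠ 0) ∧ ∏ i, x i = 1
def Om (x : Fin 6 → F) : Prop := Two x ∨ All x

lemma Om_mono {x x' : Fin 6 → F} {π : Equiv.Perm (Fin 6)} {d : Fin 6 → F} (hd : ∀ i, d i ≠ 0) (hP : ∏ i, d i = 1)
    (hx : ∀ i, x' (π i) = d i * x i) (h : Om x) : Om x' := by
  rcases h with ⟨i, j, hij, hi, hj, hk⟩ | ⟨h1, h2⟩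
  · left
    refine ⟨π i, π j, fun h => hij (π.injective h), ?_, ?_, fun k hki hkj => ?_⟩
    · rw [hx]; exact mul_ne_zero (hd i) hi
    · rw [hx]; exact mul_ne_zero (hd j) hj
    · obtain ⟨l, rfl⟩ := π.surjective k
      rw [hx, hk l (fun h => hki (by rw [h])) (fun h => hkj (by rw [h])), mul_zero]
  · right
    refine ⟨fun k => ?_, ?_⟩
    · obtain ⟨l, rfl⟩ := π.surjective k
      rw [hx]; exact mul_ne_zero (hd l) (h1 l)
    · rw [← Equiv.prod_comp π]
      simp only [hx]
      rw [Finset.prod_mul_distrib, hP, h2, one_mul]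

variable [Fintype F]

lemma four_two (hF : Fintype.card F = 4) : (2 : F) = 0 := by
  apply two_eq_zero_of_even
  rw [hF]; decide

lemma four_cube (hF : Fintype.card F = 4) {x : F} (hx : x ≠ 0) : x ^ 3 = 1 := by
  have := FiniteField.pow_card_sub_one_eq_one x hx
  rwa [hF] at this

lemma four_quad (hF : Fintype.card F = 4) {x : F} (hx : x ≠ 0) (hx1 : x ≠ 1) : x ^ 2 + x + 1 = 0 := by
  have h1 := four_cube hF hx
  have h2 : (x - 1) * (x ^ 2 + x + 1) = 0 := by linear_combination h1
  exact (mul_eq_zero.mp h2).resolve_left (sub_ne_zero.mpr hx1)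

lemma four_exists (hF : Fintype.card F = 4) : ∃ ω : F, ω ≠ 0 ∧ ω ≠ 1 := by
  classical
  by_contra hno
  push Not at hno
  have h1 : (Finset.univ : Finset F) ⊆ {0, 1} := by
    intro x _
    by_cases hx : x = 0
    · simp [hx]
    · simp [hno x hx]
  have h2 := Finset.card_le_card h1
  have h3 : ({0, 1} : Finset F).card ≤ 2 := Finset.card_le_two
  rw [Finset.card_univ, hF] at h2
  omega

lemma Om_smul (hF : Fintype.card F = 4) {x : Fin 6 → F} {c : F} (hc : c ≠ 0) (h : Om x) : Om (fun i => c * x i) := by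
  refine Om_mono (π := 1) (d := fun _ => c) (fun _ => hc) ?_ (fun i => rfl) h
  rw [Finset.prod_const, Finset.card_univ, Fintype.card_fin]
  calc c ^ 6 = (c ^ 3) * (c ^ 3) := by ring
    _ = 1 := by rw [four_cube hF hc, one_mul]

/-- the key computation: adding the sum of the coordinates preserves the configuration -/
theorem Om_shift (hF : Fintype.card F = 4) {x : Fin 6 → F} (h : Om x) : Om (fun i => x i + ∑ j, x j) := by
  classical
  have h2 := four_two hF
  by_cases hS : ∑ j, x j = 0
  · rw [hS]
    simpa using h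
  rcases h with ⟨i, j, hij, hi, hj, hk⟩ | ⟨hne, hprod⟩
  · have hsum : ∑ k, x k = x i + x j := by
      apply Finset.sum_eq_add i j hij
      · intro c _ hc; exact hk c hc.1 hc.2
      · intro h; exact absurd (Finset.mem_univ _) h
      · intro h; exact absurd (Finset.mem_univ _) h
    rw [hsum] at hS ⊢
    right
    have e1 : x i + (x i + x j) = x j := by linear_combination x i * h2
    have e2 : x j + (x i + x j) = x i := by linear_combination x j * h2
    have e3 : ∀ k, k ≠ i → k ≠ j → x k + (x i + x j) = x i + x j := fun k h3 h4 => by rw [hk k h3 h4, zero_add]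
    refine ⟨fun k => ?_, ?_⟩
    · beta_reduce
      by_cases hki : k = i
      · rw [hki, e1]; exact hj
      · by_cases hkj : k = j
        · rw [hkj, e2]; exact hi
        · rw [e3 k hki hkj]; exact hS
    · rw [← Finset.mul_prod_erase _ _ (Finset.mem_univ i), ← Finset.mul_prod_erase _ _
        (Finset.mem_erase.mpr ⟨Ne.symm hij, Finset.mem_univ j⟩)]
      have e4 : ∏ k ∈ (Finset.univ.erase i).erase j, (x k + (x i + x j)) = (x i + x j) ^ 4 := by
        rw [Finset.prod_congr rfl (g := fun _ => x i + x j)]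
        · rw [Finset.prod_const, Finset.card_erase_of_mem (Finset.mem_erase.mpr ⟨Ne.symm hij, Finset.mem_univ j⟩),
            Finset.card_erase_of_mem (Finset.mem_univ i), Finset.card_univ, Fintype.card_fin]
        · intro k hk'
          rw [Finset.mem_erase, Finset.mem_erase] at hk'
          exact e3 k hk'.2.1 hk'.1
      rw [e4, e1, e2]
      have c1 := four_cube hF hi
      have c2 := four_cube hF hj
      have c3 := four_cube hF hS
      have hne : x j - x i ≠ 0 := by
        intro h0
        apply hS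
        linear_combination h0 + x i * h2
      have c4 : x j ^ 2 + x i * x j + x i ^ 2 = 0 := by
        have : (x j - x i) * (x j ^ 2 + x i * x j + x i ^ 2) = 0 := by linear_combination c2 - c1
        exact (mul_eq_zero.mp this).resolve_left hne
      have e5 : x j * (x i * (x i + x j) ^ 4) = (x i + x j) ^ 3 * (x i * x j * (x i + x j)) := by ring
      rw [e5, c3, one_mul]
      linear_combination x i * c4 - c1 - h2
  · -- normalise
    set S := ∑ j, x j with hSdef
    have hS3 := four_cube hF hS
    let y : Fin 6 → F := fun i => S ^ 2 * x i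
    have hy0 : ∀ i, y i ≠ 0 := fun i => mul_ne_zero (pow_ne_zero 2 hS) (hne i)
    have hysum : ∑ i, y i = 1 := by
      simp only [y]
      rw [← Finset.mul_sum, ← hSdef, ← pow_succ, hS3]
    have hyprod : ∏ i, y i = 1 := by
      simp only [y]
      rw [Finset.prod_mul_distrib, hprod, mul_one, Finset.prod_const, Finset.card_univ, Fintype.card_fin, ← pow_mul]
      calc S ^ (2 * 6) = (S ^ 3) ^ 4 := by ring
        _ = 1 := by rw [hS3, one_pow]
    suffices hy : Om (fun i => y i + 1) by
      have h3 := Om_smul hF hS hy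
      have h4 : (fun i => S * (y i + 1)) = fun i => x i + S := by
        ext i
        simp only [y]
        linear_combination x i * hS3
      rwa [h4] at h3
    obtain ⟨ω, hω0, hω1⟩ := four_exists hF
    have hω := four_quad hF hω0 hω1
    have hω3 := four_cube hF hω0
    have hcase : ∀ i, ∃ k : ℕ, k < 3 ∧ y i = ω ^ k := by
      intro i
      by_cases h1 : y i = 1
      · exact ⟨0, by norm_num, by rw [h1, pow_zero]⟩
      · have h3 := four_quad hF (hy0 i) h1
        have h4 : (y i - ω) * (y i - ω ^ 2) = 0 := by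
          have : (y i - ω) * (y i - ω ^ 2) = y i ^ 2 + y i + 1 - (ω ^ 2 + ω + 1) * y i + (ω ^ 3 - 1) := by ring
          rw [this, h3, hω, hω3]; ring
        rcases mul_eq_zero.mp h4 with h5 | h5
        · exact ⟨1, by norm_num, by rw [pow_one]; exact sub_eq_zero.mp h5⟩
        · exact ⟨2, by norm_num, sub_eq_zero.mp h5⟩
    choose e he3 he using hcase
    obtain ⟨A, hA⟩ : ∃ A, (Finset.univ.filter (fun i => e i = 0)).card = A := ⟨_, rfl⟩
    obtain ⟨B, hB⟩ : ∃ B, (Finset.univ.filter (fun i => e i = 1)).card = B := ⟨_, rfl⟩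
    obtain ⟨C, hC⟩ : ∃ C, (Finset.univ.filter (fun i => e i = 2)).card = C := ⟨_, rfl⟩
    have hABC : A + B + C = 6 := by
      have h1 : ∑ i : Fin 6, ((if e i = 0 then 1 else 0) + (if e i = 1 then 1 else 0) + (if e i = 2 then 1 else 0)) = 6 := by
        rw [Finset.sum_congr rfl (g := fun _ => 1)]
        · simp
        · intro i _
          have := he3 i
          interval_cases e i <;> simp
      rw [Finset.sum_add_distrib, Finset.sum_add_distrib, Finset.sum_boole, Finset.sum_boole, Finset.sum_boole,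
        hA, hB, hC] at h1
      simpa using h1
    have hsum' : (A : F) + B * ω + C * ω ^ 2 = 1 := by
      rw [← hysum]
      have h1 : ∀ i, y i = (if e i = 0 then 1 else 0) + (if e i = 1 then 1 else 0) * ω + (if e i = 2 then 1 else 0) * ω ^ 2 := by
        intro i
        rw [he i]
        have := he3 i
        interval_cases e i <;> simp
      rw [Finset.sum_congr rfl (fun i _ => h1 i), Finset.sum_add_distrib, Finset.sum_add_distrib, ← Finset.sum_mul,
        ← Finset.sum_mul, Finset.sum_boole, Finset.sum_boole, Finset.sum_boole, hA, hB, hC]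
    have hprod' : (B + 2 * C) % 3 = 0 := by
      have h1 : ∏ i, y i = ω ^ (B + 2 * C) := by
        rw [Finset.prod_congr rfl (fun i _ => he i), Finset.prod_pow_eq_pow_sum]
        congr 1
        have h3 : ∀ i, e i = (if e i = 1 then 1 else 0) + 2 * (if e i = 2 then 1 else 0) := by
          intro i
          have := he3 i
          interval_cases e i <;> simp
        rw [Finset.sum_congr rfl (fun i _ => h3 i), Finset.sum_add_distrib, ← Finset.mul_sum, Finset.sum_boole,
          Finset.sum_boole, hB, hC]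
        simp
      rw [hyprod] at h1
      have h3 : orderOf ω = 3 := orderOf_eq_prime hω3 hω1
      have h4 := orderOf_dvd_of_pow_eq_one h1.symm
      rw [h3] at h4
      exact Nat.mod_eq_zero_of_dvd h4
    have hpar : ∀ m : ℕ, ((m : ℕ) : F) = ((m % 2 : ℕ) : F) := by
      intro m
      conv_lhs => rw [← Nat.div_add_mod m 2]
      rw [Nat.cast_add, Nat.cast_mul, Nat.cast_ofNat, h2, zero_mul, zero_add]
    have hpar' : ((A + C : ℕ) : F) + ((B + C : ℕ) : F) * ω = 1 := by
      rw [Nat.cast_add, Nat.cast_add]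
      linear_combination hsum' - (C : F) * hω + (C : F) * (1 + ω) * h2
    rw [hpar (A + C), hpar (B + C)] at hpar'
    have hBC : (B + C) % 2 = 0 ∧ (A + C) % 2 = 1 := by
      have m1 : (A + C) % 2 < 2 := Nat.mod_lt _ (by norm_num)
      have m2 : (B + C) % 2 < 2 := Nat.mod_lt _ (by norm_num)
      rcases Nat.mod_two_eq_zero_or_one (A + C) with h3 | h3 <;> rcases Nat.mod_two_eq_zero_or_one (B + C) with h4 | h4 <;>
        rw [h3, h4] at hpar' <;> simp at hpar'
      · exact absurd hpar' hω1
      · exact ⟨h4, h3⟩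
      · exact absurd hpar' hω0
    have hfin : (A = 4 ∧ B = 1 ∧ C = 1) ∨ (A = 0 ∧ B = 3 ∧ C = 3) := by
      obtain ⟨hBC1, hBC2⟩ := hBC
      omega
    rcases hfin with ⟨hA4, hB1, hC1⟩ | ⟨hA0, -, -⟩
    · left
      obtain ⟨i, hi⟩ := Finset.card_eq_one.mp (hB.trans hB1)
      obtain ⟨j, hj⟩ := Finset.card_eq_one.mp (hC.trans hC1)
      have hi1 : e i = 1 := by
        have : i ∈ Finset.univ.filter (fun i => e i = 1) := by rw [hi]; exact Finset.mem_singleton_self _
        exact (Finset.mem_filter.mp this).2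
      have hj1 : e j = 2 := by
        have : j ∈ Finset.univ.filter (fun i => e i = 2) := by rw [hj]; exact Finset.mem_singleton_self _
        exact (Finset.mem_filter.mp this).2
      have hne1 : ∀ k, e k ≠ 0 → y k + 1 ≠ 0 := by
        intro k hk h0
        have h3 : y k = 1 := by linear_combination h0 - h2
        rw [he k] at h3
        have := he3 k
        have h4 : orderOf ω = 3 := orderOf_eq_prime hω3 hω1
        have h5 := orderOf_dvd_of_pow_eq_one h3
        rw [h4] at h5
        have := Nat.le_of_dvd (Nat.pos_of_ne_zero hk) h5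
        omega
      refine ⟨i, j, ?_, hne1 i (by rw [hi1]; norm_num), hne1 j (by rw [hj1]; norm_num), fun k hki hkj => ?_⟩
      · rintro rfl
        rw [hi1] at hj1
        omega
      · have hk1 : e k ≠ 1 := by
          intro h3
          have : k ∈ Finset.univ.filter (fun i => e i = 1) := Finset.mem_filter.mpr ⟨Finset.mem_univ _, h3⟩
          rw [hi] at this
          exact hki (Finset.mem_singleton.mp this)
        have hk2 : e k ≠ 2 := by
          intro h3
          have : k ∈ Finset.univ.filter (fun i => e i = 2) := Finset.mem_filter.mpr ⟨Finset.mem_univ _, h3⟩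
          rw [hj] at this
          exact hkj (Finset.mem_singleton.mp this)
        have hk0 : e k = 0 := by
          have := he3 k
          omega
        beta_reduce
        rw [he k, hk0, pow_zero]
        linear_combination h2
    · right
      have hne1 : ∀ k, y k ≠ 1 := by
        intro k h0
        have hk0 : e k ≠ 0 := by
          intro h3
          have h4 : k ∈ Finset.univ.filter (fun i => e i = 0) := Finset.mem_filter.mpr ⟨Finset.mem_univ _, h3⟩
          rw [Finset.card_eq_zero.mp (hA.trans hA0)] at h4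
          exact absurd h4 (Finset.notMem_empty _)
        rw [he k] at h0
        have := he3 k
        have h4 : orderOf ω = 3 := orderOf_eq_prime hω3 hω1
        have h5 := orderOf_dvd_of_pow_eq_one h0
        rw [h4] at h5
        have := Nat.le_of_dvd (Nat.pos_of_ne_zero hk0) h5
        omega
      have hsq : ∀ k, y k + 1 = y k ^ 2 := by
        intro k
        have := four_quad hF (hy0 k) (hne1 k)
        linear_combination this - y k ^ 2 * h2
      refine ⟨fun k => ?_, ?_⟩
      · beta_reduce
        rw [hsq]; exact pow_ne_zero 2 (hy0 k)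
      · simp only [hsq]
        rw [Finset.prod_pow, hyprod, one_pow]

end field

end H97.AschHex
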