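import Mathlib
import Cfsg.Agent.Lib.H97.AschHex

/-!
Aschbacher library, part 51: stabilisers of frames are not maximal in the six-dimensional unitary group over the field
with four elements.
-/

set_option autoImplicit false
set_option linter.unusedSectionVars false

namespace H97.AschHex2

open Cfsg Cfsg.Geo Matrix H97.AschRad H97.AschEnv H97.AschNonab H97.AschGrp H97.AschLinear H97.AschIdem H97.AschDecomp
open H97.AschForm H97.AschSubfield H97.AschReal H97.AschNCU H97.AschUSymp H97.AschUPair H97.AschUElim H97.AschPauli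
open H97.AschCases H97.AschNC H97.AschHex
open H96.AschSympType1 H96.AschSympType2 H96.AschSympType3 H96.AschSubForm H96.AschSympType5 H96.AschAdj
open H96.AschComm H96.AschField H96.AschSympEx
open H96.AschSp H96.AschSp2 H96.AschSU H96.AschSU2 H96.AschOdd2 H96.AschDescent H96.AschSU3

variable {F : Type*} [Field F] [Fintype F] {q : ℕ} {σ : F ≃+* F}

/-- the coordinates in a frame -/
def co (q : ℕ) (w : Fin 6 → (Fin 6 → F)) (v : Fin 6 → F) : Fin 6 → F := fun i => hermForm 6 F q v (w i)

/-- the stabiliser of the configuration -/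
def stabOm (q : ℕ) (w : Fin 6 → (Fin 6 → F)) : Subgroup (GL (Fin 6) F) where
  carrier := {g | ∀ v, Om (co q w ((g : Matrix (Fin 6) (Fin 6) F) *ᵥ v)) ↔ Om (co q w v)}
  one_mem' := fun v => by rw [Units.val_one, Matrix.one_mulVec]
  mul_mem' := by
    intro a b ha hb v
    rw [Units.val_mul, ← Matrix.mulVec_mulVec, ha, hb]
  inv_mem' := by
    intro a ha v
    have h1 := ha (((a⁻¹ : GL (Fin 6) F) : Matrix (Fin 6) (Fin 6) F) *ᵥ v)
    rw [Matrix.mulVec_mulVec, ← Units.val_mul, mul_inv_cancel, Units.val_one, Matrix.one_mulVec] at h1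
    exact h1.symm

/-- **no maximal subgroup preserves a frame** -/
theorem no_lines (h : Ctx (F := F) σ 6 q) (hq : q = 2) {H : Subgroup (GL (Fin 6) F)}
    (hH : IsMaximalIn (GU 6 F q ⊓ specialLinear (Fin 6) F) H) {D : Fin 6 → Submodule F (Fin 6 → F)}
    (hD : IsNondegenerateMDecomposition (hermForm 6 F q) 1 D) (hle : H ≤ decompositionStabilizer D) : False := by
  classical
  have hS := h.form.sesq
  have hF : Fintype.card F = 4 := by rw [h.card, hq]; norm_num
  have h2 := four_two hF
  obtain ⟨w, hwD, hww, hexp⟩ := frame_of_lines h hD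
  have hli := frame_li h hww
  have hcoadd : ∀ u v i, co q w (u + v) i = co q w u i + co q w v i := fun u v i => hS.add_left _ _ _
  have hcosmul : ∀ c v i, co q w (c • v) i = c * co q w v i := fun c v i => hS.smul_left _ _ _
  have hcow : ∀ i j, co q w (w i) j = if i = j then 1 else 0 := fun i j => hww i j
  have hcosum : ∀ (x : Fin 6 → F) j, co q w (∑ i, x i • w i) j = x j := by
    intro x j
    change hermForm 6 F q _ _ = _
    rw [hS.sum_left, Finset.sum_eq_single j]
    · rw [hS.smul_left, hww, if_pos rfl, mul_one]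
    · intro k _ hk
      rw [hS.smul_left, hww, if_neg hk, mul_zero]
    · intro h; exact absurd (Finset.mem_univ _) h
  have hdot : ∀ v (x : Fin 6 → F), hermForm 6 F q v (∑ i, x i • w i) = ∑ i, σ (x i) * co q w v i := by
    intro v x
    rw [hS.sum_right]
    exact Finset.sum_congr rfl (fun i _ => hS.smul_right _ _ _)
  -- H preserves the configuration
  have hHM : H ≤ stabOm q w := by
    have key : ∀ g ∈ H, ∀ v, Om (co q w v) → Om (co q w ((g : Matrix (Fin 6) (Fin 6) F) *ᵥ v)) := by
      intro g hg v hv
      obtain ⟨π, d, hgd, hdd⟩ := frame_mono h hww hwD hexp (hle hg) (hH.1.le hg).1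
      have hd0 : ∀ i, d i ≠ 0 := by
        intro i h0
        have := hdd i
        rw [h0, zero_mul] at this
        exact zero_ne_one this
      have hP2 : (∏ x, d x) ^ 2 = 1 := by
        rw [det_mono' hli hgd]
        have h1 : Matrix.GeneralLinearGroup.det g = 1 := (hH.1.le hg).2
        have h3 := congrArg Units.val h1
        have h4 : (g : Matrix (Fin 6) (Fin 6) F).det = 1 := by simpa using h3
        rw [h4, one_pow]
      have hP : ∏ x, d x = 1 := by
        have : (∏ x, d x - 1) * (∏ x, d x - 1) = 0 := by linear_combination hP2 - (∏ x, d x - 1) * h2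
        exact sub_eq_zero.mp (mul_self_eq_zero.mp this)
      exact Om_mono (π := π) (d := d) hd0 hP (fun i => coord_mono h (hH.1.le hg).1 hgd hdd v i) hv
    intro g hg v
    constructor
    · intro hv
      have h1 := key g⁻¹ (H.inv_mem hg) _ hv
      rwa [Matrix.mulVec_mulVec, ← Units.val_mul, inv_mul_cancel, Units.val_one, Matrix.one_mulVec] at h1
    · exact key g hg v
  have hskew : σ (1 : F) + 1 * 1 = 0 := by rw [map_one]; linear_combination h2
  -- the transvection outside
  have hnot : ¬ GU 6 F q ⊓ specialLinear (Fin 6) F ≤ stabOm q w := by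
    intro hsub
    let x : Fin 6 → F := ![1, 1, 1, 1, 0, 0]
    have hu : (∑ i, x i • w i) ∈ Iso 6 q F := by
      refine ⟨fun h0 => ?_, ?_⟩
      · have h1 := congrFun (hli _ h0) 0
        simp [x] at h1
      · rw [hdot]
        simp only [hcosum]
        simp [x, Fin.sum_univ_succ]
        linear_combination 2 * h2
    obtain ⟨g, hg, htv⟩ := h.tv hu one_ne_zero hskew
    have h1 := hsub hg (w 0 + w 4)
    have h3 : Om (co q w (w 0 + w 4)) := by
      left
      refine ⟨0, 4, by decide, ?_, ?_, fun k hk0 hk4 => ?_⟩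
      · rw [hcoadd, hcow, hcow]; simp
      · rw [hcoadd, hcow, hcow]; simp
      · rw [hcoadd, hcow, hcow, if_neg (Ne.symm hk0), if_neg (Ne.symm hk4), add_zero]
    have h4 := h1.mpr h3
    rw [htv.val] at h4
    have h5 : hermForm 6 F q (w 0 + w 4) (∑ i, x i • w i) = 1 := by
      rw [hdot]
      simp only [hcoadd, hcow]
      simp [x, Fin.sum_univ_succ]
    rw [h5, one_mul, one_smul] at h4
    have h6 : co q w (w 0 + w 4 + ∑ i, x i • w i) = ![0, 1, 1, 1, 1, 0] := by
      ext i
      rw [hcoadd, hcoadd, hcow, hcow, hcosum]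
      fin_cases i <;> simp [x]
      linear_combination h2
    rw [h6] at h4
    rcases h4 with ⟨i, j, hij, hi, hj, hk⟩ | ⟨h7, -⟩
    · have k1 : ∀ k : Fin 6, k ≠ i → k ≠ j → (![0, 1, 1, 1, 1, 0] : Fin 6 → F) k = 0 := hk
      have n1 : (1 : Fin 6) = i ∨ (1 : Fin 6) = j := by
        by_contra hno
        push Not at hno
        have := k1 1 hno.1 hno.2
        simp at this
      have n2 : (2 : Fin 6) = i ∨ (2 : Fin 6) = j := by
        by_contra hno
        push Not at hno
        have := k1 2 hno.1 hno.2
        simp at this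
      have n3 : (3 : Fin 6) = i ∨ (3 : Fin 6) = j := by
        by_contra hno
        push Not at hno
        have := k1 3 hno.1 hno.2
        simp at this
      rcases n1 with n1 | n1 <;> rcases n2 with n2 | n2 <;> rcases n3 with n3 | n3 <;> subst_vars <;>
        first
          | exact absurd n1 (by decide)
          | exact absurd n2 (by decide)
          | exact absurd n3 (by decide)
    · exact h7 0 (by simp)
  have hHeq := eq_of_max hH hHM hnot
  -- the transvection inside
  let x : Fin 6 → F := fun _ => 1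
  have hu : (∑ i, x i • w i) ∈ Iso 6 q F := by
    refine ⟨fun h0 => ?_, ?_⟩
    · have h1 := congrFun (hli _ h0) 0
      simp [x] at h1
    · rw [hdot]
      simp only [hcosum]
      simp [x]
      linear_combination 3 * h2
  obtain ⟨g, hg, htv⟩ := h.tv hu one_ne_zero hskew
  have hact : ∀ v, co q w ((g : Matrix (Fin 6) (Fin 6) F) *ᵥ v) = fun i => co q w v i + ∑ j, co q w v j := by
    intro v
    ext i
    rw [htv.val, hcoadd, hcosmul, hcosum, hdot]
    simp [x]
  have hgg : ∀ v, (g : Matrix (Fin 6) (Fin 6) F) *ᵥ ((g : Matrix (Fin 6) (Fin 6) F) *ᵥ v) = v := by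
    intro v
    rw [htv.val ((g : Matrix (Fin 6) (Fin 6) F) *ᵥ v), htv.val v, hS.add_left, hS.smul_left, hu.2, mul_zero, add_zero,
      add_assoc, ← add_smul]
    have : (1 : F) * hermForm 6 F q v (∑ i, x i • w i) + 1 * hermForm 6 F q v (∑ i, x i • w i) = 0 := by
      linear_combination hermForm 6 F q v (∑ i, x i • w i) * h2
    rw [this, zero_smul, add_zero]
  have hgM : g ∈ stabOm q w := by
    have key : ∀ v, Om (co q w v) → Om (co q w ((g : Matrix (Fin 6) (Fin 6) F) *ᵥ v)) := by
      intro v hv
      rw [hact]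
      exact Om_shift hF hv
    intro v
    constructor
    · intro hv
      have := key _ hv
      rwa [hgg] at this
    · exact key v
  have hgH : g ∈ H := by
    rw [hHeq]
    exact ⟨hgM, hg⟩
  obtain ⟨π, d, hgd, hdd⟩ := frame_mono h hww hwD hexp (hle hgH) hg.1
  have h3 : ∀ i, co q w ((g : Matrix (Fin 6) (Fin 6) F) *ᵥ w 0) i = if i = 0 then 0 else 1 := by
    intro i
    rw [hact]
    have : ∑ j, co q w (w 0) j = 1 := by
      simp only [hcow]
      simp
    rw [this]
    beta_reduce
    rw [hcow]
    by_cases hi : i = 0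
    · rw [if_pos hi.symm, if_pos hi]
      linear_combination h2
    · rw [if_neg (Ne.symm hi), if_neg hi, zero_add]
  have h4 : ∀ i, co q w ((g : Matrix (Fin 6) (Fin 6) F) *ᵥ w 0) i = d 0 * (if π 0 = i then 1 else 0) := by
    intro i
    rw [hgd, hcosmul, hcow]
  have h5 : ∀ i : Fin 6, i ≠ 0 → π 0 = i := by
    intro i hi
    have := (h3 i).symm.trans (h4 i)
    rw [if_neg hi] at this
    by_contra hno
    rw [if_neg hno, mul_zero] at this
    exact one_ne_zero this
  have h6 := (h5 1 (by decide)).symm.trans (h5 2 (by decide))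
  exact absurd h6 (by decide)

end H97.AschHex2
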