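import Mathlib
import Cfsg.Agent.Lib.H97.AschHex2

/-!
Aschbacher library, part 52: the cubic field subalgebra in the six-dimensional unitary group over the field with four
elements (arithmetic and determinants).
-/

set_option autoImplicit false
set_option linter.unusedSectionVars false

namespace H97.AschTri

open Cfsg Cfsg.Geo Matrix H97.AschRad H97.AschEnv H97.AschNonab H97.AschGrp H97.AschLinear H97.AschIdem H97.AschDecomp
open H97.AschForm H97.AschSubfield H97.AschReal H97.AschNCU H97.AschUSymp H97.AschUPair H97.AschUElim H97.AschPauli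
open H97.AschCases H97.AschNC H97.AschHex
open H96.AschSympType1 H96.AschSympType2 H96.AschSympType3 H96.AschSubForm H96.AschSympType5 H96.AschAdj
open H96.AschComm H96.AschField H96.AschSympEx
open H96.AschSp H96.AschSp2 H96.AschSU H96.AschSU2 H96.AschOdd2 H96.AschDescent H96.AschSU3

lemma arith64 : ∀ m < 63, Nat.gcd 63 (m + 62) = 7 → (m * m) % 63 = 1 → Nat.gcd 63 (m + 1) = 9 := by decide

/-- in the field with 64 elements: norm one for both subfields implies lying in the field with four elements -/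
theorem mem_four {F L : Type*} [Field F] [Fintype F] [Field L] [Algebra F L] (hF : Fintype.card F = 4)
    (hL : Nat.card L = 64) {β : L ≃+* L} (hβ2 : ∀ x, β (β x) = x) (hβ1 : β ≠ RingEquiv.refl L) {δ : L}
    (h1 : β δ * δ = 1) (h2 : δ ^ 21 = 1) : ∃ c : F, δ = algebraMap F L c := by
  classical
  have hfin : Finite L := Nat.finite_of_card_ne_zero (by rw [hL]; norm_num)
  have : Fintype L := Fintype.ofFinite L
  have hL' : Fintype.card L = 64 := by rw [← Nat.card_eq_fintype_card, hL]
  have hδ0 : δ ≠ 0 := right_ne_zero_of_mul_eq_one h1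
  -- fixed field
  have hfix : Nat.card (fixField β) = 8 := by
    have h3 := card_fixField hβ2 hβ1
    rw [hL] at h3
    have h4 : (Nat.card (fixField β)) ^ 2 = 8 ^ 2 := by rw [← h3]; norm_num
    exact Nat.pow_left_injective (n := 2) (by norm_num) h4
  let βU : Lˣ →* Lˣ := Units.map (β : L →* L)
  have hβU : ∀ u : Lˣ, ((βU u : Lˣ) : L) = β u := fun u => rfl
  obtain ⟨ζ, hζ⟩ := IsCyclic.exists_generator (α := Lˣ)
  have hcardU : Nat.card Lˣ = 63 := by rw [Nat.card_units, hL]
  have hord : orderOf ζ = 63 := by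
    rw [orderOf_eq_card_of_forall_mem_zpowers hζ, hcardU]
  have hgen : ∀ u : Lˣ, ∃ k : ℕ, k < 63 ∧ u = ζ ^ k := by
    intro u
    have h3 : u ∈ Submonoid.powers ζ := mem_powers_iff_mem_zpowers.mpr (hζ u)
    obtain ⟨k, hk⟩ := h3
    refine ⟨k % 63, Nat.mod_lt _ (by norm_num), ?_⟩
    have hk' : ζ ^ k = u := hk
    rw [← hord, pow_mod_orderOf, hk']
  obtain ⟨m, hm, hζm⟩ := hgen (βU ζ)
  have hpow : ∀ u, βU u = u ^ m := by
    intro u
    obtain ⟨k, -, rfl⟩ := hgen u
    rw [map_pow, hζm, ← pow_mul, ← pow_mul, mul_comm]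
  -- involution
  have hmm : (m * m) % 63 = 1 := by
    have h3 : βU (βU ζ) = ζ := Units.ext (hβ2 _)
    rw [hpow, hpow, ← pow_mul] at h3
    have h4 : ζ ^ (m * m) = ζ ^ 1 := by rw [pow_one]; exact h3
    rw [pow_eq_pow_iff_modEq, hord] at h4
    exact h4
  -- fixed points
  have hgcd : Nat.gcd 63 (m + 62) = 7 := by
    have h3 := IsCyclic.card_powMonoidHom_ker Lˣ (m + 62)
    rw [hcardU] at h3
    rw [← h3]
    have h4 : Nat.card (fixField β)ˣ = 7 := by rw [Nat.card_units, hfix]
    rw [← h4]
    have hmem : ∀ u : Lˣ, u ∈ (powMonoidHom (m + 62) : Lˣ →* Lˣ).ker ↔ β u = u := by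
      intro u
      rw [MonoidHom.mem_ker]
      change u ^ (m + 62) = 1 ↔ _
      have h5 : u ^ 63 = 1 := by rw [← hcardU]; exact pow_card_eq_one'
      constructor
      · intro h6
        have h7 : βU u = u := by
          rw [hpow]
          have : u ^ m * u ^ 63 = u ^ (m + 62) * u := by
            rw [← pow_add, ← pow_succ]
          rw [h5, mul_one, h6, one_mul] at this
          exact this
        exact congrArg Units.val h7
      · intro h6
        have h7 : βU u = u := Units.ext h6
        rw [hpow] at h7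
        rw [pow_add, h7, ← pow_succ', h5]
    refine Nat.card_congr (Equiv.ofBijective
      (fun u : (powMonoidHom (m + 62) : Lˣ →* Lˣ).ker => (Units.mk0 (⟨((u : Lˣ) : L), (hmem _).1 u.2⟩ : fixField β)
        (fun h => (u : Lˣ).ne_zero (congrArg Subtype.val h)) : (fixField β)ˣ)) ⟨?_, ?_⟩)
    · intro u v huv
      apply Subtype.ext
      apply Units.ext
      exact congrArg (fun z : (fixField β)ˣ => ((z : fixField β) : L)) huv
    · intro z
      have hz0 : ((z : fixField β) : L) ≠ 0 := fun h => z.ne_zero (Subtype.ext h)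
      refine ⟨⟨Units.mk0 ((z : fixField β) : L) hz0, (hmem _).2 (z : fixField β).2⟩, ?_⟩
      apply Units.ext
      rfl
  have h9 := arith64 m hm hgcd hmm
  set u : Lˣ := Units.mk0 δ hδ0 with hu
  have hu1 : u ^ (m + 1) = 1 := by
    rw [pow_succ, ← hpow]
    apply Units.ext
    rw [Units.val_mul, hβU]
    exact h1
  have hu2 : u ^ 21 = 1 := by
    apply Units.ext
    rw [Units.val_pow_eq_pow_val]
    exact h2
  have hu3 : u ^ 63 = 1 := by rw [← hcardU]; exact pow_card_eq_one'
  have hdvd : orderOf u ∣ 3 := by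
    have d1 := orderOf_dvd_of_pow_eq_one hu1
    have d2 := orderOf_dvd_of_pow_eq_one hu2
    have d3 := orderOf_dvd_of_pow_eq_one hu3
    have d4 : orderOf u ∣ 9 := by rw [← h9]; exact Nat.dvd_gcd d3 d1
    have d5 : orderOf u ∣ Nat.gcd 9 21 := Nat.dvd_gcd d4 d2
    exact d5
  have hcube : δ ^ 3 = 1 := by
    have h3 := orderOf_dvd_iff_pow_eq_one.mp hdvd
    have h4 := congrArg Units.val h3
    rwa [Units.val_pow_eq_pow_val] at h4
  obtain ⟨ω, hω0, hω1⟩ := four_exists hF
  have hω := four_quad hF hω0 hω1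
  have hω' : (algebraMap F L ω) ^ 2 + algebraMap F L ω + 1 = 0 := by
    rw [← map_pow, ← map_one (algebraMap F L), ← map_add, ← map_add, hω, map_zero]
  set w := algebraMap F L ω with hw
  have hw3 : w ^ 3 = 1 := by linear_combination (w - 1) * hω'
  have hprod : (δ - 1) * ((δ - w) * (δ - w ^ 2)) = 0 := by
    have : (δ - 1) * ((δ - w) * (δ - w ^ 2)) = δ ^ 3 - (w ^ 2 + w + 1) * δ ^ 2 + (w ^ 3 + w ^ 2 + w) * δ - w ^ 3 := by ring
    rw [this, hcube, hw3, hω']
    linear_combination δ * hω'
  rcases mul_eq_zero.mp hprod with h3 | h3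
  · exact ⟨1, by rw [map_one]; exact sub_eq_zero.mp h3⟩
  rcases mul_eq_zero.mp h3 with h3 | h3
  · exact ⟨ω, sub_eq_zero.mp h3⟩
  · exact ⟨ω ^ 2, by rw [map_pow]; exact sub_eq_zero.mp h3⟩

/-- the determinant of an element of a field subalgebra is a power of the norm -/
theorem det_field {F L : Type*} [Field F] [Field L] [Algebra F L] [FiniteDimensional F L] {n k : ℕ}
    (φ : L →ₐ[F] Matrix (Fin n) (Fin n) F) (hk : Module.finrank F L * k = n) (hn : 0 < n) (x : L) :
    (φ x).det = (Algebra.norm F x) ^ k := by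
  classical
  let ψ : L →+* Module.End F (Fin n → F) :=
    (Matrix.toLinAlgEquiv' : Matrix (Fin n) (Fin n) F ≃ₐ[F] _).toRingEquiv.toRingHom.comp φ.toRingHom
  let mod : Module L (Fin n → F) := Module.compHom (Fin n → F) ψ
  have hsmul : ∀ (y : L) (v : Fin n → F), y • v = φ y *ᵥ v := fun y v => rfl
  have htower : IsScalarTower F L (Fin n → F) := ⟨fun c y v => by
    rw [hsmul, hsmul, map_smul, Matrix.smul_mulVec]⟩
  have hrank : Module.finrank L (Fin n → F) = k := by
    have h1 := Module.finrank_mul_finrank F L (Fin n → F)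
    rw [Module.finrank_fintype_fun_eq_card, Fintype.card_fin] at h1
    have h2 : 0 < Module.finrank F L := by
      rcases Nat.eq_zero_or_pos (Module.finrank F L) with h | h
      · rw [h, zero_mul] at hk; omega
      · exact h
    exact Nat.eq_of_mul_eq_mul_left h2 (h1.trans hk.symm)
  let T : (Fin n → F) →ₗ[L] (Fin n → F) := x • LinearMap.id
  have hT : T.det = x ^ k := by
    rw [LinearMap.det_smul, LinearMap.det_id, mul_one, hrank]
  have h1 := LinearMap.det_restrictScalars (R := F) (S := L) (A := Fin n → F) (f := T)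
  rw [hT, map_pow] at h1
  rw [← h1]
  have h2 : T.restrictScalars F = Matrix.toLin' (φ x) := by
    ext v
    rfl
  rw [h2, LinearMap.det_toLin']

theorem norm_pow {F L : Type*} [Field F] [Fintype F] [Field L] [Finite L] [Algebra F L] (hF : Fintype.card F = 4)
    (hL : Nat.card L = 64) {x : L} (hx : Algebra.norm F x = 1) : x ^ 21 = 1 := by
  have h1 := FiniteField.algebraMap_norm_eq_pow (K := F) (K' := L) (x := x)
  rw [hL, Nat.card_eq_fintype_card, hF, hx, map_one] at h1
  exact h1.symm

end H97.AschTri
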