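import Mathlib
import Cfsg.Agent.Lib.H97.AschTri

/-!
Aschbacher library, part 53: the normaliser of a cubic field subalgebra in the six-dimensional unitary group over the
field with four elements preserves an alternating form.
-/

set_option autoImplicit false
set_option linter.unusedSectionVars false

namespace H97.AschTri2

open Cfsg Cfsg.Geo Matrix H97.AschRad H97.AschEnv H97.AschNonab H97.AschGrp H97.AschLinear H97.AschIdem H97.AschDecomp
open H97.AschForm H97.AschSubfield H97.AschReal H97.AschNCU H97.AschUSymp H97.AschUPair H97.AschUElim H97.AschPauli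
open H97.AschCases H97.AschNC H97.AschHex H97.AschTri
open H96.AschSympType1 H96.AschSympType2 H96.AschSympType3 H96.AschSubForm H96.AschSympType5 H96.AschAdj
open H96.AschComm H96.AschField H96.AschSympEx
open H96.AschSp H96.AschSp2 H96.AschSU H96.AschSU2 H96.AschOdd2 H96.AschDescent H96.AschSU3

variable {F : Type*} [Field F] [Fintype F] {q : ℕ} {σ : F ≃+* F}
variable {L : Type*} [Field L] [Algebra F L]

/-- a vector on which the form does not vanish -/
lemma exists_nz (h : Ctx (F := F) σ 6 q) (φ : L →ₐ[F] Matrix (Fin 6) (Fin 6) F) {W : Submodule F (Fin 6 → F)}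
    (hW : ∃ u ∈ W, ∃ v ∈ W, hermForm 6 F q u v ≠ 0)
    (hadj : ∀ x : L, ∃ y : L, h.form.adj (φ x) = φ y) :
    ∃ v ∈ W, ∃ x : L, hermForm 6 F q (φ x *ᵥ v) v ≠ 0 := by
  have hS := h.form.sesq
  by_contra hno
  push Not at hno
  obtain ⟨u, hu, v, hv, huv⟩ := hW
  obtain ⟨c, hc⟩ : ∃ c : F, σ c ≠ c := by
    by_contra hno
    push Not at hno
    exact h.ne (RingEquiv.ext hno)
  have h1 := hno (v + u) (W.add_mem hv hu) 1
  have h2 := hno (v + c • u) (W.add_mem hv (W.smul_mem c hu)) 1
  have h3 := hno u hu 1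
  have h4 := hno v hv 1
  rw [map_one, Matrix.one_mulVec] at h1 h2 h3 h4
  rw [hS.add_left, hS.add_right, hS.add_right, h3, h4] at h1
  rw [hS.add_left, hS.add_right, hS.add_right, hS.smul_left, hS.smul_left, hS.smul_right, hS.smul_right, h3, h4] at h2
  have h5 : (c - σ c) * hermForm 6 F q u v = 0 := by linear_combination h2 - σ c * h1
  rcases mul_eq_zero.mp h5 with h6 | h6
  · exact hc (sub_eq_zero.mp h6).symm
  · exact huv h6

/-- **the invariant alternating form** -/
theorem field_symp (h : Ctx (F := F) σ 6 q) (hq : q = 2) (hL3 : Module.finrank F L = 3)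
    (φ : L →ₐ[F] Matrix (Fin 6) (Fin 6) F) (hadj : ∀ x : L, ∃ y : L, h.form.adj (φ x) = φ y)
    {H : Subgroup (GL (Fin 6) F)} (hHU : H ≤ GU 6 F q ⊓ specialLinear (Fin 6) F)
    (hHK : ∀ g ∈ H, ∀ x : L, ∃ y : L, (g : Matrix (Fin 6) (Fin 6) F) * φ x * ((g⁻¹ : GL (Fin 6) F) : Matrix (Fin 6) (Fin 6) F) = φ y) :
    ∃ (B : (Fin 6 → F) → (Fin 6 → F) → F) (τ : (Fin 6 → F) → (Fin 6 → F)), IsSymplecticForm B ∧
      H ≤ similarityGroup B ∧ (∀ u v, hermForm 6 F q u v = B u (τ v)) ∧ ∀ v, τ (τ v) = (1 : F) • v := by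
  classical
  have hS := h.form.sesq
  have hF4 : Fintype.card F = 4 := by rw [h.card, hq]; norm_num
  have h2F := four_two hF4
  have hfd : FiniteDimensional F L := FiniteDimensional.of_finrank_pos (by rw [hL3]; norm_num)
  have hfinL : Finite L := Module.finite_of_finite F
  have : Fintype L := Fintype.ofFinite L
  have hcardL : Nat.card L = 64 := by
    rw [Module.natCard_eq_pow_finrank (K := F), hL3, Nat.card_eq_fintype_card, hF4]; norm_num
  have h2L : (2 : L) = 0 := by
    have := congrArg (algebraMap F L) h2F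
    rwa [map_ofNat, map_zero] at this
  have hinj : Function.Injective φ := φ.toRingHom.injective
  choose bar hbar using hadj
  have hbspec : ∀ x u v, hermForm 6 F q (φ x *ᵥ u) v = hermForm 6 F q u (φ (bar x) *ᵥ v) := by
    intro x u v
    rw [← hbar]; exact h.form.adj_spec _ _ _
  have hb_add : ∀ x y, bar (x + y) = bar x + bar y := fun x y => hinj (by rw [← hbar, map_add, h.form.adj_add, map_add, hbar, hbar])
  have hb_mul : ∀ x y, bar (x * y) = bar x * bar y := fun x y => hinj (by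
    rw [← hbar, map_mul, h.form.adj_mul, map_mul, hbar, hbar, ← map_mul, ← map_mul, mul_comm])
  have hb_bar : ∀ x, bar (bar x) = x := fun x => hinj (by rw [← hbar, ← hbar, h.form.adj_adj])
  have hb_alg : ∀ c : F, bar (algebraMap F L c) = algebraMap F L (σ c) := fun c => hinj (by
    rw [← hbar, AlgHom.commutes, AlgHom.commutes, h.form.adj_algebraMap])
  have hb_one : bar 1 = 1 := by
    have := hb_alg 1
    rwa [map_one, map_one, map_one] at this
  have hbspec' : ∀ x u v, hermForm 6 F q u (φ x *ᵥ v) = hermForm 6 F q (φ (bar x) *ᵥ u) v := by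
    intro x u v
    rw [hbspec, hb_bar]
  let β : L ≃+* L :=
    { toFun := bar
      invFun := bar
      left_inv := hb_bar
      right_inv := hb_bar
      map_mul' := hb_mul
      map_add' := hb_add }
  have hβ : ∀ x, β x = bar x := fun x => rfl
  have hβ1 : β ≠ RingEquiv.refl L := by
    intro h0
    apply h.ne
    ext c
    have h1 : β (algebraMap F L c) = algebraMap F L c := by rw [h0]; rfl
    rw [hβ, hb_alg] at h1
    exact (algebraMap F L).injective h1
  -- action
  have hact_mul : ∀ (x y : L) v, φ (x * y) *ᵥ v = φ x *ᵥ (φ y *ᵥ v) := by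
    intro x y v
    rw [map_mul, Matrix.mulVec_mulVec]
  have hact_add : ∀ (x y : L) v, φ (x + y) *ᵥ v = φ x *ᵥ v + φ y *ᵥ v := by
    intro x y v
    rw [map_add, Matrix.add_mulVec]
  have hact_one : ∀ v, φ 1 *ᵥ v = v := fun v => by rw [map_one, Matrix.one_mulVec]
  have hact_inj : ∀ (x : L) v, φ x *ᵥ v = 0 → x ≠ 0 → v = 0 := by
    intro x v hxv hx
    have h1 : φ x⁻¹ *ᵥ (φ x *ᵥ v) = v := by rw [← hact_mul, inv_mul_cancel₀ hx, hact_one]
    rw [← h1, hxv, Matrix.mulVec_zero]
  have hsqrt := sqrt_of_char_two h2L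
  -- nondegeneracy of functionals
  have htnd : ∀ (v : Fin 6 → F) (x₀ : L), hermForm 6 F q (φ x₀ *ᵥ v) v ≠ 0 → ∀ a : L,
      (∀ x, hermForm 6 F q (φ (x * a) *ᵥ v) v = 0) → a = 0 := by
    intro v x₀ hx₀ a ha
    by_contra ha0
    apply hx₀
    have := ha (x₀ * a⁻¹)
    rwa [mul_assoc, inv_mul_cancel₀ ha0, mul_one] at this
  -- the first vector
  have hnn : ∃ u ∈ (⊤ : Submodule F (Fin 6 → F)), ∃ v ∈ (⊤ : Submodule F (Fin 6 → F)), hermForm 6 F q u v ≠ 0 := by
    obtain ⟨u, hu⟩ : ∃ u : Fin 6 → F, u ≠ 0 := exists_ne 0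
    obtain ⟨v, hv⟩ := h.form.nd u hu
    exact ⟨u, trivial, v, trivial, hv⟩
  obtain ⟨v₁, -, x₁, hx₁⟩ := exists_nz h φ hnn (fun x => ⟨bar x, hbar x⟩)
  -- the line of v₁
  let Lv : (Fin 6 → F) → (L →ₗ[F] (Fin 6 → F)) := fun v =>
    { toFun := fun x => φ x *ᵥ v
      map_add' := fun x y => hact_add x y v
      map_smul' := fun c x => by rw [map_smul, Matrix.smul_mulVec]; rfl }
  let U := LinearMap.range (Lv v₁)
  have hU : ∀ x, φ x *ᵥ v₁ ∈ U := fun x => ⟨x, rfl⟩
  have hUinf : U ⊓ h.form.perp U = ⊥ := by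
    rw [Submodule.eq_bot_iff]
    rintro _ ⟨⟨x, rfl⟩, hx2⟩
    change φ x *ᵥ v₁ = 0
    have hx0 : x = 0 := by
      apply htnd v₁ x₁ hx₁
      intro y
      have h3 := hx2 _ (hU (bar y))
      change hermForm 6 F q (φ x *ᵥ v₁) (φ (bar y) *ᵥ v₁) = 0 at h3
      rw [← hbspec, ← hact_mul] at h3
      exact h3
    rw [hx0, map_zero, Matrix.zero_mulVec]
  have hUtop : U ⊔ h.form.perp U = ⊤ := h.form.sup_of_inf hUinf
  have hUrank : Module.finrank F U ≤ 3 := by
    rw [← hL3]
    exact LinearMap.finrank_range_le _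
  have hPne : ∃ u ∈ h.form.perp U, u ≠ 0 := by
    by_contra hno
    push Not at hno
    have h3 : h.form.perp U = ⊥ := (Submodule.eq_bot_iff _).mpr hno
    rw [h3, sup_bot_eq] at hUtop
    rw [hUtop, finrank_top, Module.finrank_fintype_fun_eq_card, Fintype.card_fin] at hUrank
    omega
  have hPnn : ∃ u ∈ h.form.perp U, ∃ v ∈ h.form.perp U, hermForm 6 F q u v ≠ 0 := by
    obtain ⟨u, hu, hu0⟩ := hPne
    obtain ⟨v, hv⟩ := h.form.nd u hu0
    have h3 : v ∈ U ⊔ h.form.perp U := by rw [hUtop]; trivial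
    obtain ⟨v', hv', v'', hv'', rfl⟩ := Submodule.mem_sup.mp h3
    refine ⟨u, hu, v'', hv'', ?_⟩
    rwa [hS.add_right, hu v' hv', zero_add] at hv
  obtain ⟨v₂, hv₂, x₂, hx₂⟩ := exists_nz h φ hPnn (fun x => ⟨bar x, hbar x⟩)
  have horth : ∀ x y, hermForm 6 F q (φ x *ᵥ v₂) (φ y *ᵥ v₁) = 0 := by
    intro x y
    rw [hbspec, ← hact_mul]
    exact hv₂ _ (hU _)
  -- duality
  have hherm : ∀ u v, hermForm 6 F q v u = σ (hermForm 6 F q u v) := fun u v => by rw [h.form.herm v u, one_mul]
  obtain ⟨a, ha⟩ : ∃ a : L, ∀ x, hermForm 6 F q (φ x *ᵥ v₁) v₁ = hermForm 6 F q (φ (x * a) *ᵥ v₂) v₂ := by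
    let T : L →ₗ[F] Module.Dual F L :=
      LinearMap.mk₂ F (fun a x => hermForm 6 F q (φ (x * a) *ᵥ v₂) v₂)
        (fun a a' x => by rw [mul_add, hact_add, hS.add_left])
        (fun c a x => by rw [mul_smul_comm, map_smul, Matrix.smul_mulVec, hS.smul_left]; rfl)
        (fun a x x' => by rw [add_mul, hact_add, hS.add_left])
        (fun c a x => by rw [smul_mul_assoc, map_smul, Matrix.smul_mulVec, hS.smul_left]; rfl)
    have hTi : Function.Injective T := by
      rw [injective_iff_map_eq_zero]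
      intro a ha
      apply htnd v₂ x₂ hx₂
      intro x
      exact congrArg (fun f : Module.Dual F L => f x) ha
    have hTs : Function.Surjective T :=
      (LinearMap.injective_iff_surjective_of_finrank_eq_finrank (Subspace.dual_finrank_eq (K := F) (V := L)).symm).mp hTi
    obtain ⟨a, ha⟩ := hTs
      { toFun := fun x => hermForm 6 F q (φ x *ᵥ v₁) v₁
        map_add' := fun x y => by rw [hact_add, hS.add_left]
        map_smul' := fun c x => by rw [map_smul, Matrix.smul_mulVec, hS.smul_left]; rfl }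
    exact ⟨a, fun x => (congrArg (fun f : Module.Dual F L => f x) ha).symm⟩
  have ha0 : a ≠ 0 := by
    rintro rfl
    apply hx₁
    rw [ha, mul_zero, map_zero, Matrix.zero_mulVec, hS.zero_left]
  have htbar : ∀ (v : Fin 6 → F) (x : L), hermForm 6 F q (φ (bar x) *ᵥ v) v = σ (hermForm 6 F q (φ x *ᵥ v) v) := by
    intro v x
    rw [hbspec, hb_bar, hherm]
  have habar : bar a = a := by
    have h3 : bar a - a = 0 := by
      apply htnd v₂ x₂ hx₂
      intro x
      rw [mul_sub, sub_eq_add_neg, ← neg_one_mul (x * a), hact_add, hS.add_left, hact_mul (-1), map_neg, map_one,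
        Matrix.neg_mulVec, Matrix.one_mulVec, ← neg_one_smul F, hS.smul_left, ← ha]
      have h4 : x * bar a = bar (bar x * a) := by rw [hb_mul, hb_bar]
      rw [h4, htbar, ← ha, ← htbar, hb_bar]
      ring
    exact sub_eq_zero.mp h3
  obtain ⟨l, hl⟩ := hsqrt a
  have hl0 : l ≠ 0 := by
    rintro rfl
    apply ha0
    rw [← hl]; ring
  have hlbar : bar l = l := by
    have h3 : (bar l - l) ^ 2 = 0 := by
      have h4 : bar l * bar l = a := by rw [← hb_mul, ← sq, hl, habar]
      calc (bar l - l) ^ 2 = bar l * bar l - l ^ 2 + 2 * (l * l - bar l * l) := by ring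
        _ = 0 := by rw [h4, hl, h2L]; ring
    exact sub_eq_zero.mp (pow_eq_zero_iff (two_ne_zero)|>.mp h3)
  set v₃ : Fin 6 → F := φ l *ᵥ v₂ with hv₃
  have ht3 : ∀ x, hermForm 6 F q (φ x *ᵥ v₃) v₃ = hermForm 6 F q (φ x *ᵥ v₁) v₁ := by
    intro x
    rw [hv₃, hbspec', ← hact_mul, ← hact_mul, hlbar, ha]
    congr 3
    rw [← hl]; ring
  have horth3 : ∀ x y, hermForm 6 F q (φ x *ᵥ v₃) (φ y *ᵥ v₁) = 0 := by
    intro x y
    rw [hv₃, ← hact_mul]
    exact horth _ _
  have horth3' : ∀ x y, hermForm 6 F q (φ x *ᵥ v₁) (φ y *ᵥ v₃) = 0 := by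
    intro x y
    rw [hherm, horth3, map_zero]
  set t : L → F := fun x => hermForm 6 F q (φ x *ᵥ v₁) v₁ with ht
  have ht1 : ∀ x y, hermForm 6 F q (φ x *ᵥ v₁) (φ y *ᵥ v₁) = t (bar y * x) := by
    intro x y
    rw [hbspec', ← hact_mul]
  have ht2 : ∀ x y, hermForm 6 F q (φ x *ᵥ v₃) (φ y *ᵥ v₃) = t (bar y * x) := by
    intro x y
    rw [hbspec', ← hact_mul, ht3]
  have ht_add : ∀ x y, t (x + y) = t x + t y := by
    intro x y
    change hermForm 6 F q _ _ = _
    rw [hact_add, hS.add_left]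
  have ht_nd : ∀ a, (∀ x, t (x * a) = 0) → a = 0 := fun a ha => htnd v₁ x₁ hx₁ a ha
  clear_value v₃
  -- coordinates
  let Φ : L × L → (Fin 6 → F) := fun p => φ p.1 *ᵥ v₁ + φ p.2 *ᵥ v₃
  have hΦf : ∀ p p' : L × L, hermForm 6 F q (Φ p) (Φ p') = t (bar p'.1 * p.1) + t (bar p'.2 * p.2) := by
    intro p p'
    simp only [Φ]
    rw [hS.add_left, hS.add_right, hS.add_right, ht1, ht2, horth3, horth3']
    ring
  have hΦadd : ∀ p p', Φ (p + p') = Φ p + Φ p' := by
    intro p p'
    simp only [Φ, Prod.fst_add, Prod.snd_add, hact_add]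
    abel
  have hΦmul : ∀ (x : L) p, Φ (x * p.1, x * p.2) = φ x *ᵥ Φ p := by
    intro x p
    simp only [Φ, hact_mul, Matrix.mulVec_add]
  have hΦi : Function.Injective Φ := by
    have h0 : ∀ p, Φ p = 0 → p = 0 := by
      intro p hp
      have h3 : p.1 = 0 := by
        apply ht_nd
        intro x
        have := hΦf p (bar x, 0)
        rw [hp, hS.zero_left, hb_bar] at this
        have hb0 : bar 0 = 0 := by have := hb_add 0 0; rw [add_zero] at this; exact left_eq_add.mp this
        simp only [hb0, zero_mul] at this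
        have ht0 : t 0 = 0 := by have := ht_add 0 0; rw [add_zero] at this; exact left_eq_add.mp this
        rw [ht0, add_zero] at this
        exact this.symm
      have h4 : p.2 = 0 := by
        apply ht_nd
        intro x
        have := hΦf p (0, bar x)
        rw [hp, hS.zero_left, hb_bar] at this
        have hb0 : bar 0 = 0 := by have := hb_add 0 0; rw [add_zero] at this; exact left_eq_add.mp this
        simp only [hb0, zero_mul] at this
        have ht0 : t 0 = 0 := by have := ht_add 0 0; rw [add_zero] at this; exact left_eq_add.mp this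
        rw [ht0, zero_add] at this
        exact this.symm
      exact Prod.ext h3 h4
    let ΦA : L × L →+ (Fin 6 → F) := AddMonoidHom.mk' Φ hΦadd
    have : Function.Injective ΦA := (injective_iff_map_eq_zero ΦA).mpr h0
    exact this
  have hΦb : Function.Bijective Φ := by
    rw [Nat.bijective_iff_injective_and_card]
    refine ⟨hΦi, ?_⟩
    rw [Nat.card_prod, hcardL, Nat.card_fun, Nat.card_eq_fintype_card, hF4, Nat.card_eq_fintype_card, Fintype.card_fin]
    norm_num
  obtain ⟨Ψ, hΨ1, hΨ2⟩ := Function.bijective_iff_has_inverse.mp hΦb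
  -- Ψ (Φ p) = p, Φ (Ψ v) = v
  have hΨadd : ∀ u v, Ψ (u + v) = Ψ u + Ψ v := by
    intro u v
    apply hΦi
    rw [hΨ2, hΦadd, hΨ2, hΨ2]
  have hΨmul : ∀ (x : L) v, Ψ (φ x *ᵥ v) = (x * (Ψ v).1, x * (Ψ v).2) := by
    intro x v
    apply hΦi
    rw [hΨ2, hΦmul, hΨ2]
  have hΨsmul : ∀ (c : F) v, Ψ (c • v) = (algebraMap F L c * (Ψ v).1, algebraMap F L c * (Ψ v).2) := by
    intro c v
    rw [← hΨmul, AlgHom.commutes, Algebra.algebraMap_eq_smul_one, Matrix.smul_mulVec, Matrix.one_mulVec]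
  -- the semilinear map
  let sw : L × L → L × L := fun p => (bar p.2, bar p.1)
  let τ : (Fin 6 → F) → (Fin 6 → F) := fun v => Φ (sw (Ψ v))
  have hτΦ : ∀ p, τ (Φ p) = Φ (bar p.2, bar p.1) := by
    intro p
    simp only [τ, sw, hΨ1 p]
  have hττ : ∀ v, τ (τ v) = v := by
    intro v
    simp only [τ, sw]
    rw [hΨ1]
    simp only [hb_bar]
    exact hΨ2 v
  have hτadd : ∀ u v, τ (u + v) = τ u + τ v := by
    intro u v
    simp only [τ, sw, hΨadd, Prod.fst_add, Prod.snd_add, hb_add]
    rw [← hΦadd]; rfl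
  have hτmul : ∀ (x : L) v, τ (φ x *ᵥ v) = φ (bar x) *ᵥ τ v := by
    intro x v
    simp only [τ, sw, hΨmul, hb_mul]
    rw [← hΦmul]
  have hτsmul : ∀ (c : F) v, τ (c • v) = σ c • τ v := by
    intro c v
    have h3 : ∀ (c : F) (v : Fin 6 → F), c • v = φ (algebraMap F L c) *ᵥ v := by
      intro c v
      rw [AlgHom.commutes, Algebra.algebraMap_eq_smul_one, Matrix.smul_mulVec, Matrix.one_mulVec]
    rw [h3, h3, hτmul, hb_alg]
  clear_value τ
  have hneg : ∀ x : F, x + x = 0 := fun x => by rw [← two_mul, h2F, zero_mul]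
  have hfτ : ∀ v, hermForm 6 F q v (τ v) = 0 := by
    intro v
    obtain ⟨p, rfl⟩ := hΦb.2 v
    rw [hτΦ, hΦf]
    simp only [hb_bar]
    rw [mul_comm p.1 p.2]
    exact hneg _
  let B : (Fin 6 → F) → (Fin 6 → F) → F := fun u v => hermForm 6 F q u (τ v)
  have hpol : ∀ u v, hermForm 6 F q u (τ v) = - hermForm 6 F q v (τ u) := by
    intro u v
    have h3 := hfτ (u + v)
    rw [hτadd, hS.add_left, hS.add_right, hS.add_right, hfτ, hfτ] at h3
    linear_combination h3
  have hBnd : ∀ v, v ≠ 0 → ∃ x, B v x ≠ 0 := by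
    intro v hv
    obtain ⟨x, hx⟩ := h.form.nd v hv
    refine ⟨τ x, ?_⟩
    change hermForm 6 F q v (τ (τ x)) ≠ 0
    rw [hττ]; exact hx
  have hBs : IsSymplecticForm B := by
    refine ⟨⟨?_, ?_, ?_, ?_⟩, hpol, hfτ, fun v hv => ⟨?_, hBnd v hv⟩⟩
    · intro u v w
      exact hS.add_left _ _ _
    · intro c u v
      exact hS.smul_left _ _ _
    · intro u v w
      change hermForm 6 F q _ (τ _) = _
      rw [hτadd, hS.add_right]
    · intro c u v
      change hermForm 6 F q _ (τ _) = _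
      rw [hτsmul, hS.smul_right, h.form.invol]
    · obtain ⟨x, hx⟩ := hBnd v hv
      refine ⟨x, ?_⟩
      change hermForm 6 F q x (τ v) ≠ 0
      rw [hpol]
      exact neg_ne_zero.mpr hx
  refine ⟨B, τ, hBs, ?_, ?_, fun v => by rw [one_smul]; exact hττ v⟩
  · -- the group
    intro g hg
    have hgU : ∀ u v, hermForm 6 F q ((g : Matrix (Fin 6) (Fin 6) F) *ᵥ u) ((g : Matrix (Fin 6) (Fin 6) F) *ᵥ v) =
        hermForm 6 F q u v := (hHU hg).1
    have hgdet : (g : Matrix (Fin 6) (Fin 6) F).det = 1 := by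
      have h1 : Matrix.GeneralLinearGroup.det g = 1 := (hHU hg).2
      have h3 := congrArg Units.val h1
      simpa using h3
    set gi : Matrix (Fin 6) (Fin 6) F := ((g⁻¹ : GL (Fin 6) F) : Matrix (Fin 6) (Fin 6) F) with hgi
    have hgg : ∀ v, (g : Matrix (Fin 6) (Fin 6) F) *ᵥ (gi *ᵥ v) = v := by
      intro v
      rw [Matrix.mulVec_mulVec, hgi, Units.mul_inv, Matrix.one_mulVec]
    have hgg' : ∀ v, gi *ᵥ ((g : Matrix (Fin 6) (Fin 6) F) *ᵥ v) = v := by
      intro v
      rw [Matrix.mulVec_mulVec, hgi, Units.inv_mul, Matrix.one_mulVec]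
    obtain ⟨θ, hθdef⟩ : ∃ θ : (Fin 6 → F) → (Fin 6 → F), ∀ v, θ v = gi *ᵥ τ ((g : Matrix (Fin 6) (Fin 6) F) *ᵥ v) :=
      ⟨_, fun v => rfl⟩
    have hθadd : ∀ u v, θ (u + v) = θ u + θ v := by
      intro u v
      simp only [hθdef, Matrix.mulVec_add, hτadd]
    have hθmul : ∀ (x : L) v, θ (φ x *ᵥ v) = φ (bar x) *ᵥ θ v := by
      intro x v
      obtain ⟨y, hy⟩ := hHK g hg x
      have h3 : (g : Matrix (Fin 6) (Fin 6) F) *ᵥ (φ x *ᵥ v) = φ y *ᵥ ((g : Matrix (Fin 6) (Fin 6) F) *ᵥ v) := by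
        rw [← hy, Matrix.mulVec_mulVec, Matrix.mulVec_mulVec, mul_assoc, Units.inv_mul, mul_one]
      have h4 : gi * φ (bar y) = φ (bar x) * gi := by
        rw [← hbar, ← hy, h.form.adj_conj (show g ∈ isom (hermForm 6 F q) from (hHU hg).1), hbar, hgi, ← mul_assoc,
          ← mul_assoc, Units.inv_mul, one_mul]
      simp only [hθdef]
      rw [h3, hτmul, Matrix.mulVec_mulVec, h4, ← Matrix.mulVec_mulVec]
    have hθf : ∀ v, hermForm 6 F q v (θ v) = 0 := by
      intro v
      simp only [hθdef]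
      rw [← hgU, hgg]
      exact hfτ _
    have hθθ : ∀ v, θ (θ v) = v := by
      intro v
      simp only [hθdef]
      rw [hgg, hττ, hgg']
    have hθpol : ∀ u v, hermForm 6 F q u (θ v) + hermForm 6 F q v (θ u) = 0 := by
      intro u v
      have h3 := hθf (u + v)
      rw [hθadd, hS.add_left, hS.add_right, hS.add_right, hθf, hθf] at h3
      linear_combination h3
    -- values on the basis
    have hval : ∀ v w : Fin 6 → F, (∀ x, hermForm 6 F q (φ (x * x) *ᵥ v) w = 0) → ∀ x, hermForm 6 F q (φ x *ᵥ v) w = 0 := by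
      intro v w hvw x
      obtain ⟨y, hy⟩ := hsqrt x
      rw [← hy, sq]
      exact hvw y
    obtain ⟨p, hp⟩ := hΦb.2 (θ v₁)
    obtain ⟨p', hp'⟩ := hΦb.2 (θ v₃)
    have hv₁Φ : ∀ x, φ x *ᵥ v₁ = Φ (x, 0) := by
      intro x
      simp only [Φ]
      rw [map_zero, Matrix.zero_mulVec, add_zero]
    have hv₃Φ : ∀ x, φ x *ᵥ v₃ = Φ (0, x) := by
      intro x
      simp only [Φ]
      rw [map_zero, Matrix.zero_mulVec, zero_add]
    have ht0 : t 0 = 0 := by have := ht_add 0 0; rw [add_zero] at this; exact left_eq_add.mp this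
    have hb0 : bar 0 = 0 := by have := hb_add 0 0; rw [add_zero] at this; exact left_eq_add.mp this
    have hbinj : ∀ x, bar x = 0 → x = 0 := fun x hx => by rw [← hb_bar x, hx, hb0]
    have hp1 : p.1 = 0 := by
      apply hbinj
      apply ht_nd
      intro x
      have h3 := hval v₁ (θ v₁) (by
        intro y
        rw [hact_mul, hbspec, ← hθmul]
        exact hθf _) x
      rw [← hp, hv₁Φ, hΦf] at h3
      simp only [mul_zero, ht0, add_zero] at h3
      rw [mul_comm]; exact h3
    have hp2 : p'.2 = 0 := by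
      apply hbinj
      apply ht_nd
      intro x
      have h3 := hval v₃ (θ v₃) (by
        intro y
        rw [hact_mul, hbspec, ← hθmul]
        exact hθf _) x
      rw [← hp', hv₃Φ, hΦf] at h3
      simp only [mul_zero, ht0, zero_add] at h3
      rw [mul_comm]; exact h3
    have hpp : p'.1 = p.2 := by
      have h3 : bar p'.1 + bar p.2 = 0 := by
        apply ht_nd
        intro x
        have h4 := hθpol (φ x *ᵥ v₁) v₃
        rw [hθmul, ← hp, ← hp', hbspec', hb_bar, hv₁Φ, hv₃Φ, hΦf, hΦf] at h4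
        simp only [mul_zero, ht0, add_zero, zero_add] at h4
        rw [mul_add, ht_add, mul_comm x, mul_comm x]
        exact h4
      have h4 : bar p'.1 = bar p.2 := by
        have : bar p.2 + bar p.2 = 0 := by rw [← two_mul, h2L, zero_mul]
        exact add_right_cancel (h3.trans this.symm)
      rw [← hb_bar p'.1, h4, hb_bar]
    set δ := p.2 with hδ
    have hθ1 : θ v₁ = φ δ *ᵥ v₃ := by
      rw [← hp, hv₃Φ]
      congr 1
      exact Prod.ext hp1 rfl
    have hθ3 : θ v₃ = φ δ *ᵥ v₁ := by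
      rw [← hp', hv₁Φ]
      congr 1
      exact Prod.ext hpp hp2
    have hθτ : ∀ v, θ v = φ δ *ᵥ τ v := by
      intro v
      obtain ⟨r, rfl⟩ := hΦb.2 v
      rw [hτΦ]
      simp only [Φ]
      rw [hθadd, hθmul, hθmul, hθ1, hθ3, Matrix.mulVec_add, ← hact_mul, ← hact_mul, ← hact_mul, ← hact_mul,
        mul_comm (bar r.1), mul_comm (bar r.2), add_comm]
    have hδ1 : β δ * δ = 1 := by
      have h3 := hθθ v₁
      rw [hθ1, hθmul, hθ3, ← hact_mul, hv₁Φ, ← hact_one v₁, hv₁Φ] at h3
      exact congrArg Prod.fst (hΦi h3)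
    -- determinants
    have hdetδ : (φ δ).det = 1 := by
      let A : Matrix (Fin 6) (Fin 6) F := Matrix.of (fun i j => τ (Pi.single j 1) i)
      have hA : ∀ v, τ v = A *ᵥ (fun i => σ (v i)) := by
        intro v
        let τh : (Fin 6 → F) →+ (Fin 6 → F) := AddMonoidHom.mk' τ hτadd
        have hτh : ∀ v, τ v = τh v := fun v => rfl
        conv_lhs => rw [vec_eq_sum v, hτh, map_sum]
        ext i
        rw [Finset.sum_apply, Matrix.mulVec, dotProduct]
        refine Finset.sum_congr rfl (fun j _ => ?_)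
        rw [← hτh, hτsmul, Pi.smul_apply, smul_eq_mul, mul_comm]
        rfl
      have hσv : ∀ (M : Matrix (Fin 6) (Fin 6) F) (v : Fin 6 → F), (fun i => σ ((M *ᵥ v) i)) = (M.map σ) *ᵥ (fun i => σ (v i)) := by
        intro M v
        ext i
        simp [Matrix.mulVec, dotProduct, map_sum, map_mul]
      have hAA : A * A.map σ = 1 := by
        apply matrix_ext_vec
        intro v
        have h3 := hττ v
        rw [hA, hA, hσv] at h3
        have h4 : (fun i => σ ((fun i => σ (v i)) i)) = v := by ext i; exact h.form.invol _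
        rw [h4, Matrix.mulVec_mulVec] at h3
        rw [h3, Matrix.one_mulVec]
      have hAdet : A.det ≠ 0 := by
        intro h0
        have h3 := congrArg Matrix.det hAA
        rw [Matrix.det_mul, h0, zero_mul, Matrix.det_one] at h3
        exact zero_ne_one h3
      have heq : gi * (A * (g : Matrix (Fin 6) (Fin 6) F).map σ) = φ δ * A := by
        apply matrix_ext_vec
        intro v
        have h3 := hθτ (fun i => σ (v i))
        have h4 : (fun i => σ ((fun i => σ (v i)) i)) = v := by ext i; exact h.form.invol _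
        simp only [hθdef] at h3
        rw [hA, hA, hσv, h4, Matrix.mulVec_mulVec, Matrix.mulVec_mulVec, Matrix.mulVec_mulVec] at h3
        rw [← Matrix.mul_assoc]
        exact h3
      have h5 := congrArg Matrix.det heq
      have hmapdet : ((g : Matrix (Fin 6) (Fin 6) F).map σ).det = 1 := by
        have := (RingHom.map_det (σ : F →+* F) (g : Matrix (Fin 6) (Fin 6) F)).symm
        rw [hgdet, map_one] at this
        exact this
      have hgidet : gi.det = 1 := by
        have h6 : gi * (g : Matrix (Fin 6) (Fin 6) F) = 1 := by rw [hgi, Units.inv_mul]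
        have h7 := congrArg Matrix.det h6
        rwa [Matrix.det_mul, hgdet, mul_one, Matrix.det_one] at h7
      rw [Matrix.det_mul, Matrix.det_mul, Matrix.det_mul, hmapdet, hgidet, one_mul, mul_one] at h5
      exact (mul_eq_right₀ hAdet).mp h5.symm
    have hnorm : Algebra.norm F δ = 1 := by
      have h3 := det_field φ (k := 2) (by rw [hL3]) (by norm_num) δ
      rw [hdetδ] at h3
      have h4 : (Algebra.norm F δ - 1) * (Algebra.norm F δ - 1) = 0 := by
        linear_combination -h3 - (Algebra.norm F δ - 1) * h2F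
      exact sub_eq_zero.mp (mul_self_eq_zero.mp h4)
    obtain ⟨c, hc⟩ := mem_four (F := F) hF4 hcardL (β := β) hb_bar hβ1 hδ1 (norm_pow hF4 hcardL hnorm)
    have hc0 : c ≠ 0 := by
      rintro rfl
      rw [map_zero] at hc
      rw [hc, mul_zero] at hδ1
      exact zero_ne_one hδ1
    refine ⟨Units.mk0 (σ c) ((map_ne_zero σ).mpr hc0), fun u v => ?_⟩
    change hermForm 6 F q _ (τ _) = _ * hermForm 6 F q _ (τ _)
    have h3 : τ ((g : Matrix (Fin 6) (Fin 6) F) *ᵥ v) = (g : Matrix (Fin 6) (Fin 6) F) *ᵥ θ v := by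
      simp only [hθdef]
      rw [hgg]
    rw [h3, hgU, hθτ, hc, AlgHom.commutes, Algebra.algebraMap_eq_smul_one, Matrix.smul_mulVec, Matrix.one_mulVec,
      hS.smul_right, Units.val_mk0]
  · intro u v
    change _ = hermForm 6 F q u (τ (τ v))
    rw [hττ]

end H97.AschTri2
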