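import Mathlib
import Cfsg.Agent.Lib.H97.AschTri2

/-!
Aschbacher library, part 54: the normaliser of a cubic field subalgebra in the six-dimensional unitary group over the
field with four elements lies in a subfield group.
-/

set_option autoImplicit false
set_option linter.unusedSectionVars false

namespace H97.AschTri3

open Cfsg Cfsg.Geo Matrix H97.AschRad H97.AschEnv H97.AschNonab H97.AschGrp H97.AschLinear H97.AschIdem H97.AschDecomp
open H97.AschForm H97.AschSubfield H97.AschReal H97.AschNCU H97.AschUSymp H97.AschUPair H97.AschUElim H97.AschPauli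
open H97.AschCases H97.AschNC H97.AschHex H97.AschTri H97.AschTri2
open H96.AschSympType1 H96.AschSympType2 H96.AschSympType3 H96.AschSubForm H96.AschSympType5 H96.AschAdj
open H96.AschComm H96.AschField H96.AschSympEx
open H96.AschSp H96.AschSp2 H96.AschSU H96.AschSU2 H96.AschOdd2 H96.AschDescent H96.AschSU3

variable {F : Type*} [Field F] [Fintype F] {q : ℕ} {σ : F ≃+* F}

theorem field_subfield (h : Ctx (F := F) σ 6 q) (hq : q = 2) {K : Subalgebra F (Matrix (Fin 6) (Fin 6) F)}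
    (hK : IsFieldSubalgebra 3 K) (hadj : IsAdjointClosedFor (hermForm 6 F q) K) {H : Subgroup (GL (Fin 6) F)}
    (hHU : H ≤ GU 6 F q ⊓ specialLinear (Fin 6) F) (hHK : H ≤ subalgebraNormalizer K) :
    ∃ (F₀ : Subfield F) (P : GL (Fin 6) F) (ζ : F), Fintype.card F = Nat.card F₀ ^ 2 ∧ ζ ≠ 0 ∧ ζ + ζ ^ q = 0 ∧
      IsFormRationalStructure (hermForm 6 F q) F₀ ζ P ∧
      (∀ u : Fin 6 → F, (∀ i, u i ∈ F₀) → hermForm 6 F q ((P : Matrix (Fin 6) (Fin 6) F) *ᵥ u)
        ((P : Matrix (Fin 6) (Fin 6) F) *ᵥ u) = 0) ∧ H ≤ subfieldSubgroup F₀ P := by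
  classical
  have hKf : IsField K := by
    refine ⟨⟨0, 1, fun h => ?_⟩, ?_, ?_⟩
    · have := congrArg Subtype.val h
      exact zero_ne_one this
    · intro x y
      exact Subtype.ext (hK.comm _ x.2 _ y.2)
    · intro x hx
      obtain ⟨y, hy, hxy⟩ := hK.inv x.1 x.2 (fun h => hx (Subtype.ext h))
      exact ⟨⟨y, hy⟩, Subtype.ext hxy⟩
  let instF : Field K := hKf.toField
  obtain ⟨B, τ, h1, h2, h3, h4⟩ := @field_symp F _ _ q σ K instF K.algebra h hq hK.finrank_eq K.val
    (fun x => by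
      obtain ⟨y, hy, hxy⟩ := hadj x.1 x.2
      exact ⟨⟨y, hy⟩, h.form.adj_eq hxy⟩) H hHU
    (fun g hg x => ⟨⟨_, (hHK hg x.1).1 x.2⟩, rfl⟩)
  exact sim_subfield h (by norm_num) (hHU.trans inf_le_left) h1 h2 h3 h4

end H97.AschTri3
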