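import Mathlib
import Cfsg.Agent.Lib.H97.AschTri3
import Cfsg.Agent.Lib.H97.AschPaley

/-!
Aschbacher library, part 56: maximal field subalgebras in unitary groups.
-/

set_option autoImplicit false
set_option linter.unusedSectionVars false

namespace H97.AschOne

open Cfsg Cfsg.Geo Matrix H97.AschRad H97.AschEnv H97.AschNonab H97.AschGrp H97.AschLinear H97.AschIdem H97.AschDecomp
open H97.AschForm H97.AschSubfield H97.AschReal H97.AschNCU H97.AschUSymp H97.AschUPair H97.AschUElim H97.AschPauli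
open H97.AschCases H97.AschNC H97.AschHex H97.AschTri
open H96.AschSympType1 H96.AschSympType2 H96.AschSympType3 H96.AschSubForm H96.AschSympType5 H96.AschAdj
open H96.AschComm H96.AschField H96.AschSympEx
open H96.AschSp H96.AschSp2 H96.AschSU H96.AschSU2 H96.AschOdd2 H96.AschDescent H96.AschSU3

/-- the involution of a finite field of square order is a power map -/
theorem involution_pow {L : Type*} [Field L] [Fintype L] {β : L ≃+* L} (hβ2 : ∀ x, β (β x) = x)
    (hβ1 : β ≠ RingEquiv.refl L) {Q : ℕ} (hQ : Fintype.card L = Q ^ 2) (x : L) : β x = x ^ Q := by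
  classical
  have h1 := card_fixField hβ2 hβ1
  rw [Nat.card_eq_fintype_card, hQ] at h1
  have hfix : Nat.card (fixField β) = Q := (Nat.pow_left_injective (n := 2) (by norm_num) h1).symm
  have hfinF : Fintype (fixField β) := Fintype.ofFinite _
  have hpowfix : ∀ y : L, β y = y → y ^ Q = y := by
    intro y hy
    have h2 := FiniteField.pow_card (⟨y, hy⟩ : fixField β)
    rw [← Nat.card_eq_fintype_card, hfix] at h2
    exact congrArg Subtype.val h2
  -- Q is a prime power
  obtain ⟨p, hp⟩ := CharP.exists L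
  obtain ⟨m, hpp, hcard⟩ := FiniteField.card L p
  have := Fact.mk hpp
  obtain ⟨k, -, hk⟩ : ∃ k ≤ (m : ℕ), Q = p ^ k := by
    rw [← Nat.dvd_prime_pow hpp, ← hcard, hQ]
    exact Dvd.intro_left Q (by ring)
  have hadd : ∀ a b : L, (a + b) ^ Q = a ^ Q + b ^ Q := by
    intro a b
    rw [hk]; exact add_pow_char_pow a b p k
  have hneg : ∀ a : L, (-a) ^ Q = -(a ^ Q) := by
    intro a
    have h2 := hadd a (-a)
    have hQ0 : Q ≠ 0 := by
      rintro rfl
      rw [hQ] at hcard
      have : 0 < p ^ (m : ℕ) := Nat.pow_pos hpp.pos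
      omega
    rw [add_neg_cancel, zero_pow hQ0] at h2
    exact eq_neg_of_add_eq_zero_right h2.symm
  have hroot : (x ^ Q - x) * (x ^ Q - β x) = 0 := by
    have e1 : (x + β x) ^ Q = x + β x := hpowfix _ (by rw [map_add, hβ2, add_comm])
    have e2 : (x * β x) ^ Q = x * β x := hpowfix _ (by rw [map_mul, hβ2, mul_comm])
    rw [hadd] at e1
    rw [mul_pow] at e2
    have e3 : x ^ Q * x ^ Q + -((x + β x) * x ^ Q) + x * β x = 0 := by
      rw [← e2]
      have : (x + β x) * x ^ Q = (x ^ Q + (β x) ^ Q) * x ^ Q := by rw [e1]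
      rw [this]; ring
    linear_combination e3
  rcases mul_eq_zero.mp hroot with h2 | h2
  · -- x is a root of X^Q - X, hence fixed
    have hx : x ^ Q = x := sub_eq_zero.mp h2
    rw [hx]
    have hQ1 : 1 < Q := by
      rw [← hfix, Nat.card_eq_fintype_card]
      exact Fintype.one_lt_card
    let P : Polynomial L := Polynomial.X ^ Q - Polynomial.X
    have hP0 : P ≠ 0 := FiniteField.X_pow_card_sub_X_ne_zero L hQ1
    have hPdeg : P.natDegree = Q := FiniteField.X_pow_card_sub_X_natDegree_eq L hQ1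
    have hmemP : ∀ y : L, y ∈ P.roots.toFinset ↔ y ^ Q = y := by
      intro y
      rw [Multiset.mem_toFinset, Polynomial.mem_roots hP0, Polynomial.IsRoot.def]
      simp only [P, Polynomial.eval_sub, Polynomial.eval_pow, Polynomial.eval_X]
      exact sub_eq_zero
    let S : Finset L := Finset.univ.filter (fun y => β y = y)
    have hScard : S.card = Q := by
      rw [← hfix, Nat.card_eq_fintype_card, Fintype.card_subtype]
      rfl
    have hsub : S ⊆ P.roots.toFinset := by
      intro y hy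
      rw [hmemP]
      exact hpowfix y (Finset.mem_filter.mp hy).2
    have heq : S = P.roots.toFinset := by
      apply Finset.eq_of_subset_of_card_le hsub
      rw [hScard]
      calc P.roots.toFinset.card ≤ Multiset.card P.roots := Multiset.toFinset_card_le _
        _ ≤ P.natDegree := Polynomial.card_roots' P
        _ = Q := hPdeg
    have hxS : x ∈ S := by rw [heq, hmemP]; exact hx
    exact (Finset.mem_filter.mp hxS).2
  · exact (sub_eq_zero.mp h2).symm

variable {F : Type*} [Field F] [Fintype F] {n q : ℕ} {σ : F ≃+* F}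
variable {L : Type*} [Field L] [Fintype L] [Algebra F L]

/-- a model of the unitary space over a field subalgebra of maximal degree -/
structure Model (σ : F ≃+* F) (n q : ℕ) (L : Type*) [Field L] [Fintype L] [Algebra F L]
    (h : Ctx (F := F) σ n q) (φ : L →ₐ[F] Matrix (Fin n) (Fin n) F) (β : L ≃+* L)
    (E : L ≃ₗ[F] (Fin n → F)) : Prop where
  rank : Module.finrank F L = n
  pow : ∀ x, β x = x ^ (q ^ n)
  alg : ∀ c : F, β (algebraMap F L c) = algebraMap F L (σ c)
  adj : ∀ x, h.form.adj (φ x) = φ (β x)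
  act : ∀ x y, φ x *ᵥ E y = E (x * y)
  form : ∀ x y, hermForm n F q (E x) (E y) = Algebra.trace F L (β y * x)

theorem exists_model (h : Ctx (F := F) σ n q) (hn : 0 < n) (hL : Module.finrank F L = n)
    (φ : L →ₐ[F] Matrix (Fin n) (Fin n) F) (hadj : ∀ x : L, ∃ y : L, h.form.adj (φ x) = φ y) :
    ∃ (β : L ≃+* L) (E : L ≃ₗ[F] (Fin n → F)), (∀ x, β (β x) = x) ∧ Model σ n q L h φ β E := by
  classical
  have hS := h.form.sesq
  have hfd : FiniteDimensional F L := inferInstance
  have hne : Nonempty (Fin n) := ⟨⟨0, hn⟩⟩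
  have hinj : Function.Injective φ := φ.toRingHom.injective
  choose bar hbar using hadj
  have hb_add : ∀ x y, bar (x + y) = bar x + bar y := fun x y => hinj (by rw [← hbar, map_add, h.form.adj_add, map_add, hbar, hbar])
  have hb_mul : ∀ x y, bar (x * y) = bar x * bar y := fun x y => hinj (by
    rw [← hbar, map_mul, h.form.adj_mul, map_mul, hbar, hbar, ← map_mul, ← map_mul, mul_comm])
  have hb_bar : ∀ x, bar (bar x) = x := fun x => hinj (by rw [← hbar, ← hbar, h.form.adj_adj])
  have hb_alg : ∀ c : F, bar (algebraMap F L c) = algebraMap F L (σ c) := fun c => hinj (by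
    rw [← hbar, AlgHom.commutes, AlgHom.commutes, h.form.adj_algebraMap])
  let β : L ≃+* L :=
    { toFun := bar
      invFun := bar
      left_inv := hb_bar
      right_inv := hb_bar
      map_mul' := hb_mul
      map_add' := hb_add }
  have hβ : ∀ x, β x = bar x := fun x => rfl
  have hβ1 : β ≠ RingEquiv.refl L := by
    intro h0
    apply h.ne
    ext c
    have h1 : β (algebraMap F L c) = algebraMap F L c := by rw [h0]; rfl
    rw [hβ, hb_alg] at h1
    exact (algebraMap F L).injective h1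
  have hcardL : Fintype.card L = (q ^ n) ^ 2 := by
    rw [← Nat.card_eq_fintype_card, Module.natCard_eq_pow_finrank (K := F), hL, Nat.card_eq_fintype_card, h.card]
    ring
  have hpow : ∀ x, β x = x ^ (q ^ n) := involution_pow hb_bar hβ1 hcardL
  have hβ2 : ∀ x, β (β x) = x := hb_bar
  have hadjβ : ∀ x, h.form.adj (φ x) = φ (β x) := hbar
  have halg : ∀ c : F, β (algebraMap F L c) = algebraMap F L (σ c) := hb_alg
  clear_value β
  have hbspec : ∀ x u v, hermForm n F q (φ x *ᵥ u) v = hermForm n F q u (φ (β x) *ᵥ v) := by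
    intro x u v
    rw [← hadjβ]; exact h.form.adj_spec _ _ _
  have hact_mul : ∀ (x y : L) v, φ (x * y) *ᵥ v = φ x *ᵥ (φ y *ᵥ v) := by
    intro x y v
    rw [map_mul, Matrix.mulVec_mulVec]
  have hact_add : ∀ (x y : L) v, φ (x + y) *ᵥ v = φ x *ᵥ v + φ y *ᵥ v := by
    intro x y v
    rw [map_add, Matrix.add_mulVec]
  have hherm : ∀ u v, hermForm n F q v u = σ (hermForm n F q u v) := fun u v => by rw [h.form.herm v u, one_mul]
  -- the trace
  have htrβ : ∀ x, Algebra.trace F L (β x) = σ (Algebra.trace F L x) := by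
    intro x
    apply (algebraMap F L).injective
    rw [← halg, FiniteField.algebraMap_trace_eq_sum_pow, FiniteField.algebraMap_trace_eq_sum_pow, map_sum]
    exact Finset.sum_congr rfl (fun i _ => (map_pow β x _).symm)
  have htrnd : ∀ a : L, (∀ x, Algebra.trace F L (x * a) = 0) → a = 0 := by
    intro a ha
    by_contra ha0
    obtain ⟨y, hy⟩ := Algebra.trace_surjective F L 1
    have h1 := ha (y * a⁻¹)
    rw [mul_assoc, inv_mul_cancel₀ ha0, mul_one, hy] at h1
    exact one_ne_zero h1
  -- the first vector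
  let v : Fin n → F := Pi.single ⟨0, hn⟩ 1
  have hv : hermForm n F q v v = 1 := by
    rw [h.single, if_pos rfl]
  obtain ⟨a, ha⟩ : ∃ a : L, ∀ x, hermForm n F q (φ x *ᵥ v) v = Algebra.trace F L (x * a) := by
    let T : L →ₗ[F] Module.Dual F L :=
      LinearMap.mk₂ F (fun a x => Algebra.trace F L (x * a))
        (fun a a' x => by rw [mul_add, map_add])
        (fun c a x => by rw [mul_smul_comm, map_smul])
        (fun a x x' => by rw [add_mul, map_add])
        (fun c a x => by rw [smul_mul_assoc, map_smul])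
    have hTi : Function.Injective T := by
      rw [injective_iff_map_eq_zero]
      intro a ha
      apply htrnd
      intro x
      exact congrArg (fun f : Module.Dual F L => f x) ha
    have hTs : Function.Surjective T :=
      (LinearMap.injective_iff_surjective_of_finrank_eq_finrank (Subspace.dual_finrank_eq (K := F) (V := L)).symm).mp hTi
    obtain ⟨a, ha⟩ := hTs
      { toFun := fun x => hermForm n F q (φ x *ᵥ v) v
        map_add' := fun x y => by rw [hact_add, hS.add_left]
        map_smul' := fun c x => by rw [map_smul, Matrix.smul_mulVec, hS.smul_left]; rfl }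
    exact ⟨a, fun x => (congrArg (fun f : Module.Dual F L => f x) ha).symm⟩
  have ha0 : a ≠ 0 := by
    rintro rfl
    have h1 := ha 1
    rw [map_one, Matrix.one_mulVec, hv, mul_zero, map_zero] at h1
    exact one_ne_zero h1
  have haβ : β a = a := by
    have h3 : β a - a = 0 := by
      apply htrnd
      intro x
      have h4 : x * β a = β (β x * a) := by rw [map_mul, hβ2]
      rw [mul_sub, map_sub, h4, htrβ, ← ha, ← ha, hbspec x v v, hherm (φ (β x) *ᵥ v) v]
      rw [sub_self]
    exact sub_eq_zero.mp h3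
  have hcardL' : Fintype.card L = (q ^ n) ^ 2 := hcardL
  obtain ⟨w, hw⟩ := norm_surj (F := L) hcardL' (η := a⁻¹) (inv_ne_zero ha0) (by
    rw [← hpow, map_inv₀, haβ])
  rw [← hpow] at hw
  set v₀ : Fin n → F := φ (w : L) *ᵥ v with hv₀
  have ht : ∀ x, hermForm n F q (φ x *ᵥ v₀) v₀ = Algebra.trace F L x := by
    intro x
    have h3 : hermForm n F q (φ x *ᵥ v₀) v₀ = hermForm n F q (φ (β (w : L)) *ᵥ (φ x *ᵥ v₀)) v := by
      rw [hbspec (β (w : L)), hβ2, ← hv₀]
    rw [h3, hv₀, ← hact_mul, ← hact_mul, ha]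
    congr 1
    have h4 : β (w : L) * x * w * a = x * ((w : L) * β w * a) := by ring
    rw [h4, hw, inv_mul_cancel₀ ha0, mul_one]
  have hv₀0 : v₀ ≠ 0 := by
    intro h0
    obtain ⟨y, hy⟩ := Algebra.trace_surjective F L 1
    have h1 := ht y
    rw [hy, h0, Matrix.mulVec_zero, hS.zero_left] at h1
    exact zero_ne_one h1
  let E₀ : L →ₗ[F] (Fin n → F) :=
    { toFun := fun x => φ x *ᵥ v₀
      map_add' := fun x y => hact_add x y v₀
      map_smul' := fun c x => by rw [map_smul, Matrix.smul_mulVec]; rfl }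
  have hE₀i : Function.Injective E₀ := by
    rw [injective_iff_map_eq_zero]
    intro x hx
    by_contra hx0
    apply hv₀0
    have h1 : φ x *ᵥ v₀ = 0 := hx
    have h2 : φ x⁻¹ *ᵥ (φ x *ᵥ v₀) = v₀ := by rw [← hact_mul, inv_mul_cancel₀ hx0, map_one, Matrix.one_mulVec]
    rw [← h2, h1, Matrix.mulVec_zero]
  have hE₀s : Function.Surjective E₀ :=
    (LinearMap.injective_iff_surjective_of_finrank_eq_finrank (by
      rw [hL, Module.finrank_fintype_fun_eq_card, Fintype.card_fin])).mp hE₀i
  refine ⟨β, LinearEquiv.ofBijective E₀ ⟨hE₀i, hE₀s⟩, hβ2, hL, hpow, halg, hadjβ, ?_, ?_⟩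
  · intro x y
    change φ x *ᵥ (φ y *ᵥ v₀) = φ (x * y) *ᵥ v₀
    rw [hact_mul]
  · intro x y
    change hermForm n F q (φ x *ᵥ v₀) (φ y *ᵥ v₀) = _
    rw [← ht, hact_mul]
    have h3 := hbspec (β y) (φ x *ᵥ v₀) v₀
    rw [hβ2] at h3
    exact h3.symm

/-! ### lifting linear maps -/

/-- the matrix of a linear automorphism of the model -/
noncomputable def lift (E : L ≃ₗ[F] (Fin n → F)) (T : L ≃ₗ[F] L) : GL (Fin n) F :=
  ⟨LinearMap.toMatrix' ((E.symm.trans T).trans E).toLinearMap,
    LinearMap.toMatrix' ((E.symm.trans T.symm).trans E).toLinearMap,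
    by
      rw [← LinearMap.toMatrix'_comp]
      have : ((E.symm.trans T).trans E).toLinearMap ∘ₗ ((E.symm.trans T.symm).trans E).toLinearMap = LinearMap.id := by
        ext x; simp
      rw [this, LinearMap.toMatrix'_id],
    by
      rw [← LinearMap.toMatrix'_comp]
      have : ((E.symm.trans T.symm).trans E).toLinearMap ∘ₗ ((E.symm.trans T).trans E).toLinearMap = LinearMap.id := by
        ext x; simp
      rw [this, LinearMap.toMatrix'_id]⟩

lemma lift_apply (E : L ≃ₗ[F] (Fin n → F)) (T : L ≃ₗ[F] L) (x : L) :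
    (lift E T : Matrix (Fin n) (Fin n) F) *ᵥ E x = E (T x) := by
  change LinearMap.toMatrix' ((E.symm.trans T).trans E).toLinearMap *ᵥ E x = _
  rw [← Matrix.toLin'_apply, Matrix.toLin'_toMatrix']
  simp

lemma ext_model (E : L ≃ₗ[F] (Fin n → F)) {g g' : GL (Fin n) F}
    (h : ∀ x, (g : Matrix (Fin n) (Fin n) F) *ᵥ E x = (g' : Matrix (Fin n) (Fin n) F) *ᵥ E x) : g = g' := by
  apply Units.ext
  apply matrix_ext_vec
  intro v
  obtain ⟨x, rfl⟩ := E.surjective v
  exact h x

lemma mul_apply' (g g' : GL (Fin n) F) (v : Fin n → F) :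
    ((g * g' : GL (Fin n) F) : Matrix (Fin n) (Fin n) F) *ᵥ v =
      (g : Matrix (Fin n) (Fin n) F) *ᵥ ((g' : Matrix (Fin n) (Fin n) F) *ᵥ v) := by
  rw [Units.val_mul, Matrix.mulVec_mulVec]

variable {h : Ctx (F := F) σ n q} {φ : L →ₐ[F] Matrix (Fin n) (Fin n) F} {β : L ≃+* L} {E : L ≃ₗ[F] (Fin n → F)}

/-- an isometry criterion -/
lemma Model.mem_GU (M : Model σ n q L h φ β E) {T : L ≃ₗ[F] L}
    (hT : ∀ x y, Algebra.trace F L (β (T y) * T x) = Algebra.trace F L (β y * x)) : lift E T ∈ GU n F q := by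
  intro u v
  obtain ⟨x, rfl⟩ := E.surjective u
  obtain ⟨y, rfl⟩ := E.surjective v
  change hermForm n F q ((lift E T : Matrix (Fin n) (Fin n) F) *ᵥ E x)
    ((lift E T : Matrix (Fin n) (Fin n) F) *ᵥ E y) = _
  rw [lift_apply, lift_apply, M.form, M.form, hT]

/-- the elements of the normaliser are semilinear over the field -/
theorem Model.semilinear (M : Model σ n q L h φ β E) {g : GL (Fin n) F}
    (hg : ∀ x : L, ∃ y : L, (g : Matrix (Fin n) (Fin n) F) * φ x * ((g⁻¹ : GL (Fin n) F) : Matrix (Fin n) (Fin n) F) = φ y) :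
    ∃ (k : L) (j : ℕ), j < n ∧ k ≠ 0 ∧ ∀ x, (g : Matrix (Fin n) (Fin n) F) *ᵥ E x = E (k * x ^ ((q ^ 2) ^ j)) := by
  classical
  have hn : 0 < n := by
    rw [← M.rank]; exact Module.finrank_pos
  have hne : Nonempty (Fin n) := ⟨⟨0, hn⟩⟩
  have hinj : Function.Injective φ := φ.toRingHom.injective
  choose α hα using hg
  have hgi : ((g⁻¹ : GL (Fin n) F) : Matrix (Fin n) (Fin n) F) * (g : Matrix (Fin n) (Fin n) F) = 1 := Units.inv_mul g
  have hgi' : (g : Matrix (Fin n) (Fin n) F) * ((g⁻¹ : GL (Fin n) F) : Matrix (Fin n) (Fin n) F) = 1 := Units.mul_inv g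
  let A : L →ₐ[F] L :=
    { toFun := α
      map_one' := hinj (by rw [← hα, map_one, mul_one, hgi'])
      map_mul' := fun x y => hinj (by
        rw [← hα, map_mul, map_mul, ← hα, ← hα]
        calc (g : Matrix (Fin n) (Fin n) F) * (φ x * φ y) * ((g⁻¹ : GL (Fin n) F) : Matrix (Fin n) (Fin n) F)
            = (g : Matrix (Fin n) (Fin n) F) * φ x * 1 * φ y * ((g⁻¹ : GL (Fin n) F) : Matrix (Fin n) (Fin n) F) := by
              simp only [mul_assoc, one_mul]
          _ = _ := by rw [← hgi]; simp only [mul_assoc])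
      map_zero' := hinj (by rw [← hα, map_zero, mul_zero, zero_mul])
      map_add' := fun x y => hinj (by rw [← hα, map_add, map_add, ← hα, ← hα, mul_add, add_mul])
      commutes' := fun c => hinj (by
        rw [← hα, AlgHom.commutes, ← Algebra.commutes, mul_assoc, hgi', mul_one]) }
  obtain ⟨j, hj⟩ := (FiniteField.bijective_frobeniusAlgHom_pow F L).2 A
  have hA : ∀ x, α x = x ^ ((q ^ 2) ^ (j : ℕ)) := by
    intro x
    have h1 : A x = x ^ ((q ^ 2) ^ (j : ℕ)) := by
      rw [← hj]
      beta_reduce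
      rw [AlgHom.coe_pow, FiniteField.coe_frobeniusAlgHom, pow_iterate, h.card]
    exact h1
  obtain ⟨k, hk⟩ := E.surjective ((g : Matrix (Fin n) (Fin n) F) *ᵥ E 1)
  refine ⟨k, j, by rw [← M.rank]; exact j.2, ?_, fun x => ?_⟩
  · rintro rfl
    rw [map_zero] at hk
    have h1 : E 1 = 0 := by
      have h2 := congrArg (fun v => ((g⁻¹ : GL (Fin n) F) : Matrix (Fin n) (Fin n) F) *ᵥ v) hk
      simp only [Matrix.mulVec_zero, Matrix.mulVec_mulVec, hgi, Matrix.one_mulVec] at h2
      exact h2.symm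
    exact one_ne_zero (E.map_eq_zero_iff.mp h1)
  · have h1 : (g : Matrix (Fin n) (Fin n) F) * φ x = φ (α x) * (g : Matrix (Fin n) (Fin n) F) := by
      rw [← hα, mul_assoc, hgi, mul_one]
    have h2 := M.act x 1
    rw [mul_one] at h2
    rw [← h2, Matrix.mulVec_mulVec, h1, ← Matrix.mulVec_mulVec, ← hk, M.act, hA, mul_comm]

/-- unitarity -/
theorem Model.norm_one (M : Model σ n q L h φ β E) {g : GL (Fin n) F} (hg : g ∈ GU n F q) {k : L} {j : ℕ}
    (hk : ∀ x, (g : Matrix (Fin n) (Fin n) F) *ᵥ E x = E (k * x ^ ((q ^ 2) ^ j))) : β k * k = 1 := by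
  classical
  have hg' : ∀ u v, hermForm n F q ((g : Matrix (Fin n) (Fin n) F) *ᵥ u) ((g : Matrix (Fin n) (Fin n) F) *ᵥ v) =
      hermForm n F q u v := hg
  have hfr : ∀ x : L, Algebra.trace F L (x ^ ((q ^ 2) ^ j)) = Algebra.trace F L x := by
    intro x
    have hcard : Fintype.card F = q ^ 2 := h.card
    let ψ : L ≃ₐ[F] L := (FiniteField.frobeniusAlgEquivOfAlgebraic F L) ^ j
    have h1 : ψ x = x ^ ((q ^ 2) ^ j) := by
      simp only [ψ]
      rw [AlgEquiv.coe_pow, FiniteField.coe_frobeniusAlgEquivOfAlgebraic_iterate, hcard]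
    rw [← h1]
    exact Algebra.trace_eq_of_algEquiv ψ x
  have hfrs : ∀ y : L, ∃ x : L, x ^ ((q ^ 2) ^ j) = y := by
    intro y
    let ψ : L ≃ₐ[F] L := (FiniteField.frobeniusAlgEquivOfAlgebraic F L) ^ j
    refine ⟨ψ.symm y, ?_⟩
    have h1 : ψ (ψ.symm y) = (ψ.symm y) ^ ((q ^ 2) ^ j) := by
      simp only [ψ]
      rw [AlgEquiv.coe_pow, FiniteField.coe_frobeniusAlgEquivOfAlgebraic_iterate, h.card]
    rw [← h1, AlgEquiv.apply_symm_apply]
  have h1 : ∀ x : L, Algebra.trace F L (x * (β k * k - 1)) = 0 := by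
    intro x
    obtain ⟨y, rfl⟩ := hfrs x
    have h2 := hg' (E y) (E 1)
    rw [hk, hk, M.form, M.form, one_pow, mul_one, map_one, one_mul, ← hfr y] at h2
    rw [mul_sub, mul_one, map_sub, ← h2, sub_eq_zero]
    congr 1
    ring
  by_contra hne
  obtain ⟨y, hy⟩ := Algebra.trace_surjective F L 1
  have h2 := h1 (y * (β k * k - 1)⁻¹)
  rw [mul_assoc, inv_mul_cancel₀ (sub_ne_zero.mpr hne), mul_one, hy] at h2
  exact one_ne_zero h2

end H97.AschOne
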