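import Mathlib
import Cfsg.Agent.Lib.H97.AschOne

/-!
Aschbacher library, part 57: an element of order two over the field with 1024 elements generating, together with a
Frobenius group of order 55, a group isomorphic to L₂(11).
-/

set_option autoImplicit false
set_option linter.unusedSectionVars false

namespace H97.AschFive

variable {L : Type*} [Field L]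

/-- the structure constants -/
structure Elev (ζ : L) (ψ : L →+* L) : Prop where
  two : (2 : L) = 0
  cyc : 1 + ζ + ζ ^ 2 + ζ ^ 3 + ζ ^ 4 + ζ ^ 5 + ζ ^ 6 + ζ ^ 7 + ζ ^ 8 + ζ ^ 9 + ζ ^ 10 = 0
  psi : ψ ζ = ζ ^ 4
  psi5 : ∀ x, ψ (ψ (ψ (ψ (ψ x)))) = x

def b₀ (ζ : L) : L := ζ ^ 2 + ζ ^ 9
def b₁ (ζ : L) : L := ζ ^ 4 + ζ ^ 7
def b₂ (ζ : L) : L := ζ ^ 8 + ζ ^ 3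
def b₃ (ζ : L) : L := ζ ^ 5 + ζ ^ 6
def b₄ (ζ : L) : L := ζ ^ 10 + ζ ^ 1

variable {ζ : L} {ψ : L →+* L}

lemma Elev.e11 (h : Elev ζ ψ) : ζ ^ 11 = 1 := by
  linear_combination (ζ - 1) * h.cyc

lemma Elev.p0 (h : Elev ζ ψ) : ψ (b₀ ζ) = b₂ ζ := by
  simp only [b₀, b₂, map_add, map_pow, h.psi]
  linear_combination ((1) * ζ ^ 3 + (1) * ζ ^ 14 + (1) * ζ ^ 25) * h.e11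

lemma Elev.p1 (h : Elev ζ ψ) : ψ (b₁ ζ) = b₃ ζ := by
  simp only [b₁, b₃, map_add, map_pow, h.psi]
  linear_combination ((1) * ζ ^ 5 + (1) * ζ ^ 6 + (1) * ζ ^ 17) * h.e11

lemma Elev.p2 (h : Elev ζ ψ) : ψ (b₂ ζ) = b₄ ζ := by
  simp only [b₂, b₄, map_add, map_pow, h.psi]
  linear_combination ((1) * ζ ^ 1 + (1) * ζ ^ 10 + (1) * ζ ^ 21) * h.e11

lemma Elev.p3 (h : Elev ζ ψ) : ψ (b₃ ζ) = b₀ ζ := by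
  simp only [b₃, b₀, map_add, map_pow, h.psi]
  linear_combination ((1) * ζ ^ 2 + (1) * ζ ^ 9 + (1) * ζ ^ 13) * h.e11

lemma Elev.p4 (h : Elev ζ ψ) : ψ (b₄ ζ) = b₁ ζ := by
  simp only [b₄, b₁, map_add, map_pow, h.psi]
  linear_combination ((1) * ζ ^ 7 + (1) * ζ ^ 18 + (1) * ζ ^ 29) * h.e11

lemma Elev.e0 (h : Elev ζ ψ) : b₀ ζ * b₀ ζ + b₁ ζ * b₁ ζ + b₂ ζ * b₂ ζ + b₃ ζ * b₃ ζ + b₄ ζ * b₄ ζ = 1 := by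
  simp only [b₀, b₁, b₂, b₃, b₄]
  linear_combination ((-9) + (9) * ζ ^ 1 + (1) * ζ ^ 2 + (-1) * ζ ^ 3 + (1) * ζ ^ 4 + (-1) * ζ ^ 5 + (1) * ζ ^ 6 + (-1) * ζ ^ 7 + (1) * ζ ^ 8 + (-1) * ζ ^ 9 + (1) * ζ ^ 10) * h.cyc + ((4)) * h.two

lemma Elev.e1 (h : Elev ζ ψ) : b₀ ζ * b₁ ζ + b₁ ζ * b₂ ζ + b₂ ζ * b₃ ζ + b₃ ζ * b₄ ζ + b₄ ζ * b₀ ζ = 0 := by
  simp only [b₀, b₁, b₂, b₃, b₄]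
  linear_combination ((2) + (-2) * ζ ^ 1 + (1) * ζ ^ 3 + (-1) * ζ ^ 4 + (2) * ζ ^ 6 + (-1) * ζ ^ 8 + (1) * ζ ^ 9) * h.cyc + ((-1)) * h.two

lemma Elev.e2 (h : Elev ζ ψ) : b₀ ζ * b₂ ζ + b₁ ζ * b₃ ζ + b₂ ζ * b₄ ζ + b₃ ζ * b₀ ζ + b₄ ζ * b₁ ζ = 0 := by
  simp only [b₀, b₁, b₂, b₃, b₄]
  linear_combination ((2) + (-2) * ζ ^ 1 + (1) * ζ ^ 4 + (1) * ζ ^ 5 + (-2) * ζ ^ 6 + (1) * ζ ^ 7 + (1) * ζ ^ 8) * h.cyc + ((-1)) * h.two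

lemma Elev.g0 (h : Elev ζ ψ) : b₀ ζ * b₀ ζ * ζ ^ 1 + b₁ ζ * b₁ ζ * ζ ^ 4 + b₂ ζ * b₂ ζ * ζ ^ 5 + b₃ ζ * b₃ ζ * ζ ^ 9 + b₄ ζ * b₄ ζ * ζ ^ 3 = ζ ^ 9 * b₀ ζ := by
  simp only [b₀, b₁, b₂, b₃, b₄]
  linear_combination ((2) + (-4) * ζ ^ 1 + (4) * ζ ^ 2 + (-2) * ζ ^ 3 + (2) * ζ ^ 6 + (-2) * ζ ^ 8 + (2) * ζ ^ 11 + (-1) * ζ ^ 12 + (1) * ζ ^ 13) * h.cyc + ((-1) + (1) * ζ ^ 1 + (-1) * ζ ^ 2 + (1) * ζ ^ 5 + (-1) * ζ ^ 6 + (-1) * ζ ^ 7) * h.two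

lemma Elev.g1 (h : Elev ζ ψ) : b₀ ζ * b₁ ζ * ζ ^ 1 + b₁ ζ * b₂ ζ * ζ ^ 4 + b₂ ζ * b₃ ζ * ζ ^ 5 + b₃ ζ * b₄ ζ * ζ ^ 9 + b₄ ζ * b₀ ζ * ζ ^ 3 = ζ ^ 6 * b₁ ζ := by
  simp only [b₀, b₁, b₂, b₃, b₄]
  linear_combination ((-2) + (2) * ζ ^ 1 + (-2) * ζ ^ 2 + (-2) * ζ ^ 3 + (2) * ζ ^ 4 + (1) * ζ ^ 6 + (-1) * ζ ^ 8 + (2) * ζ ^ 9 + (-1) * ζ ^ 11 + (1) * ζ ^ 12 + (-1) * ζ ^ 13 + (1) * ζ ^ 15) * h.cyc + ((1) + (1) * ζ ^ 2 + (2) * ζ ^ 3 + (1) * ζ ^ 4 + (1) * ζ ^ 5 + (1) * ζ ^ 6 + (1) * ζ ^ 7 + (1) * ζ ^ 8) * h.two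

lemma Elev.g2 (h : Elev ζ ψ) : b₀ ζ * b₂ ζ * ζ ^ 1 + b₁ ζ * b₃ ζ * ζ ^ 4 + b₂ ζ * b₄ ζ * ζ ^ 5 + b₃ ζ * b₀ ζ * ζ ^ 9 + b₄ ζ * b₁ ζ * ζ ^ 3 = ζ ^ 5 * b₂ ζ := by
  simp only [b₀, b₁, b₂, b₃, b₄]
  linear_combination ((-2) + (2) * ζ ^ 4 + (-2) * ζ ^ 5 + (-1) * ζ ^ 6 + (1) * ζ ^ 7 + (2) * ζ ^ 8 + (-1) * ζ ^ 9 + (1) * ζ ^ 10 + (-2) * ζ ^ 12 + (1) * ζ ^ 13 + (1) * ζ ^ 14) * h.cyc + ((1) + (1) * ζ ^ 1 + (1) * ζ ^ 2 + (1) * ζ ^ 3 + (1) * ζ ^ 5 + (2) * ζ ^ 6 + (1) * ζ ^ 7 + (1) * ζ ^ 9) * h.two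

lemma Elev.g3 (h : Elev ζ ψ) : b₀ ζ * b₃ ζ * ζ ^ 1 + b₁ ζ * b₄ ζ * ζ ^ 4 + b₂ ζ * b₀ ζ * ζ ^ 5 + b₃ ζ * b₁ ζ * ζ ^ 9 + b₄ ζ * b₂ ζ * ζ ^ 3 = ζ ^ 1 * b₃ ζ := by
  simp only [b₀, b₁, b₂, b₃, b₄]
  linear_combination ((2) + (2) * ζ ^ 2 + (-2) * ζ ^ 4 + (1) * ζ ^ 6 + (-1) * ζ ^ 7 + (1) * ζ ^ 8 + (1) * ζ ^ 9 + (-3) * ζ ^ 10 + (1) * ζ ^ 11 + (2) * ζ ^ 12) * h.cyc + ((-1) + (-1) * ζ ^ 1 + (-2) * ζ ^ 2 + (-2) * ζ ^ 3 + (-1) * ζ ^ 4 + (-1) * ζ ^ 5 + (-2) * ζ ^ 6 + (-1) * ζ ^ 7 + (-1) * ζ ^ 8 + (-1) * ζ ^ 9) * h.two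

lemma Elev.g4 (h : Elev ζ ψ) : b₀ ζ * b₄ ζ * ζ ^ 1 + b₁ ζ * b₀ ζ * ζ ^ 4 + b₂ ζ * b₁ ζ * ζ ^ 5 + b₃ ζ * b₂ ζ * ζ ^ 9 + b₄ ζ * b₃ ζ * ζ ^ 3 = ζ ^ 7 * b₄ ζ := by
  simp only [b₀, b₁, b₂, b₃, b₄]
  linear_combination ((2) * ζ ^ 3 + (-1) * ζ ^ 4 + (1) * ζ ^ 5 + (-2) * ζ ^ 6 + (1) * ζ ^ 8 + (-2) * ζ ^ 9 + (3) * ζ ^ 10 + (-1) * ζ ^ 11 + (1) * ζ ^ 13) * h.cyc + ((-1) * ζ ^ 3 + (-1) * ζ ^ 5 + (-1) * ζ ^ 8 + (1) * ζ ^ 9) * h.two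

/-- the additional map -/
def zf (ζ : L) (ψ : L →+* L) (x : L) : L :=
  b₀ ζ * x + b₁ ζ * ψ x + b₂ ζ * ψ (ψ x) + b₃ ζ * ψ (ψ (ψ x)) + b₄ ζ * ψ (ψ (ψ (ψ x)))

lemma zf_add (ζ : L) (ψ : L →+* L) (x y : L) : zf ζ ψ (x + y) = zf ζ ψ x + zf ζ ψ y := by
  simp only [zf, map_add]; ring

lemma zf_mul {c : L} (hc : ψ c = c) (x : L) : zf ζ ψ (c * x) = c * zf ζ ψ x := by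
  simp only [zf, map_mul, hc]; ring

theorem Elev.zz (h : Elev ζ ψ) (x : L) : zf ζ ψ (zf ζ ψ x) = x := by
  simp only [zf, map_add, map_mul, h.p0, h.p1, h.p2, h.p3, h.p4, h.psi5]
  linear_combination x * h.e0 + ψ x * h.e1 + ψ (ψ x) * h.e2 + ψ (ψ (ψ x)) * h.e2 + ψ (ψ (ψ (ψ x))) * h.e1

theorem Elev.zt (h : Elev ζ ψ) (x : L) : ψ (zf ζ ψ (ψ x)) = zf ζ ψ x := by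
  simp only [zf, map_add, map_mul, h.p0, h.p1, h.p2, h.p3, h.p4, h.psi5]
  ring

lemma Elev.q1 (h : Elev ζ ψ) : ψ ζ = ζ ^ 4 := h.psi
lemma Elev.q2 (h : Elev ζ ψ) : ψ (ψ ζ) = ζ ^ 5 := by
  rw [h.psi, map_pow, h.psi]
  linear_combination ζ ^ 5 * h.e11
lemma Elev.q3 (h : Elev ζ ψ) : ψ (ψ (ψ ζ)) = ζ ^ 9 := by
  rw [h.q2, map_pow, h.psi]
  linear_combination ζ ^ 9 * h.e11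
lemma Elev.q4 (h : Elev ζ ψ) : ψ (ψ (ψ (ψ ζ))) = ζ ^ 3 := by
  rw [h.q3, map_pow, h.psi]
  linear_combination (ζ ^ 25 + ζ ^ 14 + ζ ^ 3) * h.e11

theorem Elev.zsz (h : Elev ζ ψ) (x : L) : zf ζ ψ (ζ * zf ζ ψ x) = ζ ^ 10 * zf ζ ψ (ζ ^ 10 * x) := by
  have r1 : ψ ζ ^ 10 = ζ ^ 7 := by rw [h.q1]; linear_combination (ζ ^ 29 + ζ ^ 18 + ζ ^ 7) * h.e11
  have r2 : ψ (ψ ζ) ^ 10 = ζ ^ 6 := by rw [h.q2]; linear_combination (ζ ^ 39 + ζ ^ 28 + ζ ^ 17 + ζ ^ 6) * h.e11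
  have r3 : ψ (ψ (ψ ζ)) ^ 10 = ζ ^ 2 := by
    rw [h.q3]; linear_combination (ζ ^ 79 + ζ ^ 68 + ζ ^ 57 + ζ ^ 46 + ζ ^ 35 + ζ ^ 24 + ζ ^ 13 + ζ ^ 2) * h.e11
  have r4 : ψ (ψ (ψ (ψ ζ))) ^ 10 = ζ ^ 8 := by rw [h.q4]; linear_combination (ζ ^ 19 + ζ ^ 8) * h.e11
  have k0 : ζ ^ 10 * (b₀ ζ * ζ ^ 10) = ζ ^ 9 * b₀ ζ := by linear_combination (ζ ^ 9 * b₀ ζ) * h.e11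
  have k1 : ζ ^ 10 * (b₁ ζ * ζ ^ 7) = ζ ^ 6 * b₁ ζ := by linear_combination (ζ ^ 6 * b₁ ζ) * h.e11
  have k2 : ζ ^ 10 * (b₂ ζ * ζ ^ 6) = ζ ^ 5 * b₂ ζ := by linear_combination (ζ ^ 5 * b₂ ζ) * h.e11
  have k3 : ζ ^ 10 * (b₃ ζ * ζ ^ 2) = ζ ^ 1 * b₃ ζ := by linear_combination (ζ * b₃ ζ) * h.e11
  have k4 : ζ ^ 10 * (b₄ ζ * ζ ^ 8) = ζ ^ 7 * b₄ ζ := by linear_combination (ζ ^ 7 * b₄ ζ) * h.e11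
  have lhs : zf ζ ψ (ζ * zf ζ ψ x) =
      (b₀ ζ * b₀ ζ * ζ ^ 1 + b₁ ζ * b₁ ζ * ζ ^ 4 + b₂ ζ * b₂ ζ * ζ ^ 5 + b₃ ζ * b₃ ζ * ζ ^ 9 + b₄ ζ * b₄ ζ * ζ ^ 3) * x +
      (b₀ ζ * b₁ ζ * ζ ^ 1 + b₁ ζ * b₂ ζ * ζ ^ 4 + b₂ ζ * b₃ ζ * ζ ^ 5 + b₃ ζ * b₄ ζ * ζ ^ 9 + b₄ ζ * b₀ ζ * ζ ^ 3) * ψ x +
      (b₀ ζ * b₂ ζ * ζ ^ 1 + b₁ ζ * b₃ ζ * ζ ^ 4 + b₂ ζ * b₄ ζ * ζ ^ 5 + b₃ ζ * b₀ ζ * ζ ^ 9 + b₄ ζ * b₁ ζ * ζ ^ 3) * ψ (ψ x) +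
      (b₀ ζ * b₃ ζ * ζ ^ 1 + b₁ ζ * b₄ ζ * ζ ^ 4 + b₂ ζ * b₀ ζ * ζ ^ 5 + b₃ ζ * b₁ ζ * ζ ^ 9 + b₄ ζ * b₂ ζ * ζ ^ 3) *
        ψ (ψ (ψ x)) +
      (b₀ ζ * b₄ ζ * ζ ^ 1 + b₁ ζ * b₀ ζ * ζ ^ 4 + b₂ ζ * b₁ ζ * ζ ^ 5 + b₃ ζ * b₂ ζ * ζ ^ 9 + b₄ ζ * b₃ ζ * ζ ^ 3) *
        ψ (ψ (ψ (ψ x))) := by
    simp only [zf, map_add, map_mul, h.p0, h.p1, h.p2, h.p3, h.p4, h.psi5]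
    rw [h.q4, h.q3, h.q2, h.q1]
    ring
  have rhs : ζ ^ 10 * zf ζ ψ (ζ ^ 10 * x) = ζ ^ 9 * b₀ ζ * x + ζ ^ 6 * b₁ ζ * ψ x + ζ ^ 5 * b₂ ζ * ψ (ψ x) +
      ζ ^ 1 * b₃ ζ * ψ (ψ (ψ x)) + ζ ^ 7 * b₄ ζ * ψ (ψ (ψ (ψ x))) := by
    simp only [zf, map_mul, map_pow]
    rw [r1, r2, r3, r4]
    linear_combination x * k0 + ψ x * k1 + ψ (ψ x) * k2 + ψ (ψ (ψ x)) * k3 + ψ (ψ (ψ (ψ x))) * k4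
  rw [lhs, rhs, h.g0, h.g1, h.g2, h.g3, h.g4]

/-- the trace -/
def tr (ψ : L →+* L) (x : L) : L := x + ψ x + ψ (ψ x) + ψ (ψ (ψ x)) + ψ (ψ (ψ (ψ x)))

theorem Elev.selfadj (h : Elev ζ ψ) {β : L →+* L} (hβψ : ∀ x, β (ψ x) = ψ (β x)) (hβ : β ζ = ζ ^ 10) (x y : L) :
    tr ψ (β y * zf ζ ψ x) = tr ψ (β (zf ζ ψ y) * x) := by
  have c0 : β (b₀ ζ) = b₀ ζ := by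
    simp only [b₀, map_add, map_pow, hβ]
    linear_combination ((1) * ζ ^ 2 + (1) * ζ ^ 9 + (1) * ζ ^ 13 + (1) * ζ ^ 24 + (1) * ζ ^ 35 + (1) * ζ ^ 46 + (1) * ζ ^ 57 + (1) * ζ ^ 68 + (1) * ζ ^ 79) * h.e11
  have c1 : β (b₁ ζ) = b₁ ζ := by
    simp only [b₁, map_add, map_pow, hβ]
    linear_combination ((1) * ζ ^ 4 + (1) * ζ ^ 7 + (1) * ζ ^ 15 + (1) * ζ ^ 18 + (1) * ζ ^ 26 + (1) * ζ ^ 29 + (1) * ζ ^ 37 + (1) * ζ ^ 48 + (1) * ζ ^ 59) * h.e11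
  have c2 : β (b₂ ζ) = b₂ ζ := by
    simp only [b₂, map_add, map_pow, hβ]
    linear_combination ((1) * ζ ^ 3 + (1) * ζ ^ 8 + (1) * ζ ^ 14 + (1) * ζ ^ 19 + (1) * ζ ^ 25 + (1) * ζ ^ 36 + (1) * ζ ^ 47 + (1) * ζ ^ 58 + (1) * ζ ^ 69) * h.e11
  have c3 : β (b₃ ζ) = b₃ ζ := by
    simp only [b₃, map_add, map_pow, hβ]
    linear_combination ((1) * ζ ^ 5 + (1) * ζ ^ 6 + (1) * ζ ^ 16 + (1) * ζ ^ 17 + (1) * ζ ^ 27 + (1) * ζ ^ 28 + (1) * ζ ^ 38 + (1) * ζ ^ 39 + (1) * ζ ^ 49) * h.e11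
  have c4 : β (b₄ ζ) = b₄ ζ := by
    simp only [b₄, map_add, map_pow, hβ]
    linear_combination ((1) * ζ ^ 1 + (1) * ζ ^ 12 + (1) * ζ ^ 23 + (1) * ζ ^ 34 + (1) * ζ ^ 45 + (1) * ζ ^ 56 + (1) * ζ ^ 67 + (1) * ζ ^ 78 + (1) * ζ ^ 89) * h.e11
  simp only [tr, zf, map_add, map_mul, h.p0, h.p1, h.p2, h.p3, h.p4, h.psi5, c0, c1, c2, c3, c4, hβψ]
  ring

theorem Elev.unitary (h : Elev ζ ψ) {β : L →+* L} (hβψ : ∀ x, β (ψ x) = ψ (β x)) (hβ : β ζ = ζ ^ 10) (x y : L) :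
    tr ψ (β (zf ζ ψ y) * zf ζ ψ x) = tr ψ (β y * x) := by
  rw [h.selfadj hβψ hβ, h.zz]

end H97.AschFive
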