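import Mathlib
import Cfsg.Agent.Lib.H97.AschFive
import Cfsg.Agent.Lib.H7.UnitOrd

/-!
Aschbacher library, part 58: the normaliser of a field of degree five in the five-dimensional unitary group over the field
with four elements is not maximal.
-/

set_option autoImplicit false
set_option linter.unusedSectionVars false

namespace H97.AschFive2

open Cfsg Cfsg.Geo Matrix H97.AschRad H97.AschEnv H97.AschNonab H97.AschGrp H97.AschLinear H97.AschIdem H97.AschDecomp
open H97.AschForm H97.AschSubfield H97.AschReal H97.AschNCU H97.AschUSymp H97.AschUPair H97.AschUElim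
open H97.AschCases H97.AschNC H97.AschHex H97.AschTri H97.AschOne H97.AschFive
open H96.AschSympType1 H96.AschSympType2 H96.AschSympType3 H96.AschSubForm H96.AschSympType5 H96.AschAdj
open H96.AschComm H96.AschField H96.AschSympEx
open H96.AschSp H96.AschSp2 H96.AschSU H96.AschSU2 H96.AschOdd2 H96.AschDescent H96.AschSU3

section general

variable {F : Type*} [Field F] [Fintype F] {n q : ℕ}

lemma mem_SL {g : GL (Fin n) F} : g ∈ specialLinear (Fin n) F ↔ (g : Matrix (Fin n) (Fin n) F).det = 1 := by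
  constructor
  · intro hg
    have h1 : Matrix.GeneralLinearGroup.det g = 1 := hg
    have h3 := congrArg Units.val h1
    simpa using h3
  · intro hg
    change Matrix.GeneralLinearGroup.det g = 1
    apply Units.ext
    simpa using hg

/-- a subgroup of the general linear group is at most `|F| - 1` times its special part -/
lemma card_le_special (S : Subgroup (GL (Fin n) F)) :
    Nat.card S ≤ Nat.card (S ⊓ specialLinear (Fin n) F : Subgroup (GL (Fin n) F)) * (Fintype.card F - 1) := by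
  classical
  have hfinM : Finite (Matrix (Fin n) (Fin n) F) := by unfold Matrix; infer_instance
  have hfinG : Finite (GL (Fin n) F) := inferInstance
  let d : S →* Fˣ := (Matrix.GeneralLinearGroup.det).comp S.subtype
  have h1 := Subgroup.card_mul_index d.ker
  rw [Subgroup.index_ker] at h1
  have h2 : Nat.card d.range ≤ Nat.card Fˣ := Subgroup.card_le_card_group _
  have h3 : Nat.card Fˣ = Fintype.card F - 1 := by rw [Nat.card_units, Nat.card_eq_fintype_card]
  have h4 : Nat.card d.ker ≤ Nat.card (S ⊓ specialLinear (Fin n) F : Subgroup (GL (Fin n) F)) := by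
    apply Nat.card_le_card_of_injective (fun x : d.ker => (⟨((x : S) : GL (Fin n) F), (x : S).2, x.2⟩ :
      (S ⊓ specialLinear (Fin n) F : Subgroup (GL (Fin n) F))))
    intro x y hxy
    apply Subtype.ext
    apply Subtype.ext
    exact congrArg (fun z : (S ⊓ specialLinear (Fin n) F : Subgroup (GL (Fin n) F)) => (z : GL (Fin n) F)) hxy
  rw [← h1, ← h3]
  exact Nat.mul_le_mul h4 h2

lemma det_one_of_pow (hF : Fintype.card F = 4) {g : GL (Fin n) F} {m : ℕ} (hm : Nat.Coprime m 3) (hg : g ^ m = 1) :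
    g ∈ specialLinear (Fin n) F := by
  rw [mem_SL]
  set d := (g : Matrix (Fin n) (Fin n) F).det with hd
  have h1 : d ^ m = 1 := by
    have h2 := congrArg (fun g : GL (Fin n) F => (g : Matrix (Fin n) (Fin n) F).det) hg
    simp only [Units.val_pow_eq_pow_val, Matrix.det_pow, Units.val_one, Matrix.det_one] at h2
    exact h2
  have hd0 : d ≠ 0 := by
    have h2 : IsUnit (g : Matrix (Fin n) (Fin n) F) := g.isUnit
    rw [Matrix.isUnit_iff_isUnit_det] at h2
    exact h2.ne_zero
  have h3 : d ^ 3 = 1 := by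
    have := FiniteField.pow_card_sub_one_eq_one d hd0
    rwa [hF] at this
  have h4 : orderOf d ∣ Nat.gcd m 3 := Nat.dvd_gcd (orderOf_dvd_of_pow_eq_one h1) (orderOf_dvd_of_pow_eq_one h3)
  rw [hm, Nat.dvd_one] at h4
  exact orderOf_eq_one_iff.mp h4

end general

variable {F : Type*} [Field F] [Fintype F] {q : ℕ} {σ : F ≃+* F}
variable {L : Type*} [Field L] [Fintype L] [Algebra F L]

theorem no_field_abs (h : Ctx (F := F) σ 5 q) (hq : q = 2) (hL5 : Module.finrank F L = 5)
    (φ : L →ₐ[F] Matrix (Fin 5) (Fin 5) F) (hadj : ∀ x : L, ∃ y : L, h.form.adj (φ x) = φ y)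
    {H : Subgroup (GL (Fin 5) F)} (hH : IsMaximalIn (GU 5 F q ⊓ specialLinear (Fin 5) F) H)
    (hHK : ∀ g ∈ GU 5 F q ⊓ specialLinear (Fin 5) F, g ∈ H ↔ ∀ x : L, ∃ y : L,
      (g : Matrix (Fin 5) (Fin 5) F) * φ x * ((g⁻¹ : GL (Fin 5) F) : Matrix (Fin 5) (Fin 5) F) = φ y) : False := by
  classical
  have hfinM : Finite (Matrix (Fin 5) (Fin 5) F) := by unfold Matrix; infer_instance
  have hfinG : Finite (GL (Fin 5) F) := inferInstance
  have hne : Nonempty (Fin 5) := ⟨0⟩
  have hF4 : Fintype.card F = 4 := by rw [h.card, hq]; norm_num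
  obtain ⟨β, E, hβ2, M⟩ := exists_model h (by norm_num) hL5 φ hadj
  have h2F := four_two hF4
  have h2L : (2 : L) = 0 := by
    have := congrArg (algebraMap F L) h2F
    rwa [map_ofNat, map_zero] at this
  have hcardL : Nat.card L = 1024 := by
    rw [Module.natCard_eq_pow_finrank (K := F), hL5, Nat.card_eq_fintype_card, hF4]; norm_num
  have hcardL' : Fintype.card L = 1024 := by rw [← Nat.card_eq_fintype_card, hcardL]
  have hcardU : Nat.card Lˣ = 1023 := by rw [Nat.card_units, hcardL]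
  -- the root of unity
  obtain ⟨g₀, hg₀⟩ := IsCyclic.exists_generator (α := Lˣ)
  have hord₀ : orderOf g₀ = 1023 := by rw [orderOf_eq_card_of_forall_mem_zpowers hg₀, hcardU]
  set ζ : L := ((g₀ ^ 93 : Lˣ) : L) with hζ
  have hprim : IsPrimitiveRoot ζ 11 := by
    have h1 : orderOf (g₀ ^ 93) = 11 := by
      rw [orderOf_pow, hord₀]; norm_num
    have h2 := IsPrimitiveRoot.orderOf (g₀ ^ 93)
    rw [h1] at h2
    exact IsPrimitiveRoot.coe_units_iff.mpr h2
  have hζ11 : ζ ^ 11 = 1 := hprim.pow_eq_one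
  have hζ1 : ζ ≠ 1 := hprim.ne_one (by norm_num)
  have hζ0 : ζ ≠ 0 := Units.ne_zero _
  clear_value ζ
  have hcyc : 1 + ζ + ζ ^ 2 + ζ ^ 3 + ζ ^ 4 + ζ ^ 5 + ζ ^ 6 + ζ ^ 7 + ζ ^ 8 + ζ ^ 9 + ζ ^ 10 = 0 := by
    have h1 : (ζ - 1) * (1 + ζ + ζ ^ 2 + ζ ^ 3 + ζ ^ 4 + ζ ^ 5 + ζ ^ 6 + ζ ^ 7 + ζ ^ 8 + ζ ^ 9 + ζ ^ 10) = 0 := by
      linear_combination hζ11
    exact (mul_eq_zero.mp h1).resolve_left (sub_ne_zero.mpr hζ1)
  -- Frobenius
  let ψ : L ≃ₐ[F] L := FiniteField.frobeniusAlgEquivOfAlgebraic F L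
  have hψ : ∀ x, ψ x = x ^ 4 := by
    intro x
    change x ^ Fintype.card F = _
    rw [hF4]
  let ψr : L →+* L := (ψ : L →+* L)
  have hψr : ∀ x, ψr x = ψ x := fun x => rfl
  have hEl : Elev ζ ψr := by
    refine ⟨h2L, hcyc, by rw [hψr, hψ], fun x => ?_⟩
    simp only [hψr, hψ]
    rw [← pow_mul, ← pow_mul, ← pow_mul, ← pow_mul]
    have := FiniteField.pow_card x
    rw [hcardL'] at this
    exact this
  have hβpow : ∀ x, β x = x ^ 32 := by
    intro x
    rw [M.pow, hq]; norm_num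
  have hβζ : (β : L →+* L) ζ = ζ ^ 10 := by
    change β ζ = _
    rw [hβpow]
    linear_combination (ζ ^ 21 + ζ ^ 10) * hζ11
  have hβψ : ∀ x, (β : L →+* L) (ψr x) = ψr ((β : L →+* L) x) := by
    intro x
    change β (ψ x) = ψ (β x)
    rw [hψ, hψ, map_pow]
  have htr : ∀ x, algebraMap F L (Algebra.trace F L x) = H97.AschFive.tr ψr x := by
    intro x
    rw [FiniteField.algebraMap_trace_eq_sum_pow, hL5, Nat.card_eq_fintype_card, hF4]
    simp only [Finset.sum_range_succ, Finset.sum_range_zero, zero_add, H97.AschFive.tr, hψr, hψ, pow_zero, pow_one, ← pow_mul]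
    norm_num
  have htrinj : ∀ x y, H97.AschFive.tr ψr x = H97.AschFive.tr ψr y → Algebra.trace F L x = Algebra.trace F L y := by
    intro x y hxy
    apply (algebraMap F L).injective
    rw [htr, htr, hxy]
  -- the three maps
  let S : L ≃ₗ[F] L :=
    { toFun := fun x => ζ * x
      invFun := fun x => ζ⁻¹ * x
      left_inv := fun x => by change ζ⁻¹ * (ζ * x) = x; rw [← mul_assoc, inv_mul_cancel₀ hζ0, one_mul]
      right_inv := fun x => by change ζ * (ζ⁻¹ * x) = x; rw [← mul_assoc, mul_inv_cancel₀ hζ0, one_mul]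
      map_add' := fun x y => mul_add _ _ _
      map_smul' := fun c x => by rw [mul_smul_comm]; rfl }
  have hSx : ∀ x, S x = ζ * x := fun x => rfl
  let T : L ≃ₗ[F] L := ψ.toLinearEquiv
  have hTx : ∀ x, T x = ψ x := fun x => rfl
  have hψc : ∀ c : F, ψr (algebraMap F L c) = algebraMap F L c := fun c => ψ.commutes c
  let Z : L ≃ₗ[F] L :=
    { toFun := zf ζ ψr
      invFun := zf ζ ψr
      left_inv := hEl.zz
      right_inv := hEl.zz
      map_add' := fun x y => zf_add _ _ _ _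
      map_smul' := fun c x => by
        rw [Algebra.smul_def, Algebra.smul_def, zf_mul (hψc c)]; rfl }
  have hZx : ∀ x, Z x = zf ζ ψr x := fun x => rfl
  set s := lift E S with hs
  set t := lift E T with ht
  set z := lift E Z with hz
  have sE : ∀ x, (s : Matrix (Fin 5) (Fin 5) F) *ᵥ E x = E (ζ * x) := fun x => lift_apply E S x
  have tE : ∀ x, (t : Matrix (Fin 5) (Fin 5) F) *ᵥ E x = E (ψ x) := fun x => lift_apply E T x
  have zE : ∀ x, (z : Matrix (Fin 5) (Fin 5) F) *ᵥ E x = E (zf ζ ψr x) := fun x => lift_apply E Z x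
  have spE : ∀ (m : ℕ) x, ((s ^ m : GL (Fin 5) F) : Matrix (Fin 5) (Fin 5) F) *ᵥ E x = E (ζ ^ m * x) := by
    intro m
    induction m with
    | zero => intro x; rw [pow_zero, pow_zero, Units.val_one, Matrix.one_mulVec, one_mul]
    | succ m ih => intro x; rw [pow_succ, H97.AschOne.mul_apply', sE, ih, pow_succ, mul_assoc]
  have tpE : ∀ (m : ℕ) x, ((t ^ m : GL (Fin 5) F) : Matrix (Fin 5) (Fin 5) F) *ᵥ E x = E (x ^ (4 ^ m)) := by
    intro m
    induction m with
    | zero => intro x; rw [pow_zero, pow_zero, Units.val_one, Matrix.one_mulVec, pow_one]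
    | succ m ih => intro x; rw [pow_succ, H97.AschOne.mul_apply', tE, hψ, ih, ← pow_mul, ← pow_succ']
  have one_E : ∀ x, ((1 : GL (Fin 5) F) : Matrix (Fin 5) (Fin 5) F) *ᵥ E x = E x := by
    intro x; rw [Units.val_one, Matrix.one_mulVec]
  have hs11 : s ^ 11 = 1 := by
    apply ext_model E
    intro x
    rw [spE, hζ11, one_mul, one_E]
  have hsinv : s⁻¹ = s ^ 10 := by
    apply inv_eq_of_mul_eq_one_right
    rw [← pow_succ', hs11]
  have ht5 : t ^ 5 = 1 := by
    apply ext_model E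
    intro x
    rw [tpE, one_E]
    congr 1
    have := FiniteField.pow_card x
    rw [hcardL'] at this
    exact this
  have hzz : z * z = 1 := by
    apply ext_model E
    intro x
    rw [H97.AschOne.mul_apply', zE, zE, hEl.zz, one_E]
  have hts : t * s * t⁻¹ = s ^ 4 := by
    rw [mul_inv_eq_iff_eq_mul]
    apply ext_model E
    intro x
    rw [H97.AschOne.mul_apply', H97.AschOne.mul_apply', sE, tE, tE, spE, hψ, hψ, mul_pow]
  have hzt : z * t * z = t⁻¹ := by
    symm
    apply inv_eq_of_mul_eq_one_right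
    apply ext_model E
    intro x
    rw [H97.AschOne.mul_apply', H97.AschOne.mul_apply', H97.AschOne.mul_apply', zE, tE, zE, tE, one_E]
    congr 1
    have := hEl.zt (zf ζ ψr x)
    rw [hEl.zz] at this
    exact this
  have hzs : z * s * z = s⁻¹ * z * s⁻¹ := by
    rw [hsinv]
    apply ext_model E
    intro x
    rw [H97.AschOne.mul_apply', H97.AschOne.mul_apply', H97.AschOne.mul_apply', H97.AschOne.mul_apply', zE, sE, zE, spE, zE, spE, hEl.zsz]
  -- membership
  have hsU : s ∈ GU 5 F q := by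
    apply M.mem_GU
    intro x y
    congr 1
    rw [hSx, hSx, map_mul]
    have h1 : β ζ = ζ ^ 10 := hβζ
    rw [h1]
    linear_combination (β y * x) * hζ11
  have htU : t ∈ GU 5 F q := by
    apply M.mem_GU
    intro x y
    rw [hTx, hTx]
    have h1 : β (ψ y) * ψ x = ψ (β y * x) := by
      rw [map_mul]
      congr 1
      exact hβψ y
    rw [h1]
    exact Algebra.trace_eq_of_algEquiv ψ _
  have hzU : z ∈ GU 5 F q := by
    apply M.mem_GU
    intro x y
    apply htrinj
    exact hEl.unitary hβψ hβζ x y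
  have hsG : s ∈ GU 5 F q ⊓ specialLinear (Fin 5) F := ⟨hsU, det_one_of_pow hF4 (by norm_num) hs11⟩
  have htG : t ∈ GU 5 F q ⊓ specialLinear (Fin 5) F := ⟨htU, det_one_of_pow hF4 (by norm_num) ht5⟩
  have hzG : z ∈ GU 5 F q ⊓ specialLinear (Fin 5) F :=
    ⟨hzU, det_one_of_pow hF4 (m := 2) (by norm_num) (by rw [pow_two, hzz])⟩
  have hsval : (s : Matrix (Fin 5) (Fin 5) F) = φ ζ := by
    apply matrix_ext_vec
    intro v
    obtain ⟨x, rfl⟩ := E.surjective v
    rw [sE, M.act]
  have hsH : s ∈ H := by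
    rw [hHK s hsG]
    intro x
    refine ⟨x, ?_⟩
    rw [hsval, ← map_mul, mul_comm, map_mul, ← hsval, mul_assoc, Units.mul_inv, mul_one]
  have htH : t ∈ H := by
    rw [hHK t htG]
    intro x
    refine ⟨ψ x, ?_⟩
    have h1 : (t : Matrix (Fin 5) (Fin 5) F) * φ x = φ (ψ x) * (t : Matrix (Fin 5) (Fin 5) F) := by
      apply matrix_ext_vec
      intro v
      obtain ⟨y, rfl⟩ := E.surjective v
      rw [← Matrix.mulVec_mulVec, ← Matrix.mulVec_mulVec, M.act, tE, tE, M.act, map_mul]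
    rw [h1, mul_assoc, Units.mul_inv, mul_one]
  -- all elements
  have hB : ∀ b ∈ H, ∃ i j : ℕ, b = s ^ i * t ^ j := by
    intro b hb
    have hbG := hH.1.le hb
    obtain ⟨k, j, -, hk0, hk⟩ := M.semilinear ((hHK b hbG).1 hb)
    have hk1 := M.norm_one hbG.1 hk
    rw [hq] at hk
    have hk33 : k ^ 33 = 1 := by
      rw [hβpow] at hk1
      rw [← hk1]; ring
    have hc : ∀ x, ((b * (t ^ j)⁻¹ : GL (Fin 5) F) : Matrix (Fin 5) (Fin 5) F) *ᵥ E x = E (k * x) := by
      intro x
      have h1 : E x = ((t ^ j : GL (Fin 5) F) : Matrix (Fin 5) (Fin 5) F) *ᵥ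
          ((((t ^ j)⁻¹ : GL (Fin 5) F) : Matrix (Fin 5) (Fin 5) F) *ᵥ E x) := by
        rw [Matrix.mulVec_mulVec, Units.mul_inv, Matrix.one_mulVec]
      obtain ⟨y, hy⟩ := E.surjective ((((t ^ j)⁻¹ : GL (Fin 5) F) : Matrix (Fin 5) (Fin 5) F) *ᵥ E x)
      rw [← hy, tpE] at h1
      have h2 : x = y ^ (4 ^ j) := E.injective h1
      rw [H97.AschOne.mul_apply', ← hy, hk, h2]
      norm_num
    have hcval : ((b * (t ^ j)⁻¹ : GL (Fin 5) F) : Matrix (Fin 5) (Fin 5) F) = φ k := by
      apply matrix_ext_vec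
      intro v
      obtain ⟨x, rfl⟩ := E.surjective v
      rw [hc, M.act]
    have hcG : b * (t ^ j)⁻¹ ∈ GU 5 F q ⊓ specialLinear (Fin 5) F :=
      Subgroup.mul_mem _ hbG (Subgroup.inv_mem _ (Subgroup.pow_mem _ htG j))
    have hnorm : Algebra.norm F k = 1 := by
      have h1 := det_field φ (k := 1) (by rw [hL5]) (by norm_num) k
      rw [pow_one, ← hcval, mem_SL.1 hcG.2] at h1
      exact h1.symm
    have hk341 : k ^ 341 = 1 := by
      have h1 := FiniteField.algebraMap_norm_eq_pow (K := F) (K' := L) (x := k)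
      rw [hcardL, Nat.card_eq_fintype_card, hF4, hnorm, map_one] at h1
      exact h1.symm
    have hk11 : k ^ 11 = 1 := by
      have h1 : orderOf k ∣ Nat.gcd 33 341 :=
        Nat.dvd_gcd (orderOf_dvd_of_pow_eq_one hk33) (orderOf_dvd_of_pow_eq_one hk341)
      exact orderOf_dvd_iff_pow_eq_one.mp h1
    obtain ⟨i, -, hi⟩ := hprim.eq_pow_of_pow_eq_one hk11
    refine ⟨i, j, ?_⟩
    apply ext_model E
    intro x
    rw [hk, H97.AschOne.mul_apply', tpE, spE, hi]
    norm_num
  obtain ⟨N, hHN, hzN, hN⟩ := H97.AschPaley.exists_overgroup (p := 11) (a := 4) hs11 hzz hts hzt hzs hsH htH hB (by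
    intro i
    have key : ∀ r < 11, r = 0 ∨ ∃ m < 5, r % 11 = 4 ^ m % 11 ∨ (r + 4 ^ m) % 11 = 0 := by decide
    rcases key (i % 11) (Nat.mod_lt _ (by norm_num)) with h1 | ⟨m, -, h1 | h1⟩
    · left; exact Nat.dvd_of_mod_eq_zero h1
    · right
      refine ⟨m, Or.inl ?_⟩
      rw [Nat.mod_mod] at h1
      exact h1
    · right
      refine ⟨m, Or.inr ?_⟩
      unfold Nat.ModEq
      rw [Nat.add_mod] at h1 ⊢
      rw [Nat.mod_mod] at h1
      rw [h1])
  -- orders
  have hHcard : Nat.card H ≤ 55 := by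
    let f : Fin 11 × Fin 5 → GL (Fin 5) F := fun p => s ^ (p.1 : ℕ) * t ^ (p.2 : ℕ)
    have hsub : (H : Set (GL (Fin 5) F)) ⊆ Set.range f := by
      intro b hb
      obtain ⟨i, j, rfl⟩ := hB b hb
      refine ⟨(⟨i % 11, Nat.mod_lt _ (by norm_num)⟩, ⟨j % 5, Nat.mod_lt _ (by norm_num)⟩), ?_⟩
      change s ^ (i % 11) * t ^ (j % 5) = s ^ i * t ^ j
      congr 1
      · exact pow_eq_pow_iff_modEq.mpr ((Nat.mod_modEq i 11).of_dvd (orderOf_dvd_of_pow_eq_one hs11))
      · exact pow_eq_pow_iff_modEq.mpr ((Nat.mod_modEq j 5).of_dvd (orderOf_dvd_of_pow_eq_one ht5))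
    have h1 : Nat.card H ≤ (Set.range f).ncard := by
      rw [← SetLike.coe_sort_coe, Nat.card_coe_set_eq]
      exact Set.ncard_le_ncard hsub (Set.finite_range f)
    have h2 : (Set.range f).ncard ≤ Nat.card (Fin 11 × Fin 5) := by
      rw [← Nat.card_coe_set_eq]
      exact Finite.card_range_le f
    have h3 : Nat.card (Fin 11 × Fin 5) = 55 := by simp
    omega
  have hNcard : Nat.card N ≤ 3080 := by
    have h1 := H97.AschPaley.card_le hN
    calc Nat.card N ≤ Nat.card H + Nat.card H * Nat.card H := h1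
      _ ≤ 55 + 55 * 55 := Nat.add_le_add hHcard (Nat.mul_le_mul hHcard hHcard)
      _ = 3080 := by norm_num
  have hnot : ¬ GU 5 F q ⊓ specialLinear (Fin 5) F ≤ N := by
    intro hsub
    have h1 := card_le_special (GU 5 F q)
    have h2 := Subgroup.card_le_of_le hsub
    rw [H7.UnitOrd.card_GU h.card 5, hF4, hq] at h1
    rw [hq] at h2
    have h3 : 2 ^ (5 * (5 - 1) / 2) * ∏ i ∈ Finset.range 5, (if Even i then 2 ^ (i + 1) + 1 else 2 ^ (i + 1) - 1) = 41057280 := by
      decide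
    rw [h3] at h1
    omega
  have hHN' := eq_of_max hH hHN hnot
  have hzH : z ∈ H := by
    rw [hHN']
    exact ⟨hzN, hzG⟩
  have hs1 : s ≠ 1 := by
    intro h1
    have h2 := sE 1
    rw [h1, one_E, mul_one] at h2
    exact hζ1 (E.injective h2).symm
  have := Fact.mk (show Nat.Prime 11 by norm_num)
  exact H97.AschPaley.not_mem (p := 11) (by norm_num) (by norm_num) hs11 hs1 hzz hts hzs hB hzH

theorem no_field (h : Ctx (F := F) σ 5 q) (hq : q = 2) {K : Subalgebra F (Matrix (Fin 5) (Fin 5) F)}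
    (hK : IsFieldSubalgebra 5 K) (hadj : IsAdjointClosedFor (hermForm 5 F q) K) {H : Subgroup (GL (Fin 5) F)}
    (hH : IsMaximalIn (GU 5 F q ⊓ specialLinear (Fin 5) F) H)
    (hHK : H = subalgebraNormalizer K ⊓ (GU 5 F q ⊓ specialLinear (Fin 5) F)) : False := by
  classical
  have hfinM : Finite (Matrix (Fin 5) (Fin 5) F) := by unfold Matrix; infer_instance
  have hKf : IsField K := by
    refine ⟨⟨0, 1, fun h => ?_⟩, ?_, ?_⟩
    · have := congrArg Subtype.val h
      exact zero_ne_one this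
    · intro x y
      exact Subtype.ext (hK.comm _ x.2 _ y.2)
    · intro x hx
      obtain ⟨y, hy, hxy⟩ := hK.inv x.1 x.2 (fun h => hx (Subtype.ext h))
      exact ⟨⟨y, hy⟩, Subtype.ext hxy⟩
  let instF : Field K := hKf.toField
  have instFin : Fintype K := Fintype.ofFinite K
  refine @no_field_abs F _ _ q σ K instF instFin K.algebra h hq hK.finrank_eq K.val
    (fun x => by
      obtain ⟨y, hy, hxy⟩ := hadj x.1 x.2
      exact ⟨⟨y, hy⟩, h.form.adj_eq hxy⟩) H hH ?_
  intro g hg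
  constructor
  · intro hgH x
    rw [hHK] at hgH
    exact ⟨⟨_, (hgH.1 x.1).1 x.2⟩, rfl⟩
  · intro hx
    rw [hHK]
    refine ⟨?_, hg⟩
    -- conjugation maps K into K, hence onto
    have hmap : ∀ k ∈ K, (g : Matrix (Fin 5) (Fin 5) F) * k * ((g⁻¹ : GL (Fin 5) F) : Matrix (Fin 5) (Fin 5) F) ∈ K := by
      intro k hk
      obtain ⟨y, hy⟩ := hx ⟨k, hk⟩
      have hy' : (g : Matrix (Fin 5) (Fin 5) F) * k * ((g⁻¹ : GL (Fin 5) F) : Matrix (Fin 5) (Fin 5) F) = y.1 := hy
      rw [hy']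
      exact y.2
    intro k
    refine ⟨hmap k, fun hk => ?_⟩
    let c : K → K := fun k => ⟨_, hmap k.1 k.2⟩
    have hcinj : Function.Injective c := by
      intro a b hab
      apply Subtype.ext
      have h1 : (g : Matrix (Fin 5) (Fin 5) F) * a.1 * ((g⁻¹ : GL (Fin 5) F) : Matrix (Fin 5) (Fin 5) F) =
          (g : Matrix (Fin 5) (Fin 5) F) * b.1 * ((g⁻¹ : GL (Fin 5) F) : Matrix (Fin 5) (Fin 5) F) := congrArg Subtype.val hab
      exact g.isUnit.mul_left_cancel (g⁻¹.isUnit.mul_right_cancel h1)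
    obtain ⟨a, ha⟩ := (Finite.injective_iff_surjective.mp hcinj) ⟨_, hk⟩
    have h1 : (g : Matrix (Fin 5) (Fin 5) F) * a.1 * ((g⁻¹ : GL (Fin 5) F) : Matrix (Fin 5) (Fin 5) F) =
        (g : Matrix (Fin 5) (Fin 5) F) * k * ((g⁻¹ : GL (Fin 5) F) : Matrix (Fin 5) (Fin 5) F) := congrArg Subtype.val ha
    have h2 := g.isUnit.mul_left_cancel (g⁻¹.isUnit.mul_right_cancel h1)
    rw [← h2]
    exact a.2

end H97.AschFive2
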