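import Mathlib
import Cfsg.Agent.Lib.H97.AschCases

/-!
Aschbacher library, part 23: small field eliminations: tensor products with a plane over the field with two elements,
plane decompositions in dimension four over the field with three elements.
-/

set_option autoImplicit false
set_option linter.unusedSectionVars false

namespace H97.AschElim

open Cfsg Cfsg.Geo Matrix H97.AschRad H97.AschUnits H97.AschSkolem H97.AschCS H97.AschTensor H97.AschEnv
open H97.AschGrp H97.AschNonab H97.AschForm H97.AschReal H97.AschTwo H97.AschSubfield H97.AschDecomp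
open H97.AschLinear H97.AschMain H97.AschSL H97.AschSL3 H97.AschBlock H97.AschCases
open scoped Kronecker

variable {ι : Type} [Fintype ι] [DecidableEq ι] {F : Type*} [Field F]

/-- the field with four elements inside the two by two matrices over the field with two elements -/
def K0 (F : Type*) [Field F] : Subalgebra F (Matrix (Fin 2) (Fin 2) F) where
  carrier := {Y | Y 0 1 = Y 1 0 ∧ Y 1 1 = Y 0 0 + Y 0 1}
  mul_mem' := by
    rintro X Y ⟨h1, h2⟩ ⟨h3, h4⟩
    simp only [Set.mem_ofPred_eq, Matrix.mul_apply, Fin.sum_univ_two]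
    rw [← h1, ← h3, h2, h4]
    constructor <;> ring
  add_mem' := by
    rintro X Y ⟨h1, h2⟩ ⟨h3, h4⟩
    simp only [Set.mem_ofPred_eq, Matrix.add_apply]
    rw [h1, h2, h3, h4, h1, h3]
    exact ⟨rfl, by ring⟩
  algebraMap_mem' c := by
    simp [Matrix.algebraMap_matrix_apply]

lemma mem_K0 {Y : Matrix (Fin 2) (Fin 2) F} : Y ∈ K0 F ↔ Y 0 1 = Y 1 0 ∧ Y 1 1 = Y 0 0 + Y 0 1 := Iff.rfl

lemma K0_form {X : Matrix (Fin 2) (Fin 2) F} (h : X ∈ K0 F) : X = !![X 0 0, X 0 1; X 0 1, X 0 0 + X 0 1] := by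
  obtain ⟨h1, h2⟩ := h
  ext i j
  fin_cases i <;> fin_cases j
  · rfl
  · rfl
  · exact h1.symm
  · exact h2

lemma K0_comm : ∀ X ∈ K0 F, ∀ Y ∈ K0 F, X * Y = Y * X := by
  intro X hX Y hY
  rw [K0_form hX, K0_form hY]
  generalize X 0 0 = a
  generalize X 0 1 = b
  generalize Y 0 0 = c
  generalize Y 0 1 = d
  rw [Matrix.mul_fin_two, Matrix.mul_fin_two]
  have h1 : a * c + b * d = c * a + d * b := by ring
  have h2 : a * d + b * (c + d) = c * b + d * (a + b) := by ring
  have h3 : b * c + (a + b) * d = d * a + (c + d) * b := by ring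
  have h4 : b * d + (a + b) * (c + d) = d * b + (c + d) * (a + b) := by ring
  rw [h1, h2, h3, h4]

lemma K0_finrank : Module.finrank F (K0 F) = 2 := by
  let E : K0 F ≃ₗ[F] (Fin 2 → F) :=
    { toFun := fun Y => ![Y.1 0 0, Y.1 0 1]
      map_add' := fun X Y => by ext i; fin_cases i <;> rfl
      map_smul' := fun c X => by ext i; fin_cases i <;> rfl
      invFun := fun v => ⟨!![v 0, v 1; v 1, v 0 + v 1], by constructor <;> rfl⟩
      left_inv := by
        rintro ⟨Y, h1, h2⟩
        apply Subtype.ext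
        ext i j
        fin_cases i <;> fin_cases j
        · rfl
        · rfl
        · exact h1
        · exact h2.symm
      right_inv := fun v => by ext i; fin_cases i <;> rfl }
  rw [LinearEquiv.finrank_eq E, Module.finrank_fintype_fun_eq_card, Fintype.card_fin]

lemma zero_or_one [Fintype F] (hq : Fintype.card F = 2) (x : F) : x = 0 ∨ x = 1 := by
  by_cases h : x = 0
  · left; exact h
  · right
    have := FiniteField.pow_card_sub_one_eq_one x h
    rwa [hq, pow_one] at this

lemma two_eq_zero [Fintype F] (hq : Fintype.card F = 2) : (1 : F) + 1 = 0 := by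
  have h3 : (Fintype.card F : F) = 0 := FiniteField.cast_card_eq_zero F
  rw [hq] at h3
  rw [one_add_one_eq_two]
  exact_mod_cast h3

lemma K0_inv [Fintype F] (hq : Fintype.card F = 2) : ∀ X ∈ K0 F, X ≠ 0 → ∃ Y ∈ K0 F, X * Y = 1 := by
  rintro X ⟨h1, h2⟩ hX
  have h11 := two_eq_zero hq
  have hdet : X.det = 1 := by
    rw [Matrix.det_fin_two, ← h1, h2]
    rcases zero_or_one hq (X 0 0) with h | h <;> rcases zero_or_one hq (X 0 1) with h' | h'
    · exfalso
      apply hX
      ext i j
      fin_cases i <;> fin_cases j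
      · exact h
      · exact h'
      · change X 1 0 = 0
        rw [← h1]; exact h'
      · change X 1 1 = 0
        rw [h2, h, h', add_zero]
    · rw [h, h']; linear_combination -h11
    · rw [h, h']; ring
    · rw [h, h']; ring
  refine ⟨X.adjugate, ?_, ?_⟩
  · rw [Matrix.adjugate_fin_two]
    refine ⟨?_, ?_⟩
    · change -X 0 1 = -X 1 0
      rw [h1]
    · change X 0 0 = X 1 1 + -X 0 1
      rw [h2]; ring
  · rw [Matrix.mul_adjugate, hdet, one_smul]

lemma K0_norm [Fintype F] (hq : Fintype.card F = 2) (a : GL (Fin 2) F) : ∀ Y ∈ K0 F,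
    (a : Matrix (Fin 2) (Fin 2) F) * Y * ((a⁻¹ : GL (Fin 2) F) : Matrix (Fin 2) (Fin 2) F) ∈ K0 F := by
  have h11 := two_eq_zero hq
  let ω : Matrix (Fin 2) (Fin 2) F := !![0, 1; 1, 1]
  have hω : (a : Matrix (Fin 2) (Fin 2) F) * ω * ((a⁻¹ : GL (Fin 2) F) : Matrix (Fin 2) (Fin 2) F) ∈ K0 F := by
    set X := (a : Matrix (Fin 2) (Fin 2) F) * ω * ((a⁻¹ : GL (Fin 2) F) : Matrix (Fin 2) (Fin 2) F) with hX
    have htr : X.trace = 1 := by
      rw [hX, Matrix.trace_mul_comm, ← mul_assoc, ← Units.val_mul, inv_mul_cancel, Units.val_one, one_mul,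
        Matrix.trace_fin_two]
      simp [ω]
    have hdet : X.det = 1 := by
      have h0 : ω.det = 1 := by
        rw [Matrix.det_fin_two]
        simp only [ω, Matrix.of_apply, Matrix.cons_val', Matrix.cons_val_zero, Matrix.cons_val_one]
        linear_combination -h11
      rw [hX, Matrix.det_mul, Matrix.det_mul, h0, mul_one, ← Matrix.det_mul, ← Units.val_mul, mul_inv_cancel,
        Units.val_one, Matrix.det_one]
    rw [Matrix.trace_fin_two] at htr
    rw [Matrix.det_fin_two] at hdet
    refine mem_K0.mpr ?_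
    have hprod : X 0 1 * X 1 0 ≠ 0 := by
      intro h0
      rw [h0, sub_zero] at hdet
      rcases zero_or_one hq (X 0 0) with h1 | h1
      · rw [h1, zero_mul] at hdet; exact zero_ne_one hdet
      · rw [h1] at htr hdet
        rw [one_mul] at hdet
        rw [hdet, h11] at htr
        exact zero_ne_one htr
    have h01 : X 0 1 = 1 := (zero_or_one hq _).resolve_left (left_ne_zero_of_mul hprod)
    have h10 : X 1 0 = 1 := (zero_or_one hq _).resolve_left (right_ne_zero_of_mul hprod)
    refine ⟨by rw [h01, h10], ?_⟩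
    rw [h01]
    linear_combination htr - (X 0 0) * h11
  intro Y hY
  have hdecomp : Y = (Y 0 0) • (1 : Matrix (Fin 2) (Fin 2) F) + (Y 0 1) • ω := by
    ext i j
    fin_cases i <;> fin_cases j
    · simp [ω]
    · simp [ω]
    · change Y 1 0 = _
      rw [← hY.1]; simp [ω]
    · change Y 1 1 = _
      rw [hY.2]; simp [ω]
  rw [hdecomp, mul_add, add_mul, Matrix.mul_smul, Matrix.mul_smul, Matrix.smul_mul, Matrix.smul_mul, mul_one,
    ← Units.val_mul, mul_inv_cancel, Units.val_one]
  exact (K0 F).add_mem ((K0 F).smul_mem (K0 F).one_mem _) ((K0 F).smul_mem hω _)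

/-- the tensor group of a plane over the field with two elements normalises a quadratic field -/
theorem tensor_two [Fintype F] (hq : Fintype.card F = 2) {k : ℕ} (hk : 0 < k) (e : ι ≃ Fin 2 × Fin k) (P : GL ι F) :
    ∃ K : Subalgebra F (Matrix ι ι F), IsFieldSubalgebra 2 K ∧ tensorProductSubgroup 2 k e P ≤ subalgebraNormalizer K := by
  classical
  let φ0 : Matrix (Fin 2) (Fin 2) F →ₐ[F] Matrix (Fin 2 × Fin k) (Fin 2 × Fin k) F :=
    { toFun := fun Y => Y ⊗ₖ (1 : Matrix (Fin k) (Fin k) F)
      map_one' := Matrix.one_kronecker_one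
      map_mul' := fun X Y => by rw [← Matrix.mul_kronecker_mul, mul_one]
      map_zero' := Matrix.zero_kronecker _
      map_add' := fun X Y => Matrix.add_kronecker _ _ _
      commutes' := fun c => by
        rw [Algebra.algebraMap_eq_smul_one, Matrix.smul_kronecker, Matrix.one_kronecker_one,
          Algebra.algebraMap_eq_smul_one] }
  let φ : Matrix (Fin 2) (Fin 2) F →ₐ[F] Matrix ι ι F :=
    ((cr e P : Matrix (Fin 2 × Fin k) (Fin 2 × Fin k) F ≃ₐ[F] Matrix ι ι F) :
      Matrix (Fin 2 × Fin k) (Fin 2 × Fin k) F →ₐ[F] Matrix ι ι F).comp φ0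
  have hφ : ∀ Y, φ Y = cr e P (Y ⊗ₖ (1 : Matrix (Fin k) (Fin k) F)) := fun Y => rfl
  have hinj : Function.Injective φ := by
    intro X Y hXY
    have h1 := (cr e P).injective hXY
    ext i j
    have h2 := congrFun (congrFun h1 (i, ⟨0, hk⟩)) (j, ⟨0, hk⟩)
    simpa [φ0, Matrix.kroneckerMap_apply] using h2
  refine ⟨(K0 F).map φ, ⟨?_, ?_, ?_⟩, ?_⟩
  · rintro _ ⟨X, hX, rfl⟩ _ ⟨Y, hY, rfl⟩
    change φ X * φ Y = φ Y * φ X
    rw [← map_mul, ← map_mul, K0_comm X hX Y hY]
  · rintro _ ⟨X, hX, rfl⟩ hX0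
    obtain ⟨Y, hY, hXY⟩ := K0_inv hq X hX (fun h => hX0 (by rw [h]; exact map_zero φ))
    exact ⟨φ Y, ⟨Y, hY, rfl⟩, by
      change φ X * φ Y = 1
      rw [← map_mul, hXY, map_one]⟩
  · have h1 := LinearEquiv.finrank_eq (Submodule.equivMapOfInjective φ.toLinearMap hinj (Subalgebra.toSubmodule (K0 F)))
    have h2 : Module.finrank F (Subalgebra.toSubmodule (K0 F)) = 2 := K0_finrank
    rw [h2] at h1
    exact h1.symm
  · apply le_subalgebraNormalizer
    intro g hg x hx
    obtain ⟨Y, hY, rfl⟩ := hx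
    obtain ⟨a, b, hab⟩ := (mem_tensorProductSubgroup_iff e P g).mp hg
    have hgi : ((g⁻¹ : GL ι F) : Matrix ι ι F) = cr e P (((a⁻¹ : GL (Fin 2) F) : Matrix (Fin 2) (Fin 2) F) ⊗ₖ
        ((b⁻¹ : GL (Fin k) F) : Matrix (Fin k) (Fin k) F)) := by
      have h1 : (g : Matrix ι ι F) * cr e P (((a⁻¹ : GL (Fin 2) F) : Matrix (Fin 2) (Fin 2) F) ⊗ₖ
        ((b⁻¹ : GL (Fin k) F) : Matrix (Fin k) (Fin k) F)) = 1 := by
        rw [hab, ← map_mul, ← Matrix.mul_kronecker_mul, ← Units.val_mul, ← Units.val_mul, mul_inv_cancel,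
          mul_inv_cancel, Units.val_one, Units.val_one, Matrix.one_kronecker_one, map_one]
      calc ((g⁻¹ : GL ι F) : Matrix ι ι F) = ((g⁻¹ : GL ι F) : Matrix ι ι F) * ((g : Matrix ι ι F) * cr e P
            (((a⁻¹ : GL (Fin 2) F) : Matrix (Fin 2) (Fin 2) F) ⊗ₖ
            ((b⁻¹ : GL (Fin k) F) : Matrix (Fin k) (Fin k) F))) := by rw [h1, mul_one]
        _ = _ := by rw [← mul_assoc, ← Units.val_mul, inv_mul_cancel, Units.val_one, one_mul]
    refine ⟨_, K0_norm hq a Y hY, ?_⟩
    change φ _ = (g : Matrix ι ι F) * φ Y * ((g⁻¹ : GL ι F) : Matrix ι ι F)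
    rw [hab, hgi, hφ, hφ, ← map_mul, ← map_mul, ← Matrix.mul_kronecker_mul, ← Matrix.mul_kronecker_mul, mul_one,
      ← Units.val_mul b, mul_inv_cancel, Units.val_one]

/-- tensor decompositions with a plane, q = 2 -/
theorem tensor_small [Fintype F] {n : ℕ} (hn : 3 ≤ n) {H : Subgroup (GL (Fin n) F)}
    (hH : IsMaximalIn (specialLinear (Fin n) F) H) {k : ℕ} (hk : 0 < k) (e : Fin n ≃ Fin 2 × Fin k) (P : GL (Fin n) F)
    (hHD : H = tensorProductSubgroup 2 k e P ⊓ specialLinear (Fin n) F) :
    3 ≤ Fintype.card F ∨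
    (∃ K : Subalgebra F (Matrix (Fin n) (Fin n) F), IsFieldSubalgebra 2 K ∧
      H = subalgebraNormalizer K ⊓ specialLinear (Fin n) F) := by
  have hc : Fintype.card (Fin n) = n := Fintype.card_fin n
  have hle : H ≤ tensorProductSubgroup 2 k e P := by rw [hHD]; exact inf_le_left
  by_cases h5 : 3 ≤ Fintype.card F
  · left; exact h5
  have h1 : 1 < Fintype.card F := Fintype.one_lt_card
  have hq : Fintype.card F = 2 := by omega
  right
  obtain ⟨K, hK, h3⟩ := tensor_two hq hk e P
  exact ⟨K, hK, eq_of_max hH (hle.trans h3) (not_le_field (by omega) (by norm_num) hK)⟩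

/-- two planes in dimension four, q ≤ 3 -/
theorem planes_four [Fintype F] {H : Subgroup (GL (Fin 4) F)}
    (hH : IsMaximalIn (specialLinear (Fin 4) F) H) {D : Fin 2 → Submodule F (Fin 4 → F)}
    (hD : IsMDecomposition 2 D) (hHD : H = decompositionStabilizer D ⊓ specialLinear (Fin 4) F) :
    4 ≤ Fintype.card F ∨
    (∃ f : (Fin 4 → F) → (Fin 4 → F) → F, IsSymplecticForm f ∧
      H = similarityGroup f ⊓ specialLinear (Fin 4) F) := by
  classical
  by_cases h5 : 4 ≤ Fintype.card F
  · left; exact h5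
  have h1 : 1 < Fintype.card F := Fintype.one_lt_card
  right
  have hcases : Fintype.card F = 2 ∨ Fintype.card F = 3 := by omega
  have hsq : ∀ x : F, x ≠ 0 → x * x = 1 := by
    intro x hx
    have := FiniteField.pow_card_sub_one_eq_one x hx
    rcases hcases with hq | hq
    · rw [hq, pow_one] at this
      rw [this, one_mul]
    · rw [hq] at this
      rw [← this]; ring
  obtain ⟨L, -, hL⟩ := block_coords hD
  have hle : H ≤ similarityGroup (pullL L (planes 2 F)) := by
    intro g hg
    rw [hHD] at hg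
    obtain ⟨hg1, hg2⟩ := hg
    obtain ⟨σ, A, hA, h⟩ := hL g hg1
    -- the matrix in block coordinates
    let T : (Fin 2 × Fin 2 → F) →ₗ[F] (Fin 2 × Fin 2 → F) :=
      (L : (Fin 4 → F) →ₗ[F] (Fin 2 × Fin 2 → F)).comp ((Matrix.toLin' (g : Matrix (Fin 4) (Fin 4) F)).comp
        (L.symm : (Fin 2 × Fin 2 → F) →ₗ[F] (Fin 4 → F)))
    have hdetT : LinearMap.det T = 1 := by
      have h2 : LinearMap.det T = LinearMap.det (Matrix.toLin' (g : Matrix (Fin 4) (Fin 4) F)) :=
        LinearMap.det_conj _ L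
      rw [h2, LinearMap.det_toLin']
      have h3 := hg2
      change Matrix.GeneralLinearGroup.det g = 1 at h3
      exact congrArg Units.val h3
    have hTv : ∀ w i a, T w (σ i, a) = ∑ b, A i a b * w (i, b) := by
      intro w i a
      have h2 := h (L.symm w) i a
      rw [LinearEquiv.apply_symm_apply] at h2
      rw [← h2]
      change L (Matrix.toLin' (g : Matrix (Fin 4) (Fin 4) F) (L.symm w)) (σ i, a) = _
      rw [Matrix.toLin'_apply]
    let BD : Matrix (Fin 2 × Fin 2) (Fin 2 × Fin 2) F := fun p q => if p.1 = q.1 then A q.1 p.2 q.2 else 0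
    have hBD : BD.det = (A 0).det * (A 1).det := by
      have h2 : BD = (Matrix.blockDiagonal A).submatrix (Equiv.prodComm _ _) (Equiv.prodComm _ _) := by
        ext ⟨i, a⟩ ⟨j, b⟩
        simp only [BD, Matrix.submatrix_apply, Equiv.prodComm_apply, Prod.swap_prod_mk, Matrix.blockDiagonal_apply]
        by_cases hij : i = j
        · subst hij; rfl
        · rw [if_neg hij, if_neg hij]
      rw [h2, Matrix.det_submatrix_equiv_self, Matrix.det_blockDiagonal, Fin.prod_univ_two]
    let π : Equiv.Perm (Fin 2 × Fin 2) := Equiv.prodCongr σ (Equiv.refl _)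
    have hTm : LinearMap.toMatrix' T = BD.submatrix π.symm id := by
      ext p q
      obtain ⟨i, a⟩ := p
      obtain ⟨j, b⟩ := q
      obtain ⟨k, rfl⟩ := σ.surjective i
      rw [LinearMap.toMatrix'_apply, hTv, Matrix.submatrix_apply]
      have h3 : π.symm (σ k, a) = (k, a) := by
        rw [Equiv.symm_apply_eq]; rfl
      rw [h3]
      change _ = if k = j then A j a b else 0
      by_cases hkj : k = j
      · subst hkj
        rw [if_pos rfl, Finset.sum_eq_single b]
        · simp
        · intro c _ hc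
          simp [hc]
        · intro hh; exact absurd (Finset.mem_univ _) hh
      · rw [if_neg hkj]
        apply Finset.sum_eq_zero
        intro c _
        simp [hkj]
    have hsign : ∀ σ : Equiv.Perm (Fin 2), Equiv.Perm.sign (Equiv.prodCongr σ (Equiv.refl (Fin 2))) = 1 := by decide
    have hdet2 : (A 0).det * (A 1).det = 1 := by
      have h3 : LinearMap.det T = (LinearMap.toMatrix' T).det := (LinearMap.det_toMatrix' T).symm
      rw [h3, hTm] at hdetT
      have h4 : (BD.submatrix π.symm id).det = (Equiv.Perm.sign π.symm : ℤ) * BD.det := Matrix.det_permute π.symm BD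
      rw [h4, Equiv.Perm.sign_symm, hsign σ] at hdetT
      rw [← hBD]
      simpa using hdetT
    have hA0 : (A 0).det * (A 0).det = 1 := hsq _ ((Matrix.isUnit_iff_isUnit_det _).mp (hA 0)).ne_zero
    have hA0' : (A 0).det ≠ 0 := ((Matrix.isUnit_iff_isUnit_det _).mp (hA 0)).ne_zero
    have heq : (A 1).det = (A 0).det := mul_left_cancel₀ hA0' (by rw [hdet2, hA0])
    refine ⟨Units.mk0 _ hA0', fun u v => ?_⟩
    refine planes_block σ A (A 0).det ?_ (h u) (h v)
    intro i
    fin_cases i
    · rfl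
    · exact heq
  have hs := pullL_symplectic L (planes_symplectic (F := F) 2)
  exact ⟨_, hs, eq_of_max hH hle (not_le_similarity (by rw [Fintype.card_fin]; norm_num) (IsSesq.of_bilinear hs.bilinear)
      (fun v hv => (hs.nondegenerate v hv).1))⟩

end H97.AschElim
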