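import Mathlib
import Cfsg.Agent.Lib.H97.AschNCSp
import Cfsg.Agent.Lib.H97.AschFin

/-!
Aschbacher library, part 41: the list of maximal subgroups of the symplectic groups.
-/

set_option autoImplicit false
set_option linter.unusedSectionVars false

namespace H97.AschSpCases

open Cfsg Cfsg.Geo Matrix H97.AschRad H97.AschUnits H97.AschCS H97.AschTensor H97.AschEnv H97.AschNonab
open H97.AschForm H97.AschNC H97.AschNC2 H97.AschNC3 H97.AschNil H97.AschCases H97.AschNCSp H97.AschFin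
open H96.AschSympType1 H96.AschSympType2 H96.AschSympType5 H96.AschAdj H96.AschSp H96.AschSp2
open scoped Kronecker

section general

variable {ι : Type} [Fintype ι] [DecidableEq ι] {F : Type*} [Field F]

/-- a subfield of self-adjoint elements with `f(kv,v) = 0` has degree dividing half of the dimension -/
theorem dvd_half {σ : F ≃+* F} {ε : F} {f : (ι → F) → (ι → F) → F} (h : HForm σ ε f) {r : ℕ}
    {K : Subalgebra F (Matrix ι ι F)} (hK : IsFieldSubalgebra r K) (hsa : IsSelfAdjointFor f K)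
    (halt : ∀ k ∈ K, ∀ v, f (k *ᵥ v) v = 0) : ∃ d : ℕ, r ∣ d ∧ 2 * d = Fintype.card ι := by
  classical
  let S : Set ℕ := {d | ∃ W : Submodule F (ι → F), (∀ k ∈ K, ∀ w ∈ W, k *ᵥ w ∈ W) ∧ (∀ u ∈ W, ∀ v ∈ W, f u v = 0) ∧
    r ∣ Module.finrank F W ∧ Module.finrank F W = d}
  have hS0 : (0 : ℕ) ∈ S := by
    refine ⟨⊥, ?_, ?_, ?_, finrank_bot _ _⟩
    · intro k _ w hw
      rw [Submodule.mem_bot] at hw ⊢
      rw [hw, Matrix.mulVec_zero]
    · intro u hu v _
      rw [(Submodule.mem_bot F).mp hu]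
      exact h.sesq.zero_left v
    · rw [finrank_bot]; exact dvd_zero _
  have hbdd : ∀ d ∈ S, d ≤ Fintype.card ι := by
    rintro d ⟨W, -, -, -, rfl⟩
    have := Submodule.finrank_le W
    rwa [Module.finrank_fintype_fun_eq_card] at this
  obtain ⟨d, hd, hmax⟩ : ∃ d ∈ S, ∀ d' ∈ S, d' ≤ d := by
    have hfin : S.Finite := (Set.finite_Iic (Fintype.card ι)).subset hbdd
    obtain ⟨d, hd, hmax⟩ := Set.exists_max_image S id hfin ⟨0, hS0⟩
    exact ⟨d, hd, hmax⟩
  obtain ⟨W, h1, h2, h3, h4⟩ := hd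
  have hW : h.perp W = W := by
    by_contra hne
    have hle : W ≤ h.perp W := fun w hw v hv => h2 w hw v hv
    obtain ⟨v, hv, hvW⟩ : ∃ v ∈ h.perp W, v ∉ W := by
      by_contra hcon
      push Not at hcon
      exact hne (le_antisymm hcon hle)
    have hvw : ∀ w ∈ W, f v w = 0 := hv
    have hwv : ∀ w ∈ W, f w v = 0 := h.mem_perp'.mp hv
    let ev : Matrix ι ι F →ₗ[F] (ι → F) :=
      { toFun := fun X => X *ᵥ v
        map_add' := fun X Y => Matrix.add_mulVec _ _ _
        map_smul' := fun c X => Matrix.smul_mulVec _ _ _ }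
    let Kv : Submodule F (ι → F) := (Subalgebra.toSubmodule K).map ev
    have hmemK : ∀ x, x ∈ Kv ↔ ∃ k ∈ K, k *ᵥ v = x := fun x => Iff.rfl
    have hv0 : v ≠ 0 := by rintro rfl; exact hvW W.zero_mem
    have hinjK : ∀ k ∈ K, k *ᵥ v = 0 → k = 0 := by
      intro k hk hkv
      by_contra hk0
      obtain ⟨y, hy, hxy⟩ := hK.inv k hk hk0
      have hyx : y * k = 1 := by rw [hK.comm y hy k hk]; exact hxy
      have : v = 0 := by
        calc v = (y * k) *ᵥ v := by rw [hyx, Matrix.one_mulVec]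
          _ = 0 := by rw [← Matrix.mulVec_mulVec, hkv, Matrix.mulVec_zero]
      exact hv0 this
    have hKvr : Module.finrank F Kv = r := by
      rw [← hK.finrank_eq]
      have hinj : Function.Injective (ev.comp (Subalgebra.toSubmodule K).subtype) := by
        rw [← LinearMap.ker_eq_bot, LinearMap.ker_eq_bot']
        rintro ⟨k, hk⟩ hk0
        exact Subtype.ext (hinjK k hk hk0)
      have h5 := LinearMap.finrank_range_of_inj hinj
      have h6 : LinearMap.range (ev.comp (Subalgebra.toSubmodule K).subtype) = Kv := by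
        rw [LinearMap.range_comp, Submodule.range_subtype]
      rw [h6] at h5
      exact h5
    have hdisj : Disjoint W Kv := by
      rw [Submodule.disjoint_def]
      rintro x hxW hxK
      obtain ⟨k, hk, rfl⟩ := (hmemK x).mp hxK
      by_contra hx0
      have hk0 : k ≠ 0 := by
        rintro rfl
        exact hx0 (Matrix.zero_mulVec _)
      obtain ⟨y, hy, hxy⟩ := hK.inv k hk hk0
      have hyx : y * k = 1 := by rw [hK.comm y hy k hk]; exact hxy
      apply hvW
      have h5 := h1 y hy _ hxW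
      rwa [Matrix.mulVec_mulVec, hyx, Matrix.one_mulVec] at h5
    have hsum : Module.finrank F (W ⊔ Kv : Submodule F (ι → F)) = Module.finrank F W + r := by
      have h5 := Submodule.finrank_sup_add_finrank_inf_eq W Kv
      rw [disjoint_iff.mp hdisj, finrank_bot, add_zero, hKvr] at h5
      exact h5
    have hmem : Module.finrank F W + r ∈ S := by
      refine ⟨W ⊔ Kv, ?_, ?_, ?_, hsum⟩
      · intro k hk w hw
        obtain ⟨a, ha, b, hb, rfl⟩ := Submodule.mem_sup.mp hw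
        obtain ⟨l, hl, rfl⟩ := (hmemK b).mp hb
        rw [Matrix.mulVec_add, Matrix.mulVec_mulVec]
        exact Submodule.add_mem _ (Submodule.mem_sup_left (h1 k hk a ha))
          (Submodule.mem_sup_right ((hmemK _).mpr ⟨k * l, K.mul_mem hk hl, rfl⟩))
      · intro x hx y hy
        obtain ⟨a, ha, b, hb, rfl⟩ := Submodule.mem_sup.mp hx
        obtain ⟨k, hk, rfl⟩ := (hmemK b).mp hb
        obtain ⟨a', ha', b', hb', rfl⟩ := Submodule.mem_sup.mp hy
        obtain ⟨k', hk', rfl⟩ := (hmemK b').mp hb'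
        rw [h.sesq.add_left, h.sesq.add_right, h.sesq.add_right, h2 a ha a' ha', hsa k hk v a', hvw _ (h1 k hk a' ha'),
          ← hsa k' hk' a v, hwv _ (h1 k' hk' a ha), ← hsa k' hk' (k *ᵥ v) v, Matrix.mulVec_mulVec,
          halt _ (K.mul_mem hk' hk) v]
        simp
      · rw [hsum]; exact dvd_add h3 dvd_rfl
    have h5 := hmax _ hmem
    have hr : 0 < r := by
      rw [← hK.finrank_eq]
      have hne : Nonempty ι := by
        obtain ⟨i, -⟩ := Function.ne_iff.mp hv0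
        exact ⟨i⟩
      have : Nontrivial K := ⟨⟨0, 1, fun h => zero_ne_one (congrArg Subtype.val h)⟩⟩
      exact Module.finrank_pos
    omega
  refine ⟨Module.finrank F W, h3, ?_⟩
  have h5 := h.finrank_perp W
  rw [hW] at h5
  omega

/-- nondegenerate subspaces have even dimension -/
theorem even_of_nondegOn {f : (ι → F) → (ι → F) → F} (hf : IsSymplecticForm f) {W : Submodule F (ι → F)}
    (hW : IsNondegenerateOn f W) : Even (Module.finrank F W) := by
  let b := Module.finBasis F W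
  let f' : (Fin (Module.finrank F W) → F) → (Fin (Module.finrank F W) → F) → F :=
    fun x y => f (b.equivFun.symm x : ι → F) (b.equivFun.symm y : ι → F)
  have h1 : IsSymplecticForm f' := by
    refine ⟨⟨?_, ?_, ?_, ?_⟩, ?_, ?_, ?_⟩
    · intro x y v
      simp only [f', map_add, Submodule.coe_add, hf.bilinear.add_left]
    · intro c x v
      simp only [f', map_smul, Submodule.coe_smul, hf.bilinear.smul_left]
    · intro v x y
      simp only [f', map_add, Submodule.coe_add, hf.bilinear.add_right]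
    · intro c v x
      simp only [f', map_smul, Submodule.coe_smul, hf.bilinear.smul_right]
    · intro v w; exact hf.skew _ _
    · intro v; exact hf.alternating _
    · intro v hv
      have hv' : ((b.equivFun.symm v : W) : ι → F) ≠ 0 := by
        intro h
        apply hv
        have h2 : b.equivFun.symm v = 0 := Subtype.ext h
        exact (LinearEquiv.map_eq_zero_iff _).mp h2
      obtain ⟨⟨x, hx, hx'⟩, ⟨y, hy, hy'⟩⟩ := hW _ (b.equivFun.symm v).2 hv'
      refine ⟨⟨b.equivFun ⟨x, hx⟩, ?_⟩, ⟨b.equivFun ⟨y, hy⟩, ?_⟩⟩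
      · change f ((b.equivFun.symm (b.equivFun ⟨x, hx⟩) : W) : ι → F) _ ≠ 0
        rw [LinearEquiv.symm_apply_apply]; exact hx'
      · change f _ ((b.equivFun.symm (b.equivFun ⟨y, hy⟩) : W) : ι → F) ≠ 0
        rw [LinearEquiv.symm_apply_apply]; exact hy'
  have h2 := H97.AschLinear.even_of_symplectic h1
  rwa [Fintype.card_fin] at h2

end general

variable {F : Type*} [Field F] {m : ℕ}

/-- **the list of maximal subgroups of the symplectic groups** -/
theorem sp_cases [Fintype F] (hm : 2 ≤ m) {H : Subgroup (GL (Fin m ⊕ Fin m) F)} (hH : IsMaximalIn (spGL m F) H) :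
    (∃ W : Submodule F (Fin m ⊕ Fin m → F), W ≠ ⊥ ∧ IsTotallySingularFor (sympForm m F) W ∧
      H = subspaceStabilizer W ⊓ spGL m F) ∨
    (∃ W : Submodule F (Fin m ⊕ Fin m → F), W ≠ ⊥ ∧ IsNondegenerateOn (sympForm m F) W ∧ Module.finrank F W < m ∧
      H = subspaceStabilizer W ⊓ spGL m F) ∨
    (∃ (t k : ℕ) (D : Fin t → Submodule F (Fin m ⊕ Fin m → F)), IsNondegenerateMDecomposition (sympForm m F) k D ∧
      2 ≤ t ∧ 2 ≤ k ∧ Even k ∧ 2 * m = t * k ∧ H = decompositionStabilizer D ⊓ spGL m F) ∨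
    (Odd (Fintype.card F) ∧ ∃ D : Fin 2 → Submodule F (Fin m ⊕ Fin m → F), IsMDecomposition m D ∧
      (∀ i, IsTotallySingularFor (sympForm m F) (D i)) ∧ H = decompositionStabilizer D ⊓ spGL m F) ∨
    (∃ (r : ℕ) (K : Subalgebra F (Matrix (Fin m ⊕ Fin m) (Fin m ⊕ Fin m) F)), r.Prime ∧ r ∣ m ∧ IsFieldSubalgebra r K ∧
      IsSelfAdjointFor (sympForm m F) K ∧ (∀ k ∈ K, ∀ v, sympForm m F (k *ᵥ v) v = 0) ∧
      H = subalgebraNormalizer K ⊓ spGL m F) ∨
    (Odd (Fintype.card F) ∧ ∃ K : Subalgebra F (Matrix (Fin m ⊕ Fin m) (Fin m ⊕ Fin m) F), IsFieldSubalgebra 2 K ∧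
      IsAdjointClosedFor (sympForm m F) K ∧ ¬ IsSelfAdjointFor (sympForm m F) K ∧ H = subalgebraNormalizer K ⊓ spGL m F) ∨
    (Odd (Fintype.card F) ∧ ∃ (n₁ n₂ : ℕ) (e : (Fin m ⊕ Fin m) ≃ Fin n₁ × Fin n₂) (P : GL (Fin m ⊕ Fin m) F)
      (f₁ : (Fin n₁ → F) → (Fin n₁ → F) → F) (f₂ : (Fin n₂ → F) → (Fin n₂ → F) → F), Even n₁ ∧ 2 ≤ n₁ ∧ 3 ≤ n₂ ∧
      2 * m = n₁ * n₂ ∧ IsSymplecticForm f₁ ∧ IsSymmetricForm f₂ ∧ IsTensorFormStructure id (sympForm m F) f₁ f₂ e P ∧
      H = tensorProductSubgroup n₁ n₂ e P ⊓ spGL m F) ∨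
    (∃ (F₀ : Subfield F) (r : ℕ) (P : GL (Fin m ⊕ Fin m) F) (ζ : F), r.Prime ∧ Fintype.card F = Nat.card F₀ ^ r ∧ ζ ≠ 0 ∧
      IsFormRationalStructure (sympForm m F) F₀ ζ P ∧ H = subfieldSubgroup F₀ P ⊓ spGL m F) ∨
    (∃ (R : Subgroup (GL (Fin m ⊕ Fin m) F)) (p k : ℕ), IsSymplecticTypeGroup 2 R ∧
      ActsAbsolutelyIrreducibly (matrixSet R) ∧ R ≤ similarityGroup (sympForm m F) ∧ p.Prime ∧ Odd p ∧
      Fintype.card F = p ∧ Nat.card R = 2 ^ (1 + 2 * k) ∧ Nat.card (Subgroup.center R) = 2 ∧ IsOfMinusType k R ∧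
      2 * m = 2 ^ k ∧ H = subgroupNormalizer R ⊓ spGL m F) ∨
    (Odd (Fintype.card F) ∧ ∃ (k t : ℕ) (e : (Fin m ⊕ Fin m) ≃ (Fin t → Fin k)) (P : GL (Fin m ⊕ Fin m) F)
      (f₁ : (Fin k → F) → (Fin k → F) → F), Even k ∧ 2 ≤ k ∧ Odd t ∧ 3 ≤ t ∧ 2 * m = k ^ t ∧
      ¬ (Fintype.card F = 3 ∧ k = 2) ∧ IsSymplecticForm f₁ ∧ IsTensorPowerFormStructure id (sympForm m F) f₁ e P ∧
      H = tensorWreathSubgroup k t e P ⊓ spGL m F) ∨
    (¬ Odd (Fintype.card F) ∧ ∃ Q : (Fin m ⊕ Fin m → F) → F, IsNondegenerateQuadraticForm Q ∧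
      (∀ u v, QuadraticMap.polar Q u v = sympForm m F u v) ∧ H = quadSimilarityGroup Q ⊓ spGL m F) ∨
    InSymplecticResidualClass H := by
  have hne := nonempty_index (m := m) (by omega)
  have key : ∀ {X : Subgroup (GL (Fin m ⊕ Fin m) F)}, H ≤ X ⊓ spGL m F → ¬ spGL m F ≤ X → H = X ⊓ spGL m F :=
    fun hle hnot => eq_of_max hH (hle.trans inf_le_left) hnot
  rcases sp_theorem (m := m) (by omega) hH.1.le with ⟨M, hM, hle⟩ | h
  swap
  · iterate 11 right
    exact h
  rcases hM with (⟨W, h1, h2, rfl⟩ | ⟨W, h1, h2, h3, rfl⟩ | ⟨t, k, D, hD, rfl⟩ | ⟨D, hodd, h1, h2, rfl⟩ |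
    ⟨F₀, r, P, ζ, h1, h2, h3, h4, rfl⟩ | ⟨R, p, k, h1, h2, h3, h4, h5, h6, h7, h8, h9, rfl⟩ | ⟨Q, h1, h2, h3, rfl⟩) |
    ⟨r, K, h1, h2, h3, h4, rfl⟩ | ⟨K, hodd, h1, h2, h3, rfl⟩ |
    ⟨n₁, n₂, e, P, f₁, f₂, hodd, h1, h2, h3, h4, rfl⟩ | ⟨k, t, e, P, f₁, hodd, h1, h2, h3, h4, h5, rfl⟩
  · left
    refine ⟨W, h1, h2, key hle (sp_not_subspace h1 ?_)⟩
    rintro rfl
    obtain ⟨w, hw⟩ : ∃ w : Fin m ⊕ Fin m → F, w ≠ 0 := exists_ne 0
    obtain ⟨x, hx⟩ := sympForm_nd w hw
    exact hx (h2 w Submodule.mem_top x Submodule.mem_top)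
  · right; left
    refine ⟨W, h1, h2, h3, key hle (sp_not_subspace h1 ?_)⟩
    rintro rfl
    rw [finrank_top, Module.finrank_fintype_fun_eq_card, card_index] at h3
    omega
  · iterate 2 right
    left
    have ht := hD.decomp.two_le
    have h1 := H97.AschBlock.card_decomposition hD.decomp
    rw [card_index] at h1
    have h2 : 2 ≤ k := by
      have h3 := two_le_of_nondeg (sympForm_symplectic m F) (hD.nondegenerate ⟨0, by omega⟩)
        (by rw [hD.decomp.finrank_eq]; exact hD.decomp.pos)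
      rwa [hD.decomp.finrank_eq] at h3
    refine ⟨t, k, D, hD, ht, h2, ?_, h1, key hle (sp_not_decomp h2 hD.decomp)⟩
    have h3 := even_of_nondegOn (sympForm_symplectic m F) (hD.nondegenerate ⟨0, by omega⟩)
    rwa [hD.decomp.finrank_eq] at h3
  · iterate 3 right
    left
    exact ⟨hodd, D, h1, h2, key hle (sp_not_decomp hm h1)⟩
  · iterate 7 right
    left
    exact ⟨F₀, r, P, ζ, h1, h2, h3, h4, key hle (sp_not_subfield (by omega) (ne_top_of_card h1 h2) P)⟩
  · iterate 8 right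
    left
    refine ⟨R, p, k, h1, h2, h3, h4, h5, h6, h7, h8, h9, ?_, key hle (sp_not_type hm h1 h2)⟩
    have h10 := type_card h1 (full_of_absIrr h2)
    rw [h7, h8, card_index] at h10
    have h11 : (2 * m) ^ 2 = (2 ^ k) ^ 2 := by
      have : 2 ^ (1 + 2 * k) = (2 ^ k) ^ 2 * 2 := by ring
      rw [this] at h10
      omega
    exact (Nat.pow_left_injective (n := 2) (by norm_num) h11)
  · iterate 10 right
    left
    exact ⟨h1, Q, h2, h3, key hle (sp_not_quad (two_eq_zero_of_even h1) hm h2 h3)⟩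
  · iterate 4 right
    left
    obtain ⟨d, hd1, hd2⟩ := dvd_half (sp_hform m F) h2 h3 h4
    rw [card_index] at hd2
    have : d = m := by omega
    exact ⟨r, K, h1, this ▸ hd1, h2, h3, h4, key hle (sp_not_field hm h1.one_lt.ne' h2)⟩
  · iterate 5 right
    left
    exact ⟨hodd, K, h1, h2, h3, key hle (sp_not_field hm (by norm_num) h1)⟩
  · iterate 6 right
    left
    have h5 := card_eq_of_equiv e
    rw [card_index] at h5
    have h6 := H97.AschLinear.even_of_symplectic h2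
    rw [Fintype.card_fin] at h6
    have h7 : 2 ≤ n₁ := by
      rcases Nat.eq_zero_or_pos n₁ with h8 | h8
      · subst h8; omega
      · obtain ⟨c, hc⟩ := h6; omega
    exact ⟨hodd, n₁, n₂, e, P, f₁, f₂, h6, h7, h1, h5, h2, h3, h4, key hle (sp_not_tensor (by omega) e P h7 h1)⟩
  · iterate 9 right
    left
    have h6 := H97.AschLinear.even_of_symplectic h4
    rw [Fintype.card_fin] at h6
    have h7 : 2 * m = k ^ t := by
      have := Fintype.card_congr e
      rw [card_index] at this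
      simpa using this
    have h8 : 2 ≤ k := by
      rcases Nat.eq_zero_or_pos k with h8 | h8
      · subst h8
        rw [zero_pow (by omega)] at h7
        omega
      · obtain ⟨c, hc⟩ := h6; omega
    exact ⟨hodd, k, t, e, P, f₁, h6, h8, h1, h2, h7, h3, h4, h5, key hle (sp_not_wreath (by omega) e P h8 (by omega) (Or.inr h2))⟩

end H97.AschSpCases
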