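import Mathlib
import Cfsg.Agent.Lib.H97.AschFrame
import Cfsg.Agent.Lib.H97.AschSpCases
import Cfsg.Agent.Lib.H97.AschElim
import Cfsg.Agent.Lib.H96.AschForms

/-!
Aschbacher library, part 43: eliminations over the fields with two and three elements, symplectic groups.
-/

set_option autoImplicit false
set_option linter.unusedSectionVars false

namespace H97.AschSpElim

open Cfsg Cfsg.Geo Matrix H97.AschRad H97.AschUnits H97.AschSkolem H97.AschCS H97.AschTensor H97.AschEnv
open H97.AschGrp H97.AschNonab H97.AschForm H97.AschTwo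
open H97.AschWreath H97.AschWreathNorm H97.AschLinear H97.AschTF H97.AschTP H97.AschPos H97.AschPosE H97.AschPosH
open H97.AschPosI H97.AschPosJ H96.AschAdj H96.AschSympType5 H97.AschFrame H96.AschSp H96.AschSp2
open scoped Kronecker

/-- over the field with three elements a symmetric three-dimensional factor is monomial -/
theorem sp_three {F : Type*} [Field F] [Fintype F] {m : ℕ} (hF3 : Fintype.card F = 3)
    {H : Subgroup (GL (Fin m ⊕ Fin m) F)} (hH : H ≤ spGL m F) {n₁ : ℕ} (hn₁ : 0 < n₁)
    {e : (Fin m ⊕ Fin m) ≃ Fin n₁ × Fin 3} {P : GL (Fin m ⊕ Fin m) F} (hle : H ≤ tensorProductSubgroup n₁ 3 e P)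
    {f₁ : (Fin n₁ → F) → (Fin n₁ → F) → F} {f₂ : (Fin 3 → F) → (Fin 3 → F) → F} (h1 : IsSymplecticForm f₁)
    (h2 : IsSymmetricForm f₂) (hs : IsTensorFormStructure id (sympForm m F) f₁ f₂ e P) :
    ∃ D : Fin 3 → Submodule F (Fin m ⊕ Fin m → F), IsNondegenerateMDecomposition (sympForm m F) n₁ D ∧
      H ≤ decompositionStabilizer D := by
  have h20 : (2 : F) ≠ 0 := two_ne_zero_of_odd (by rw [hF3]; decide)
  obtain ⟨c, hc, hpos⟩ := tpos_of_struct (σ := RingEquiv.refl F) (IsSesq.of_bilinear h1.bilinear)
    (fun v hv => (h1.nondegenerate v hv).2) (IsSesq.of_bilinear h2.bilinear) (fun v hv => (h2.nondegenerate v hv).2) hle hs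
  have hG2s : (gramMatrix f₂)ᵀ = gramMatrix f₂ := by
    ext i j
    exact h2.symm _ _
  obtain ⟨B, l, hl, hB⟩ := H96.AschForms.symm_equiv h20 (by rw [Fintype.card_fin]; decide) hpos.u2
    (isUnit_one : IsUnit (1 : Matrix (Fin 3) (Fin 3) F)) hG2s Matrix.transpose_one
  have h3 := TPos.change hpos 1 B
  have hB' : (B : Matrix (Fin 3) (Fin 3) F)ᵀ * gramMatrix f₂ * (B : Matrix (Fin 3) (Fin 3) F).map (RingEquiv.refl F) =
      l • (1 : Matrix (Fin 3) (Fin 3) F) := hB
  rw [hB'] at h3
  refine frame (sp_hform m F) hH hn₁ (by norm_num) hl h3 ?_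
  intro b c hc0 hb
  have hb1 : (b : Matrix (Fin 3) (Fin 3) F)ᵀ * (b : Matrix (Fin 3) (Fin 3) F) = c • (1 : Matrix (Fin 3) (Fin 3) F) := hb
  have hsq : ∀ x : F, x ≠ 0 → x * x = 1 := by
    intro x hx
    have := FiniteField.pow_card_sub_one_eq_one x hx
    rw [hF3] at this
    rw [← this]; ring
  have h5 := congrArg Matrix.det hb1
  have hdet : (b : Matrix (Fin 3) (Fin 3) F).det ≠ 0 := ((Matrix.isUnit_iff_isUnit_det _).mp b.isUnit).ne_zero
  rw [Matrix.det_mul, Matrix.det_transpose, Matrix.det_smul, Matrix.det_one, mul_one, Fintype.card_fin, hsq _ hdet] at h5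
  have h6 : c = 1 := by
    have h7 := hsq c hc0
    linear_combination (-c) * h7 - h5
  rw [h6, one_smul] at hb1
  exact monomial_three hF3 b hb1

section planes

variable {ι : Type} [Fintype ι] [DecidableEq ι] {F : Type*} [Field F]

/-- block coordinates with the basis vectors -/
theorem block_coords' {t m : ℕ} {D : Fin t → Submodule F (ι → F)} (hD : IsMDecomposition m D) :
    ∃ B : Module.Basis (Fin t × Fin m) F (ι → F), (∀ i a, B (i, a) ∈ D i) ∧
      (∀ i u, u ∈ D i → ∀ j a, j ≠ i → B.equivFun u (j, a) = 0) := by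
  classical
  have hint : DirectSum.IsInternal D :=
    DirectSum.isInternal_submodule_of_iSupIndep_of_iSup_eq_top hD.indep hD.iSup_eq_top
  let b : ∀ i, Module.Basis (Fin m) F (D i) := fun i => Module.finBasisOfFinrankEq F (D i) (hD.finrank_eq i)
  let B0 : Module.Basis (Σ _ : Fin t, Fin m) F (ι → F) := hint.collectedBasis b
  let B : Module.Basis (Fin t × Fin m) F (ι → F) := B0.reindex (Equiv.sigmaEquivProd _ _)
  refine ⟨B, ?_, ?_⟩
  · intro i a
    have := hint.collectedBasis_mem b ⟨i, a⟩
    change B0.reindex (Equiv.sigmaEquivProd _ _) (i, a) ∈ D i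
    rw [Module.Basis.reindex_apply]
    exact this
  · intro i u hu j a hj
    have h1 := hint.collectedBasis_repr_of_mem_ne b (x := u) (i := i) (j := j) (a := a) (by exact fun h => hj h.symm) hu
    change B.equivFun u (j, a) = 0
    rw [Module.Basis.equivFun_apply, Module.Basis.repr_reindex_apply]
    exact h1

/-- over the field with two elements the stabiliser of an orthogonal decomposition into nondegenerate planes preserves
a quadratic form -/
theorem planes_quad [Fintype F] (hq : Fintype.card F = 2) {f : (ι → F) → (ι → F) → F} (hf : IsSymplecticForm f)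
    {t : ℕ} {D : Fin t → Submodule F (ι → F)} (hD : IsNondegenerateMDecomposition f 2 D) :
    ∃ Q : (ι → F) → F, IsNondegenerateQuadraticForm Q ∧ (∀ u v, QuadraticMap.polar Q u v = f u v) ∧
      decompositionStabilizer D ≤ quadSimilarityGroup Q := by
  classical
  have h2 : (1 : F) + 1 = 0 := H97.AschElim.two_eq_zero hq
  have h01 := H97.AschElim.zero_or_one hq
  obtain ⟨B, hB1, hB2⟩ := block_coords' hD.decomp
  let N : F → F → F := fun x y => x ^ 2 + x * y + y ^ 2
  have hN : ∀ x y : F, N x y = if x = 0 ∧ y = 0 then 0 else 1 := by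
    intro x y
    rcases h01 x with rfl | rfl <;> rcases h01 y with rfl | rfl
    · simp [N]
    · simp [N]
    · simp [N]
    · simp [N]
      linear_combination h2
  let Q : (ι → F) → F := fun u => ∑ i, N (B.equivFun u (i, 0)) (B.equivFun u (i, 1))
  -- the values of the form
  have hG : ∀ i, f (B (i, 0)) (B (i, 1)) = 1 := by
    intro i
    rcases h01 (f (B (i, 0)) (B (i, 1))) with h | h
    · exfalso
      have hB0 : B (i, 0) ≠ 0 := B.ne_zero _
      obtain ⟨-, y, hy, hxy⟩ := hD.nondegenerate i _ (hB1 i 0) hB0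
      apply hxy
      have hy' : y = B.equivFun y (i, 0) • B (i, 0) + B.equivFun y (i, 1) • B (i, 1) := by
        conv_lhs => rw [← B.sum_equivFun y]
        rw [Fintype.sum_prod_type, Finset.sum_eq_single i]
        · rw [Fin.sum_univ_two]
        · intro j _ hj
          refine Finset.sum_eq_zero (fun a _ => ?_)
          rw [hB2 i y hy j a hj, zero_smul]
        · intro h; exact absurd (Finset.mem_univ _) h
      rw [hy', hf.bilinear.add_right, hf.bilinear.smul_right, hf.bilinear.smul_right, hf.alternating, h]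
      ring
    · exact h
  have hG' : ∀ i, f (B (i, 1)) (B (i, 0)) = 1 := by
    intro i
    rw [hf.skew, hG]
    linear_combination -h2
  have hsesq := IsSesq.of_bilinear hf.bilinear
  have hexp : ∀ u v, f u v = ∑ i, (B.equivFun u (i, 0) * B.equivFun v (i, 1) + B.equivFun u (i, 1) * B.equivFun v (i, 0)) := by
    intro u v
    conv_lhs => rw [← B.sum_equivFun u, ← B.sum_equivFun v]
    rw [hsesq.sum_left, Fintype.sum_prod_type]
    refine Finset.sum_congr rfl (fun i _ => ?_)
    have hin : ∀ a, f (B.equivFun u (i, a) • B (i, a)) (∑ p, B.equivFun v p • B p) =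
        B.equivFun u (i, a) * (B.equivFun v (i, 0) * f (B (i, a)) (B (i, 0)) + B.equivFun v (i, 1) * f (B (i, a)) (B (i, 1))) := by
      intro a
      rw [hsesq.smul_left, hsesq.sum_right, Fintype.sum_prod_type, Finset.sum_eq_single i]
      · rw [Fin.sum_univ_two, hf.bilinear.smul_right, hf.bilinear.smul_right]
      · intro j _ hj
        refine Finset.sum_eq_zero (fun b _ => ?_)
        rw [hf.bilinear.smul_right, hD.orthogonal i j (Ne.symm hj) _ (hB1 i a) _ (hB1 j b), mul_zero]
      · intro h; exact absurd (Finset.mem_univ _) h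
    rw [Fin.sum_univ_two, hin, hin, hf.alternating, hf.alternating, hG, hG']
    ring
  have hpol : ∀ u v, QuadraticMap.polar Q u v = f u v := by
    intro u v
    rw [hexp, QuadraticMap.polar]
    simp only [Q, map_add, Pi.add_apply]
    rw [← Finset.sum_sub_distrib, ← Finset.sum_sub_distrib]
    refine Finset.sum_congr rfl (fun i _ => ?_)
    simp only [N]
    linear_combination (B.equivFun u (i, 0) * B.equivFun v (i, 0) + B.equivFun u (i, 1) * B.equivFun v (i, 1)) * h2
  refine ⟨Q, ⟨?_, ?_, ?_⟩, hpol, ?_⟩
  · intro c v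
    simp only [Q, N, map_smul, Pi.smul_apply, smul_eq_mul, Finset.mul_sum]
    refine Finset.sum_congr rfl (fun i _ => ?_)
    ring
  · have : QuadraticMap.polar Q = f := by ext u v; exact hpol u v
    rw [this]; exact hf.bilinear
  · have : QuadraticMap.polar Q = f := by ext u v; exact hpol u v
    rw [this]; exact hf.nondegenerate
  · intro g hg
    obtain ⟨π, hπ⟩ := hg
    refine ⟨1, fun v => ?_⟩
    rw [Units.val_one, one_mul]
    -- nonvanishing of the blocks
    let bl : (ι → F) → Fin t → (ι → F) := fun v i => B.equivFun v (i, 0) • B (i, 0) + B.equivFun v (i, 1) • B (i, 1)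
    have hbl : ∀ v i, bl v i ∈ D i := fun v i => (D i).add_mem ((D i).smul_mem _ (hB1 i 0)) ((D i).smul_mem _ (hB1 i 1))
    have hsum : ∀ v, v = ∑ i, bl v i := by
      intro v
      conv_lhs => rw [← B.sum_equivFun v]
      rw [Fintype.sum_prod_type]
      exact Finset.sum_congr rfl (fun i _ => Fin.sum_univ_two _)
    have hunique : ∀ (v : ι → F) (w : Fin t → ι → F), (∀ i, w i ∈ D i) → v = ∑ i, w i → ∀ i, w i = bl v i := by
      intro v w hw hv i
      have h3 : ∀ a, B.equivFun v (i, a) = B.equivFun (w i) (i, a) := by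
        intro a
        conv_lhs => rw [hv]
        rw [map_sum, Finset.sum_apply, Finset.sum_eq_single i]
        · intro j _ hj
          exact hB2 j _ (hw j) i a (Ne.symm hj)
        · intro h; exact absurd (Finset.mem_univ _) h
      change w i = B.equivFun v (i, 0) • B (i, 0) + B.equivFun v (i, 1) • B (i, 1)
      rw [h3, h3]
      conv_lhs => rw [← B.sum_equivFun (w i)]
      rw [Fintype.sum_prod_type, Finset.sum_eq_single i]
      · rw [Fin.sum_univ_two]
      · intro j _ hj
        refine Finset.sum_eq_zero (fun a _ => ?_)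
        rw [hB2 i _ (hw i) j a hj, zero_smul]
      · intro h; exact absurd (Finset.mem_univ _) h
    have hQ : ∀ v, Q v = ∑ i, if bl v i = 0 then 0 else 1 := by
      intro v
      refine Finset.sum_congr rfl (fun i _ => ?_)
      rw [hN]
      congr 1
      apply propext
      constructor
      · rintro ⟨h3, h4⟩
        change B.equivFun v (i, 0) • B (i, 0) + B.equivFun v (i, 1) • B (i, 1) = 0
        rw [h3, h4, zero_smul, zero_smul, add_zero]
      · intro h3
        have h4 := hunique (bl v i) (fun j => if j = i then bl v i else 0) (by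
          intro j
          by_cases hj : j = i
          · subst hj; rw [if_pos rfl]; exact hbl v _
          · rw [if_neg hj]; exact (D j).zero_mem) (by rw [Finset.sum_ite_eq' Finset.univ i, if_pos (Finset.mem_univ _)])
        have h5 : ∀ a, B.equivFun (bl v i) (i, a) = B.equivFun v (i, a) := by
          intro a
          change B.equivFun (B.equivFun v (i, 0) • B (i, 0) + B.equivFun v (i, 1) • B (i, 1)) (i, a) = _
          have hself : ∀ p r, B.equivFun (B p) r = if p = r then (1 : F) else 0 := by
            intro p r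
            rw [Module.Basis.equivFun_apply, Module.Basis.repr_self, Finsupp.single_apply]
          rw [map_add, map_smul, map_smul, Pi.add_apply, Pi.smul_apply, Pi.smul_apply, hself, hself]
          fin_cases a <;> simp
        rw [← h5, ← h5, h3, map_zero]
        exact ⟨rfl, rfl⟩
    have hgb : ∀ i, bl ((g : Matrix ι ι F) *ᵥ v) (π i) = (g : Matrix ι ι F) *ᵥ bl v i := by
      intro i
      have h3 := hunique ((g : Matrix ι ι F) *ᵥ v) (fun j => (g : Matrix ι ι F) *ᵥ bl v (π.symm j)) (by
        intro j
        have h4 : (D (π.symm j)).map (Matrix.toLin' (g : Matrix ι ι F)) = D j := by rw [hπ, Equiv.apply_symm_apply]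
        rw [← h4]
        exact ⟨_, hbl v _, Matrix.toLin'_apply _ _⟩) (by
        conv_lhs => rw [hsum v]
        rw [Matrix.mulVec_sum]
        exact (Equiv.sum_comp π.symm (fun j => (g : Matrix ι ι F) *ᵥ bl v j)).symm) (π i)
      rw [← h3]
      simp only [Equiv.symm_apply_apply]
    rw [hQ, hQ, ← Equiv.sum_comp π]
    refine Finset.sum_congr rfl (fun i _ => ?_)
    rw [hgb]
    congr 1
    apply propext
    constructor
    · intro h3
      have := congrArg (fun w => ((g⁻¹ : GL ι F) : Matrix ι ι F) *ᵥ w) h3
      simpa [Matrix.mulVec_mulVec, ← Units.val_mul] using this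
    · intro h3
      rw [h3, Matrix.mulVec_zero]

end planes

end H97.AschSpElim
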