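import Mathlib
import Cfsg.Agent.Lib.H95.O8NdE

/-!
Maximality of the stabilisers of non-degenerate subspaces of orthogonal spaces of dimension at least ten, and of
dimension seven unless the dimensions are three and four.
-/

set_option autoImplicit false

namespace H97.NdGen

open Module QuadraticMap H48.QuadSplit H48.QuadWitt H95.OGeo H7.OA H7.OABridge H7.OAPar H7.OANd H95.O8Nd
open H48.QuadStd

section gen

variable {F V : Type*} [Field F] [AddCommGroup V] [Module F V] {Q : QuadraticForm F V}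
variable [Finite F] [FiniteDimensional F V]

/-- the smaller subspace -/
theorem maxg (hQ : ND Q) {W : Submodule F V} (hW : ND (Q.restrict W)) (hW0 : W ≠ ⊥)
    (hlt : finrank F W < finrank F (orth Q W))
    (hc : 6 ≤ finrank F (orth Q W) ∨ (5 ≤ finrank F (orth Q W) ∧ finrank F W ≤ 3 ∧ (2 : F) ≠ 0))
    (hpl : (finrank F W = 2 ∧ ∃ x ∈ W, x ≠ 0 ∧ Q x = 0) → 4 ≤ Nat.card F) :
    (∃ g ∈ Om Q, ¬ Stab W g) ∧ ∀ M : Subgroup (V ≃ₗ[F] V), (∀ g ∈ Om Q, Stab W g → g ∈ M) →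
      M ≤ Om Q → (∃ g ∈ M, ¬ Stab W g) → Om Q ≤ M := by
  have hd := finrank_orth hQ W
  have hndU := nd_orth hQ hW
  have h5 : 5 ≤ finrank F (orth Q W) := by
    rcases hc with h | h
    · omega
    · exact h.1
  refine ⟨not_stab8 hQ (by omega) hW hW0 (by omega), fun M h1 h2 h3 => ?_⟩
  have S : Sit8 Q W M := ⟨hQ, hW, by omega, fun a ha _ => by
    obtain ⟨e, f, k1, k2, k3, k4, k5⟩ := hyp_one hndU (by omega) (⟨a, ha⟩ : orth Q W)
    exact ⟨e, f, e.2, f.2, k1, k2, k3, k4, k5⟩, h1, h2⟩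
  rcases hc with hc | ⟨-, hW3, h2F⟩
  · refine S.maximal6 (by omega) ?_ hpl ?_ h3
    · intro a ha b hb hab
      obtain ⟨u, k1, k2, k3, k4, k5⟩ := hyp_two hndU (by omega) (⟨a, ha⟩ : orth Q W) ⟨b, hb⟩
        (fun c hc => hab c (congrArg Subtype.val hc))
      exact ⟨u, u.2, k1, fun h => k2 (Subtype.ext h), k3, k4, fun α β hc => k5 α β (Subtype.ext hc)⟩
    · intro g hg hgU
      have h4 : (orth Q W).map (g : V →ₗ[F] V) ≤ W := by
        rintro _ ⟨x, hx, rfl⟩; exact hgU x hx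
      have h5 := Submodule.finrank_mono h4
      have h6 : finrank F ((orth Q W).map (g : V →ₗ[F] V)) = finrank F (orth Q W) := LinearEquiv.finrank_map_eq g _
      omega
  · exact S.maximal5 h2F (by omega) hW3 hpl h3

/-- both cases -/
theorem max_both (hQ : ND Q) {W : Submodule F V} (hW : ND (Q.restrict W)) (hW0 : W ≠ ⊥) (hW1 : W ≠ ⊤)
    (hne : finrank F W ≠ finrank F (orth Q W))
    (hc : finrank F W < finrank F (orth Q W) → 6 ≤ finrank F (orth Q W) ∨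
      (5 ≤ finrank F (orth Q W) ∧ finrank F W ≤ 3 ∧ (2 : F) ≠ 0))
    (hc' : finrank F (orth Q W) < finrank F W → 6 ≤ finrank F W ∨
      (5 ≤ finrank F W ∧ finrank F (orth Q W) ≤ 3 ∧ (2 : F) ≠ 0))
    (hpl : (finrank F W = 2 ∧ ∃ x ∈ W, x ≠ 0 ∧ Q x = 0) → 4 ≤ Nat.card F)
    (hpl' : (finrank F (orth Q W) = 2 ∧ ∃ x ∈ orth Q W, x ≠ 0 ∧ Q x = 0) → 4 ≤ Nat.card F) :
    (∃ g ∈ Om Q, ¬ Stab W g) ∧ ∀ M : Subgroup (V ≃ₗ[F] V), (∀ g ∈ Om Q, Stab W g → g ∈ M) →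
      M ≤ Om Q → (∃ g ∈ M, ¬ Stab W g) → Om Q ≤ M := by
  have hd := finrank_orth hQ W
  have hUU : orth Q (orth Q W) = W := orth_orth hQ W
  have hndU := nd_orth hQ hW
  rcases lt_or_gt_of_ne hne with hlt | hgt
  · exact maxg hQ hW hW0 hlt (hc hlt) hpl
  · have hU0 : orth Q W ≠ ⊥ := by
      intro h
      apply hW1
      rw [h, finrank_bot, zero_add] at hd
      exact Submodule.eq_top_of_finrank_eq hd
    refine of_orth hQ (maxg hQ hndU hU0 (by rw [hUU]; exact hgt) ?_ hpl')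
    rw [hUU]
    exact hc' hgt

end gen

open Cfsg.Geo

/-- the geometric form: dimension at least ten, not halves -/
theorem nd_ge {ι : Type} [Fintype ι] [DecidableEq ι] {F : Type*} [Field F] [Fintype F] (hn : 10 ≤ Fintype.card ι)
    (Q : (ι → F) → F) (hQ : Cfsg.Geo.IsNondegenerateQuadraticForm Q)
    (W : Submodule F (ι → F)) (hW0 : W ≠ ⊥) (hW1 : W ≠ ⊤) (hhalf : 2 * finrank F W ≠ Fintype.card ι)
    (hW : Cfsg.Geo.IsNondegenerateOn (QuadraticMap.polar Q) W)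
    (hex : ¬ (Fintype.card F ≤ 3 ∧ (∃ U : Submodule F (ι → F), Module.finrank F U = 2 ∧
      Cfsg.Geo.IsNondegenerateOn (QuadraticMap.polar Q) U ∧ Cfsg.Geo.IsPlusTypeOn Q U ∧
      (U = W ∨ (Cfsg.Geo.AreOrthogonalFor (QuadraticMap.polar Q) U W ∧
      Module.finrank F U + Module.finrank F W = Fintype.card ι))))) :
    Cfsg.Geo.IsMaximalIn (Cfsg.Geo.omegaGL Q) (Cfsg.Geo.subspaceStabilizer W ⊓ Cfsg.Geo.omegaGL Q) := by
  have hfr : Module.finrank F (ι → F) = Fintype.card ι := by simp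
  have hcard : Nat.card F = Fintype.card F := Nat.card_eq_fintype_card
  obtain ⟨q, rfl⟩ : ∃ q : QuadraticForm F (ι → F), ⇑q = Q := ⟨H7.OABridge.ofFun hQ, rfl⟩
  have hnd : H48.QuadSplit.ND q := H7.OABridge.nd_of rfl hQ
  have hnd' : H48.QuadSplit.ND (q.restrict W) := H7.OANd.nd_of_on hW
  have hpar := H48.QuadSplit.finrank_orth hnd W
  have hp1 : (finrank F W = 2 ∧ ∃ x ∈ W, x ≠ 0 ∧ q x = 0) → 4 ≤ Nat.card F := by
    rintro ⟨h3, x, hx, hx0, hxQ⟩
    by_contra hlt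
    exact hex ⟨by omega, W, h3, hW, H7.OANd.plus_of_vec h3 hx hx0 hxQ, Or.inl rfl⟩
  have hp2 : (finrank F (orth q W) = 2 ∧ ∃ x ∈ orth q W, x ≠ 0 ∧ q x = 0) → 4 ≤ Nat.card F := by
    rintro ⟨h3, x, hx, hx0, hxQ⟩
    by_contra hlt
    refine hex ⟨by omega, H48.QuadSplit.orth q W, h3, H7.OANd.on_of_nd (H48.QuadSplit.nd_orth hnd hnd'),
      H7.OANd.plus_of_vec h3 hx hx0 hxQ, Or.inr ⟨?_, by omega⟩⟩
    intro u hu v hv
    have := hu v hv
    rw [QuadraticMap.polar_comm] at this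
    exact this
  have key := max_both hnd hnd' hW0 hW1 (by omega) (fun _ => Or.inl (by omega)) (fun _ => Or.inl (by omega)) hp1 hp2
  exact H7.OABridge.isMaximalIn_omegaGL rfl (H7.OABridge.mem_stab (W := W)) key.1 key.2

end H97.NdGen
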