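import Mathlib
import Cfsg.Agent.Lib.H97.AschUCases

/-!
Aschbacher library, part 70: the list of maximal subgroups of the special unitary groups of degree three.
-/

set_option autoImplicit false
set_option linter.unusedSectionVars false

namespace H97.Asch3Cases

open Cfsg Cfsg.Geo Matrix H97.AschRad H97.AschUnits H97.AschCS H97.AschTensor H97.AschEnv H97.AschNonab
open H97.AschForm H97.AschNC H97.AschNC2 H97.AschNC3 H97.AschNil H97.AschCases H97.AschNCSp H97.AschNCU H97.AschUCases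
open H96.AschSympType1 H96.AschSympType2 H96.AschSympType5 H96.AschAdj H96.AschSU H96.AschSU2
open scoped Kronecker

variable {F : Type*} [Field F] {q : ℕ}

lemma sub_prime_three {t k : ℕ} (ht : 2 ≤ t) (h : 3 = t * k) : k = 1 ∧ t = 3 := by
  have hk : 1 ≤ k := by
    rcases Nat.eq_zero_or_pos k with h0 | h0
    · rw [h0] at h; omega
    · exact h0
  have h1 : k < 2 := by
    by_contra hge
    have : 2 * 2 ≤ t * k := Nat.mul_le_mul ht (by omega)
    omega
  have hk1 : k = 1 := by omega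
  subst hk1
  exact ⟨rfl, by omega⟩

/-- **the list of maximal subgroups of the special unitary groups of degree three** -/
theorem gu3_cases [Fintype F] (hF : Fintype.card F = q ^ 2) (hq3 : 3 ≤ q) {H : Subgroup (GL (Fin 3) F)}
    (hH : IsMaximalIn (GU 3 F q ⊓ specialLinear (Fin 3) F) H) :
    (∃ W : Submodule F (Fin 3 → F), W ≠ ⊥ ∧ IsTotallySingularFor (hermForm 3 F q) W ∧
      H = subspaceStabilizer W ⊓ (GU 3 F q ⊓ specialLinear (Fin 3) F)) ∨
    (∃ W : Submodule F (Fin 3 → F), W ≠ ⊥ ∧ IsNondegenerateOn (hermForm 3 F q) W ∧ 2 * Module.finrank F W < 3 ∧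
      H = subspaceStabilizer W ⊓ (GU 3 F q ⊓ specialLinear (Fin 3) F)) ∨
    (∃ (D : Fin 3 → Submodule F (Fin 3 → F)), IsNondegenerateMDecomposition (hermForm 3 F q) 1 D ∧
      H = decompositionStabilizer D ⊓ (GU 3 F q ⊓ specialLinear (Fin 3) F)) ∨
    (∃ (K : Subalgebra F (Matrix (Fin 3) (Fin 3) F)), IsFieldSubalgebra 3 K ∧
      IsAdjointClosedFor (hermForm 3 F q) K ∧ H = subalgebraNormalizer K ⊓ (GU 3 F q ⊓ specialLinear (Fin 3) F)) ∨
    (∃ (F₀ : Subfield F) (r : ℕ) (P : GL (Fin 3) F), r.Prime ∧ Odd r ∧ Fintype.card F = Nat.card F₀ ^ r ∧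
      IsFormRationalStructure (hermForm 3 F q) F₀ 1 P ∧
      H = subfieldSubgroup F₀ P ⊓ (GU 3 F q ⊓ specialLinear (Fin 3) F)) ∨
    (Odd q ∧ ∃ (F₀ : Subfield F) (P : GL (Fin 3) F), Fintype.card F = Nat.card F₀ ^ 2 ∧
      IsFormRationalStructure (hermForm 3 F q) F₀ 1 P ∧
      H = subfieldSubgroup F₀ P ⊓ (GU 3 F q ⊓ specialLinear (Fin 3) F)) ∨
    (∃ (p : ℕ) (R : Subgroup (GL (Fin 3) F)), p.Prime ∧ CharP F p ∧ q = p ∧ p % 3 = 2 ∧ IsSymplecticTypeGroup 3 R ∧
      ActsAbsolutelyIrreducibly (matrixSet R) ∧ R ≤ similarityGroup (hermForm 3 F q) ∧ Nat.card R = 27 ∧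
      Nat.card (Subgroup.center R) = 3 ∧ H ≤ subgroupNormalizer R) ∨
    InUnitaryResidualClass H := by
  obtain ⟨σ, h⟩ := exists_ctx (F := F) hF 3
  have hne : Nonempty (Fin 3) := ⟨⟨0, by omega⟩⟩
  have hcf : Fintype.card (Fin 3) = 3 := Fintype.card_fin 3
  have key : ∀ {X : Subgroup (GL (Fin 3) F)}, H ≤ X ⊓ GU 3 F q → ¬ GU 3 F q ⊓ specialLinear (Fin 3) F ≤ X →
      H = X ⊓ (GU 3 F q ⊓ specialLinear (Fin 3) F) :=
    fun hle hnot => eq_of_max hH (hle.trans inf_le_left) hnot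
  rcases H96.AschSUfin.gu_theorem hF (by omega) (hH.1.le.trans inf_le_left) with ⟨M, hM, hle⟩ | h
  swap
  · iterate 7 right
    exact h
  rcases hM with (⟨W, h1, h2, rfl⟩ | ⟨W, h1, h2, h3, rfl⟩ | ⟨t, k, D, hD, rfl⟩ | ⟨k, D, h1, h2, h3, rfl⟩ |
    ⟨F₀, r, P, h1, h2, h3, h4, rfl⟩ | ⟨F₀, P, h1, h2, h3, rfl⟩ | ⟨F₀, P, ζ, h1, h2, h3, h4, h5, h6, rfl⟩ |
    ⟨r, R, p, e, k, h1, h2, h3, h4, h5, h6, rfl⟩) |
    ⟨r, K, h1, h2, h3, h4, rfl⟩ | ⟨n₁, n₂, e, P, f₁, f₂, h1, h2, h3, h4, h5, rfl⟩ |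
    ⟨k, t, e, P, f₁, h1, h2, h3, h4, h5, rfl⟩
  · left
    refine ⟨W, h1, h2, key hle (h.not_subspace (by omega) h1 ?_)⟩
    rintro rfl
    obtain ⟨w, hw⟩ : ∃ w : Fin 3 → F, w ≠ 0 := exists_ne 0
    obtain ⟨x, hx⟩ := h.form.nd w hw
    exact hx (h2 w Submodule.mem_top x Submodule.mem_top)
  · right; left
    refine ⟨W, h1, h2, h3, key hle (h.not_subspace (by omega) h1 ?_)⟩
    rintro rfl
    rw [finrank_top, Module.finrank_fintype_fun_eq_card, hcf] at h3
    omega
  · iterate 2 right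
    left
    have ht := hD.decomp.two_le
    have h1 := H97.AschBlock.card_decomposition hD.decomp
    rw [hcf] at h1
    obtain ⟨hk1, ht3⟩ := sub_prime_three ht h1
    subst hk1
    subst ht3
    exact ⟨D, hD, key hle (h.not_lines (by omega) (Or.inl hq3) hD)⟩
  · exfalso
    omega
  · iterate 4 right
    left
    exact ⟨F₀, r, P, h1, h2, h3, h4, key hle (h.not_subfield (by omega) h1 h3)⟩
  · iterate 5 right
    left
    exact ⟨h1, F₀, P, h2, h3, key hle (h.not_subfield (by omega) Nat.prime_two h2)⟩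
  · exfalso
    exact absurd h1 (by decide)
  · iterate 6 right
    left
    have h10 := type_card h1 (full_of_absIrr h2)
    rw [hcf] at h10
    have hmin := min_field_mod (z := Nat.card (Subgroup.center R)) (by
      rcases h6 with ⟨-, h7, -⟩ | ⟨-, -, h7, -⟩
      · rw [h7]; exact h1.prime.two_le
      · rw [h7]; norm_num) h5
    obtain ⟨j, hj, hqj⟩ := even_exponent h5.1 (h.card.symm.trans h5.2.2.1)
    have hj0 : 0 < j := by
      rcases Nat.eq_zero_or_pos j with h0 | h0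
      · rw [h0, pow_zero] at hqj; omega
      · exact h0
    have hrk : 3 = r ^ k := by
      rcases h6 with ⟨h7, h8, h9, h11⟩ | ⟨h7, h8, h9, h11⟩
      · rw [h8, h11] at h10
        have h13 : 3 ^ 2 = (r ^ k) ^ 2 := by
          have : r ^ (1 + 2 * k) = (r ^ k) ^ 2 * r := by ring
          rw [this] at h10
          exact (Nat.eq_of_mul_eq_mul_right h1.prime.pos h10).symm
        exact Nat.pow_left_injective (n := 2) (by norm_num) h13
      · rw [h9, h11] at h10
        have h13 : 3 ^ 2 = (2 ^ k) ^ 2 := by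
          have : 2 ^ (2 + 2 * k) = (2 ^ k) ^ 2 * 4 := by ring
          rw [this] at h10
          exact (Nat.eq_of_mul_eq_mul_right (by norm_num) h10).symm
        rw [h7]
        exact Nat.pow_left_injective (n := 2) (by norm_num) h13
    have hk0 : k ≠ 0 := by rintro rfl; norm_num at hrk
    have hr3 : r = 3 := by
      have h11 : r ∣ 3 := by rw [hrk]; exact dvd_pow_self r hk0
      exact (Nat.prime_dvd_prime_iff_eq h1.prime Nat.prime_three).mp h11
    subst hr3
    have hk1 : k = 1 := by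
      have : (3 : ℕ) ^ k = 3 ^ 1 := by rw [← hrk, pow_one]
      exact Nat.pow_right_injective (by norm_num) this
    subst hk1
    rcases h6 with ⟨h7, h8, h9, h11⟩ | ⟨h7, h8, h9, h11⟩
    · rw [h8, hj] at hmin
      obtain ⟨hj1, hp3⟩ := arith_three hj0 hmin.1 hmin.2
      refine ⟨p, R, h5.1, h5.2.1, by rw [hqj, hj1, pow_one], hp3, h1, h2, h3, by rw [h11]; norm_num, h8, hle.trans inf_le_left⟩
    · exact absurd h7 (by norm_num)
  · iterate 3 right
    left
    have h5 := dvd_of_field h3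
    rw [hcf] at h5
    have hr3 : r = 3 := (Nat.prime_dvd_prime_iff_eq h1 Nat.prime_three).mp h5
    subst hr3
    exact ⟨K, h3, h4, key hle (h.not_field (by omega) h1.one_lt.ne' h3)⟩
  · exfalso
    have h6 := card_eq_of_equiv e
    rw [hcf] at h6
    have : 2 * 3 ≤ n₁ * n₂ := Nat.mul_le_mul h1 (by omega)
    omega
  · exfalso
    have h6 : 3 = k ^ t := by
      have := Fintype.card_congr e
      simpa using this
    have : 3 ^ 2 ≤ k ^ t := (Nat.pow_le_pow_left h1 2).trans (Nat.pow_le_pow_right (by omega) h2)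
    omega

end H97.Asch3Cases
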