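import Mathlib

/-!
Aschbacher library, part 72: an element of order two over a field containing the seventh roots of unity generating,
together with a Frobenius group of order 21, a group isomorphic to L₂(7).
-/

set_option autoImplicit false
set_option linter.unusedSectionVars false

namespace H97.Asch3Sev

variable {L : Type*} [Field L]

def b₀ (ζ : L) : L := ζ ^ 2 - ζ ^ 5
def b₁ (ζ : L) : L := ζ ^ 1 - ζ ^ 6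
def b₂ (ζ : L) : L := ζ ^ 4 - ζ ^ 3

/-- the structure constants -/
structure Sev (ζ c : L) (ψ : L →+* L) : Prop where
  cyc : 1 + ζ + ζ ^ 2 + ζ ^ 3 + ζ ^ 4 + ζ ^ 5 + ζ ^ 6 = 0
  psi : ψ ζ = ζ ^ 2
  psi3 : ∀ x, ψ (ψ (ψ x)) = x
  cT : c * (b₀ ζ + b₁ ζ + b₂ ζ) = -1
  psic : ψ c = c

variable {ζ c : L} {ψ : L →+* L}

lemma Sev.e7 (h : Sev ζ c ψ) : ζ ^ 7 = 1 := by
  linear_combination (ζ - 1) * h.cyc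

lemma Sev.p0 (h : Sev ζ c ψ) : ψ (b₀ ζ) = b₂ ζ := by
  simp only [b₀, b₂, map_sub, map_pow, h.psi]
  linear_combination (- ζ ^ 3) * h.e7

lemma Sev.p1 (h : Sev ζ c ψ) : ψ (b₁ ζ) = b₀ ζ := by
  simp only [b₁, b₀, map_sub, map_pow, h.psi]
  linear_combination (- ζ ^ 5) * h.e7

lemma Sev.p2 (h : Sev ζ c ψ) : ψ (b₂ ζ) = b₁ ζ := by
  simp only [b₂, b₁, map_sub, map_pow, h.psi]
  linear_combination (ζ) * h.e7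

lemma Sev.e1 (h : Sev ζ c ψ) : b₀ ζ * b₁ ζ + b₁ ζ * b₂ ζ + b₂ ζ * b₀ ζ = 0 := by
  simp only [b₀, b₁, b₂]
  linear_combination ((1) * ζ ^ 3 + (-2) * ζ ^ 4 + (1) * ζ ^ 5) * h.cyc

lemma Sev.e0 (h : Sev ζ c ψ) : c * c * (b₀ ζ * b₀ ζ + b₁ ζ * b₁ ζ + b₂ ζ * b₂ ζ) = 1 := by
  linear_combination (c * (b₀ ζ + b₁ ζ + b₂ ζ) - 1) * h.cT - 2 * c * c * h.e1

/-- the square of the Gauss sum -/
lemma Sev.gauss (h : Sev ζ c ψ) : c * c * (-7) = 1 := by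
  have h1 : (b₀ ζ + b₁ ζ + b₂ ζ) * (b₀ ζ + b₁ ζ + b₂ ζ) = -7 := by
    simp only [b₀, b₁, b₂]
    linear_combination ((7) + (-7) * ζ ^ 1 + (1) * ζ ^ 2 + (1) * ζ ^ 3 + (-3) * ζ ^ 4 + (1) * ζ ^ 5 + (1) * ζ ^ 6) * h.cyc
  linear_combination (c * (b₀ ζ + b₁ ζ + b₂ ζ) - 1) * h.cT - c * c * h1

lemma Sev.g0 (h : Sev ζ c ψ) : c * (b₀ ζ * b₀ ζ * ζ + b₁ ζ * b₁ ζ * ζ ^ 2 + b₂ ζ * b₂ ζ * ζ ^ 4) = ζ ^ 5 * b₀ ζ := by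
  have h1 : b₀ ζ * b₀ ζ * ζ + b₁ ζ * b₁ ζ * ζ ^ 2 + b₂ ζ * b₂ ζ * ζ ^ 4 + (b₀ ζ + b₁ ζ + b₂ ζ) * (ζ ^ 5 * b₀ ζ) = 0 := by
    simp only [b₀, b₁, b₂]
    linear_combination ((1) * ζ ^ 4 + (-1) * ζ ^ 6 + (-1) * ζ ^ 8 + (1) * ζ ^ 10) * h.cyc
  linear_combination c * h1 - ζ ^ 5 * b₀ ζ * h.cT

lemma Sev.g1 (h : Sev ζ c ψ) : c * (b₀ ζ * b₁ ζ * ζ + b₁ ζ * b₂ ζ * ζ ^ 2 + b₂ ζ * b₀ ζ * ζ ^ 4) = ζ ^ 4 * b₁ ζ := by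
  have h1 : b₀ ζ * b₁ ζ * ζ + b₁ ζ * b₂ ζ * ζ ^ 2 + b₂ ζ * b₀ ζ * ζ ^ 4 + (b₀ ζ + b₁ ζ + b₂ ζ) * (ζ ^ 4 * b₁ ζ) = 0 := by
    simp only [b₀, b₁, b₂]
    linear_combination ((1) * ζ ^ 4 + (-1) * ζ ^ 5 + (1) * ζ ^ 7 + (-2) * ζ ^ 8 + (1) * ζ ^ 10) * h.cyc
  linear_combination c * h1 - ζ ^ 4 * b₁ ζ * h.cT

lemma Sev.g2 (h : Sev ζ c ψ) : c * (b₀ ζ * b₂ ζ * ζ + b₁ ζ * b₀ ζ * ζ ^ 2 + b₂ ζ * b₁ ζ * ζ ^ 4) = ζ ^ 2 * b₂ ζ := by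
  have h1 : b₀ ζ * b₂ ζ * ζ + b₁ ζ * b₀ ζ * ζ ^ 2 + b₂ ζ * b₁ ζ * ζ ^ 4 + (b₀ ζ + b₁ ζ + b₂ ζ) * (ζ ^ 2 * b₂ ζ) = 0 := by
    simp only [b₀, b₁, b₂]
    linear_combination ((1) * ζ ^ 5 + (-3) * ζ ^ 6 + (3) * ζ ^ 7 + (-1) * ζ ^ 8) * h.cyc
  linear_combination c * h1 - ζ ^ 2 * b₂ ζ * h.cT

/-- the additional map -/
def zf (ζ c : L) (ψ : L →+* L) (x : L) : L := c * (b₀ ζ * x + b₁ ζ * ψ x + b₂ ζ * ψ (ψ x))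

lemma zf_add (ζ c : L) (ψ : L →+* L) (x y : L) : zf ζ c ψ (x + y) = zf ζ c ψ x + zf ζ c ψ y := by
  simp only [zf, map_add]; ring

lemma zf_mul {d : L} (hd : ψ d = d) (x : L) : zf ζ c ψ (d * x) = d * zf ζ c ψ x := by
  simp only [zf, map_mul, hd]; ring

theorem Sev.zz (h : Sev ζ c ψ) (x : L) : zf ζ c ψ (zf ζ c ψ x) = x := by
  simp only [zf, map_add, map_mul, h.p0, h.p1, h.p2, h.psi3, h.psic]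
  linear_combination x * h.e0 + c * c * ψ x * h.e1 + c * c * ψ (ψ x) * h.e1

theorem Sev.zt (h : Sev ζ c ψ) (x : L) : ψ (zf ζ c ψ (ψ x)) = zf ζ c ψ x := by
  simp only [zf, map_add, map_mul, h.p0, h.p1, h.p2, h.psi3, h.psic]
  ring

lemma Sev.q2 (h : Sev ζ c ψ) : ψ (ψ ζ) = ζ ^ 4 := by
  rw [h.psi, map_pow, h.psi]; ring

theorem Sev.zsz (h : Sev ζ c ψ) (x : L) : zf ζ c ψ (ζ * zf ζ c ψ x) = ζ ^ 6 * zf ζ c ψ (ζ ^ 6 * x) := by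
  have lhs : zf ζ c ψ (ζ * zf ζ c ψ x) =
      c * (c * (b₀ ζ * b₀ ζ * ζ + b₁ ζ * b₁ ζ * ζ ^ 2 + b₂ ζ * b₂ ζ * ζ ^ 4)) * x +
      c * (c * (b₀ ζ * b₁ ζ * ζ + b₁ ζ * b₂ ζ * ζ ^ 2 + b₂ ζ * b₀ ζ * ζ ^ 4)) * ψ x +
      c * (c * (b₀ ζ * b₂ ζ * ζ + b₁ ζ * b₀ ζ * ζ ^ 2 + b₂ ζ * b₁ ζ * ζ ^ 4)) * ψ (ψ x) := by
    simp only [zf, map_add, map_mul, h.p0, h.p1, h.p2, h.psi3, h.psic]
    rw [h.q2, h.psi]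
    ring
  have rhs : ζ ^ 6 * zf ζ c ψ (ζ ^ 6 * x) = c * (ζ ^ 5 * b₀ ζ) * x + c * (ζ ^ 4 * b₁ ζ) * ψ x +
      c * (ζ ^ 2 * b₂ ζ) * ψ (ψ x) := by
    simp only [zf, map_mul, map_pow]
    rw [h.q2, h.psi]
    linear_combination (c * b₀ ζ * x * ζ ^ 5 + c * b₁ ζ * ψ x * (ζ ^ 11 + ζ ^ 4) +
      c * b₂ ζ * ψ (ψ x) * (ζ ^ 23 + ζ ^ 16 + ζ ^ 9 + ζ ^ 2)) * h.e7
  rw [lhs, rhs, h.g0, h.g1, h.g2]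

/-- the trace -/
def tr (ψ : L →+* L) (x : L) : L := x + ψ x + ψ (ψ x)

theorem Sev.selfadj (h : Sev ζ c ψ) {β : L →+* L} (hβψ : ∀ x, β (ψ x) = ψ (β x)) (hβ : β ζ = ζ ^ 6) (hβc : β c = -c)
    (x y : L) : tr ψ (β y * zf ζ c ψ x) = tr ψ (β (zf ζ c ψ y) * x) := by
  have c0 : β (b₀ ζ) = - b₀ ζ := by
    simp only [b₀, map_sub, map_pow, hβ]
    linear_combination (ζ ^ 5 - ζ ^ 2 * (ζ ^ 21 + ζ ^ 14 + ζ ^ 7 + 1)) * h.e7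
  have c1 : β (b₁ ζ) = - b₁ ζ := by
    simp only [b₁, map_sub, map_pow, hβ]
    linear_combination (- ζ * (ζ ^ 28 + ζ ^ 21 + ζ ^ 14 + ζ ^ 7 + 1)) * h.e7
  have c2 : β (b₂ ζ) = - b₂ ζ := by
    simp only [b₂, map_sub, map_pow, hβ]
    linear_combination (ζ ^ 3 * (ζ ^ 14 + ζ ^ 7 + 1) - ζ ^ 4 * (ζ ^ 7 + 1)) * h.e7
  simp only [tr, zf, map_add, map_mul, c0, c1, c2, hβc, hβψ, map_neg, h.p0, h.p1, h.p2, h.psi3, h.psic]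
  ring

theorem Sev.unitary (h : Sev ζ c ψ) {β : L →+* L} (hβψ : ∀ x, β (ψ x) = ψ (β x)) (hβ : β ζ = ζ ^ 6) (hβc : β c = -c)
    (x y : L) : tr ψ (β (zf ζ c ψ y) * zf ζ c ψ x) = tr ψ (β y * x) := by
  rw [h.selfadj hβψ hβ hβc, h.zz]

lemma Sev.T0 (h : Sev ζ c ψ) : b₀ ζ + b₁ ζ + b₂ ζ ≠ 0 := by
  intro h0
  have := h.cT
  rw [h0, mul_zero] at this
  exact one_ne_zero (neg_eq_zero.mp this.symm)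

lemma Sev.beta_c (h : Sev ζ c ψ) {β : L →+* L} (hβ : β ζ = ζ ^ 6) : β c = -c := by
  have c0 : β (b₀ ζ) = - b₀ ζ := by
    simp only [b₀, map_sub, map_pow, hβ]
    linear_combination (ζ ^ 5 - ζ ^ 2 * (ζ ^ 21 + ζ ^ 14 + ζ ^ 7 + 1)) * h.e7
  have c1 : β (b₁ ζ) = - b₁ ζ := by
    simp only [b₁, map_sub, map_pow, hβ]
    linear_combination (- ζ * (ζ ^ 28 + ζ ^ 21 + ζ ^ 14 + ζ ^ 7 + 1)) * h.e7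
  have c2 : β (b₂ ζ) = - b₂ ζ := by
    simp only [b₂, map_sub, map_pow, hβ]
    linear_combination (ζ ^ 3 * (ζ ^ 14 + ζ ^ 7 + 1) - ζ ^ 4 * (ζ ^ 7 + 1)) * h.e7
  have h1 := congrArg β h.cT
  rw [map_mul, map_add, map_add, c0, c1, c2, map_neg, map_one] at h1
  have h2 : (β c + c) * (b₀ ζ + b₁ ζ + b₂ ζ) = 0 := by linear_combination h.cT - h1
  exact eq_neg_of_add_eq_zero_left ((mul_eq_zero.mp h2).resolve_right h.T0)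

theorem exists_sev (hcyc : 1 + ζ + ζ ^ 2 + ζ ^ 3 + ζ ^ 4 + ζ ^ 5 + ζ ^ 6 = 0) (hpsi : ψ ζ = ζ ^ 2)
    (hpsi3 : ∀ x, ψ (ψ (ψ x)) = x) (h7 : (7 : L) ≠ 0) : ∃ c, Sev ζ c ψ := by
  have e7 : ζ ^ 7 = 1 := by linear_combination (ζ - 1) * hcyc
  have h1 : (b₀ ζ + b₁ ζ + b₂ ζ) * (b₀ ζ + b₁ ζ + b₂ ζ) = -7 := by
    simp only [b₀, b₁, b₂]
    linear_combination ((7) + (-7) * ζ ^ 1 + (1) * ζ ^ 2 + (1) * ζ ^ 3 + (-3) * ζ ^ 4 + (1) * ζ ^ 5 + (1) * ζ ^ 6) * hcyc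
  have hT : b₀ ζ + b₁ ζ + b₂ ζ ≠ 0 := by
    intro h0
    rw [h0, mul_zero] at h1
    exact h7 (by linear_combination h1)
  have p0 : ψ (b₀ ζ) = b₂ ζ := by
    simp only [b₀, b₂, map_sub, map_pow, hpsi]
    linear_combination (- ζ ^ 3) * e7
  have p1 : ψ (b₁ ζ) = b₀ ζ := by
    simp only [b₁, b₀, map_sub, map_pow, hpsi]
    linear_combination (- ζ ^ 5) * e7
  have p2 : ψ (b₂ ζ) = b₁ ζ := by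
    simp only [b₂, b₁, map_sub, map_pow, hpsi]
    linear_combination (ζ) * e7
  have hψT : ψ (b₀ ζ + b₁ ζ + b₂ ζ) = b₀ ζ + b₁ ζ + b₂ ζ := by
    rw [map_add, map_add, p0, p1, p2]; ring
  refine ⟨-(b₀ ζ + b₁ ζ + b₂ ζ)⁻¹, hcyc, hpsi, hpsi3, ?_, ?_⟩
  · rw [neg_mul, inv_mul_cancel₀ hT]
  · rw [map_neg, map_inv₀, hψT]

end H97.Asch3Sev
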