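import Mathlib
import Cfsg.Agent.Lib.H97.Asch3Sev
import Cfsg.Agent.Lib.H97.AschFive2

/-!
Aschbacher library, part 73: the normaliser of a field of degree three in the three-dimensional unitary groups over the
fields with 9 and 25 elements is not maximal.
-/

set_option autoImplicit false
set_option linter.unusedSectionVars false

namespace H97.Asch3Fld

open Cfsg Cfsg.Geo Matrix H97.AschRad H97.AschEnv H97.AschNonab H97.AschGrp H97.AschLinear H97.AschIdem H97.AschDecomp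
open H97.AschForm H97.AschSubfield H97.AschReal H97.AschNCU H97.AschUSymp H97.AschUPair H97.AschUElim
open H97.AschCases H97.AschNC H97.AschTri H97.AschOne H97.AschFive2 H97.Asch3Sev
open H96.AschSympType1 H96.AschSympType2 H96.AschSympType3 H96.AschSubForm H96.AschSympType5 H96.AschAdj
open H96.AschComm H96.AschField H96.AschSympEx
open H96.AschSp H96.AschSp2 H96.AschSU H96.AschSU2 H96.AschOdd2 H96.AschDescent H96.AschSU3

section grp

variable {G : Type*} [Group G]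

/-- the Frobenius group -/
def frob (s t : G) (hs : s ^ 7 = 1) (ht : t ^ 3 = 1) (hts : t * s * t⁻¹ = s ^ 2) : Subgroup G where
  carrier := {x | ∃ i j : ℕ, x = s ^ i * t ^ j}
  one_mem' := ⟨0, 0, by simp⟩
  mul_mem' := by
    rintro _ _ ⟨i, j, rfl⟩ ⟨k, l, rfl⟩
    refine ⟨i + 2 ^ j * k, j + l, ?_⟩
    have h1 := H97.AschPaley.conj_pow hts j (k : ℤ)
    rw [zpow_natCast] at h1
    have h2 : ((2 : ℕ) : ℤ) ^ j * (k : ℤ) = ((2 ^ j * k : ℕ) : ℤ) := by push_cast; ring
    rw [h2, zpow_natCast] at h1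
    have h3 : t ^ j * s ^ k = s ^ (2 ^ j * k) * t ^ j := by rw [← h1]; group
    calc s ^ i * t ^ j * (s ^ k * t ^ l) = s ^ i * (t ^ j * s ^ k) * t ^ l := by group
      _ = _ := by rw [h3, pow_add, pow_add]; group
  inv_mem' := by
    rintro _ ⟨i, j, rfl⟩
    refine ⟨2 ^ (2 * j) * (6 * i), 2 * j, ?_⟩
    have h1 := H97.AschPaley.conj_pow hts (2 * j) ((6 * i : ℕ) : ℤ)
    rw [zpow_natCast] at h1
    have h2 : ((2 : ℕ) : ℤ) ^ (2 * j) * ((6 * i : ℕ) : ℤ) = ((2 ^ (2 * j) * (6 * i) : ℕ) : ℤ) := by push_cast; ring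
    rw [h2, zpow_natCast] at h1
    have h3 : t ^ (2 * j) * s ^ (6 * i) = s ^ (2 ^ (2 * j) * (6 * i)) * t ^ (2 * j) := by rw [← h1]; group
    rw [← h3]
    symm
    apply eq_inv_of_mul_eq_one_left
    have h4 : s ^ (6 * i) * s ^ i = 1 := by
      rw [← pow_add, show 6 * i + i = 7 * i by ring, pow_mul, hs, one_pow]
    have h5 : t ^ (2 * j) * t ^ j = 1 := by
      rw [← pow_add, show 2 * j + j = 3 * j by ring, pow_mul, ht, one_pow]
    calc t ^ (2 * j) * s ^ (6 * i) * (s ^ i * t ^ j) = t ^ (2 * j) * (s ^ (6 * i) * s ^ i) * t ^ j := by group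
      _ = 1 := by rw [h4, mul_one, h5]

lemma frob_card [Finite G] (s t : G) (hs : s ^ 7 = 1) (ht : t ^ 3 = 1) (hts : t * s * t⁻¹ = s ^ 2) :
    Nat.card (frob s t hs ht hts) ≤ 21 := by
  let f : Fin 7 × Fin 3 → G := fun p => s ^ (p.1 : ℕ) * t ^ (p.2 : ℕ)
  have hsub : (frob s t hs ht hts : Set G) ⊆ Set.range f := by
    rintro _ ⟨i, j, rfl⟩
    refine ⟨(⟨i % 7, Nat.mod_lt _ (by norm_num)⟩, ⟨j % 3, Nat.mod_lt _ (by norm_num)⟩), ?_⟩
    change s ^ (i % 7) * t ^ (j % 3) = s ^ i * t ^ j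
    congr 1
    · exact pow_eq_pow_iff_modEq.mpr ((Nat.mod_modEq i 7).of_dvd (orderOf_dvd_of_pow_eq_one hs))
    · exact pow_eq_pow_iff_modEq.mpr ((Nat.mod_modEq j 3).of_dvd (orderOf_dvd_of_pow_eq_one ht))
  have h1 : Nat.card (frob s t hs ht hts) ≤ (Set.range f).ncard := by
    rw [← SetLike.coe_sort_coe, Nat.card_coe_set_eq]
    exact Set.ncard_le_ncard hsub (Set.finite_range f)
  have h2 : (Set.range f).ncard ≤ Nat.card (Fin 7 × Fin 3) := by
    rw [← Nat.card_coe_set_eq]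
    exact Finite.card_range_le f
  have h3 : Nat.card (Fin 7 × Fin 3) = 21 := by simp
  omega

end grp

section scal

variable {F : Type*} [Field F] [Fintype F] {n : ℕ}

/-- a subgroup together with the scalars of order three -/
def thr (N : Subgroup (GL (Fin n) F)) : Subgroup (GL (Fin n) F) where
  carrier := {x | ∃ y ∈ N, ∃ l : Fˣ, l ^ 3 = 1 ∧ x = y * sc (Fin n) l}
  one_mem' := ⟨1, N.one_mem, 1, one_pow _, by simp⟩
  mul_mem' := by
    rintro _ _ ⟨y, hy, l, hl, rfl⟩ ⟨y', hy', l', hl', rfl⟩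
    refine ⟨y * y', N.mul_mem hy hy', l * l', by rw [mul_pow, hl, hl', mul_one], ?_⟩
    rw [map_mul]
    calc y * sc (Fin n) l * (y' * sc (Fin n) l') = y * (sc (Fin n) l * y') * sc (Fin n) l' := by group
      _ = y * y' * (sc (Fin n) l * sc (Fin n) l') := by rw [sc_comm]; group
  inv_mem' := by
    rintro _ ⟨y, hy, l, hl, rfl⟩
    refine ⟨y⁻¹, N.inv_mem hy, l⁻¹, by rw [inv_pow, hl, inv_one], ?_⟩
    rw [_root_.mul_inv_rev, ← map_inv, sc_comm]

lemma thr_card (N : Subgroup (GL (Fin n) F)) : Nat.card (thr N) ≤ Nat.card N * 3 := by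
  classical
  have hfinM : Finite (Matrix (Fin n) (Fin n) F) := by unfold Matrix; infer_instance
  have hfinG : Finite (GL (Fin n) F) := inferInstance
  have hne : NeZero 3 := ⟨by norm_num⟩
  let f : N × rootsOfUnity 3 F → GL (Fin n) F := fun p => p.1.1 * sc (Fin n) p.2.1
  have hsub : (thr N : Set (GL (Fin n) F)) ⊆ Set.range f := by
    rintro _ ⟨y, hy, l, hl, rfl⟩
    exact ⟨(⟨y, hy⟩, ⟨l, by rw [mem_rootsOfUnity, hl]⟩), rfl⟩
  have h1 : Nat.card (thr N) ≤ (Set.range f).ncard := by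
    rw [← SetLike.coe_sort_coe, Nat.card_coe_set_eq]
    exact Set.ncard_le_ncard hsub (Set.finite_range f)
  have h2 : (Set.range f).ncard ≤ Nat.card (N × rootsOfUnity 3 F) := by
    rw [← Nat.card_coe_set_eq]
    exact Finite.card_range_le f
  have h3 : Nat.card (rootsOfUnity 3 F) ≤ 3 := card_rootsOfUnity F 3
  rw [Nat.card_prod] at h2
  exact (h1.trans h2).trans (Nat.mul_le_mul_left _ h3)

end scal

variable {F : Type*} [Field F] [Fintype F] {q : ℕ} {σ : F ≃+* F}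
variable {L : Type*} [Field L] [Fintype L] [Algebra F L]

theorem core (h : Ctx (F := F) σ 3 q) (hL3 : Module.finrank F L = 3)
    (φ : L →ₐ[F] Matrix (Fin 3) (Fin 3) F) (hadj : ∀ x : L, ∃ y : L, h.form.adj (φ x) = φ y)
    {H : Subgroup (GL (Fin 3) F)} (hH : IsMaximalIn (GU 3 F q ⊓ specialLinear (Fin 3) F) H)
    (hHK : ∀ g ∈ GU 3 F q ⊓ specialLinear (Fin 3) F, g ∈ H ↔ ∀ x : L, ∃ y : L,
      (g : Matrix (Fin 3) (Fin 3) F) * φ x * ((g⁻¹ : GL (Fin 3) F) : Matrix (Fin 3) (Fin 3) F) = φ y)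
    (ψ : L ≃ₐ[F] L) (ζ : L) (hprim : IsPrimitiveRoot ζ 7) (hψζ : ψ ζ = ζ ^ 2) (hψ3 : ∀ x, ψ (ψ (ψ x)) = x)
    (hβζ0 : ζ ^ (q ^ 3) = ζ ^ 6)
    (hψtr : ∀ x, algebraMap F L (Algebra.trace F L x) = H97.Asch3Sev.tr (ψ : L →+* L) x)
    (hfrob : ∀ j : ℕ, ∃ m : ℕ, ∀ x : L, x ^ ((q ^ 2) ^ j) = (⇑ψ)^[m] x)
    (h7 : (7 : L) ≠ 0)
    (hk21 : ∀ k : L, k ^ (q ^ 3 + 1) = 1 → Algebra.norm F k = 1 → k ^ 21 = 1 ∧ ∃ l : F, algebraMap F L l = k ^ 7)
    (hcard : 1386 * (Fintype.card F - 1) < Nat.card (GU 3 F q)) : False := by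
  classical
  have hfinM : Finite (Matrix (Fin 3) (Fin 3) F) := by unfold Matrix; infer_instance
  have hfinG : Finite (GL (Fin 3) F) := inferInstance
  have hne : Nonempty (Fin 3) := ⟨0⟩
  obtain ⟨β, E, hβ2, M⟩ := exists_model h (by norm_num) hL3 φ hadj
  have hζ7 : ζ ^ 7 = 1 := hprim.pow_eq_one
  have hζ1 : ζ ≠ 1 := hprim.ne_one (by norm_num)
  have hζ0 : ζ ≠ 0 := hprim.ne_zero (by norm_num)
  have hcyc : 1 + ζ + ζ ^ 2 + ζ ^ 3 + ζ ^ 4 + ζ ^ 5 + ζ ^ 6 = 0 := by
    have h1 : (ζ - 1) * (1 + ζ + ζ ^ 2 + ζ ^ 3 + ζ ^ 4 + ζ ^ 5 + ζ ^ 6) = 0 := by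
      linear_combination hζ7
    exact (mul_eq_zero.mp h1).resolve_left (sub_ne_zero.mpr hζ1)
  let ψr : L →+* L := (ψ : L →+* L)
  have hψr : ∀ x, ψr x = ψ x := fun x => rfl
  obtain ⟨c, hEl⟩ := exists_sev (ψ := ψr) hcyc (by rw [hψr, hψζ]) (fun x => hψ3 x) h7
  have hβpow : ∀ x, β x = x ^ (q ^ 3) := M.pow
  have hβζ : (β : L →+* L) ζ = ζ ^ 6 := by
    change β ζ = _
    rw [hβpow, hβζ0]
  have hβc := hEl.beta_c hβζ
  have hβψ : ∀ x, (β : L →+* L) (ψr x) = ψr ((β : L →+* L) x) := by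
    intro x
    change β (ψ x) = ψ (β x)
    rw [hβpow, hβpow, map_pow]
  have htrinj : ∀ x y, H97.Asch3Sev.tr ψr x = H97.Asch3Sev.tr ψr y → Algebra.trace F L x = Algebra.trace F L y := by
    intro x y hxy
    apply (algebraMap F L).injective
    rw [hψtr, hψtr]
    exact hxy
  -- the three maps
  let S : L ≃ₗ[F] L :=
    { toFun := fun x => ζ * x
      invFun := fun x => ζ⁻¹ * x
      left_inv := fun x => by change ζ⁻¹ * (ζ * x) = x; rw [← mul_assoc, inv_mul_cancel₀ hζ0, one_mul]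
      right_inv := fun x => by change ζ * (ζ⁻¹ * x) = x; rw [← mul_assoc, mul_inv_cancel₀ hζ0, one_mul]
      map_add' := fun x y => mul_add _ _ _
      map_smul' := fun c x => by rw [mul_smul_comm]; rfl }
  have hSx : ∀ x, S x = ζ * x := fun x => rfl
  let T : L ≃ₗ[F] L := ψ.toLinearEquiv
  have hTx : ∀ x, T x = ψ x := fun x => rfl
  have hψc : ∀ c : F, ψr (algebraMap F L c) = algebraMap F L c := fun c => ψ.commutes c
  let Z : L ≃ₗ[F] L :=
    { toFun := zf ζ c ψr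
      invFun := zf ζ c ψr
      left_inv := hEl.zz
      right_inv := hEl.zz
      map_add' := fun x y => zf_add _ _ _ _ _
      map_smul' := fun d x => by
        rw [Algebra.smul_def, Algebra.smul_def, zf_mul (hψc d)]; rfl }
  have hZx : ∀ x, Z x = zf ζ c ψr x := fun x => rfl
  set s := lift E S with hs
  set t := lift E T with ht
  set z := lift E Z with hz
  have sE : ∀ x, (s : Matrix (Fin 3) (Fin 3) F) *ᵥ E x = E (ζ * x) := fun x => lift_apply E S x
  have tE : ∀ x, (t : Matrix (Fin 3) (Fin 3) F) *ᵥ E x = E (ψ x) := fun x => lift_apply E T x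
  have zE : ∀ x, (z : Matrix (Fin 3) (Fin 3) F) *ᵥ E x = E (zf ζ c ψr x) := fun x => lift_apply E Z x
  have spE : ∀ (m : ℕ) x, ((s ^ m : GL (Fin 3) F) : Matrix (Fin 3) (Fin 3) F) *ᵥ E x = E (ζ ^ m * x) := by
    intro m
    induction m with
    | zero => intro x; rw [pow_zero, pow_zero, Units.val_one, Matrix.one_mulVec, one_mul]
    | succ m ih => intro x; rw [pow_succ, H97.AschOne.mul_apply', sE, ih, pow_succ, mul_assoc]
  have tpE : ∀ (m : ℕ) x, ((t ^ m : GL (Fin 3) F) : Matrix (Fin 3) (Fin 3) F) *ᵥ E x = E ((⇑ψ)^[m] x) := by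
    intro m
    induction m with
    | zero => intro x; rw [pow_zero, Units.val_one, Matrix.one_mulVec]; rfl
    | succ m ih => intro x; rw [pow_succ, H97.AschOne.mul_apply', tE, ih, Function.iterate_succ_apply]
  have one_E : ∀ x, ((1 : GL (Fin 3) F) : Matrix (Fin 3) (Fin 3) F) *ᵥ E x = E x := by
    intro x; rw [Units.val_one, Matrix.one_mulVec]
  have hs7 : s ^ 7 = 1 := by
    apply ext_model E
    intro x
    rw [spE, hζ7, one_mul, one_E]
  have hsinv : s⁻¹ = s ^ 6 := by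
    apply inv_eq_of_mul_eq_one_right
    rw [← pow_succ', hs7]
  have ht3 : t ^ 3 = 1 := by
    apply ext_model E
    intro x
    rw [tpE, one_E]
    congr 1
    exact hψ3 x
  have hzz : z * z = 1 := by
    apply ext_model E
    intro x
    rw [H97.AschOne.mul_apply', zE, zE, hEl.zz, one_E]
  have hts : t * s * t⁻¹ = s ^ 2 := by
    rw [mul_inv_eq_iff_eq_mul]
    apply ext_model E
    intro x
    rw [H97.AschOne.mul_apply', H97.AschOne.mul_apply', sE, tE, tE, spE, map_mul, hψζ]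
  have hzt : z * t * z = t⁻¹ := by
    symm
    apply inv_eq_of_mul_eq_one_right
    apply ext_model E
    intro x
    rw [H97.AschOne.mul_apply', H97.AschOne.mul_apply', H97.AschOne.mul_apply', zE, tE, zE, tE, one_E]
    congr 1
    have := hEl.zt (zf ζ c ψr x)
    rw [hEl.zz] at this
    exact this
  have hzs : z * s * z = s⁻¹ * z * s⁻¹ := by
    rw [hsinv]
    apply ext_model E
    intro x
    rw [H97.AschOne.mul_apply', H97.AschOne.mul_apply', H97.AschOne.mul_apply', H97.AschOne.mul_apply', zE, sE, zE, spE, zE, spE, hEl.zsz]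
  -- membership
  have hsU : s ∈ GU 3 F q := by
    apply M.mem_GU
    intro x y
    congr 1
    rw [hSx, hSx, map_mul]
    have h1 : β ζ = ζ ^ 6 := hβζ
    rw [h1]
    linear_combination (β y * x) * hζ7
  have htU : t ∈ GU 3 F q := by
    apply M.mem_GU
    intro x y
    rw [hTx, hTx]
    have h1 : β (ψ y) * ψ x = ψ (β y * x) := by
      rw [map_mul]
      congr 1
      exact hβψ y
    rw [h1]
    exact Algebra.trace_eq_of_algEquiv ψ _
  have hzU : z ∈ GU 3 F q := by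
    apply M.mem_GU
    intro x y
    apply htrinj
    exact hEl.unitary hβψ hβζ hβc x y
  -- determinants
  have ds : Matrix.GeneralLinearGroup.det s = 1 := by
    have h1 := congrArg Matrix.GeneralLinearGroup.det hts
    rw [map_mul, map_mul, map_inv, map_pow, mul_comm (Matrix.GeneralLinearGroup.det t), mul_inv_cancel_right, pow_two] at h1
    exact mul_left_cancel (h1.symm.trans (mul_one _).symm)
  have dz : Matrix.GeneralLinearGroup.det z = 1 := by
    have h1 := congrArg Matrix.GeneralLinearGroup.det hzs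
    rw [map_mul, map_mul, map_mul, map_mul, map_inv, ds, inv_one, one_mul, mul_one] at h1
    exact mul_left_cancel (h1.trans (mul_one _).symm)
  have dt : Matrix.GeneralLinearGroup.det t = 1 := by
    have h1 := congrArg Matrix.GeneralLinearGroup.det hzt
    rw [map_mul, map_mul, map_inv, dz, one_mul, mul_one] at h1
    have h2 := congrArg Matrix.GeneralLinearGroup.det ht3
    rw [map_pow, map_one] at h2
    have h3 : Matrix.GeneralLinearGroup.det t * Matrix.GeneralLinearGroup.det t = 1 := by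
      nth_rewrite 1 [h1]
      exact inv_mul_cancel _
    rw [pow_succ, pow_two, h3, one_mul] at h2
    exact h2
  have hsG : s ∈ GU 3 F q ⊓ specialLinear (Fin 3) F := ⟨hsU, ds⟩
  have htG : t ∈ GU 3 F q ⊓ specialLinear (Fin 3) F := ⟨htU, dt⟩
  have hzG : z ∈ GU 3 F q ⊓ specialLinear (Fin 3) F := ⟨hzU, dz⟩
  have hsval : (s : Matrix (Fin 3) (Fin 3) F) = φ ζ := by
    apply matrix_ext_vec
    intro v
    obtain ⟨x, rfl⟩ := E.surjective v
    rw [sE, M.act]
  have hsH : s ∈ H := by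
    rw [hHK s hsG]
    intro x
    refine ⟨x, ?_⟩
    rw [hsval, ← map_mul, mul_comm, map_mul, ← hsval, mul_assoc, Units.mul_inv, mul_one]
  have htH : t ∈ H := by
    rw [hHK t htG]
    intro x
    refine ⟨ψ x, ?_⟩
    have h1 : (t : Matrix (Fin 3) (Fin 3) F) * φ x = φ (ψ x) * (t : Matrix (Fin 3) (Fin 3) F) := by
      apply matrix_ext_vec
      intro v
      obtain ⟨y, rfl⟩ := E.surjective v
      rw [← Matrix.mulVec_mulVec, ← Matrix.mulVec_mulVec, M.act, tE, tE, M.act, map_mul]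
    rw [h1, mul_assoc, Units.mul_inv, mul_one]
  have hiter : ∀ (m : ℕ) (l : F) (x : L), (⇑ψ)^[m] (l • x) = l • (⇑ψ)^[m] x := by
    intro m l
    induction m with
    | zero => intro x; rfl
    | succ m ih => intro x; rw [Function.iterate_succ_apply, Function.iterate_succ_apply, map_smul, ih]
  -- all elements
  have hB : ∀ b ∈ H, ∃ (i j : ℕ) (l : Fˣ), l ^ 3 = 1 ∧ b = s ^ i * t ^ j * sc (Fin 3) l := by
    intro b hb
    have hbG := hH.1.le hb
    obtain ⟨k, j, -, hk0, hk⟩ := M.semilinear ((hHK b hbG).1 hb)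
    have hk1 := M.norm_one hbG.1 hk
    have hkq : k ^ (q ^ 3 + 1) = 1 := by rw [hβpow] at hk1; rw [pow_succ]; exact hk1
    obtain ⟨m, hm⟩ := hfrob j
    have hk' : ∀ x, (b : Matrix (Fin 3) (Fin 3) F) *ᵥ E x = E (k * (⇑ψ)^[m] x) := fun x => by rw [hk, hm]
    have hc : ∀ x, ((b * (t ^ m)⁻¹ : GL (Fin 3) F) : Matrix (Fin 3) (Fin 3) F) *ᵥ E x = E (k * x) := by
      intro x
      have h1 : E x = ((t ^ m : GL (Fin 3) F) : Matrix (Fin 3) (Fin 3) F) *ᵥ
          ((((t ^ m)⁻¹ : GL (Fin 3) F) : Matrix (Fin 3) (Fin 3) F) *ᵥ E x) := by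
        rw [Matrix.mulVec_mulVec, Units.mul_inv, Matrix.one_mulVec]
      obtain ⟨y, hy⟩ := E.surjective ((((t ^ m)⁻¹ : GL (Fin 3) F) : Matrix (Fin 3) (Fin 3) F) *ᵥ E x)
      rw [← hy, tpE] at h1
      have h2 : x = (⇑ψ)^[m] y := E.injective h1
      rw [H97.AschOne.mul_apply', ← hy, hk', h2]
    have hcval : ((b * (t ^ m)⁻¹ : GL (Fin 3) F) : Matrix (Fin 3) (Fin 3) F) = φ k := by
      apply matrix_ext_vec
      intro v
      obtain ⟨x, rfl⟩ := E.surjective v
      rw [hc, M.act]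
    have hcG : b * (t ^ m)⁻¹ ∈ GU 3 F q ⊓ specialLinear (Fin 3) F :=
      Subgroup.mul_mem _ hbG (Subgroup.inv_mem _ (Subgroup.pow_mem _ htG m))
    have hnorm : Algebra.norm F k = 1 := by
      have h1 := det_field φ (k := 1) (by rw [hL3]) (by norm_num) k
      rw [pow_one, ← hcval, mem_SL.1 hcG.2] at h1
      exact h1.symm
    obtain ⟨hk21', l, hl⟩ := hk21 k hkq hnorm
    have hk15 : (k ^ 15) ^ 7 = 1 := by
      rw [← pow_mul, show 15 * 7 = 21 * 5 by norm_num, pow_mul, hk21', one_pow]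
    obtain ⟨i, -, hi⟩ := hprim.eq_pow_of_pow_eq_one hk15
    have hl3 : l ^ 3 = 1 := by
      apply (algebraMap F L).injective
      rw [map_pow, hl, ← pow_mul, map_one]
      exact hk21'
    have hl0 : l ≠ 0 := by
      rintro rfl
      norm_num at hl3
    have hkk : k = ζ ^ i * k ^ 7 := by
      rw [hi, ← pow_add]
      calc k = k ^ 21 * k := by rw [hk21', one_mul]
        _ = k ^ (15 + 7) := by ring
    refine ⟨i, m, Units.mk0 l hl0, Units.ext (by simpa using hl3), ?_⟩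
    apply ext_model E
    intro x
    rw [hk', H97.AschOne.mul_apply', sc_mulVec, ← map_smul, H97.AschOne.mul_apply', tpE, spE, hiter]
    congr 1
    rw [Units.val_mk0, Algebra.smul_def, hl]
    nth_rewrite 1 [hkk]
    ring
  obtain ⟨N, hBN, hzN, hN⟩ := H97.AschPaley.exists_overgroup (p := 7) (a := 2) (B := frob s t hs7 ht3 hts) hs7 hzz hts hzt
    hzs ⟨1, 0, by simp⟩ ⟨0, 1, by simp⟩ (fun b hb => hb) (by
    intro i
    have key : ∀ r < 7, r = 0 ∨ ∃ m < 3, r % 7 = 2 ^ m % 7 ∨ (r + 2 ^ m) % 7 = 0 := by decide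
    rcases key (i % 7) (Nat.mod_lt _ (by norm_num)) with h1 | ⟨m, -, h1 | h1⟩
    · left; exact Nat.dvd_of_mod_eq_zero h1
    · right
      refine ⟨m, Or.inl ?_⟩
      rw [Nat.mod_mod] at h1
      exact h1
    · right
      refine ⟨m, Or.inr ?_⟩
      unfold Nat.ModEq
      rw [Nat.add_mod] at h1 ⊢
      rw [Nat.mod_mod] at h1
      rw [h1])
  have hHX : H ≤ thr N := by
    intro b hb
    obtain ⟨i, j, l, hl, rfl⟩ := hB b hb
    exact ⟨s ^ i * t ^ j, hBN ⟨i, j, rfl⟩, l, hl, rfl⟩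
  have hNcard : Nat.card (thr N) ≤ 1386 := by
    have h1 := H97.AschPaley.card_le hN
    have h2 := frob_card s t hs7 ht3 hts
    have h3 : Nat.card N ≤ 462 := by
      calc Nat.card N ≤ _ := h1
        _ ≤ 21 + 21 * 21 := Nat.add_le_add h2 (Nat.mul_le_mul h2 h2)
        _ = 462 := by norm_num
    calc Nat.card (thr N) ≤ Nat.card N * 3 := thr_card N
      _ ≤ 462 * 3 := Nat.mul_le_mul_right _ h3
      _ = 1386 := by norm_num
  have hnot : ¬ GU 3 F q ⊓ specialLinear (Fin 3) F ≤ thr N := by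
    intro hsub
    have h1 := card_le_special (GU 3 F q)
    have h2 := Subgroup.card_le_of_le hsub
    have h3 := Nat.mul_le_mul_right (Fintype.card F - 1) (h2.trans hNcard)
    exact absurd (h1.trans h3) (not_le.mpr hcard)
  have hHX' := eq_of_max hH hHX hnot
  have hzH : z ∈ H := by
    rw [hHX']
    exact ⟨⟨z, hzN, 1, one_pow _, by rw [map_one, mul_one]⟩, hzG⟩
  obtain ⟨i, j, l, hl, hzl⟩ := hB z hzH
  have hzB : z ∈ frob s t hs7 ht3 hts := by
    have hyB : s ^ i * t ^ j ∈ frob s t hs7 ht3 hts := ⟨i, j, rfl⟩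
    have h1 : z = (s ^ i * t ^ j) ^ 3 := by
      have hcomm : Commute (s ^ i * t ^ j) (sc (Fin 3) l) := (sc_comm l _).symm
      calc z = z ^ 3 := by rw [pow_succ, pow_two, hzz, one_mul]
        _ = (s ^ i * t ^ j * sc (Fin 3) l) ^ 3 := by rw [← hzl]
        _ = (s ^ i * t ^ j) ^ 3 * (sc (Fin 3) l) ^ 3 := hcomm.mul_pow 3
        _ = (s ^ i * t ^ j) ^ 3 := by rw [← map_pow, hl, map_one, mul_one]
    rw [h1]
    exact Subgroup.pow_mem _ hyB 3
  have hs1 : s ≠ 1 := by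
    intro h1
    have h2 := sE 1
    rw [h1, one_E, mul_one] at h2
    exact hζ1 (E.injective h2).symm
  have := Fact.mk (show Nat.Prime 7 by norm_num)
  exact H97.AschPaley.not_mem (p := 7) (by norm_num) (by norm_num) hs7 hs1 hzz hts hzs (fun b hb => hb) hzB

end H97.Asch3Fld
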