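import Mathlib
import Cfsg.Agent.Lib.H97.Asch3Fld

/-!
Aschbacher library, part 74: the normaliser of a field of degree three in the three-dimensional unitary groups over the
fields with 9 and 25 elements is not maximal: conclusion.
-/

set_option autoImplicit false
set_option linter.unusedSectionVars false

namespace H97.Asch3Fld2

open Cfsg Cfsg.Geo Matrix H97.AschRad H97.AschEnv H97.AschNonab H97.AschGrp H97.AschLinear H97.AschIdem H97.AschDecomp
open H97.AschForm H97.AschSubfield H97.AschReal H97.AschNCU H97.AschUSymp H97.AschUPair H97.AschUElim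
open H97.AschCases H97.AschNC H97.AschTri H97.AschOne H97.AschFive2 H97.Asch3Sev
open H96.AschSympType1 H96.AschSympType2 H96.AschSympType3 H96.AschSubForm H96.AschSympType5 H96.AschAdj
open H96.AschComm H96.AschField H96.AschSympEx
open H96.AschSp H96.AschSp2 H96.AschSU H96.AschSU2 H96.AschOdd2 H96.AschDescent H96.AschSU3

variable {F : Type*} [Field F] [Fintype F] {q : ℕ} {σ : F ≃+* F}
variable {L : Type*} [Field L] [Fintype L] [Algebra F L]

lemma exists_root {K : Type*} [Field K] [Finite K] {n m : ℕ} (hn : Nat.card Kˣ = n * m) (hm : m ≠ 0) :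
    ∃ ζ : K, IsPrimitiveRoot ζ n := by
  obtain ⟨g₀, hg₀⟩ := IsCyclic.exists_generator (α := Kˣ)
  have hord₀ : orderOf g₀ = n * m := by rw [orderOf_eq_card_of_forall_mem_zpowers hg₀, hn]
  refine ⟨((g₀ ^ m : Kˣ) : K), ?_⟩
  have h1 : orderOf (g₀ ^ m) = n := by
    rw [orderOf_pow, hord₀, Nat.gcd_eq_right (Dvd.intro_left n rfl), Nat.mul_div_cancel _ (Nat.pos_of_ne_zero hm)]
  have h2 := IsPrimitiveRoot.orderOf (g₀ ^ m)
  rw [h1] at h2
  exact IsPrimitiveRoot.coe_units_iff.mpr h2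

theorem no_field_three (h : Ctx (F := F) σ 3 q) (hq : q = 3) (hL3 : Module.finrank F L = 3)
    (φ : L →ₐ[F] Matrix (Fin 3) (Fin 3) F) (hadj : ∀ x : L, ∃ y : L, h.form.adj (φ x) = φ y)
    {H : Subgroup (GL (Fin 3) F)} (hH : IsMaximalIn (GU 3 F q ⊓ specialLinear (Fin 3) F) H)
    (hHK : ∀ g ∈ GU 3 F q ⊓ specialLinear (Fin 3) F, g ∈ H ↔ ∀ x : L, ∃ y : L,
      (g : Matrix (Fin 3) (Fin 3) F) * φ x * ((g⁻¹ : GL (Fin 3) F) : Matrix (Fin 3) (Fin 3) F) = φ y) : False := by
  classical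
  have hF9 : Fintype.card F = 9 := by rw [h.card, hq]; norm_num
  have hcardL : Nat.card L = 729 := by
    rw [Module.natCard_eq_pow_finrank (K := F), hL3, Nat.card_eq_fintype_card, hF9]; norm_num
  have hcardL' : Fintype.card L = 729 := by rw [← Nat.card_eq_fintype_card, hcardL]
  have hcardU : Nat.card Lˣ = 7 * 104 := by rw [Nat.card_units, hcardL]
  obtain ⟨ζ, hprim⟩ := exists_root hcardU (by norm_num)
  have hζ7 : ζ ^ 7 = 1 := hprim.pow_eq_one
  let ψ : L ≃ₐ[F] L := FiniteField.frobeniusAlgEquivOfAlgebraic F L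
  have hψ : ∀ x, ψ x = x ^ 9 := by
    intro x
    change x ^ Fintype.card F = _
    rw [hF9]
  have hx : ∀ x : L, x ^ 729 = x := fun x => by
    have := FiniteField.pow_card x
    rwa [hcardL'] at this
  refine H97.Asch3Fld.core h hL3 φ hadj hH hHK ψ ζ hprim ?_ ?_ ?_ ?_ ?_ ?_ ?_ ?_
  · rw [hψ, show 9 = 7 + 2 by norm_num, pow_add, hζ7, one_mul]
  · intro x
    rw [hψ, hψ, hψ, ← pow_mul, ← pow_mul]
    exact hx x
  · rw [hq, show 3 ^ 3 = 7 * 3 + 6 by norm_num, pow_add, pow_mul, hζ7, one_pow, one_mul]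
  · intro x
    rw [FiniteField.algebraMap_trace_eq_sum_pow, hL3, Nat.card_eq_fintype_card, hF9]
    simp only [Finset.sum_range_succ, Finset.sum_range_zero, zero_add, H97.Asch3Sev.tr, pow_zero, pow_one]
    change x + x ^ 9 + x ^ 9 ^ 2 = x + ψ x + ψ (ψ x)
    rw [hψ, hψ, ← pow_mul]
    norm_num
  · intro j
    refine ⟨j, ?_⟩
    rw [hq]
    induction j with
    | zero => intro x; rw [pow_zero, pow_one]; rfl
    | succ j ih =>
      intro x
      rw [Function.iterate_succ_apply, ← ih, hψ, ← pow_mul x]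
      congr 1
      rw [pow_succ]; ring
  · intro h0
    have h1 : ((Fintype.card L : ℕ) : L) = 0 := Nat.cast_card_eq_zero L
    rw [hcardL'] at h1
    have h2 : (3 : L) ^ 6 = 0 := by rw [← h1]; norm_num
    have h3 : (3 : L) = 0 := pow_eq_zero_iff (by norm_num) |>.mp h2
    apply one_ne_zero (α := L)
    linear_combination h0 - 2 * h3
  · intro k hk hn
    rw [hq] at hk
    have h1 := FiniteField.algebraMap_norm_eq_pow (K := F) (K' := L) (x := k)
    rw [hcardL, Nat.card_eq_fintype_card, hF9, hn, map_one] at h1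
    have h2 : k ^ 91 = 1 := h1.symm
    have h3 : k ^ 28 = 1 := hk
    have h4 : k ^ 7 = 1 := by
      have h1 : orderOf k ∣ Nat.gcd 28 91 :=
        Nat.dvd_gcd (orderOf_dvd_of_pow_eq_one h3) (orderOf_dvd_of_pow_eq_one h2)
      exact orderOf_dvd_iff_pow_eq_one.mp h1
    refine ⟨?_, 1, by rw [map_one, h4]⟩
    rw [show 21 = 7 * 3 by norm_num, pow_mul, h4, one_pow]
  · rw [H7.UnitOrd.card_GU h.card 3, hF9, hq]
    decide

theorem no_field_five (h : Ctx (F := F) σ 3 q) (hq : q = 5) (hL3 : Module.finrank F L = 3)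
    (φ : L →ₐ[F] Matrix (Fin 3) (Fin 3) F) (hadj : ∀ x : L, ∃ y : L, h.form.adj (φ x) = φ y)
    {H : Subgroup (GL (Fin 3) F)} (hH : IsMaximalIn (GU 3 F q ⊓ specialLinear (Fin 3) F) H)
    (hHK : ∀ g ∈ GU 3 F q ⊓ specialLinear (Fin 3) F, g ∈ H ↔ ∀ x : L, ∃ y : L,
      (g : Matrix (Fin 3) (Fin 3) F) * φ x * ((g⁻¹ : GL (Fin 3) F) : Matrix (Fin 3) (Fin 3) F) = φ y) : False := by
  classical
  have hF25 : Fintype.card F = 25 := by rw [h.card, hq]; norm_num
  have hcardL : Nat.card L = 15625 := by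
    rw [Module.natCard_eq_pow_finrank (K := F), hL3, Nat.card_eq_fintype_card, hF25]; norm_num
  have hcardL' : Fintype.card L = 15625 := by rw [← Nat.card_eq_fintype_card, hcardL]
  have hcardU : Nat.card Lˣ = 7 * 2232 := by rw [Nat.card_units, hcardL]
  obtain ⟨ζ, hprim⟩ := exists_root hcardU (by norm_num)
  have hcardF : Nat.card Fˣ = 3 * 8 := by rw [Nat.card_units, Nat.card_eq_fintype_card, hF25]
  obtain ⟨ω, hω⟩ := exists_root hcardF (by norm_num)
  have hωL : IsPrimitiveRoot (algebraMap F L ω) 3 := hω.map_of_injective (algebraMap F L).injective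
  have hζ7 : ζ ^ 7 = 1 := hprim.pow_eq_one
  let ψ₀ : L ≃ₐ[F] L := FiniteField.frobeniusAlgEquivOfAlgebraic F L
  have hψ₀ : ∀ x, ψ₀ x = x ^ 25 := by
    intro x
    change x ^ Fintype.card F = _
    rw [hF25]
  let ψ : L ≃ₐ[F] L := ψ₀.trans ψ₀
  have hψ : ∀ x, ψ x = x ^ 625 := by
    intro x
    change ψ₀ (ψ₀ x) = _
    rw [hψ₀, hψ₀, ← pow_mul]
  have hx : ∀ x : L, x ^ 15625 = x := fun x => by
    have := FiniteField.pow_card x
    rwa [hcardL'] at this
  have hψψ : ∀ x, ψ (ψ x) = x ^ 25 := by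
    intro x
    rw [hψ, hψ, ← pow_mul, show 625 * 625 = 15625 * 25 by norm_num, pow_mul, hx]
  refine H97.Asch3Fld.core h hL3 φ hadj hH hHK ψ ζ hprim ?_ ?_ ?_ ?_ ?_ ?_ ?_ ?_
  · rw [hψ, show 625 = 7 * 89 + 2 by norm_num, pow_add, pow_mul, hζ7, one_pow, one_mul]
  · intro x
    rw [hψψ, hψ, ← pow_mul]
    exact hx x
  · rw [hq, show 5 ^ 3 = 7 * 17 + 6 by norm_num, pow_add, pow_mul, hζ7, one_pow, one_mul]
  · intro x
    rw [FiniteField.algebraMap_trace_eq_sum_pow, hL3, Nat.card_eq_fintype_card, hF25]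
    simp only [Finset.sum_range_succ, Finset.sum_range_zero, zero_add, H97.Asch3Sev.tr, pow_zero, pow_one]
    change x + x ^ 25 + x ^ 25 ^ 2 = x + ψ x + ψ (ψ x)
    rw [hψψ, hψ]
    ring
  · intro j
    refine ⟨2 * j, ?_⟩
    rw [hq]
    induction j with
    | zero => intro x; rw [pow_zero, pow_one]; rfl
    | succ j ih =>
      intro x
      rw [show 2 * (j + 1) = 2 * j + 1 + 1 by ring, Function.iterate_succ_apply, Function.iterate_succ_apply, hψψ,
        ← ih, ← pow_mul x]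
      congr 1
      rw [pow_succ]; ring
  · intro h0
    have h1 : ((Fintype.card L : ℕ) : L) = 0 := Nat.cast_card_eq_zero L
    rw [hcardL'] at h1
    have h2 : (5 : L) ^ 6 = 0 := by rw [← h1]; norm_num
    have h3 : (5 : L) = 0 := pow_eq_zero_iff (by norm_num) |>.mp h2
    apply one_ne_zero (α := L)
    linear_combination 3 * h3 - 2 * h0
  · intro k hk hn
    rw [hq] at hk
    have h1 := FiniteField.algebraMap_norm_eq_pow (K := F) (K' := L) (x := k)
    rw [hcardL, Nat.card_eq_fintype_card, hF25, hn, map_one] at h1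
    have h2 : k ^ 651 = 1 := h1.symm
    have h3 : k ^ 126 = 1 := hk
    have h4 : k ^ 21 = 1 := by
      have h1 : orderOf k ∣ Nat.gcd 126 651 :=
        Nat.dvd_gcd (orderOf_dvd_of_pow_eq_one h3) (orderOf_dvd_of_pow_eq_one h2)
      exact orderOf_dvd_iff_pow_eq_one.mp h1
    have h5 : (k ^ 7) ^ 3 = 1 := by rw [← pow_mul]; exact h4
    obtain ⟨i, -, hi⟩ := hωL.eq_pow_of_pow_eq_one h5
    exact ⟨h4, ω ^ i, by rw [map_pow, hi]⟩
  · rw [H7.UnitOrd.card_GU h.card 3, hF25, hq]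
    decide

theorem no_field (h : Ctx (F := F) σ 3 q) (hq : q = 3 ∨ q = 5) {K : Subalgebra F (Matrix (Fin 3) (Fin 3) F)}
    (hK : IsFieldSubalgebra 3 K) (hadj : IsAdjointClosedFor (hermForm 3 F q) K) {H : Subgroup (GL (Fin 3) F)}
    (hH : IsMaximalIn (GU 3 F q ⊓ specialLinear (Fin 3) F) H)
    (hHK : H = subalgebraNormalizer K ⊓ (GU 3 F q ⊓ specialLinear (Fin 3) F)) : False := by
  classical
  have hfinM : Finite (Matrix (Fin 3) (Fin 3) F) := by unfold Matrix; infer_instance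
  have hKf : IsField K := by
    refine ⟨⟨0, 1, fun h => ?_⟩, ?_, ?_⟩
    · have := congrArg Subtype.val h
      exact zero_ne_one this
    · intro x y
      exact Subtype.ext (hK.comm _ x.2 _ y.2)
    · intro x hx
      obtain ⟨y, hy, hxy⟩ := hK.inv x.1 x.2 (fun h => hx (Subtype.ext h))
      exact ⟨⟨y, hy⟩, Subtype.ext hxy⟩
  let instF : Field K := hKf.toField
  have instFin : Fintype K := Fintype.ofFinite K
  have hadj' : ∀ x : K, ∃ y : K, h.form.adj (K.val x) = K.val y := fun x => by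
      obtain ⟨y, hy, hxy⟩ := hadj x.1 x.2
      exact ⟨⟨y, hy⟩, h.form.adj_eq hxy⟩
  have hiff : ∀ g ∈ GU 3 F q ⊓ specialLinear (Fin 3) F, g ∈ H ↔ ∀ x : K, ∃ y : K,
      (g : Matrix (Fin 3) (Fin 3) F) * K.val x * ((g⁻¹ : GL (Fin 3) F) : Matrix (Fin 3) (Fin 3) F) = K.val y := by
    intro g hg
    constructor
    · intro hgH x
      rw [hHK] at hgH
      exact ⟨⟨_, (hgH.1 x.1).1 x.2⟩, rfl⟩
    · intro hx
      rw [hHK]
      refine ⟨?_, hg⟩
      -- conjugation maps K into K, hence onto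
      have hmap : ∀ k ∈ K, (g : Matrix (Fin 3) (Fin 3) F) * k * ((g⁻¹ : GL (Fin 3) F) : Matrix (Fin 3) (Fin 3) F) ∈ K := by
        intro k hk
        obtain ⟨y, hy⟩ := hx ⟨k, hk⟩
        have hy' : (g : Matrix (Fin 3) (Fin 3) F) * k * ((g⁻¹ : GL (Fin 3) F) : Matrix (Fin 3) (Fin 3) F) = y.1 := hy
        rw [hy']
        exact y.2
      intro k
      refine ⟨hmap k, fun hk => ?_⟩
      let c : K → K := fun k => ⟨_, hmap k.1 k.2⟩
      have hcinj : Function.Injective c := by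
        intro a b hab
        apply Subtype.ext
        have h1 : (g : Matrix (Fin 3) (Fin 3) F) * a.1 * ((g⁻¹ : GL (Fin 3) F) : Matrix (Fin 3) (Fin 3) F) =
            (g : Matrix (Fin 3) (Fin 3) F) * b.1 * ((g⁻¹ : GL (Fin 3) F) : Matrix (Fin 3) (Fin 3) F) := congrArg Subtype.val hab
        exact g.isUnit.mul_left_cancel (g⁻¹.isUnit.mul_right_cancel h1)
      obtain ⟨a, ha⟩ := (Finite.injective_iff_surjective.mp hcinj) ⟨_, hk⟩
      have h1 : (g : Matrix (Fin 3) (Fin 3) F) * a.1 * ((g⁻¹ : GL (Fin 3) F) : Matrix (Fin 3) (Fin 3) F) =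
          (g : Matrix (Fin 3) (Fin 3) F) * k * ((g⁻¹ : GL (Fin 3) F) : Matrix (Fin 3) (Fin 3) F) := congrArg Subtype.val ha
      have h2 := g.isUnit.mul_left_cancel (g⁻¹.isUnit.mul_right_cancel h1)
      rw [← h2]
      exact a.2
  rcases hq with hq | hq
  · exact @no_field_three F _ _ q σ K instF instFin K.algebra h hq hK.finrank_eq K.val hadj' H hH hiff
  · exact @no_field_five F _ _ q σ K instF instFin K.algebra h hq hK.finrank_eq K.val hadj' H hH hiff

end H97.Asch3Fld2
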