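import Mathlib
import Cfsg.Agent.Lib.H97.Asch3Cases

/-!
Aschbacher library, part 71: the special unitary groups of degree three do not normalise groups of order 27.
-/

set_option autoImplicit false
set_option linter.unusedSectionVars false

namespace H97.Asch3Type

open Cfsg Cfsg.Geo Matrix H97.AschRad H97.AschUnits H97.AschCS H97.AschTensor H97.AschEnv H97.AschNonab
open H97.AschForm H97.AschNC H97.AschNC2 H97.AschNC3 H97.AschNil H97.AschCases H97.AschNCSp H97.AschNCU H97.AschUCases
open H96.AschSympType1 H96.AschSympType2 H96.AschSympType5 H96.AschAdj H96.AschSU H96.AschSU2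
open scoped Kronecker

variable {F : Type*} [Field F] {q : ℕ}

lemma arith {p m : ℕ} (hp : p.Prime) (hp5 : 5 ≤ p) (hp3 : p % 3 = 2) (hm : m ∣ 27) (h : 27 ≡ m [MOD p]) : m = 27 := by
  have hm0 : m ≤ 27 := Nat.le_of_dvd (by norm_num) hm
  have h1 : p ∣ 27 - m := (Nat.modEq_iff_dvd' hm0).mp h.symm
  have hmem : m ∈ Nat.divisors 27 := Nat.mem_divisors.mpr ⟨hm, by norm_num⟩
  have hdiv : Nat.divisors 27 = {1, 3, 9, 27} := by decide
  rw [hdiv] at hmem
  simp only [Finset.mem_insert, Finset.mem_singleton] at hmem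
  rcases hmem with h0 | h0 | h0 | h0
  · subst h0
    exfalso
    have h2 : p ∣ 2 * 13 := h1
    rcases (Nat.Prime.dvd_mul hp).mp h2 with h3 | h3
    · have := Nat.le_of_dvd (by norm_num) h3; omega
    · have := (Nat.prime_dvd_prime_iff_eq hp (by norm_num)).mp h3
      subst this; omega
  · subst h0
    exfalso
    have h2 : p ∣ 2 * 2 * 2 * 3 := h1
    rw [hp.dvd_mul, hp.dvd_mul, hp.dvd_mul] at h2
    rcases h2 with ((h3 | h3) | h3) | h3 <;> (have := Nat.le_of_dvd (by norm_num) h3; omega)
  · subst h0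
    exfalso
    have h2 : p ∣ 2 * 3 * 3 := h1
    rw [hp.dvd_mul, hp.dvd_mul] at h2
    rcases h2 with (h3 | h3) | h3 <;> (have := Nat.le_of_dvd (by norm_num) h3; omega)
  · exact h0

/-- the special unitary group does not normalise a group of order 27 -/
theorem not_type3 [Fintype F] {σ : F ≃+* F} (h : Ctx (F := F) σ 3 q) {p : ℕ} (hp : p.Prime) [hchar : CharP F p]
    (hp5 : 5 ≤ p) (hp3 : p % 3 = 2) {R : Subgroup (GL (Fin 3) F)} (hi : ActsAbsolutelyIrreducibly (matrixSet R))
    (hc : Nat.card R = 27) : ¬ GU 3 F q ⊓ specialLinear (Fin 3) F ≤ subgroupNormalizer R := by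
  classical
  intro hle
  have := Fact.mk hp
  have hne : Nonempty (Fin 3) := ⟨0⟩
  have hfinM : Finite (Matrix (Fin 3) (Fin 3) F) := by unfold Matrix; infer_instance
  have hfinG : Finite (GL (Fin 3) F) := inferInstance
  have hftR : Fintype R := Fintype.ofFinite R
  obtain ⟨u, hu⟩ := h.exists_iso (by omega)
  obtain ⟨g, hg, a, htv⟩ := h.tvs _ hle u hu
  have hgp : g ^ p = 1 := IsTv.pow_char htv h.form.sesq
  have hgN : ∀ x, x ∈ R ↔ g * x * g⁻¹ ∈ R := fun x => Subgroup.mem_normalizer_iff.mp hg x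
  let c : Function.End R := fun x => ⟨g * x.1 * g⁻¹, (hgN x.1).mp x.2⟩
  have hcx : ∀ x : R, ((c x : R) : GL (Fin 3) F) = g * x.1 * g⁻¹ := fun x => rfl
  have hcpow : ∀ (k : ℕ) (x : R), (((c ^ k) x : R) : GL (Fin 3) F) = g ^ k * x.1 * (g ^ k)⁻¹ := by
    intro k
    induction k with
    | zero => intro x; simp; rfl
    | succ k ih =>
      intro x
      rw [pow_succ']
      change ((c ((c ^ k) x) : R) : GL (Fin 3) F) = _
      rw [hcx, ih, pow_succ', _root_.mul_inv_rev]
      group
  have hc1 : c ^ p ^ 1 = 1 := by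
    funext x
    apply Subtype.ext
    rw [hcpow, pow_one, hgp]
    simp
    rfl
  have hmod := Equiv.Perm.card_fixedPoints_modEq hc1
  let C : Subgroup R := (Subgroup.centralizer ({g} : Set (GL (Fin 3) F))).subgroupOf R
  have hfix : Fintype.card (Function.fixedPoints c) = Nat.card C := by
    rw [← Nat.card_eq_fintype_card]
    apply Nat.card_congr
    apply Equiv.subtypeEquivRight
    intro x
    constructor
    · intro hx
      have h1 : g * x.1 * g⁻¹ = x.1 := congrArg Subtype.val (show c x = x from hx)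
      rw [Subgroup.mem_subgroupOf, Subgroup.mem_centralizer_singleton_iff]
      rw [mul_inv_eq_iff_eq_mul] at h1
      exact h1.symm
    · intro hx
      rw [Subgroup.mem_subgroupOf, Subgroup.mem_centralizer_singleton_iff] at hx
      apply Subtype.ext
      change g * x.1 * g⁻¹ = x.1
      rw [mul_inv_eq_iff_eq_mul]
      exact hx.symm
  rw [hfix, ← Nat.card_eq_fintype_card, hc] at hmod
  have hdvd : Nat.card C ∣ 27 := by rw [← hc]; exact Subgroup.card_subgroup_dvd_card C
  have hC := arith hp hp5 hp3 hdvd hmod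
  have htop : C = ⊤ := by
    apply Subgroup.eq_top_of_card_eq
    rw [hC, hc]
  obtain ⟨d, hd⟩ := hi.2 (g : Matrix (Fin 3) (Fin 3) F) (by
    rintro _ ⟨x, hx, rfl⟩
    have h1 : (⟨x, hx⟩ : R) ∈ C := by rw [htop]; exact Subgroup.mem_top _
    rw [Subgroup.mem_subgroupOf, Subgroup.mem_centralizer_singleton_iff] at h1
    have h2 := congrArg (fun z : GL (Fin 3) F => (z : Matrix (Fin 3) (Fin 3) F)) h1
    exact h2.symm)
  have hu0 := htv.u0 h.form.sesq
  have h1 := htv.val u
  rw [htv.iso, mul_zero, zero_smul, add_zero, hd, Matrix.smul_mulVec, Matrix.one_mulVec] at h1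
  have hd1 : d = 1 := by
    by_contra hne1
    apply hu0
    have h2 : (d - 1) • u = 0 := by rw [sub_smul, one_smul, h1, sub_self]
    exact (smul_eq_zero.mp h2).resolve_left (sub_ne_zero.mpr hne1)
  obtain ⟨v, hv⟩ := htv.ne
  have h3 := htv.val v
  rw [hd, hd1, one_smul, Matrix.one_mulVec] at h3
  have h4 : (a * hermForm 3 F q v u) • u = 0 := by
    have := congrArg (fun w => w - v) h3
    simp only [sub_self, add_sub_cancel_left] at this
    exact this.symm
  rcases smul_eq_zero.mp h4 with h5 | h5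
  · exact mul_ne_zero htv.a0 hv h5
  · exact hu0 h5

end H97.Asch3Type
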