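import Mathlib
import Cfsg.Agent.Lib.H97.AschCases

/-!
Aschbacher library, part 24: arithmetic of the symplectic-type class.
-/

set_option autoImplicit false
set_option linter.unusedSectionVars false

namespace H97.AschArith

open Cfsg Cfsg.Geo Matrix H97.AschCases

variable {ι : Type} [Fintype ι] [DecidableEq ι] {F : Type*} [Field F] [Fintype F]

theorem data_odd {r : ℕ} {R : Subgroup (GL ι F)} (hr : Odd r) (h : IsLinearSymplecticTypeData r R) :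
    ∃ p e : ℕ, p.Prime ∧ CharP F p ∧ Fintype.card F = p ^ e ∧ Odd e ∧ p ^ e % r = 1 ∧
      ∀ d, 0 < d → d < e → p ^ d % r ≠ 1 := by
  obtain ⟨p, e, hrp, hmin, h1 | h1 | h1⟩ := h.field
  · obtain ⟨-, he, hz, -⟩ := h1
    rw [hz] at hmin
    obtain ⟨h2, h3⟩ := min_field_mod h.symplecticType.prime.two_le hmin
    exact ⟨p, e, hmin.1, hmin.2.1, hmin.2.2.1, he, h2, h3⟩
  · rw [h1.1] at hr; exact absurd hr (by decide)
  · rw [h1.1] at hr; exact absurd hr (by decide)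

theorem data_two {R : Subgroup (GL ι F)} (hι : Fintype.card ι ≠ 2) (h : IsLinearSymplecticTypeData 2 R) :
    ∃ p : ℕ, p.Prime ∧ Fintype.card F = p ∧ p % 4 = 1 := by
  obtain ⟨p, e, hrp, hmin, h1 | h1 | h1⟩ := h.field
  · exact absurd h1.1 (by decide)
  · obtain ⟨-, he, hz, -⟩ := h1
    rw [hz] at hmin
    obtain ⟨h2, h3⟩ := min_field_mod (by norm_num) hmin
    subst he
    rw [pow_one] at h2
    exact ⟨p, hmin.1, by rw [hmin.2.2.1, pow_one], h2⟩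
  · exact absurd h1.2.2.1 hι

lemma reduce {r p e : ℕ} (he : Odd e) (h1 : p ^ e % r = 1) (h2 : ∀ d, 0 < d → d < e → p ^ d % r ≠ 1)
    (hr1 : 1 < r) (hfermat : ∀ a : Fin r, 0 < (a : ℕ) → (a : ℕ) ^ (r - 1) % r = 1) :
    ∃ a : Fin r, (a : ℕ) = p % r ∧ ∃ he : e < r, (a : ℕ) ^ e % r = 1 ∧ ∀ d : Fin r, 0 < (d : ℕ) → (d : ℕ) < e → (a : ℕ) ^ (d : ℕ) % r ≠ 1 := by
  have hlt : p % r < r := Nat.mod_lt _ (by omega)
  have hpow : ∀ d, (p % r) ^ d % r = p ^ d % r := fun d => (Nat.pow_mod p d r).symm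
  have hepos : 0 < e := he.pos
  have ha0 : 0 < p % r := by
    by_contra h0
    have h00 : p % r = 0 := by omega
    have := hpow e
    rw [h00, h1, zero_pow hepos.ne', Nat.zero_mod] at this
    exact absurd this (by norm_num)
  refine ⟨⟨p % r, hlt⟩, rfl, ?_, ?_, ?_⟩
  · by_contra hge
    apply h2 (r - 1) (by omega) (by omega)
    rw [← hpow]
    exact hfermat ⟨_, hlt⟩ ha0
  · change (p % r) ^ e % r = 1
    rw [hpow, h1]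
  · intro d hd hde
    change (p % r) ^ (d : ℕ) % r ≠ 1
    rw [hpow]
    exact h2 d hd hde

theorem arith_three {R : Subgroup (GL ι F)} (h : IsLinearSymplecticTypeData 3 R) :
    ∃ p : ℕ, p.Prime ∧ Fintype.card F = p ∧ p % 3 = 1 := by
  obtain ⟨p, e, hp, -, hq, he, h1, h2⟩ := data_odd (by decide) h
  obtain ⟨a, ha, he3, h3, h4⟩ := reduce he h1 h2 (by norm_num) (by decide)
  have key : ∀ a e : Fin 3, (e : ℕ) % 2 = 1 → (a : ℕ) ^ (e : ℕ) % 3 = 1 → (∀ d : Fin 3, 0 < (d : ℕ) → (d : ℕ) < e → (a : ℕ) ^ (d : ℕ) % 3 ≠ 1) →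
      (e : ℕ) = 1 ∧ (a : ℕ) = 1 := by decide
  obtain ⟨rfl, ha1⟩ := key a ⟨e, he3⟩ (Nat.odd_iff.mp he) h3 h4
  exact ⟨p, hp, by rw [hq, pow_one], by rw [← ha, ha1]⟩

theorem arith_five {R : Subgroup (GL ι F)} (h : IsLinearSymplecticTypeData 5 R) :
    ∃ p : ℕ, p.Prime ∧ Fintype.card F = p ∧ p % 5 = 1 := by
  obtain ⟨p, e, hp, -, hq, he, h1, h2⟩ := data_odd (by decide) h
  obtain ⟨a, ha, he3, h3, h4⟩ := reduce he h1 h2 (by norm_num) (by decide)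
  have key : ∀ a e : Fin 5, (e : ℕ) % 2 = 1 → (a : ℕ) ^ (e : ℕ) % 5 = 1 → (∀ d : Fin 5, 0 < (d : ℕ) → (d : ℕ) < e → (a : ℕ) ^ (d : ℕ) % 5 ≠ 1) →
      (e : ℕ) = 1 ∧ (a : ℕ) = 1 := by decide
  obtain ⟨rfl, ha1⟩ := key a ⟨e, he3⟩ (Nat.odd_iff.mp he) h3 h4
  exact ⟨p, hp, by rw [hq, pow_one], by rw [← ha, ha1]⟩

theorem arith_seven {R : Subgroup (GL ι F)} (h : IsLinearSymplecticTypeData 7 R) :
    ∃ p : ℕ, p.Prime ∧ CharP F p ∧ ((Fintype.card F = p ∧ p % 7 = 1) ∨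
      (Fintype.card F = p ^ 3 ∧ (p % 7 = 2 ∨ p % 7 = 4))) := by
  obtain ⟨p, e, hp, hchar, hq, he, h1, h2⟩ := data_odd (by decide) h
  obtain ⟨a, ha, he3, h3, h4⟩ := reduce he h1 h2 (by norm_num) (by decide)
  have key : ∀ a e : Fin 7, (e : ℕ) % 2 = 1 → (a : ℕ) ^ (e : ℕ) % 7 = 1 → (∀ d : Fin 7, 0 < (d : ℕ) → (d : ℕ) < e → (a : ℕ) ^ (d : ℕ) % 7 ≠ 1) →
      ((e : ℕ) = 1 ∧ (a : ℕ) = 1) ∨ ((e : ℕ) = 3 ∧ ((a : ℕ) = 2 ∨ (a : ℕ) = 4)) := by decide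
  rcases key a ⟨e, he3⟩ (Nat.odd_iff.mp he) h3 h4 with ⟨rfl, ha1⟩ | ⟨rfl, ha1⟩
  · exact ⟨p, hp, hchar, Or.inl ⟨by rw [hq, pow_one], by rw [← ha, ha1]⟩⟩
  · exact ⟨p, hp, hchar, Or.inr ⟨hq, by rwa [← ha]⟩⟩

set_option maxRecDepth 10000 in
theorem arith_eleven {R : Subgroup (GL ι F)} (h : IsLinearSymplecticTypeData 11 R) :
    ∃ p : ℕ, p.Prime ∧ CharP F p ∧ ((Fintype.card F = p ∧ p % 11 = 1) ∨
      (Fintype.card F = p ^ 5 ∧ (p % 11 = 3 ∨ p % 11 = 4 ∨ p % 11 = 5 ∨ p % 11 = 9))) := by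
  obtain ⟨p, e, hp, hchar, hq, he, h1, h2⟩ := data_odd (by decide) h
  obtain ⟨a, ha, he3, h3, h4⟩ := reduce he h1 h2 (by norm_num) (by decide)
  have key : ∀ a e : Fin 11, (e : ℕ) % 2 = 1 → (a : ℕ) ^ (e : ℕ) % 11 = 1 → (∀ d : Fin 11, 0 < (d : ℕ) → (d : ℕ) < e → (a : ℕ) ^ (d : ℕ) % 11 ≠ 1) →
      ((e : ℕ) = 1 ∧ (a : ℕ) = 1) ∨ ((e : ℕ) = 5 ∧ (a : ℕ) ≠ 1) := by decide
  have key2 : ∀ a : Fin 11, (a : ℕ) ^ 5 % 11 = 1 → (a : ℕ) ≠ 1 → (a : ℕ) = 3 ∨ (a : ℕ) = 4 ∨ (a : ℕ) = 5 ∨ (a : ℕ) = 9 := by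
    decide
  rcases key a ⟨e, he3⟩ (Nat.odd_iff.mp he) h3 h4 with ⟨rfl, ha1⟩ | ⟨rfl, ha1⟩
  · exact ⟨p, hp, hchar, Or.inl ⟨by rw [hq, pow_one], by rw [← ha, ha1]⟩⟩
  · have h5 := key2 a h3 ha1
    rw [ha] at h5
    exact ⟨p, hp, hchar, Or.inr ⟨hq, h5⟩⟩

end H97.AschArith
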