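import Mathlib

/-!
Aschbacher library, part 47: small arithmetic for the lists of maximal subgroups.
-/

set_option autoImplicit false

namespace H97.AschRow

lemma pow_cases {k t n : ℕ} (hk : 3 ≤ k) (ht : 2 ≤ t) (h : n = k ^ t) : (k = 3 ∧ t = 2 ∧ n = 9) ∨ 16 ≤ n := by
  by_cases hk3 : k = 3
  · subst hk3
    by_cases ht2 : t = 2
    · subst ht2
      exact Or.inl ⟨rfl, rfl, by rw [h]; norm_num⟩
    · right
      have h1 : 3 ^ 3 ≤ 3 ^ t := Nat.pow_le_pow_right (by norm_num) (by omega)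
      omega
  · right
    have h1 : 4 ^ 2 ≤ k ^ t := (Nat.pow_le_pow_left (by omega) 2).trans (Nat.pow_le_pow_right (by omega) ht)
    omega

lemma pow_prime {r k n : ℕ} (hn : n.Prime) (h : n = r ^ k) (hr : r.Prime) : r = n ∧ k = 1 := by
  have hk : k ≠ 0 := by
    rintro rfl
    rw [pow_zero] at h
    exact hn.one_lt.ne' h
  have h1 : r ∣ n := by rw [h]; exact dvd_pow_self r hk
  have h2 : r = n := (Nat.prime_dvd_prime_iff_eq hr hn).mp h1
  refine ⟨h2, ?_⟩
  rw [h2] at h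
  have h3 : n ^ 1 = n ^ k := by rw [pow_one]; exact h
  exact (Nat.pow_right_injective hn.two_le h3).symm

lemma pow_of {r k n s l : ℕ} (hr : r.Prime) (hs : s.Prime) (hl : 0 < l) (hn : n = s ^ l) (h : n = r ^ k) : r = s ∧ k = l := by
  have hk : k ≠ 0 := by
    rintro rfl
    rw [pow_zero] at h
    rw [h] at hn
    have := (Nat.one_lt_pow hl.ne' hs.one_lt)
    omega
  have h1 : r ∣ s ^ l := by rw [← hn, h]; exact dvd_pow_self r hk
  have h2 : r = s := (Nat.prime_dvd_prime_iff_eq hr hs).mp (hr.dvd_of_dvd_pow h1)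
  refine ⟨h2, ?_⟩
  rw [h2, hn] at h
  exact (Nat.pow_right_injective hs.two_le h).symm

lemma not_pow {r k n a b : ℕ} (hr : r.Prime) (ha : a.Prime) (hb : b.Prime) (hab : a ≠ b) (h1 : a ∣ n) (h2 : b ∣ n) :
    n ≠ r ^ k := by
  intro h
  have h3 : a = r := (Nat.prime_dvd_prime_iff_eq ha hr).mp (ha.dvd_of_dvd_pow (by rw [← h]; exact h1))
  have h4 : b = r := (Nat.prime_dvd_prime_iff_eq hb hr).mp (hb.dvd_of_dvd_pow (by rw [← h]; exact h2))
  exact hab (h3.trans h4.symm)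

end H97.AschRow
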