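import Mathlib
import Cfsg.Agent.Lib.H97.AschUCases
import Cfsg.Agent.Lib.H97.AschRow

/-!
Aschbacher library, part 48: groups of odd exponent prime to `q - 1` consisting of similarities consist of isometries.
-/

set_option autoImplicit false
set_option linter.unusedSectionVars false

namespace H97.AschURow

open Cfsg Cfsg.Geo Matrix H97.AschNCU H96.AschSympType5 H96.AschAdj

variable {F : Type*} [Field F] [Fintype F] {n q : ℕ} {σ : F ≃+* F}

theorem le_gu (h : Ctx (F := F) σ n q) (hn : 1 ≤ n) {r : ℕ} (hr : r.Prime) {R : Subgroup (GL (Fin n) F)}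
    (hexp : ∀ x ∈ R, x ^ r = 1) (hsim : R ≤ similarityGroup (hermForm n F q)) (hq : q % r ≠ 1) : R ≤ GU n F q := by
  intro x hx
  obtain ⟨c, hc⟩ := hsim hx
  let i0 : Fin n := ⟨0, by omega⟩
  have hone : hermForm n F q (Pi.single i0 1) (Pi.single i0 1) = 1 := by rw [h.single, if_pos rfl]
  -- powers
  have hpow : ∀ k : ℕ, ∀ u v, hermForm n F q (((x ^ k : GL (Fin n) F) : Matrix (Fin n) (Fin n) F) *ᵥ u)
      (((x ^ k : GL (Fin n) F) : Matrix (Fin n) (Fin n) F) *ᵥ v) = (c : F) ^ k * hermForm n F q u v := by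
    intro k
    induction k with
    | zero => intro u v; simp
    | succ k ih =>
      intro u v
      rw [pow_succ', Units.val_mul, ← Matrix.mulVec_mulVec, ← Matrix.mulVec_mulVec, hc, ih, pow_succ']; ring
  have h1 : (c : F) ^ r = 1 := by
    have h2 := hpow r (Pi.single i0 1) (Pi.single i0 1)
    rw [hexp x hx, Units.val_one, Matrix.one_mulVec, hone, mul_one] at h2
    exact h2.symm
  have hσc : σ (c : F) = c := by
    have h2 := hc (Pi.single i0 1) (Pi.single i0 1)
    have h3 := h.form.herm ((x : Matrix (Fin n) (Fin n) F) *ᵥ Pi.single i0 1) ((x : Matrix (Fin n) (Fin n) F) *ᵥ Pi.single i0 1)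
    rw [h2, hone, mul_one, one_mul] at h3
    exact h3.symm
  have h2 : c ^ (q - 1) = 1 := by
    have h3 : (c : F) ^ q = c := by rw [← h.val, hσc]
    apply Units.ext
    rw [Units.val_pow_eq_pow_val, Units.val_one]
    have hq2 := h.two_le
    have h4 : (c : F) ^ (q - 1) * c = 1 * c := by rw [← pow_succ, Nat.sub_add_cancel (by omega), h3, one_mul]
    exact mul_right_cancel₀ c.ne_zero h4
  have h3 : c ^ r = 1 := Units.ext (by rw [Units.val_pow_eq_pow_val, h1, Units.val_one])
  have h4 : c = 1 := by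
    have h5 : orderOf c ∣ r := orderOf_dvd_of_pow_eq_one h3
    have h6 : orderOf c ∣ q - 1 := orderOf_dvd_of_pow_eq_one h2
    rcases (Nat.dvd_prime hr).mp h5 with h7 | h7
    · exact orderOf_eq_one_iff.mp h7
    · exfalso
      rw [h7] at h6
      apply hq
      have hq2 := h.two_le
      obtain ⟨m, hm⟩ := h6
      have h8 : q = 1 + r * m := by omega
      rw [h8, Nat.add_mul_mod_self_left, Nat.mod_eq_of_lt hr.one_lt]
  intro u v
  have := hc u v
  rw [h4, Units.val_one, one_mul] at this
  exact this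

end H97.AschURow
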