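import Mathlib
import Cfsg.Agent.Lib.H97.PolOPlus

/-!
The Steinberg character of `PΩ` of plus type in dimension four over the field with two elements.
-/

set_option autoImplicit false
set_option maxHeartbeats 400000

namespace H97.PolInst

open H97.PolMap H97.PolFrame H97.PolEich H97.PolSt H97.PolPar Cfsg Matrix Module

theorem HasSt_of_surj {p : ℕ} [hp : Fact p.Prime] {Q R : Type*} [Group Q] [Group R] [Finite Q] (π : Q →* R)
    (hπ : Function.Surjective π) (hk : ¬ p ∣ Nat.card π.ker) (h : HasSt p R) : HasSt p Q := by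
  obtain ⟨χ, h1, h2⟩ := h
  refine ⟨fun x => χ (π x), H18.CharBasic.isIrrCharacter_comp π hπ h1, fun P => ?_⟩
  have hinj : ∀ x ∈ P, π x = 1 → x = 1 := by
    intro x hx hx1
    by_contra hne
    obtain ⟨k, hk'⟩ := (IsPGroup.iff_orderOf.1 P.isPGroup') ⟨x, hx⟩
    rw [Subgroup.orderOf_mk] at hk'
    apply hk
    have h3 : orderOf x ∣ Nat.card π.ker := by
      have h4 := orderOf_dvd_natCard (G := π.ker) ⟨x, hx1⟩
      rwa [← Subgroup.orderOf_coe] at h4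
    refine dvd_trans ?_ h3
    rw [hk']
    apply dvd_pow_self
    rintro rfl
    rw [pow_zero, orderOf_eq_one_iff] at hk'
    exact hne hk'
  obtain ⟨h3, h4⟩ := h2 (P.mapSurjective hπ)
  constructor
  · change χ (π 1) = _
    rw [map_one, h3]
    congr 1
    have h5 : Function.Bijective (π.subgroupMap (P : Subgroup Q)) := by
      refine ⟨?_, π.subgroupMap_surjective _⟩
      rw [injective_iff_map_eq_one]
      intro a ha
      exact Subtype.ext (hinj a.1 a.2 (congrArg Subtype.val ha))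
    exact (Nat.card_congr (Equiv.ofBijective _ h5)).symm
  · intro x hx hx1
    refine h4 (π x) ⟨x, hx, rfl⟩ fun h => hx1 (hinj x hx h)

section q

variable {F : Type*} [Field F]

/-- vectors by coordinates -/
def mk4 (a b c d : F) : Fin 2 ⊕ Fin 2 → F := Sum.elim ![a, b] ![c, d]

theorem mk4_eta (x : Fin 2 ⊕ Fin 2 → F) : ∃ a b c d : F, x = mk4 a b c d := by
  refine ⟨x (.inl 0), x (.inl 1), x (.inr 0), x (.inr 1), ?_⟩
  funext i
  rcases i with i | i <;> fin_cases i <;> rfl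

theorem mk4_add (a b c d a' b' c' d' : F) : mk4 a b c d + mk4 a' b' c' d' = mk4 (a + a') (b + b') (c + c') (d + d') := by
  funext i
  rcases i with i | i <;> fin_cases i <;> rfl

theorem mk4_smul (t a b c d : F) : t • mk4 a b c d = mk4 (t * a) (t * b) (t * c) (t * d) := by
  funext i
  rcases i with i | i <;> fin_cases i <;> rfl

theorem mk4_inj {a b c d a' b' c' d' : F} (h : mk4 a b c d = mk4 a' b' c' d') : a = a' ∧ b = b' ∧ c = c' ∧ d = d' :=
  ⟨congrFun h (.inl 0), congrFun h (.inl 1), congrFun h (.inr 0), congrFun h (.inr 1)⟩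

theorem f_mk4 (a b c d a' b' c' d' : F) : (plusQF 2 F).f (mk4 a b c d) (mk4 a' b' c' d') =
    a * c' + c * a' + (b * d' + d * b') := by
  rw [plus_f]
  unfold hyp mk4
  simp [Fin.sum_univ_two]

theorem Q_mk4 (a b c d : F) : (plusQF 2 F).Q (mk4 a b c d) = a * c + b * d := by
  rw [plus_Q]
  unfold quadFormPlus mk4
  simp [Fin.sum_univ_two]

variable (hF : ¬ ∃ c : F, c ≠ 0 ∧ c ≠ 1)

include hF in
theorem two_cases' (c : F) : c = 0 ∨ c = 1 := by
  by_contra h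
  push Not at h
  exact hF ⟨c, h.1, h.2⟩

include hF in
theorem one_add_one' : (1 : F) + 1 = 0 := by
  rcases two_cases' hF ((1 : F) + 1) with h | h
  · exact h
  · exfalso
    have : (1 : F) = 0 := by linear_combination h
    exact one_ne_zero this


/-! ### the two planes -/

/-- basis vectors -/
def u1 (F : Type*) [Field F] : Fin 2 ⊕ Fin 2 → F := mk4 1 0 1 0
def u2 (F : Type*) [Field F] : Fin 2 ⊕ Fin 2 → F := mk4 1 1 0 1
def v1 (F : Type*) [Field F] : Fin 2 ⊕ Fin 2 → F := mk4 0 1 0 1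
def v2 (F : Type*) [Field F] : Fin 2 ⊕ Fin 2 → F := mk4 1 1 1 0

/-- the planes -/
def PU (F : Type*) [Field F] : Submodule F (Fin 2 ⊕ Fin 2 → F) := Submodule.span F {u1 F, u2 F}
def PV (F : Type*) [Field F] : Submodule F (Fin 2 ⊕ Fin 2 → F) := Submodule.span F {v1 F, v2 F}

theorem mem_PU (x : Fin 2 ⊕ Fin 2 → F) : x ∈ PU F ↔ ∃ s t : F, x = mk4 (s + t) t s t := by
  unfold PU
  rw [Submodule.mem_span_pair]
  apply exists_congr; intro s
  apply exists_congr; intro t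
  unfold u1 u2
  rw [mk4_smul, mk4_smul, mk4_add, eq_comm]
  simp

theorem mem_PV (x : Fin 2 ⊕ Fin 2 → F) : x ∈ PV F ↔ ∃ s t : F, x = mk4 t (s + t) t s := by
  unfold PV
  rw [Submodule.mem_span_pair]
  apply exists_congr; intro s
  apply exists_congr; intro t
  unfold v1 v2
  rw [mk4_smul, mk4_smul, mk4_add, eq_comm]
  simp

theorem u1_mem : u1 F ∈ PU F := Submodule.subset_span (by simp)
theorem u2_mem : u2 F ∈ PU F := Submodule.subset_span (by simp)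
theorem v1_mem : v1 F ∈ PV F := Submodule.subset_span (by simp)
theorem v2_mem : v2 F ∈ PV F := Submodule.subset_span (by simp)

include hF in
theorem mem_or {x : Fin 2 ⊕ Fin 2 → F} (hx : (plusQF 2 F).Q x = 1) : x ∈ PU F ∨ x ∈ PV F := by
  have htwo := one_add_one' hF
  obtain ⟨a, b, c, d, rfl⟩ := mk4_eta x
  rw [Q_mk4] at hx
  rw [mem_PU, mem_PV]
  have key : (a = c + d ∧ b = d) ∨ (a = c ∧ b = d + c) := by
    rcases two_cases' hF c with rfl | rfl <;> rcases two_cases' hF d with rfl | rfl <;>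
      rcases two_cases' hF a with rfl | rfl <;> rcases two_cases' hF b with rfl | rfl <;>
      simp_all
  rcases key with ⟨h1, h2⟩ | ⟨h1, h2⟩
  · left; exact ⟨c, d, by rw [h1, h2]⟩
  · right; exact ⟨d, c, by rw [h1, h2]⟩

include hF in
theorem f_UV {x y : Fin 2 ⊕ Fin 2 → F} (hx : x ∈ PU F) (hy : y ∈ PV F) : (plusQF 2 F).f x y = 0 := by
  have htwo := one_add_one' hF
  rw [mem_PU] at hx
  rw [mem_PV] at hy
  obtain ⟨s, t, rfl⟩ := hx
  obtain ⟨s', t', rfl⟩ := hy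
  rw [f_mk4]
  linear_combination (s * t' + t * t' + t * s') * htwo

theorem f_u1u2 : (plusQF 2 F).f (u1 F) (u2 F) = 1 := by unfold u1 u2; rw [f_mk4]; ring
theorem f_v1v2 : (plusQF 2 F).f (v1 F) (v2 F) = 1 := by unfold v1 v2; rw [f_mk4]; ring

theorem Q_u1 : (plusQF 2 F).Q (u1 F) = 1 := by unfold u1; rw [Q_mk4]; ring
theorem Q_u2 : (plusQF 2 F).Q (u2 F) = 1 := by unfold u2; rw [Q_mk4]; ring
theorem Q_v1 : (plusQF 2 F).Q (v1 F) = 1 := by unfold v1; rw [Q_mk4]; ring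
theorem Q_v2 : (plusQF 2 F).Q (v2 F) = 1 := by unfold v2; rw [Q_mk4]; ring

include hF in
theorem U_nd {x : Fin 2 ⊕ Fin 2 → F} (hx : x ∈ PU F) (h1 : (plusQF 2 F).f x (u1 F) = 0) (h2 : (plusQF 2 F).f x (u2 F) = 0) :
    x = 0 := by
  have htwo := one_add_one' hF
  rw [mem_PU] at hx
  obtain ⟨s, t, rfl⟩ := hx
  unfold u1 at h1
  unfold u2 at h2
  rw [f_mk4] at h1 h2
  have e1 : t = 0 := by linear_combination h1 - s * htwo
  have e2 : s = 0 := by linear_combination h2 - t * htwo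
  rw [e1, e2]
  funext i
  rcases i with i | i <;> fin_cases i <;> simp [mk4]

theorem not_mem_both {x : Fin 2 ⊕ Fin 2 → F} (hF : ¬ ∃ c : F, c ≠ 0 ∧ c ≠ 1) (hx : x ∈ PU F) (hy : x ∈ PV F) : x = 0 :=
  U_nd hF hx (by rw [(plusQF 2 F).symm]; exact f_UV hF u1_mem hy) (by rw [(plusQF 2 F).symm]; exact f_UV hF u2_mem hy)

include hF in
theorem decomp (x : Fin 2 ⊕ Fin 2 → F) : ∃ a ∈ PU F, ∃ b ∈ PV F, x = a + b := by
  have htwo := one_add_one' hF
  obtain ⟨a, b, c, d, rfl⟩ := mk4_eta x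
  refine ⟨_, (mem_PU _).2 ⟨b + c + d, a + c, rfl⟩, _, (mem_PV _).2 ⟨a + c + d, b + d, rfl⟩, ?_⟩
  rw [mk4_add]
  congr 1
  · linear_combination (-b - c - d) * htwo
  · linear_combination (-a - c - d) * htwo
  · linear_combination (-b - d) * htwo
  · linear_combination (-a - c) * htwo


/-! ### the group -/

include hF in
theorem map_or {g : (Fin 2 ⊕ Fin 2 → F) ≃ₗ[F] (Fin 2 ⊕ Fin 2 → F)} (hg : g ∈ (plusQF 2 F).O) :
    (∀ x ∈ PU F, g x ∈ PU F) ∨ (∀ x ∈ PU F, g x ∈ PV F) := by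
  have h12 : (plusQF 2 F).f (g (u1 F)) (g (u2 F)) ≠ 0 := by rw [O_f _ hg, f_u1u2]; exact one_ne_zero
  have hmap : ∀ W : Submodule F (Fin 2 ⊕ Fin 2 → F), g (u1 F) ∈ W → g (u2 F) ∈ W → ∀ x ∈ PU F, g x ∈ W := by
    intro W h1 h2 x hx
    unfold PU at hx
    obtain ⟨s, t, rfl⟩ := Submodule.mem_span_pair.1 hx
    rw [map_add, map_smul, map_smul]
    exact W.add_mem (W.smul_mem _ h1) (W.smul_mem _ h2)
  have e1 : (plusQF 2 F).Q (g (u1 F)) = 1 := (hg _).trans Q_u1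
  have e2 : (plusQF 2 F).Q (g (u2 F)) = 1 := (hg _).trans Q_u2
  rcases mem_or hF e1 with h1 | h1 <;> rcases mem_or hF e2 with h2 | h2
  · exact Or.inl (hmap _ h1 h2)
  · exact absurd (f_UV hF h1 h2) h12
  · rw [(plusQF 2 F).symm] at h12; exact absurd (f_UV hF h2 h1) h12
  · exact Or.inr (hmap _ h1 h2)

include hF in
theorem map_or' {g : (Fin 2 ⊕ Fin 2 → F) ≃ₗ[F] (Fin 2 ⊕ Fin 2 → F)} (hg : g ∈ (plusQF 2 F).O) :
    (∀ x ∈ PV F, g x ∈ PU F) ∨ (∀ x ∈ PV F, g x ∈ PV F) := by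
  have h12 : (plusQF 2 F).f (g (v1 F)) (g (v2 F)) ≠ 0 := by rw [O_f _ hg, f_v1v2]; exact one_ne_zero
  have hmap : ∀ W : Submodule F (Fin 2 ⊕ Fin 2 → F), g (v1 F) ∈ W → g (v2 F) ∈ W → ∀ x ∈ PV F, g x ∈ W := by
    intro W h1 h2 x hx
    unfold PV at hx
    obtain ⟨s, t, rfl⟩ := Submodule.mem_span_pair.1 hx
    rw [map_add, map_smul, map_smul]
    exact W.add_mem (W.smul_mem _ h1) (W.smul_mem _ h2)
  have e1 : (plusQF 2 F).Q (g (v1 F)) = 1 := (hg _).trans Q_v1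
  have e2 : (plusQF 2 F).Q (g (v2 F)) = 1 := (hg _).trans Q_v2
  rcases mem_or hF e1 with h1 | h1 <;> rcases mem_or hF e2 with h2 | h2
  · exact Or.inl (hmap _ h1 h2)
  · exact absurd (f_UV hF h1 h2) h12
  · rw [(plusQF 2 F).symm] at h12; exact absurd (f_UV hF h2 h1) h12
  · exact Or.inr (hmap _ h1 h2)

theorem u1_ne : u1 F ≠ 0 := by
  intro h
  have := congrFun h (.inl 0)
  exact one_ne_zero this

theorem v1_ne : v1 F ≠ 0 := by
  intro h
  have := congrFun h (.inl 1)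
  exact one_ne_zero this

include hF in
theorem types {g : (Fin 2 ⊕ Fin 2 → F) ≃ₗ[F] (Fin 2 ⊕ Fin 2 → F)} (hg : g ∈ (plusQF 2 F).O) :
    ((∀ x ∈ PU F, g x ∈ PU F) ∧ (∀ x ∈ PV F, g x ∈ PV F)) ∨ ((∀ x ∈ PU F, g x ∈ PV F) ∧ (∀ x ∈ PV F, g x ∈ PU F)) := by
  rcases map_or hF hg with h1 | h1 <;> rcases map_or' hF hg with h2 | h2
  · exfalso
    obtain ⟨a, ha, b, hb, e⟩ := decomp hF (g⁻¹ (v1 F))
    have h3 : v1 F = g a + g b := by
      rw [← map_add, ← e]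
      exact (g.apply_symm_apply _).symm
    exact v1_ne (not_mem_both hF (h3 ▸ (PU F).add_mem (h1 a ha) (h2 b hb)) v1_mem)
  · exact Or.inl ⟨h1, h2⟩
  · exact Or.inr ⟨h1, h2⟩
  · exfalso
    obtain ⟨a, ha, b, hb, e⟩ := decomp hF (g⁻¹ (u1 F))
    have h3 : u1 F = g a + g b := by
      rw [← map_add, ← e]
      exact (g.apply_symm_apply _).symm
    exact u1_ne (not_mem_both hF u1_mem (h3 ▸ (PV F).add_mem (h1 a ha) (h2 b hb)))

include hF in
theorem types_inv {g : (Fin 2 ⊕ Fin 2 → F) ≃ₗ[F] (Fin 2 ⊕ Fin 2 → F)} (hg : g ∈ (plusQF 2 F).O) :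
    (((∀ x ∈ PU F, g x ∈ PU F) ∧ (∀ x ∈ PV F, g x ∈ PV F)) ∧
      ((∀ x ∈ PU F, g⁻¹ x ∈ PU F) ∧ (∀ x ∈ PV F, g⁻¹ x ∈ PV F))) ∨
    (((∀ x ∈ PU F, g x ∈ PV F) ∧ (∀ x ∈ PV F, g x ∈ PU F)) ∧
      ((∀ x ∈ PU F, g⁻¹ x ∈ PV F) ∧ (∀ x ∈ PV F, g⁻¹ x ∈ PU F))) := by
  have hi := (plusQF 2 F).O.inv_mem hg
  have e : ∀ x, g⁻¹ (g x) = x := fun x => g.symm_apply_apply x
  rcases types hF hg with h1 | h1 <;> rcases types hF hi with h2 | h2
  · exact Or.inl ⟨h1, h2⟩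
  · exfalso
    have := h2.1 _ (h1.1 _ (u1_mem (F := F)))
    rw [e] at this
    exact u1_ne (not_mem_both hF u1_mem this)
  · exfalso
    have := h2.2 _ (h1.1 _ (u1_mem (F := F)))
    rw [e] at this
    exact u1_ne (not_mem_both hF u1_mem this)
  · exact Or.inr ⟨h1, h2⟩

include hF in
theorem om_stab {g : (Fin 2 ⊕ Fin 2 → F) ≃ₗ[F] (Fin 2 ⊕ Fin 2 → F)} (hg : g ∈ Om (plusQF 2 F)) :
    (∀ x ∈ PU F, g x ∈ PU F) := by
  let S : Subgroup (plusQF 2 F).O :=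
    { carrier := {g | (∀ x ∈ PU F, (g : (Fin 2 ⊕ Fin 2 → F) ≃ₗ[F] (Fin 2 ⊕ Fin 2 → F)) x ∈ PU F) ∧
        (∀ x ∈ PU F, (g⁻¹ : (Fin 2 ⊕ Fin 2 → F) ≃ₗ[F] (Fin 2 ⊕ Fin 2 → F)) x ∈ PU F)}
      one_mem' := ⟨fun x hx => hx, fun x hx => hx⟩
      mul_mem' := fun {a b} ha hb => ⟨fun x hx => ha.1 _ (hb.1 _ hx), fun x hx => by
        rw [Subgroup.coe_mul, _root_.mul_inv_rev]
        exact hb.2 _ (ha.2 _ hx)⟩
      inv_mem' := fun {a} ha => ⟨ha.2, fun x hx => by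
        rw [Subgroup.coe_inv, inv_inv]; exact ha.1 x hx⟩ }
  have h1 : commutator (plusQF 2 F).O ≤ S := by
    rw [commutator_def, Subgroup.commutator_le]
    rintro a - b -
    rw [commutatorElement_def]
    have key : ∀ a b : (plusQF 2 F).O, ∀ x ∈ PU F,
        ((a * b * a⁻¹ * b⁻¹ : (plusQF 2 F).O) : (Fin 2 ⊕ Fin 2 → F) ≃ₗ[F] (Fin 2 ⊕ Fin 2 → F)) x ∈ PU F := by
      intro a b x hx
      change a.1 (b.1 (a.1⁻¹ (b.1⁻¹ x))) ∈ PU F
      rcases types_inv hF a.2 with ha | ha <;> rcases types_inv hF b.2 with hb | hb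
      · exact ha.1.1 _ (hb.1.1 _ (ha.2.1 _ (hb.2.1 _ hx)))
      · exact ha.1.1 _ (hb.1.2 _ (ha.2.2 _ (hb.2.1 _ hx)))
      · exact ha.1.2 _ (hb.1.2 _ (ha.2.1 _ (hb.2.1 _ hx)))
      · exact ha.1.2 _ (hb.1.1 _ (ha.2.2 _ (hb.2.1 _ hx)))
    refine ⟨key a b, ?_⟩
    have e : a * b * a⁻¹ * b⁻¹ = (b * a * b⁻¹ * a⁻¹)⁻¹ := by group
    rw [e, Subgroup.coe_inv, inv_inv]
    exact key b a
  obtain ⟨y, hy, rfl⟩ := hg
  exact (h1 hy).1

/-- the restriction -/
def rhoU : Om (plusQF 2 F) →* (PU F ≃ₗ[F] PU F) where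
  toFun g := LinearEquiv.ofLinearMap ((g.1 : (Fin 2 ⊕ Fin 2 → F) →ₗ[F] (Fin 2 ⊕ Fin 2 → F)).restrict (om_stab hF g.2))
    ((g.1⁻¹ : (Fin 2 ⊕ Fin 2 → F) ≃ₗ[F] (Fin 2 ⊕ Fin 2 → F)).toLinearMap.restrict (om_stab hF ((Om (plusQF 2 F)).inv_mem g.2)))
    (LinearMap.ext fun x => Subtype.ext (g.1.apply_symm_apply x.1)) (LinearMap.ext fun x => Subtype.ext (g.1.symm_apply_apply x.1))
  map_one' := rfl
  map_mul' _ _ := rfl

theorem rhoU_apply (g : Om (plusQF 2 F)) (x : PU F) : (rhoU hF g x : Fin 2 ⊕ Fin 2 → F) = g.1 x := rfl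

/-- transvections -/
def rf (u : Fin 2 ⊕ Fin 2 → F) : (Fin 2 ⊕ Fin 2 → F) →ₗ[F] (Fin 2 ⊕ Fin 2 → F) :=
  LinearMap.id + ((plusQF 2 F).f.flip u).smulRight u

theorem rf_apply (u x : Fin 2 ⊕ Fin 2 → F) : rf u x = x + (plusQF 2 F).f x u • u := rfl

include hF in
theorem f_uu (u : Fin 2 ⊕ Fin 2 → F) : (plusQF 2 F).f u u = 0 := by
  have h := one_add_one' hF
  rw [f_self]
  linear_combination (plusQF 2 F).Q u * h

include hF in
theorem rf_rf (u : Fin 2 ⊕ Fin 2 → F) : Function.Involutive (rf u) := by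
  intro x
  rw [rf_apply, rf_apply, map_add, LinearMap.add_apply, map_smul, LinearMap.smul_apply, f_uu hF, smul_zero, add_zero, add_assoc,
    ← add_smul]
  have h : (plusQF 2 F).f x u + (plusQF 2 F).f x u = 0 := by
    linear_combination (plusQF 2 F).f x u * one_add_one' hF
  rw [h, zero_smul, add_zero]

/-- transvections as equivalences -/
def rfe (u : Fin 2 ⊕ Fin 2 → F) : (Fin 2 ⊕ Fin 2 → F) ≃ₗ[F] (Fin 2 ⊕ Fin 2 → F) :=
  LinearEquiv.ofInvolutive (rf u) (rf_rf hF u)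

theorem rfe_apply (u x : Fin 2 ⊕ Fin 2 → F) : rfe hF u x = x + (plusQF 2 F).f x u • u := rfl

theorem rfe_inv (u : Fin 2 ⊕ Fin 2 → F) : (rfe hF u)⁻¹ = rfe hF u := by
  rw [inv_eq_iff_mul_eq_one]
  exact LinearEquiv.ext (rf_rf hF u)

theorem rfe_mem {u : Fin 2 ⊕ Fin 2 → F} (hu : (plusQF 2 F).Q u = 1) : rfe hF u ∈ (plusQF 2 F).O := by
  intro x
  rw [rfe_apply, (plusQF 2 F).add, (plusQF 2 F).smul, hu, map_smul, smul_eq_mul]
  linear_combination (plusQF 2 F).f x u * (plusQF 2 F).f x u * one_add_one' hF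

/-- the swap -/
def sw : (Fin 2 ⊕ Fin 2 → F) ≃ₗ[F] (Fin 2 ⊕ Fin 2 → F) :=
  LinearEquiv.funCongrLeft F F (Equiv.sumCongr (Equiv.swap 0 1) (Equiv.swap 0 1))

theorem sw_mk4 (a b c d : F) : sw (mk4 a b c d) = mk4 b a d c := by
  funext i
  rcases i with i | i <;> fin_cases i <;> rfl

theorem sw_mem : (sw : (Fin 2 ⊕ Fin 2 → F) ≃ₗ[F] (Fin 2 ⊕ Fin 2 → F)) ∈ (plusQF 2 F).O := by
  intro x
  obtain ⟨a, b, c, d, rfl⟩ := mk4_eta x
  rw [sw_mk4, Q_mk4, Q_mk4, add_comm]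

theorem sw_inv : (sw : (Fin 2 ⊕ Fin 2 → F) ≃ₗ[F] (Fin 2 ⊕ Fin 2 → F))⁻¹ = sw := by
  rw [inv_eq_iff_mul_eq_one]
  apply LinearEquiv.ext
  intro x
  obtain ⟨a, b, c, d, rfl⟩ := mk4_eta x
  rw [LinearEquiv.mul_apply, sw_mk4, sw_mk4]
  rfl

theorem RR_mem {u : Fin 2 ⊕ Fin 2 → F} (hu : (plusQF 2 F).Q u = 1) :
    rfe hF u * sw * rfe hF u * sw ∈ Om (plusQF 2 F) := by
  have := comm_mem _ (rfe_mem hF hu) (sw_mem (F := F))
  rwa [rfe_inv, sw_inv] at this

theorem RR_apply {u : Fin 2 ⊕ Fin 2 → F} (h : ∀ x ∈ PU F, (plusQF 2 F).f x (sw u) = 0)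
    {x : Fin 2 ⊕ Fin 2 → F} (hx : x ∈ PU F) :
    (rfe hF u * sw * rfe hF u * sw : (Fin 2 ⊕ Fin 2 → F) ≃ₗ[F] (Fin 2 ⊕ Fin 2 → F)) x =
      x + (plusQF 2 F).f x u • u := by
  have h1 : (sw : (Fin 2 ⊕ Fin 2 → F) ≃ₗ[F] (Fin 2 ⊕ Fin 2 → F)) (sw x) = x := by
    have := LinearEquiv.congr_fun (inv_mul_cancel (sw : (Fin 2 ⊕ Fin 2 → F) ≃ₗ[F] (Fin 2 ⊕ Fin 2 → F))) x
    rw [sw_inv] at this
    exact this
  have h2 : (plusQF 2 F).f (sw x) u = 0 := by
    have := O_f _ (sw_mem (F := F)) (sw x) u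
    rw [h1] at this
    rw [← this]
    exact h x hx
  rw [LinearEquiv.mul_apply, LinearEquiv.mul_apply, LinearEquiv.mul_apply, rfe_apply hF u (sw x), h2, zero_smul, add_zero, h1,
    rfe_apply]

theorem sw_u1 : sw (u1 F) = v1 F := by unfold u1 v1; rw [sw_mk4]
theorem sw_u2 : sw (u2 F) = v2 F := by unfold u2 v2; rw [sw_mk4]


/-! ### the frame -/

/-- the frame vectors -/
def eU (F : Type*) [Field F] : Fin (2 * 1) → PU F := ![⟨u1 F, u1_mem⟩, ⟨u2 F, u2_mem⟩]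

theorem eU_zero : ((eU F 0 : PU F) : Fin 2 ⊕ Fin 2 → F) = u1 F := rfl
theorem eU_one : ((eU F 1 : PU F) : Fin 2 ⊕ Fin 2 → F) = u2 F := rfl

include hF in
theorem eU_nd {v : PU F} (h : ∀ j, (plusQF 2 F).f v (eU F j) = 0) : v = 0 :=
  Subtype.ext (U_nd hF v.2 (h 0) (h 1))

theorem sw_eU (k : Fin (2 * 1)) : (sw (eU F k : Fin 2 ⊕ Fin 2 → F)) ∈ PV F := by
  fin_cases k
  · change sw (u1 F) ∈ PV F
    rw [sw_u1]; exact v1_mem
  · change sw (u2 F) ∈ PV F
    rw [sw_u2]; exact v2_mem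

theorem Q_eU (k : Fin (2 * 1)) : (plusQF 2 F).Q (eU F k : Fin 2 ⊕ Fin 2 → F) = 1 := by
  fin_cases k
  · exact Q_u1
  · exact Q_u2

theorem rev_ne (k : Fin (2 * 1)) : k.rev ≠ k := by
  fin_cases k <;> decide

theorem eq_rev {j k : Fin (2 * 1)} (h : j ≠ k.rev) : j = k := by
  revert h
  revert j k
  decide

theorem f_rev (k : Fin (2 * 1)) : (plusQF 2 F).f (eU F k.rev) (eU F k) = 1 := by
  fin_cases k
  · change (plusQF 2 F).f (u2 F) (u1 F) = 1
    rw [(plusQF 2 F).symm]; exact f_u1u2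
  · exact f_u1u2

/-- the frame of the image -/
def frU : Frame F False 1 (rhoU hF).range where
  f u v := (plusQF 2 F).f u v
  add_left u v w := by rw [Submodule.coe_add, map_add, LinearMap.add_apply]
  smul_left c u v := by rw [Submodule.coe_smul, map_smul, LinearMap.smul_apply, smul_eq_mul]
  refl0 u v h := by rw [(plusQF 2 F).symm]; exact h
  add_right u v w := by rw [Submodule.coe_add, map_add]
  inv := by
    rintro _ ⟨y, rfl⟩ u v
    rw [rhoU_apply, rhoU_apply]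
    exact O_f _ (Om_le _ y.2) _ _
  e := eU F
  fe i j := by
    constructor
    · rintro h rfl
      have h2 := f_rev (F := F) i
      rw [(plusQF 2 F).symm] at h2
      rw [h2] at h
      exact one_ne_zero h
    · intro h
      rw [eq_rev h]
      exact f_uu hF _
  iso _ := True
  iso_inv _ _ _ _ := trivial
  iso_e _ := trivial
  iso_smul _ _ _ _ := trivial
  aniso _ v h _ := eU_nd hF h
  aniso0 v h _ := eU_nd hF h
  root a b _ h1 h2 := absurd (eq_rev h2).symm h1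
  long k v c hv _ := by
    have h0 := eU_nd hF hv
    subst h0
    rcases two_cases' hF c with rfl | rfl
    · refine ⟨1, Subgroup.one_mem _, ?_, fun _ _ => rfl, fun w _ => ⟨0, ?_⟩⟩
      · rw [zero_smul, add_zero, add_zero]; rfl
      · rw [zero_smul, add_zero]; rfl
    · have hR : ∀ x ∈ PU F, (plusQF 2 F).f x (sw (eU F k : Fin 2 ⊕ Fin 2 → F)) = 0 := fun x hx => f_UV hF hx (sw_eU k)
      refine ⟨rhoU hF ⟨_, RR_mem hF (Q_eU k)⟩, ⟨_, rfl⟩, ?_, fun j hj => ?_, fun w hw => ⟨0, ?_⟩⟩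
      · apply Subtype.ext
        rw [rhoU_apply, RR_apply hF hR (eU F k.rev).2, f_rev, one_smul, one_smul, add_zero]
        rfl
      · rw [eq_rev hj]
        apply Subtype.ext
        rw [rhoU_apply, RR_apply hF hR (eU F k).2, f_uu hF, zero_smul, add_zero]
      · rw [eU_nd hF hw, map_zero, zero_smul, add_zero]
  ntriv _ k := ⟨0, 1, fun j => by rw [Submodule.coe_zero, map_zero, LinearMap.zero_apply], trivial, Or.inr one_ne_zero⟩
  dV0 h := h.elim
  diso h := h.elim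
  dprop h := h.elim

theorem frU_reg (p : ℕ) : Reg (frU hF) p := by
  intro h hG hfix _
  apply (frU hF).eq_one_of_fix hG hfix
  intro v hv
  rw [eU_nd hF hv, map_zero, sub_zero]
  exact Submodule.zero_mem _

variable [Finite F] (p : ℕ) [Fact p.Prime] [CharP F p]

omit hF p in
theorem finEquiv : Finite ((Fin 2 ⊕ Fin 2 → F) ≃ₗ[F] (Fin 2 ⊕ Fin 2 → F)) :=
  DFunLike.finite _

theorem hasSt_rho : HasSt p (rhoU hF).range := by
  have : Finite ((Fin 2 ⊕ Fin 2 → F) ≃ₗ[F] (Fin 2 ⊕ Fin 2 → F)) := finEquiv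
  have : Finite (rhoU hF).range := Finite.of_surjective _ (rhoU hF).rangeRestrict_surjective
  exact (hasSys (frU hF) (Frame.stdB 1) (Frame.hlongB 1) (frU_reg hF p) Frame.simB_inj (MonoidHom.id _)
    Function.surjective_id (by
      intro x hx
      rw [MonoidHom.mem_ker] at hx
      change x = 1 at hx
      rw [hx]; exact Subgroup.one_mem _)).hasSt

theorem center_le_ker : Subgroup.center (Om (plusQF 2 F)) ≤ (rhoU hF).ker := by
  intro z hz
  rw [Subgroup.mem_center_iff] at hz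
  have h1 : (⟨rhoU hF z, ⟨z, rfl⟩⟩ : (rhoU hF).range) ∈ Subgroup.center (rhoU hF).range := by
    rw [Subgroup.mem_center_iff]
    rintro ⟨_, ⟨y, rfl⟩⟩
    apply Subtype.ext
    change rhoU hF y * rhoU hF z = rhoU hF z * rhoU hF y
    rw [← map_mul, hz, map_mul]
  have h2 := center_le_H _ (Frame.hlongB 1) (sysG_Γ (frU hF) (Frame.stdB 1) (Frame.hlongB 1)) h1
  have h3 : rhoU hF z ∈ (frU hF).H := h2
  rw [MonoidHom.mem_ker]
  apply (frU hF).eq_one_of_fix ⟨z, rfl⟩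
  · intro j
    obtain ⟨c, hc, h5⟩ := h3.2 j
    rw [h5]
    rcases two_cases' hF c with rfl | rfl
    · exact absurd rfl hc
    · rw [one_smul]; rfl
  · intro v hv
    rw [eU_nd hF hv, map_zero, sub_zero]
    exact Submodule.zero_mem _

theorem fr_PU : finrank F (PU F) = 2 := by
  have h1 : LinearIndependent F ![u1 F, u2 F] := by
    rw [LinearIndependent.pair_iff]
    intro s t h
    unfold u1 u2 at h
    rw [mk4_smul, mk4_smul, mk4_add] at h
    have h2 := congrFun h (.inr 0)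
    have h3 := congrFun h (.inr 1)
    simp [mk4] at h2 h3
    exact ⟨h2, h3⟩
  have h2 := finrank_span_eq_card h1
  have h3 : Set.range ![u1 F, u2 F] = {u1 F, u2 F} := by
    simp [Matrix.range_cons, Set.pair_comm]
  rw [h3, Fintype.card_fin] at h2
  exact h2

theorem ker_odd : ¬ 2 ∣ Nat.card (rhoU hF).ker := by
  intro hdvd
  have hfin : Finite ((Fin 2 ⊕ Fin 2 → F) ≃ₗ[F] (Fin 2 ⊕ Fin 2 → F)) := finEquiv
  have : Fact (Nat.Prime 2) := ⟨Nat.prime_two⟩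
  obtain ⟨x, hx⟩ := exists_prime_orderOf_dvd_card' (G := (rhoU hF).ker) 2 hdvd
  have hx2 : x ^ 2 = 1 := by
    have h := pow_orderOf_eq_one x
    rwa [hx] at h
  set g : (Fin 2 ⊕ Fin 2 → F) ≃ₗ[F] (Fin 2 ⊕ Fin 2 → F) := x.1.1 with hg
  have hg2 : ∀ y, g (g y) = y := by
    intro y
    have h1 : g ^ 2 = 1 := by
      have := congrArg (fun z => z.1.1) hx2
      exact this
    rw [pow_two] at h1
    exact LinearEquiv.congr_fun h1 y
  have hgO : g ∈ (plusQF 2 F).O := Om_le _ x.1.2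
  have hgfix : ∀ y ∈ PU F, g y = y := by
    intro y hy
    have h1 : rhoU hF x.1 = 1 := x.2
    have h2 := LinearEquiv.congr_fun h1 ⟨y, hy⟩
    exact congrArg Subtype.val h2
  have hev : Even (finrank F (LinearMap.eqLocus (g : (Fin 2 ⊕ Fin 2 → F) →ₗ[F] (Fin 2 ⊕ Fin 2 → F)) LinearMap.id) +
      finrank F (Fin 2 ⊕ Fin 2 → F)) := by
    obtain ⟨y, hy, e⟩ := x.1.2
    have := QF.rank_commutator (plusQF 2 F) (MonoidHom.id _) hy
    rw [hg, ← e]
    exact this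
  have hdim : finrank F (Fin 2 ⊕ Fin 2 → F) = 4 := by
    rw [Module.finrank_fintype_fun_eq_card]; simp
  have hg1 : g = 1 := by
    by_contra hne
    obtain ⟨b, hb⟩ : ∃ b, g b ≠ b := by
      by_contra hcon
      push Not at hcon
      exact hne (LinearEquiv.ext hcon)
    have hw0 : g b - b ≠ 0 := sub_ne_zero.2 hb
    have hwfix : g (g b - b) = g b - b := by
      rw [map_sub, hg2]
      have h3 : (b - g b) - (g b - b) = ((1 : F) + 1) • (b - g b) := by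
        rw [add_smul, one_smul]; abel
      rw [one_add_one' hF, zero_smul] at h3
      exact sub_eq_zero.1 h3
    have hwU : g b - b ∉ PU F := by
      intro h4
      apply hw0
      have h5 : ∀ a ∈ PU F, (plusQF 2 F).f (g b - b) a = 0 := by
        intro a ha
        rw [map_sub, LinearMap.sub_apply, sub_eq_zero]
        conv_lhs => rw [← hgfix a ha]
        exact O_f _ hgO b a
      exact U_nd hF h4 (h5 _ u1_mem) (h5 _ u2_mem)
    have hlt : PU F < LinearMap.eqLocus (g : (Fin 2 ⊕ Fin 2 → F) →ₗ[F] (Fin 2 ⊕ Fin 2 → F)) LinearMap.id := by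
      refine lt_of_le_of_ne (fun y hy => hgfix y hy) ?_
      intro h6
      apply hwU
      rw [h6]
      exact hwfix
    have h7 := Submodule.finrank_lt_finrank_of_lt hlt
    have h8 := Submodule.finrank_le (LinearMap.eqLocus (g : (Fin 2 ⊕ Fin 2 → F) →ₗ[F] (Fin 2 ⊕ Fin 2 → F)) LinearMap.id)
    rw [fr_PU] at h7
    rw [hdim] at hev h8
    have h9 : finrank F (LinearMap.eqLocus (g : (Fin 2 ⊕ Fin 2 → F) →ₗ[F] (Fin 2 ⊕ Fin 2 → F)) LinearMap.id) = 4 := by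
      rw [Nat.even_iff] at hev
      omega
    have h10 := Submodule.eq_top_of_finrank_eq (h9.trans hdim.symm)
    apply hb
    have : b ∈ LinearMap.eqLocus (g : (Fin 2 ⊕ Fin 2 → F) →ₗ[F] (Fin 2 ⊕ Fin 2 → F)) LinearMap.id := by
      rw [h10]; trivial
    exact this
  have hx1 : x = 1 := Subtype.ext (Subtype.ext hg1)
  rw [hx1, orderOf_one] at hx
  omega

include hF in
theorem hasSt_O42 : HasSt p (POmega F (quadFormPlus 2 F)) := by
  have hfin : Finite ((Fin 2 ⊕ Fin 2 → F) ≃ₗ[F] (Fin 2 ⊕ Fin 2 → F)) := finEquiv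
  have hp2 : p = 2 := by
    have h1 : ((2 : ℕ) : F) = 0 := by
      push_cast
      rw [← one_add_one_eq_two]; exact one_add_one' hF
    rw [CharP.cast_eq_zero_iff F p] at h1
    exact (Nat.prime_dvd_prime_iff_eq (Fact.out : p.Prime) Nat.prime_two).1 h1
  have h1 : HasSt p (Om (plusQF 2 F) ⧸ Subgroup.center (Om (plusQF 2 F))) := by
    let π := QuotientGroup.lift (Subgroup.center (Om (plusQF 2 F))) (rhoU hF).rangeRestrict (by
      rw [MonoidHom.ker_rangeRestrict]; exact center_le_ker hF)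
    refine HasSt_of_surj π ?_ ?_ (hasSt_rho hF p)
    · exact QuotientGroup.lift_surjective_of_surjective _ _ (rhoU hF).rangeRestrict_surjective _
    · rw [hp2]
      intro h
      apply ker_odd hF
      refine h.trans ?_
      rw [QuotientGroup.ker_lift, MonoidHom.ker_rangeRestrict]
      exact Subgroup.card_map_dvd _ _
  have : Finite (Matrix.GeneralLinearGroup (Fin 2 ⊕ Fin 2) F) := inferInstance
  have : Finite (Omega F (plusQF 2 F).Q) := inferInstance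
  apply reduce (lin (omMat (plusQF 2 F).Q)) (lin_injective (omMat_injective (plusQF 2 F).Q))
  have key : ∀ {G : Subgroup ((Fin 2 ⊕ Fin 2 → F) ≃ₗ[F] (Fin 2 ⊕ Fin 2 → F))}, G = Om (plusQF 2 F) →
      HasSt p (G ⧸ Subgroup.center G) := by
    rintro G rfl
    exact h1
  exact key (range_om (plusQF 2 F))

end q

end H97.PolInst
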